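import Mathlib
import Cfsg.Agent.H06.J0

/-!
# The hexad subgroup on the 12-dimensional module: orbits on the fixed space (part O of S5567)
-/

set_option autoImplicit false
set_option linter.unusedSectionVars false

namespace H09.KO
open Subgroup Cfsg.Agent.H06.J
open scoped commutatorElement

universe u
variable {V : Type u} [AddCommGroup V] [Module (ZMod 2) V] [Finite V] {Γ : Type u} [Group Γ] [Finite Γ]
  {T : Γ → V →+ V} {d : Γ} {M K Y : Subgroup Γ} {β : V →+ V →+ ZMod 2} {q : V → ZMod 2}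

theorem two (v : V) : v + v = 0 := by
  rw [← two_smul (ZMod 2), show (2 : ZMod 2) = 0 from rfl, zero_smul]

/-- the action as a `MulAction` -/
@[reducible] def act (h : Gj T d M β q) : MulAction Γ V where
  smul g v := T g v
  one_smul := h.one
  mul_smul := h.mul

section
variable (h : Gj T d M β q)
include h

theorem li (g : Γ) (v : V) : T g⁻¹ (T g v) = v := by rw [← h.mul, inv_mul_cancel, h.one]
theorem ri (g : Γ) (v : V) : T g (T g⁻¹ v) = v := by rw [← h.mul, mul_inv_cancel, h.one]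
theorem nz {g : Γ} {v : V} (n : v ≠ 0) : T g v ≠ 0 := fun e => n (by rw [← li h g v, e, map_zero])
theorem fp {v : V} (e : T d v = v) : v = 0 := by
  have := h.hf v
  rwa [e, e, two, zero_add] at this

theorem cd (KM : K ≤ M) {k : Γ} (hk : k ∈ K) (i : ℕ) (v : V) : T k (T (d ^ i) v) = T (d ^ i) (T k v) := by
  have c : Commute k d := h.Md k (KM hk)
  rw [← h.mul, ← h.mul, (c.pow_right i).eq]

theorem line (KM : K ≤ M) (dc : d ∈ ⁅K, K⁆) {x : V} (n : x ≠ 0) (e : ∀ k ∈ K, ∃ i : ℕ, T k x = T (d ^ i) x) : False := by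
  letI := act h
  have l : ⁅K, K⁆ ≤ MulAction.stabilizer Γ x := by
    rw [commutator_le]
    intro a ha b hb
    obtain ⟨i, hi⟩ := e a⁻¹ (inv_mem ha)
    obtain ⟨j, hj⟩ := e b⁻¹ (inv_mem hb)
    have c : T a⁻¹ (T b⁻¹ x) = T b⁻¹ (T a⁻¹ x) := by
      rw [hi, hj, cd h KM (inv_mem ha), cd h KM (inv_mem hb), hi, hj, ← h.mul, ← h.mul, ← pow_add, ← pow_add, add_comm]
    change T ⁅a, b⁆ x = x
    rw [commutatorElement_def, h.mul, h.mul, h.mul, c, ri h, ri h]
  exact n (fp h (l dc))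

theorem big (x : Hx d K Y) (KM : K ≤ M) (dc : d ∈ ⁅K, K⁆) {v : V} (v0 : v ≠ 0) (vY : ∀ y ∈ Y, T y v = v) :
    letI := act h; 16 ≤ (MulAction.orbit K v).ncard := by
  letI := act h
  by_contra b1
  have d3 : d ^ 3 = 1 := by rw [← h.d3]; simp [pow_succ, mul_assoc]
  let J : Subgroup Γ :=
    { carrier := {k | k ∈ K ∧ ∃ i : ℕ, T k v = T (d ^ i) v}
      one_mem' := ⟨one_mem _, 0, by rw [pow_zero]⟩
      mul_mem' := by
        rintro a b ⟨ha, i, hi⟩ ⟨hb, j, hj⟩
        exact ⟨mul_mem ha hb, j + i, by rw [h.mul, hj, cd h KM ha, hi, ← h.mul, ← pow_add]⟩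
      inv_mem' := by
        rintro a ⟨ha, i, hi⟩
        refine ⟨inv_mem ha, 2 * i, ?_⟩
        have e1 : T (d ^ i) (T a⁻¹ v) = v := by rw [← cd h KM (inv_mem ha), ← hi, li h]
        conv_rhs => rw [← e1, ← h.mul, ← pow_add, show 2 * i + i = 3 * i by ring, pow_mul, d3, one_pow, h.one] }
  have JK : J ≤ K := fun k hk => hk.1
  have dJ : d ∈ J := ⟨x.dK, 1, by rw [pow_one]⟩
  have YJ : Y ≤ J := fun y hy => ⟨x.YK hy, 0, by rw [vY y hy, pow_zero, h.one]⟩
  let S := MulAction.stabilizer Γ v ⊓ K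
  have SJ : S ≤ J := fun s hs => ⟨hs.2, 0, by rw [pow_zero, h.one]; exact hs.1⟩
  have i1 : S.relIndex K = (MulAction.orbit K v).ncard := by
    rw [← MulAction.index_stabilizer, relIndex]
    congr 1
    ext k
    exact ⟨fun a => a.1, fun a => ⟨a, k.2⟩⟩
  have i2 : S.relIndex J = (MulAction.orbit J v).ncard := by
    rw [← MulAction.index_stabilizer, relIndex]
    congr 1
    ext k
    exact ⟨fun a => a.1, fun a => ⟨a, JK k.2⟩⟩
  have b2 : 3 ≤ (MulAction.orbit J v).ncard := by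
    have n1 : v ≠ T d v := fun e => v0 (fp h e.symm)
    have n2 : T d v ≠ T d (T d v) := fun e => nz h v0 (fp h e.symm)
    have n3 : v ≠ T d (T d v) := fun e => by
      have := h.hf v
      rw [← e, add_right_comm, two, zero_add] at this
      exact nz h v0 this
    have s : ({v, T d v, T d (T d v)} : Set V) ⊆ MulAction.orbit J v := by
      rintro _ (rfl | rfl | rfl)
      · exact MulAction.mem_orbit_self _
      · exact ⟨⟨d, dJ⟩, rfl⟩
      · exact ⟨⟨d * d, mul_mem dJ dJ⟩, h.mul d d v⟩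
    have := Set.ncard_le_ncard s
    rwa [Set.ncard_eq_three.2 ⟨_, _, _, n1, n3, n2, rfl⟩] at this
  have m := relIndex_mul_relIndex S J K SJ JK
  rw [i1, i2] at m
  have r : J.relIndex K ≤ 5 := by
    have b1 : (MulAction.orbit K v).ncard ≤ 15 := by omega
    nlinarith
  exact line h KM dc v0 fun k hk => (x.s1 J JK YJ dJ r hk).2


theorem three {v : V} (v0 : v ≠ 0) : ({v, T d v, T d (T d v)} : Set V).ncard = 3 := by
  have n1 : v ≠ T d v := fun e => v0 (fp h e.symm)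
  have n2 : T d v ≠ T d (T d v) := fun e => nz h v0 (fp h e.symm)
  have n3 : v ≠ T d (T d v) := fun e => by
    have := h.hf v
    rw [← e, add_right_comm, two, zero_add] at this
    exact nz h v0 this
  exact Set.ncard_eq_three.2 ⟨_, _, _, n1, n3, n2, rfl⟩

theorem fixmod {f : Γ} (f5 : f ^ 5 = 1) (S : Set V) (hS : ∀ u ∈ S, T f u ∈ S) :
    S.ncard % 5 = {u | u ∈ S ∧ T f u = u}.ncard % 5 := by
  classical
  haveI : Fact (Nat.Prime 5) := ⟨by norm_num⟩
  haveI := Fintype.ofFinite S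
  let g : Function.End S := fun v => ⟨T f v, hS v v.2⟩
  have h5 : g ^ 5 ^ 1 = 1 := by
    funext v
    apply Subtype.ext
    change T f (T f (T f (T f (T f v)))) = v
    rw [← h.mul, ← h.mul, ← h.mul, ← h.mul, show f * f * f * f * f = f ^ 5 by simp [pow_succ], f5, h.one]
  have e := Equiv.Perm.card_fixedPoints_modEq (p := 5) h5
  rw [← Nat.card_eq_fintype_card, ← Nat.card_eq_fintype_card, Nat.card_coe_set_eq] at e
  have e2 : Nat.card g.fixedPoints = {u | u ∈ S ∧ T f u = u}.ncard := by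
    rw [← Nat.card_coe_set_eq]
    refine Nat.card_congr ⟨fun a => ⟨a.1.1, a.1.2, congrArg Subtype.val a.2⟩, fun a => ⟨⟨a.1, a.2.1⟩, Subtype.ext a.2.2⟩,
      fun _ => rfl, fun _ => rfl⟩
  rw [e2] at e
  exact e

theorem orb {B : AddSubgroup V} (x : Hx d K Y) (KM : K ≤ M) (dc : d ∈ ⁅K, K⁆) (iK : K.relIndex M = 77) (p : Pj T d K Y q B)
    (fB : ∀ g, (∀ v ∈ B, T g v = v) → g ∈ Y) :
    ∃ P1 P2 : Set V, (∀ v, (v ∈ B ∧ v ≠ 0) ↔ v ∈ P1 ∨ v ∈ P2) ∧ P1.ncard = 18 ∧ P2.ncard = 45 ∧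
      (∀ u ∈ P1, ∀ v ∈ P1, ∃ k ∈ K, T k u = v) ∧ ∀ u ∈ P2, ∀ v ∈ P2, ∃ k ∈ K, T k u = v := by
  letI := act h
  haveI : Fact (Nat.Prime 5) := ⟨by norm_num⟩
  have cK : Nat.card K = 17280 := by
    have a := M.card_mul_index
    have b := (K.subgroupOf M).card_mul_index
    rw [Nat.card_congr (subgroupOfEquivOfLe KM).toEquiv, show (K.subgroupOf M).index = 77 from iK] at b
    rw [h.Mi, h.cΓ] at a
    omega
  obtain ⟨f, hf⟩ := exists_prime_orderOf_dvd_card' (G := K) 5 (by rw [cK]; norm_num)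
  have f5 : (f : Γ) ^ 5 = 1 := by rw [← coe_pow, ← hf, pow_orderOf_eq_one, coe_one]
  let C : AddSubgroup V :=
    { carrier := {u | u ∈ (B : Set V) ∧ T f u = u}
      zero_mem' := ⟨B.zero_mem, map_zero _⟩
      add_mem' := fun {a b} ha hb => ⟨B.add_mem ha.1 hb.1, by rw [map_add, ha.2, hb.2]⟩
      neg_mem' := fun {a} ha => ⟨B.neg_mem ha.1, by rw [map_neg, ha.2]⟩ }
  have CB : C ≤ B := fun u hu => hu.1
  have cB : (B : Set V).ncard = 64 := p.cB
  have cC : Nat.card C = 4 := by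
    have a : (B : Set V).ncard % 5 = Nat.card C % 5 := fixmod h f5 B (p.KB f f.2)
    have b := AddSubgroup.card_dvd_of_le CB
    have c : Nat.card C ≠ 64 := fun e => by
      have e1 := AddSubgroup.eq_of_le_of_card_ge CB (by rw [e, p.cB])
      have e2 := x.Y2 _ (fB f fun v hv => (e1.ge hv).2)
      have e3 : f ^ 2 = 1 := Subtype.ext (by rw [coe_pow, pow_two]; exact e2)
      have := orderOf_dvd_of_pow_eq_one e3
      rw [hf] at this
      norm_num at this
    rw [p.cB] at b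
    rw [cB] at a
    have l := Nat.le_of_dvd (by norm_num) b
    generalize Nat.card C = n at a b c l
    interval_cases n <;> simp_all
  have sub : ∀ v ∈ B, v ≠ 0 → MulAction.orbit K v ⊆ (B : Set V) \ {0} := by
    rintro v vB v0 _ ⟨k, rfl⟩
    exact ⟨p.KB k k.2 v vB, nz h v0⟩
  have c63 : ((B : Set V) \ {0}).ncard = 63 := by rw [Set.ncard_diff_singleton_of_mem B.zero_mem, cB]
  have sz : ∀ v ∈ (B : Set V) \ {0}, (MulAction.orbit K v).ncard ∈ [18, 20, 30, 40, 45, 48, 60] := by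
    rintro v ⟨vB, v0⟩
    have a := big h x KM dc v0 ((p.mB v).1 vB)
    have b : (MulAction.orbit K v).ncard ∣ 17280 := by
      rw [← MulAction.index_stabilizer, ← cK]; exact index_dvd_card _
    have c := Set.ncard_le_ncard (sub v vB v0)
    rw [c63] at c
    have e := fixmod h f5 (MulAction.orbit K v) (by
      rintro _ ⟨k, rfl⟩
      exact ⟨f * k, h.mul _ _ _⟩)
    have e3 : {u | u ∈ MulAction.orbit K v ∧ T f u = u}.ncard = 0 ∨ {u | u ∈ MulAction.orbit K v ∧ T f u = u}.ncard = 3 := by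
      rcases Set.eq_empty_or_nonempty {u | u ∈ MulAction.orbit K v ∧ T f u = u} with o | ⟨u, ⟨k, hk⟩, hu⟩
      · left; rw [o, Set.ncard_empty]
      right
      have u0 : u ≠ 0 := (sub v vB v0 ⟨k, hk⟩).2
      have l1 : {u | u ∈ MulAction.orbit K v ∧ T f u = u} ⊆ (C : Set V) \ {0} := fun w hw =>
        ⟨⟨(sub v vB v0 hw.1).1, hw.2⟩, (sub v vB v0 hw.1).2⟩
      have st : ∀ w ∈ {u | u ∈ MulAction.orbit K v ∧ T f u = u}, T d w ∈ {u | u ∈ MulAction.orbit K v ∧ T f u = u} := by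
        rintro _ ⟨⟨k, rfl⟩, hw⟩
        refine ⟨⟨⟨d, x.dK⟩ * k, h.mul _ _ _⟩, ?_⟩
        have := cd h KM f.2 1 ((fun m : K => m • v) k)
        rwa [pow_one, hw] at this
      have l2 : ({u, T d u, T d (T d u)} : Set V) ⊆ {u | u ∈ MulAction.orbit K v ∧ T f u = u} := by
        rintro _ (rfl | rfl | rfl)
        exacts [⟨⟨k, hk⟩, hu⟩, st _ ⟨⟨k, hk⟩, hu⟩, st _ (st _ ⟨⟨k, hk⟩, hu⟩)]
      have a1 := Set.ncard_le_ncard l1
      have a2 := Set.ncard_le_ncard l2
      rw [Set.ncard_diff_singleton_of_mem C.zero_mem, show (C : Set V).ncard = 4 from cC] at a1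
      rw [three h u0] at a2
      omega
    generalize (MulAction.orbit K v).ncard = n at a b c e
    generalize {u | u ∈ MulAction.orbit K v ∧ T f u = u}.ncard = m at e e3
    have e4 : n % 5 = 0 ∨ n % 5 = 3 := by omega
    clear e e3
    interval_cases n <;> simp_all
  -- removing an orbit from an invariant set
  have step : ∀ R : Set V, R ⊆ (B : Set V) \ {0} → (∀ k : K, ∀ u ∈ R, k • u ∈ R) → R.ncard ≠ 0 →
      ∃ v ∈ R, MulAction.orbit K v ⊆ R ∧ (MulAction.orbit K v).ncard ∈ [18, 20, 30, 40, 45, 48, 60] ∧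
        (R \ MulAction.orbit K v).ncard + (MulAction.orbit K v).ncard = R.ncard ∧
        ∀ k : K, ∀ u ∈ R \ MulAction.orbit K v, k • u ∈ R \ MulAction.orbit K v := by
    intro R RB iv n
    obtain ⟨v, hv⟩ := Set.nonempty_of_ncard_ne_zero n
    have s : MulAction.orbit K v ⊆ R := by rintro _ ⟨k, rfl⟩; exact iv k v hv
    refine ⟨v, hv, s, sz v (RB hv), Set.ncard_diff_add_ncard_of_subset s, fun k u hu => ⟨iv k u hu.1, fun o => hu.2 ?_⟩⟩
    have := MulAction.mem_orbit_of_mem_orbit k⁻¹ o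
    rwa [inv_smul_smul] at this
  have tr : ∀ w : V, ∀ u ∈ MulAction.orbit K w, ∀ v ∈ MulAction.orbit K w, ∃ k ∈ K, T k u = v := by
    rintro w _ ⟨a, rfl⟩ _ ⟨b, rfl⟩
    refine ⟨(b * a⁻¹ : K), (b * a⁻¹).2, ?_⟩
    change (b * a⁻¹) • a • w = b • w
    rw [mul_smul, inv_smul_smul]
  obtain ⟨v1, -, s1, n1, e1, i1⟩ := step _ subset_rfl (fun k u hu => ⟨p.KB k k.2 u hu.1, nz h hu.2⟩) (by rw [c63]; norm_num)
  rw [c63] at e1
  simp only [List.mem_cons, List.not_mem_nil, or_false] at n1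
  obtain ⟨v2, -, s2, n2, e2, i2⟩ := step _ Set.diff_subset i1 (by omega)
  simp only [List.mem_cons, List.not_mem_nil, or_false] at n2
  have z3 : ((((B : Set V) \ {0}) \ MulAction.orbit K v1) \ MulAction.orbit K v2).ncard = 0 := by
    by_contra o
    obtain ⟨v3, -, s3, n3, e3, i3⟩ := step _ (Set.diff_subset.trans Set.diff_subset) i2 o
    simp only [List.mem_cons, List.not_mem_nil, or_false] at n3
    obtain ⟨v4, -, s4, n4, e4, -⟩ := step _ (Set.diff_subset.trans (Set.diff_subset.trans Set.diff_subset)) i3 (by omega)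
    simp only [List.mem_cons, List.not_mem_nil, or_false] at n4
    omega
  have cov : ∀ v, (v ∈ B ∧ v ≠ 0) ↔ v ∈ MulAction.orbit K v1 ∨ v ∈ MulAction.orbit K v2 := by
    intro v
    refine ⟨fun hv => ?_, fun hv => hv.elim (fun a => s1 a) fun a => (s2 a).1⟩
    by_contra o
    rw [not_or] at o
    have := (Set.ncard_eq_zero (Set.toFinite _)).1 z3
    exact (this.le ⟨⟨hv, o.1⟩, o.2⟩ : v ∈ (∅ : Set V))
  have : (MulAction.orbit K v1).ncard = 18 ∧ (MulAction.orbit K v2).ncard = 45 ∨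
      (MulAction.orbit K v1).ncard = 45 ∧ (MulAction.orbit K v2).ncard = 18 := by omega
  rcases this with ⟨a, b⟩ | ⟨a, b⟩
  · exact ⟨_, _, cov, a, b, tr v1, tr v2⟩
  · exact ⟨_, _, fun v => (cov v).trans or_comm, b, a, tr v2, tr v1⟩
end

end H09.KO
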