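import Mathlib
import Cfsg.Agent.H09.KOa
import Cfsg.Agent.H23.K0

/-!
# Orbits on the preimage of the fixed space (part O of S5567)
-/

set_option autoImplicit false
set_option linter.unusedSectionVars false

namespace H09.KO
open Cfsg BG Subgroup H01.XS Cfsg.Agent.H06.J Cfsg.Agent.H23.K

universe u

theorem card_pre {G : Type u} [Group G] [Finite G] {z : G} {Q : Subgroup G} {V : Type u} [AddCommGroup V] {ν : G → V}
    (m : H01.XT.Md0 z Q ν) (P : Set V) : {x | x ∈ Q ∧ ν x ∈ P}.ncard = 2 * P.ncard := by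
  choose s hs es using m.sur
  have zQ := m.lx.aes.mem
  let f : Bool × P → {x | x ∈ Q ∧ ν x ∈ P} := fun p => ⟨if p.1 then s p.2 else z * s p.2, by
    split_ifs
    · exact ⟨hs _, (es _).symm ▸ p.2.2⟩
    · exact ⟨mul_mem zQ (hs _), by rw [m.zm (hs _), es]; exact p.2.2⟩⟩
  have k : ∀ p, ν (f p) = p.2 := by
    rintro ⟨_ | _, v⟩
    exacts [(m.zm (hs _)).trans (es _), es _]
  rw [← Nat.card_coe_set_eq, ← Nat.card_coe_set_eq, ← Nat.card_eq_of_bijective f ⟨?_, ?_⟩]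
  · simp
  · rintro ⟨b, u⟩ ⟨c, v⟩ e
    obtain rfl : u = v := Subtype.ext ((k (b, u)).symm.trans (e ▸ k (c, v)))
    have e := congrArg Subtype.val e
    cases b <;> cases c <;> simp [f, m.lx.z1] at e ⊢
  · rintro ⟨x, i, j⟩
    rcases m.eq i (hs _) (es _).symm with e | e
    exacts [⟨(true, ⟨_, j⟩), Subtype.ext e.symm⟩, ⟨(false, ⟨_, j⟩), Subtype.ext e.symm⟩]

/-- part O of the cluster on `2¹¹ : M₂₄` -/
theorem o : OStmt.{u} := by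
  intro G _ _ z Q V _ _ _ Γ _ _ f π ν T d M β q s K Y B A δ c c2
  obtain ⟨P1, P2, cov, n1, n2, t1, t2⟩ := orb s.gm c.hk.hx c.hk.KM c.dK c.hk.iK c.pj c2.fB
  have tr : ∀ P : Set V, (∀ v ∈ P, v ≠ 0) → (∀ u ∈ P, ∀ v ∈ P, ∃ k ∈ K, T k u = v) →
      ∀ x ∈ {x | x ∈ Q ∧ ν x ∈ P}, ∀ y ∈ {x | x ∈ Q ∧ ν x ∈ P}, ∃ m ∈ N_(A), m * z * m⁻¹ = z ∧ m * x * m⁻¹ = y := by
    rintro P P0 t x ⟨xQ, xP⟩ y ⟨yQ, yP⟩
    obtain ⟨k, kK, e⟩ := t _ xP _ yP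
    obtain ⟨m, mz, rfl⟩ := s.sur k
    have mA : m ∈ N_(A) := (c2.mN m mz).2 (c.pj.KB _ kK)
    have zc : ∀ g ∈ C_[z], g * z * g⁻¹ = z := fun g hg => by
      rw [mem_cent1.1 hg, mul_inv_cancel_right]
    have xm : m * x * m⁻¹ ∈ Q := (mem_normalizer_iff.1 (s.md.lx.norm mz) x).1 xQ
    rw [s.act m mz x xQ] at e
    rcases s.md.eq xm yQ e with e1 | e1
    · exact ⟨m, mA, zc m mz, e1⟩
    obtain ⟨v, hv⟩ : ∃ v, β (ν y) v ≠ 0 := by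
      by_contra! o
      exact P0 _ yP (s.gm.nd _ o)
    obtain ⟨r, rQ, rfl⟩ := s.md.sur v
    have nc : ¬ Commute y r := fun a => hv ((s.b y yQ r rQ).2 a)
    have rz : r ∈ C_[z] := s.md.lx.le rQ
    have e2 : r * y * r⁻¹ = z * y :=
      (s.md.eq (mul_mem (mul_mem rQ yQ) (inv_mem rQ)) yQ (s.md.cq rQ yQ)).resolve_left fun a =>
        nc (show y * r = r * y by rw [← mul_inv_eq_iff_eq_mul.1 a])
    have rA : r ∈ N_(A) := (c2.mN r rz).2 fun v hv => by rw [(s.ker r rz).2 rQ, s.gm.one]; exact hv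
    refine ⟨r⁻¹ * m, mul_mem (inv_mem rA) mA, zc _ (mul_mem (inv_mem rz) mz), ?_⟩
    calc r⁻¹ * m * x * (r⁻¹ * m)⁻¹ = r⁻¹ * (m * x * m⁻¹) * r := by group
      _ = y := by rw [e1, ← e2]; group
  refine ⟨{x | x ∈ Q ∧ ν x ∈ P1}, {x | x ∈ Q ∧ ν x ∈ P2}, fun x => ?_, by rw [card_pre s.md, n1], by rw [card_pre s.md, n2],
    tr P1 (fun v hv => ((cov v).2 (.inl hv)).2) t1, tr P2 (fun v hv => ((cov v).2 (.inr hv)).2) t2⟩
  constructor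
  · rintro ⟨⟨xQ, xB⟩, x1, xz⟩
    exact ((cov _).1 ⟨xB, fun a => ((s.md.ker x xQ).1 a).elim x1 xz⟩).imp (fun a => ⟨xQ, a⟩) fun a => ⟨xQ, a⟩
  · intro hx
    have xQ : x ∈ Q := hx.elim (·.1) (·.1)
    have a := (cov (ν x)).2 (hx.imp (·.2) (·.2))
    exact ⟨⟨xQ, a.1⟩, fun e => a.2 ((s.md.ker x xQ).2 (.inl e)), fun e => a.2 ((s.md.ker x xQ).2 (.inr e))⟩

end H09.KO
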