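import Mathlib
import Cfsg.Agent.H10.Quad2

/-!
# Quadratic forms over the field with two elements
* `H09.Pol Q q` : `q` polarises to the polar form of `Q`; `Pol.quad`, `Pol.shift`,
  `Pol.equiv_shift_iff`, `Pol.exists_shift`, `Pol.plus_or_minus`
* `H09.redHom` : the action of the stabiliser of a singular vector on the hyperbolic reduction
* `H09.qE n` : the form `∑_{i<j} xᵢ xⱼ`, `qE_hasTS_iff`, `exists_perm_hom`
-/

open Module H10 H10.Form Cfsg

namespace H09

theorem aniso_two : ∀ z₁ z₂ : ZMod 2, z₁ ^ 2 + 1 * z₁ * z₂ + 1 * z₂ ^ 2 = 0 → z₁ = 0 ∧ z₂ = 0 := by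
  decide

instance qMinus_two_nondeg (m : ℕ) : (ofQuad (qMinus m (ZMod 2) 1 1)).Nondeg :=
  qMinus_nondeg (by decide)

theorem qMinus_two_not (m : ℕ) : ¬ (ofQuad (qMinus m (ZMod 2) 1 1)).HasTS (m + 1) :=
  qMinus_not_hasTS (by decide) aniso_two

section
variable {V : Type*} [AddCommGroup V] [Module (ZMod 2) V]

/-- `q` polarises to the polar form of `Q` -/
def Pol (Q : QuadraticForm (ZMod 2) V) (q : V → ZMod 2) : Prop :=
  ∀ u v, q (u + v) = q u + q v + (ofQuad Q).B u v

variable {Q : QuadraticForm (ZMod 2) V} {q : V → ZMod 2}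

theorem pol_self : Pol Q Q := (isQuad_ofQuad Q).Q_add

theorem Pol.zero (h : Pol Q q) : q 0 = 0 := by simpa using h 0 0

theorem Pol.smul (h : Pol Q q) (a : ZMod 2) (x : V) : q (a • x) = a * q x := by
  obtain rfl | rfl : a = 0 ∨ a = 1 := by revert a; decide
  all_goals simp [h.zero]

/-- the quadratic form given by `q` -/
def Pol.quad (h : Pol Q q) : QuadraticForm (ZMod 2) V where
  toFun := q
  toFun_smul a x := by rw [h.smul, show a * a = a by revert a; decide]; rfl
  exists_companion' := ⟨Q.polarBilin, h⟩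

theorem Pol.B (h : Pol Q q) (u v : V) : (ofQuad h.quad).B u v = (ofQuad Q).B u v := by
  have := (isQuad_ofQuad h.quad).Q_add u v
  exact add_left_cancel (this.symm.trans (h u v))

theorem Pol.nondeg (h : Pol Q q) [(ofQuad Q).Nondeg] : (ofQuad h.quad).Nondeg :=
  ⟨fun x hx => (ofQuad Q).eq_zero_of_B_left fun y => (h.B x y).symm.trans (hx y)⟩

theorem Pol.shift (h : Pol Q q) (w : V) : Pol Q fun v => q v + (ofQuad Q).B v w := fun u v => by
  simp only [h u v, map_add, LinearMap.add_apply]; ring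

variable [(ofQuad Q).Nondeg] [FiniteDimensional (ZMod 2) V]

theorem Pol.exists_shift (h : Pol Q q) : ∃ w, q = fun v => Q v + (ofQuad Q).B v w := by
  obtain ⟨w, hw⟩ := (ofQuad Q).exists_B_eq ⟨⟨fun v => q v - Q v, fun u v => by
    rw [h u v, pol_self u v]; ring⟩, fun a x => by simp [h.smul, pol_self.smul, mul_sub]⟩
  exact ⟨w, funext fun v => by rw [(isQuad_ofQuad Q).B_comm, hw]; simp⟩

theorem two_mul_cnt_ne {φ : Form (ZMod 2) V} [φ.Nondeg] (hQ : φ.IsQuad) {m : ℕ}
    (hn : finrank (ZMod 2) V = 2 * m + 2) : (φ.HasTS (m + 1) ↔ Nat.card V < 2 * φ.cnt 0) ∧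
      2 * φ.cnt 0 ≠ Nat.card V := by
  have h1 : Nat.card V = 4 * (2 ^ m * 2 ^ m) := by
    rw [Module.natCard_eq_pow_finrank (K := ZMod 2), hn, Nat.card_zmod]; ring
  obtain ⟨k, hk⟩ : ∃ k, 2 ^ m = k + 1 := Nat.exists_eq_succ_of_ne_zero (by positivity)
  by_cases hp : φ.HasTS (m + 1)
  · rw [hQ.cnt_plus hn hp, Nat.card_zmod, pow_succ, h1, hk, show (k + 1) * 2 - 1 = 2 * k + 1 by omega]
    exact ⟨iff_of_true hp (by nlinarith), by nlinarith⟩
  · rw [hQ.cnt_minus hn hp, Nat.card_zmod, pow_succ, h1, hk, add_tsub_cancel_right]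
    exact ⟨iff_of_false hp (by nlinarith), by nlinarith⟩

theorem cnt_add (φ : Form (ZMod 2) V) : φ.cnt 0 + φ.cnt 1 = Nat.card V := by
  have : Finite V := Module.finite_of_finite (ZMod 2)
  classical
  rw [cnt, cnt, ← Nat.card_sum]
  exact Nat.card_congr ((Equiv.sumCongr (.refl _) (Equiv.subtypeEquivRight fun v => by
    generalize φ.Q v = a; revert a; decide)).trans (Equiv.sumCompl _))

theorem Pol.equiv_shift_iff (h : Pol Q q) {m : ℕ} (hn : finrank (ZMod 2) V = 2 * m + 2) (w : V) :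
    (∃ g : V ≃ₗ[ZMod 2] V, ∀ v, q v + (ofQuad Q).B v w = q (g v)) ↔ q w = 0 := by
  have hQ := isQuad_ofQuad Q
  have h2 : ∀ a : ZMod 2, a + a = 0 := by decide
  have := h.nondeg
  refine ⟨fun ⟨g, hg⟩ => by_contra fun hw => (two_mul_cnt_ne (isQuad_ofQuad h.quad) hn).2 ?_,
    fun hw => ?_⟩
  · rw [two_mul, ← cnt_add (ofQuad h.quad), add_right_inj]
    refine Nat.card_congr ((g.symm.toEquiv.trans (Equiv.addRight w)).subtypeEquiv fun v => ?_)
    obtain ⟨v, rfl⟩ := g.surjective v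
    change q (g v) = 0 ↔ q (g.symm (g v) + w) = 1
    rw [g.symm_apply_apply, h, ← hg, add_right_comm]
    generalize q v + _ = a, q w = b at hw
    revert a b; decide
  · let s : V →ₗ[ZMod 2] V := .id + ((ofQuad Q).B w).smulRight w
    have hs : ∀ v, s v = v + (ofQuad Q).B w v • w := fun _ => rfl
    refine ⟨.ofInvolutive s fun v => ?_, fun v => ?_⟩
    · rw [hs, hs, map_add, map_smul, hQ.B_self, two_mul, h2, smul_zero, add_zero, add_assoc,
        ← add_smul, h2, zero_smul, add_zero]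
    · change _ = q (s v)
      rw [hs, h, h.smul, hw, mul_zero, add_zero, map_smul, hQ.B_comm w]
      generalize (ofQuad Q).B v w = a
      congr 1; revert a; decide

theorem Pol.plus_or_minus (h : Pol Q q) {m : ℕ} (hn : finrank (ZMod 2) V = 2 * m + 2) :
    Xor' (∃ g : V ≃ₗ[ZMod 2] (Fin (m + 1) ⊕ Fin (m + 1) → ZMod 2),
      ∀ v, q v = quadFormPlus (m + 1) (ZMod 2) (g v))
    (∃ g : V ≃ₗ[ZMod 2] ((Fin m ⊕ Fin m) ⊕ Fin 2 → ZMod 2),
      ∀ v, q v = quadFormMinus m (ZMod 2) 1 1 (g v)) := by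
  have := h.nondeg
  have hq := isQuad_ofQuad h.quad
  have key : ∀ {V' : Type} [AddCommGroup V'] [Module (ZMod 2) V'] [FiniteDimensional (ZMod 2) V']
      (Q' : QuadraticForm (ZMod 2) V') [(ofQuad Q').Nondeg], finrank (ZMod 2) V' = 2 * (m + 1) →
      ((∃ g : V ≃ₗ[ZMod 2] V', ∀ v, q v = Q' (g v)) ↔
        ((ofQuad h.quad).HasTS (m + 1) ↔ (ofQuad Q').HasTS (m + 1))) := fun Q' _ h' => by
    refine ⟨fun ⟨g, hg⟩ => ?_, fun H => ?_⟩
    · have e : IsEquiv (ofQuad h.quad) (ofQuad Q') g := ⟨fun x y => by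
        simp only [ofQuad_B, QuadraticMap.polar, ← map_add, ← hg]; rfl, fun x => (hg x).symm⟩
      exact ⟨e.hasTS, e.symm.hasTS⟩
    · obtain ⟨g, hg⟩ := hq.exists_isEquiv_even (isQuad_ofQuad Q') hn h' H
      exact ⟨g, fun v => (hg.Q v).symm⟩
  have k1 := key (qPlus (m + 1) (ZMod 2)) (by simp; ring)
  have k2 := key (qMinus m (ZMod 2) 1 1) (by simp; ring)
  simp only [coe_qPlus, coe_qMinus] at k1 k2
  rw [k1, k2, iff_true_right qPlus_hasTS, iff_false_right (qMinus_two_not m)]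
  by_cases hp : (ofQuad h.quad).HasTS (m + 1) <;> simp [hp, Xor']

end

section red
variable {F V : Type*} [Field F] [AddCommGroup V] [Module F V] {φ : Form F V} [φ.Nondeg]
  [FiniteDimensional F V] (hQ : φ.IsQuad) {e f : V} (h : φ.IsHyp e f)
include hQ h

theorem exists_redHom : ∃ ψ : φ.fix (F ∙ e) →* (φ.restrict (φ.perp (Submodule.span F {e, f}))).Isom,
    ∀ g u, ((ψ g).1 u : V) = g.1.1 u - φ.B f (g.1.1 u) • e := by
  have := h.nondegOn.perp.nondeg
  have h1 : ∀ g : φ.fix (F ∙ e), g.1.1 e = e := fun g => g.2 e (Submodule.mem_span_singleton_self e)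
  have h2 : ∀ (g : φ.fix (F ∙ e)) (u : φ.perp (Submodule.span F {e, f})), φ.B e (g.1.1 u) = 0 :=
    fun g u => (congrArg (φ.B · _) (h1 g)).symm.trans
      ((Isom.B_map _ _ _).trans (φ.mem_perp_pair.1 u.2).1)
  have h3 : φ.B f e = 1 := (hQ.B_comm _ _).trans h.Bef
  let L := fun g : φ.fix (F ∙ e) => (((LinearMap.id - (φ.B f).smulRight e) ∘ₗ (g.1.1 : V →ₗ[F] V)).domRestrict
    (φ.perp (Submodule.span F {e, f}))).codRestrict (φ.perp (Submodule.span F {e, f})) fun u =>
      φ.mem_perp_pair.2 ⟨by simp [h2, φ.B_self_eq_zero h.Qe], by simp [h3]⟩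
  have h4 : ∀ g u, ((toIsom _ (L g)).1 u : V) = g.1.1 u - φ.B f (g.1.1 u) • e := fun g u => by
    rw [toIsom_apply _ ((hQ.restrict _).isIsom fun u => ?_)]
    · rfl
    change φ.Q (g.1.1 u - φ.B f (g.1.1 u) • e) = φ.Q u
    rw [hQ.Q_sub, hQ.Q_smul, h.Qe, B_smul_right, hQ.B_comm _ e, h2]; simp
  exact ⟨MonoidHom.mk' (fun g => toIsom _ (L g)) fun g k => Isom.ext fun u => Subtype.ext (by
    simp [Isom.mul_apply, h4, h1, h3, sub_smul]), h4⟩

end red

/-- the quadratic form `∑_{i<j} xᵢ xⱼ` -/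
noncomputable def qE (n : ℕ) : QuadraticForm (ZMod 2) (Fin n → ZMod 2) :=
  ∑ i, ∑ j, if i < j then QuadraticMap.proj i j else 0

theorem qE_apply {n : ℕ} (x : Fin n → ZMod 2) : qE n x = ∑ i, ∑ j, if i < j then x i * x j else 0 := by
  simp [qE, QuadraticMap.sum_apply, apply_ite (fun Q : QuadraticForm (ZMod 2) _ => Q x)]

theorem qE_cons {n : ℕ} (t : ZMod 2) (x : Fin n → ZMod 2) :
    qE (n + 1) (Fin.cons t x) = t * ∑ i, x i + qE n x := by
  simp [qE_apply, Fin.sum_univ_succ, Finset.mul_sum]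

theorem qE_B {n : ℕ} (x y : Fin n → ZMod 2) :
    (ofQuad (qE n)).B x y = (∑ i, x i) * (∑ i, y i) - ∑ i, x i * y i := by
  rw [ofQuad_B, QuadraticMap.polar]
  induction n with
  | zero => simp [qE_apply]
  | succ n ih =>
    rw [← Fin.cons_self_tail x, ← Fin.cons_self_tail y, show Fin.cons (x 0) (Fin.tail x) +
      Fin.cons (y 0) (Fin.tail y) = (Fin.cons (x 0 + y 0) (Fin.tail x + Fin.tail y) : Fin _ → _) from
      funext (Fin.cases rfl fun _ => rfl)]
    simp only [qE_cons, Fin.sum_univ_succ, Fin.cons_zero, Fin.cons_succ, Pi.add_apply,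
      Finset.sum_add_distrib]
    linear_combination ih (Fin.tail x) (Fin.tail y)

theorem qE_single {n : ℕ} (i : Fin n) : qE n (Pi.single i 1) = 0 := by
  rw [qE_apply]
  refine Finset.sum_eq_zero fun j _ => Finset.sum_eq_zero fun k _ => ite_eq_right_iff.2 fun h => ?_
  by_cases hj : j = i
  · simp [← hj, h.ne']
  · simp [hj]

theorem qE_one (n : ℕ) : qE n 1 = n.choose 2 := by
  induction n with
  | zero => simp [qE_apply]
  | succ n ih =>
    rw [show (1 : Fin (n + 1) → ZMod 2) = Fin.cons 1 1 from funext (Fin.cases rfl fun _ => rfl),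
      qE_cons, ih, Nat.choose_succ_succ']
    simp

theorem qE_nondeg {n : ℕ} (hn : (n : ZMod 2) = 0) : (ofQuad (qE n)).Nondeg := ⟨fun x hx => by
  have h1 : ∀ i, x i = ∑ i, x i := fun i => by
    have := (qE_B _ _).symm.trans (hx (Pi.single i 1))
    simpa [Pi.single_apply, sub_eq_zero, eq_comm] using this
  ext i
  rw [h1, Finset.sum_congr rfl fun i _ => h1 i]; simp [hn]⟩

theorem qE_gauss (k : ℕ) : ∀ b : ZMod 2, ∑ x : Fin (4 * k) → ZMod 2,
    (if qE _ x + b * ∑ i, x i = 0 then 1 else -1 : ℤ) = (-4) ^ k := by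
  let A := fun n (b : ZMod 2) => ∑ x : Fin n → ZMod 2,
    (if qE _ x + b * ∑ i, x i = 0 then 1 else -1 : ℤ)
  have h : ∀ n b, A (n + 1) b = A n b + (if b = 0 then 1 else -1) * A n (b + 1) := fun n b => by
    simp only [A, Finset.mul_sum]
    rw [← (Fin.consEquiv fun _ => ZMod 2).sum_comp, Fintype.sum_prod_type_right,
      ← Finset.sum_add_distrib]
    refine Finset.sum_congr rfl fun x _ => ?_
    simp only [Fin.consEquiv, Equiv.coe_fn_mk, qE_cons, ← Finset.mul_sum, Fin.sum_univ_succ,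
      Fin.cons_zero, Fin.cons_succ]
    generalize qE n x = a, ∑ i, x i = s
    revert a s b; decide
  change ∀ b, A _ b = _
  induction k with
  | zero => simp [A, qE_apply]
  | succ k ih =>
    intro b
    rw [show 4 * (k + 1) = 4 * k + 1 + 1 + 1 + 1 by ring]
    simp only [h, ih, pow_succ]
    obtain rfl | rfl : b = 0 ∨ b = 1 := by revert b; decide
    all_goals simp +decide only [↓reduceIte]; ring

theorem qE_hasTS_iff (k : ℕ) : (ofQuad (qE (4 * (k + 1)))).HasTS (2 * k + 1 + 1) ↔ Odd k := by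
  have := qE_nondeg (n := 4 * (k + 1)) (by simp; left; rfl)
  rw [(two_mul_cnt_ne (isQuad_ofQuad _) (by simp; ring)).1, ← cnt_add (ofQuad (qE _)), two_mul,
    add_lt_add_iff_left]
  have h := qE_gauss (k + 1) 0
  simp only [zero_mul, add_zero, Finset.sum_ite, Finset.sum_const, nsmul_eq_mul] at h
  rw [cnt, cnt, Nat.card_eq_fintype_card, Nat.card_eq_fintype_card, Fintype.card_subtype,
    Fintype.card_subtype, Finset.filter_congr (q := fun x => ¬ qE _ x = 0) fun x _ => by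
      change qE _ x = 1 ↔ _; generalize qE _ x = a; revert a; decide]
  rw [← Nat.cast_lt (α := ℤ), ← sub_pos]
  change 0 < ((Finset.filter (fun x => qE _ x = 0) _).card : ℤ) - _ ↔ _
  rw [show ∀ a b : ℤ, a - b = a * 1 + b * -1 by intros; ring, h]
  rcases k.even_or_odd with hk | hk
  · exact iff_of_false (hk.add_one.pow_neg (by norm_num)).not_gt (by simpa using hk)
  · exact iff_of_true (hk.add_one.pow_pos (by norm_num)) hk

theorem exists_perm_hom (k : ℕ) (hk : 1 ≤ k) {ι : Type} [Fintype ι] [DecidableEq ι]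
    (Q : QuadraticForm (ZMod 2) (ι → ZMod 2)) [(ofQuad Q).Nondeg]
    (hι : Fintype.card ι = 2 * (2 * k + 1)) (h : (ofQuad Q).HasTS (2 * k + 1) ↔ Odd k) :
    ∃ φ : Equiv.Perm (Fin (4 * k + 4)) →* isometryGroup (ZMod 2) Q, Function.Injective φ := by
  have := qE_nondeg (n := 4 * (k + 1)) (by simp; left; rfl)
  have hQ := isQuad_ofQuad (qE (4 * (k + 1)))
  obtain ⟨f, -, hf⟩ := (ofQuad (qE (4 * (k + 1)))).exists_partner (W := ⊥) (u := 1) (by
    rw [ofQuad_Q, qE_one, Nat.choose_two_right, show 4 * (k + 1) * (4 * (k + 1) - 1) =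
      2 * (2 * ((k + 1) * (4 * (k + 1) - 1))) by ring, Nat.mul_div_cancel_left _ two_pos]
    simp; left; rfl) (fun h => by simpa using congrFun h ⟨0, by omega⟩) (by simp)
  obtain ⟨ψ, hψ⟩ := exists_redHom hQ hf
  have := hf.nondegOn.perp.nondeg
  obtain ⟨g, hg⟩ := (hQ.restrict _).exists_isEquiv_even (isQuad_ofQuad Q) (m := 2 * k + 1)
    (Nat.add_right_cancel (hf.finrank_perp.trans (by simp; ring))) (by simpa)
    (by rw [← hasTS_succ_iff hf, qE_hasTS_iff, h])
  let P : Equiv.Perm (Fin (4 * (k + 1))) →* (ofQuad (qE (4 * (k + 1)))).fix (ZMod 2 ∙ 1) :=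
    MonoidHom.mk' (fun σ => ⟨⟨LinearEquiv.funCongrLeft _ _ σ.symm, id (isIsom_of_span
      (ofQuad (qE (4 * (k + 1)))) (LinearEquiv.funCongrLeft _ _ σ.symm).toLinearMap
      (Pi.basisFun _ _).span_eq) (fun x _ y _ => by
        rw [qE_B, qE_B]
        simp [LinearMap.funLeft, Equiv.sum_comp σ.symm x, Equiv.sum_comp σ.symm y,
          Equiv.sum_comp σ.symm fun i => x i * y i]) (by
        rintro _ ⟨i, rfl⟩
        rw [Pi.basisFun_apply, ofQuad_Q, ofQuad_Q, qE_single, ← qE_single (σ i)]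
        congr 1; ext j; simp [LinearMap.funLeft, Pi.single_apply, Equiv.symm_apply_eq])⟩,
      (mem_fix_span _).2 (by rintro _ rfl; rfl)⟩) fun _ _ => rfl
  have hP : ∀ σ x i, (P σ).1.1 x i = x (σ.symm i) := fun _ _ _ => rfl
  refine ⟨(isometryEquiv Q).symm.toMonoidHom.comp (hg.isomEquiv.toMonoidHom.comp (ψ.comp P)),
    (isometryEquiv Q).symm.injective.comp (hg.isomEquiv.injective.comp
      ((injective_iff_map_eq_one (ψ.comp P)).2 fun σ hσ => ?_))⟩
  have key : ∀ x : Fin (4 * (k + 1)) → ZMod 2, ∑ i, x i = 0 → ∃ c, ∀ i, x (σ.symm i) = x i + c :=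
    fun x hx => by
      have h1 := hψ (P σ) ⟨_, hf.proj_mem x⟩
      have h2 : (ofQuad (qE (4 * (k + 1)))).B 1 x = 0 := by rw [qE_B]; simp [hx]
      rw [show ψ (P σ) = 1 from hσ, eq_sub_iff_add_eq] at h1
      generalize (ofQuad (qE (4 * (k + 1)))).B f ((P σ).1.1 _) = c at h1
      refine ⟨c, fun i => ?_⟩
      have := congrFun h1 i
      simp [h2, hP] at this
      linear_combination -this
  refine inv_injective (Equiv.ext fun a => by_contra fun ha => ?_)
  obtain ⟨b, hb⟩ : ∃ b, b ∉ ({a, σ.symm a} : Finset _) := by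
    by_contra! h; have := (Finset.card_le_card fun x _ => h x : (Finset.univ).card ≤ _).trans
      Finset.card_le_two; simp at this; omega
  obtain ⟨d, hd⟩ : ∃ d, d ∉ ({a, b, σ a, σ b} : Finset _) := by
    by_contra! h; have := (Finset.card_le_card fun x _ => h x : (Finset.univ).card ≤ _).trans
      Finset.card_le_four; simp at this; omega
  obtain ⟨c, hc⟩ := key (Pi.single a 1 + Pi.single b 1) (by simp [Finset.sum_add_distrib]; rfl)
  simp only [Finset.mem_insert, Finset.mem_singleton, not_or] at hb hd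
  have h1 := hc a
  have h2 := hc d
  simp [Pi.single_apply, Equiv.symm_apply_eq, hd] at h2
  simp [h2.symm, Pi.single_apply, Ne.symm hb.1, Ne.symm hb.2, show σ.symm a ≠ a from ha] at h1

end H09
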