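import Mathlib
import Cfsg.Agent.L.Jf0
import Cfsg.Agent.H19.SelfM
import Cfsg.Agent.H26.JE

/-! # The local data of a 5-element (for part A of S5572) -/

set_option autoImplicit false
set_option linter.unusedSectionVars false

namespace H09.S5L
open Cfsg BG Subgroup H01.XS Cfsg.Agent.H06.J
universe u
variable {G : Type u} [Group G] [Finite G] {z : G} {Q : Subgroup G}
  {V : Type u} [AddCommGroup V] [Module (ZMod 2) V] [Finite V] {Γ : Type u} [Group Γ] [Finite Γ]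
  {f : C_[z] →* Γ} {π : G → Γ} {ν : G → V} {T : Γ → V →+ V} {d : Γ} {M : Subgroup Γ} {β : V →+ V →+ ZMod 2} {q : V → ZMod 2}

theorem lo (s : Bj z Q f π ν T d M β q) (ρ : M →* Spor.M22) (ρk : ∀ m : M, ρ m = 1 ↔ (m : Γ) ∈ zpowers d) {σ : G}
    (i : σ ∈ C_[z]) (o : orderOf σ = 5) (c : Nat.card ↥(C_[z] ⊓ C_[σ]) = 960) (ex : IsExtraspecial 2 ↥(Q ⊓ C_[σ]))
    (c32 : Nat.card ↥(Q ⊓ C_[σ]) = 32) : ∃ Q δ, L.Jf.Lo (C_[z] ⊓ C_[σ]) Q z δ := by
  have : Fact (Nat.Prime 5) := ⟨by norm_num⟩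
  have : Fact (Nat.Prime 3) := ⟨by norm_num⟩
  have l := s.md.lx
  have g := s.gm
  let φ : ↥(C_[z] ⊓ C_[σ]) →* Γ := f.comp (inclusion inf_le_left)
  have φp : ∀ x, φ x = π x := fun x => s.pf _
  have QL : Q ⊓ C_[σ] ≤ C_[z] ⊓ C_[σ] := inf_le_inf_right _ l.le
  have kφ : φ.ker = (Q ⊓ C_[σ]).subgroupOf _ := Subgroup.ext fun x => by
    rw [MonoidHom.mem_ker, φp, s.ker _ x.2.1, mem_subgroupOf]; exact ⟨fun a => ⟨a, x.2.2⟩, fun a => a.1⟩
  have ck : Nat.card φ.ker = 32 := by rw [kφ, Nat.card_congr (subgroupOfEquivOfLe QL).toEquiv, c32]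
  have odd : ∀ (x : ↥(C_[z] ⊓ C_[σ])) (p : ℕ), p.Prime → p ≠ 2 → orderOf x = p → orderOf (φ x) = p ∧ φ x ∈ M := fun x p pp p2 e => by
    have := Fact.mk pp
    have a : φ x ^ p = 1 := by rw [← map_pow, ← e, pow_orderOf_eq_one, map_one]
    refine ⟨orderOf_eq_prime a fun k => ?_, ?_⟩
    · have := φ.ker.orderOf_dvd_natCard (x := x) k
      rw [e, ck] at this
      exact p2 ((Nat.prime_dvd_prime_iff_eq pp Nat.prime_two).1 (pp.dvd_of_dvd_pow (n := 5) this))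
    · obtain ⟨k, rfl⟩ := pp.odd_of_ne_two p2
      have b := M.pow_mem (sq_mem_of_index_two g.Mi (φ x)) (k + 1)
      rwa [← pow_mul, show 2 * (k + 1) = 2 * k + 1 + 1 by ring, pow_succ, a, one_mul] at b
  have σL : σ ∈ C_[z] ⊓ C_[σ] := ⟨i, mem_cent1.2 rfl⟩
  obtain ⟨oy, yM⟩ := odd ⟨σ, σL⟩ 5 (by norm_num) (by norm_num) ((orderOf_coe _).symm.trans o)
  have d3 : d ^ 3 = 1 := (pow_three d).trans g.d3
  have dd : ∀ x ∈ zpowers d, orderOf x ∣ 3 := fun x h => (orderOf_dvd_of_mem_zpowers h).trans (orderOf_dvd_of_pow_eq_one d3)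
  let L0 := M.comap φ
  let ψ : L0 →* Spor.M22 := ρ.comp ((φ.comp L0.subtype).codRestrict M fun x => x.2)
  have oρ : orderOf (ψ ⟨⟨σ, σL⟩, yM⟩) = 5 := orderOf_eq_prime (by
    rw [← map_pow, show (⟨⟨σ, σL⟩, yM⟩ : L0) ^ 5 = 1 from Subtype.ext (Subtype.ext (o ▸ pow_orderOf_eq_one σ)), map_one]) fun e => by
      have := dd _ ((ρk _).1 e)
      change orderOf (φ ⟨σ, σL⟩) ∣ 3 at this
      rw [oy] at this; norm_num at this
  have c5 := H19.selfC_M22 (p := 5) (.inl rfl) _ oρ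
  have rC : ∀ x : L0, ψ x ∈ C_[ψ ⟨⟨σ, σL⟩, yM⟩] := fun x => mem_cent1.2 (by
    rw [← map_mul, ← map_mul]; exact congrArg ψ (Subtype.ext (Subtype.ext (mem_cent1.1 x.1.2.2))))
  obtain ⟨x, ox⟩ := exists_prime_orderOf_dvd_card' (G := ↥(C_[z] ⊓ C_[σ])) 3 (by rw [c]; norm_num)
  obtain ⟨ox', xM⟩ := odd x 3 (by norm_num) (by norm_num) ox
  have xd : φ x ∈ zpowers d := (ρk ⟨_, xM⟩).1 (by
    have a := (C_[ψ ⟨⟨σ, σL⟩, yM⟩]).orderOf_dvd_natCard (rC ⟨x, xM⟩)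
    have b : orderOf (ψ ⟨x, xM⟩) ∣ 3 := (orderOf_map_dvd ψ _).trans (by rw [← orderOf_coe, ox])
    rw [c5] at a
    exact orderOf_eq_one_iff.1 (Nat.eq_one_of_dvd_coprimes (by norm_num) a b))
  have od : orderOf d = 3 := Nat.dvd_antisymm (orderOf_dvd_of_pow_eq_one d3) (ox' ▸ orderOf_dvd_of_mem_zpowers xd)
  obtain ⟨k, ek⟩ := (eq_of_le_of_card_ge ((zpowers_le).2 xd) (by rw [Nat.card_zpowers, Nat.card_zpowers, od, ox'])).ge (mem_zpowers d)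
  obtain ⟨δ, δd, δ3⟩ : ∃ δ : ↥(C_[z] ⊓ C_[σ]), φ δ = d ∧ orderOf δ = 3 := ⟨x ^ k, (map_zpow φ x k).trans ek, Nat.dvd_antisymm
    (ox ▸ orderOf_dvd_of_mem_zpowers (zpow_mem_zpowers x k)) (by rw [← od, ← (map_zpow φ x k).trans ek]; exact orderOf_map_dvd φ _)⟩
  obtain ⟨w, wM⟩ : ∃ w, φ w ∉ M := by
    by_contra! a
    have e1 := ψ.ker.card_mul_index
    have t : L0 = ⊤ := eq_top_iff.2 fun x _ => a x
    have c0 : Nat.card L0 = 960 := by rw [t, card_top, c]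
    have e2 : ψ.ker.index ∣ 5 := by rw [index_ker, ← c5]; exact card_dvd_of_le (by rintro _ ⟨x, rfl⟩; exact rC x)
    have e3 : Nat.card ψ.ker ≤ Nat.card ((zpowers d).comap φ) := Nat.card_le_card_of_injective
      (fun x => ⟨x.1.1, (ρk _).1 x.2⟩) fun a b e => Subtype.ext (Subtype.ext (congrArg (fun x : (zpowers d).comap φ => x.1) e))
    have e4 := card_inf_mul_relIndex φ.ker ((zpowers d).comap φ)
    rw [relIndex_ker] at e4
    have e5 := card_le_of_le (inf_le_left : φ.ker ⊓ (zpowers d).comap φ ≤ _)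
    have e6 := card_le_of_le (map_comap_le φ (zpowers d))
    rw [Nat.card_zpowers, od] at e6
    have := Nat.mul_le_mul e5 e6
    have := Nat.mul_le_mul e3 (Nat.le_of_dvd (by norm_num) e2)
    omega
  have di : ∀ a b : Γ, a ∈ M → b ∉ M → a * b * d * (a * b)⁻¹ = d⁻¹ := fun a b ha hb => by
    rw [g.nM (a * b) fun h => hb ((mul_mem_cancel_left ha).1 h), mul_inv_cancel_right, eq_inv_iff_mul_eq_one, mul_assoc, g.d3]
  have δ0 : δ ∈ L0 := show φ δ ∈ M from δd ▸ g.dM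
  have w0 : w * δ * w⁻¹ ∈ L0 := show φ _ ∈ M by
    have := di 1 _ (one_mem _) wM
    rw [one_mul] at this
    rw [map_mul, map_mul, map_inv, δd, this]; exact inv_mem g.dM
  have n9 : ¬ 3 ∣ (zpowers (⟨δ, δ0⟩ : L0)).index := fun h => by
    have a := (zpowers (⟨δ, δ0⟩ : L0)).card_mul_index
    rw [Nat.card_zpowers, ← orderOf_coe, δ3] at a
    have b := card_subgroup_dvd_card L0
    rw [c, ← a] at b
    exact absurd ((Nat.mul_dvd_mul_left 3 h).trans b) (by norm_num)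
  have p1 : IsPGroup 3 (zpowers (⟨δ, δ0⟩ : L0)) := IsPGroup.of_card (n := 1) (by rw [Nat.card_zpowers, ← orderOf_coe, δ3]; rfl)
  have p2 : IsPGroup 3 (zpowers (⟨_, w0⟩ : L0)) := IsPGroup.of_card (n := 1) (by
    rw [Nat.card_zpowers, ← orderOf_coe]; exact ((MulAut.conj w).orderOf_eq δ).trans δ3)
  obtain ⟨S, lS⟩ := p2.exists_le_sylow
  obtain ⟨h, eh⟩ := MulAction.exists_smul_eq L0 S (p1.toSylow n9)
  have m : h * ⟨_, w0⟩ * h⁻¹ ∈ zpowers (⟨δ, δ0⟩ : L0) := by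
    change _ ∈ ((p1.toSylow n9 : Sylow 3 L0) : Subgroup L0)
    rw [← eh]; exact smul_mem_pointwise_smul _ _ _ (lS (mem_zpowers _))
  obtain ⟨j, ej⟩ := m
  have ej' : δ ^ j = h.1 * w * δ * (h.1 * w)⁻¹ := (congrArg Subtype.val ej).trans (by change h.1 * (w * δ * w⁻¹) * h.1⁻¹ = _; group)
  have e7 : d ^ j = d ^ (-1 : ℤ) := by
    rw [zpow_neg_one, ← di _ _ h.2 wM, ← δd, ← map_zpow, ej', map_mul, map_mul, map_inv, map_mul]
  rw [zpow_eq_zpow_iff_modEq, od, ← δ3, ← zpow_eq_zpow_iff_modEq, zpow_neg_one, ej'] at e7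
  refine ⟨Q ⊓ C_[σ], δ, QL, norm_inf (inf_le_left.trans l.norm) (inf_le_right.trans (le_norm _)), ex, c32,
    ⟨l.aes.mem, mem_cent1_comm.1 i⟩, δ.2, (orderOf_coe δ).trans δ3,
    fun x a b => _root_.H26.JE.cq s δ.2.1 ((φp δ).symm.trans δd) a.1 b, (h.1 * w : ↥(C_[z] ⊓ C_[σ])), (h.1 * w).2, congrArg Subtype.val e7⟩

end H09.S5L
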