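import Mathlib
import Cfsg.Agent.H06.J0

/-! # Fixed vectors of an element of order five (for S5572) -/

set_option autoImplicit false
set_option linter.unusedSectionVars false

namespace H09.S5V
open Subgroup Cfsg.Agent.H06.J MulAction

universe u

theorem md {α : Type*} [Finite α] (p : ℕ) [Fact p.Prime] (f : α → α) (hf : ∀ v, f^[p] v = v) (s : Set α)
    (hs : ∀ v ∈ s, f v ∈ s) : s.ncard ≡ {v | v ∈ s ∧ f v = v}.ncard [MOD p] := by
  classical
  have := Fintype.ofFinite s
  let g : Function.End s := fun x => ⟨f x, hs _ x.2⟩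
  have e : ∀ n x, ((g ^ n) x : α) = f^[n] x := fun n => by
    induction n with
    | zero => exact fun _ => rfl
    | succ n i => exact fun x => by rw [pow_succ]; exact i (g x)
  have := Equiv.Perm.card_fixedPoints_modEq (f := g) (p := p) (n := 1) (funext fun x => Subtype.ext (by
    rw [pow_one, e, hf]; rfl))
  rw [← Nat.card_eq_fintype_card, ← Nat.card_eq_fintype_card] at this
  rw [← Nat.card_coe_set_eq, ← Nat.card_coe_set_eq]
  refine this.trans (by
    rw [Nat.card_congr (β := {v | v ∈ s ∧ f v = v}) ⟨fun a => ⟨a.1.1, a.1.2, congrArg Subtype.val a.2⟩,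
      fun a => ⟨⟨a.1, a.2.1⟩, Subtype.ext a.2.2⟩, fun _ => rfl, fun _ => rfl⟩])

variable {V : Type u} [AddCommGroup V] [Module (ZMod 2) V] [Finite V] {Γ : Type u} [Group Γ] [Finite Γ]
  {T : Γ → V →+ V} {d : Γ} {M K Y : Subgroup Γ} {β : V →+ V →+ ZMod 2} {q : V → ZMod 2} {B : AddSubgroup V}

theorem v2 (v : V) : v + v = 0 := by
  rw [← two_smul (ZMod 2) v, show (2 : ZMod 2) = 0 from rfl, zero_smul]

theorem it (h : Gj T d M β q) (g : Γ) (n : ℕ) (v : V) : (T g)^[n] v = T (g ^ n) v := by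
  induction n generalizing v with
  | zero => rw [pow_zero, h.one]; rfl
  | succ n i => rw [pow_succ, h.mul, ← i]; rfl

theorem w3 (h : Gj T d M β q) (v : V) : T d (T d (T d v)) = v := by rw [← h.mul, ← h.mul, mul_assoc, h.d3, h.one]

theorem fd (h : Gj T d M β q) (v : V) (e : T d v = v) : v = 0 := by
  have := h.hf v
  rwa [e, e, v2, zero_add] at this

theorem cm (h : Gj T d M β q) {g : Γ} {k : ℕ} (e : g ^ (2 * k + 1) = 1) (v : V) : T d (T g v) = T g (T d v) := by
  have : g ∈ M := by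
    have a := M.pow_mem (sq_mem_of_index_two h.Mi g) (k + 1)
    rwa [← pow_mul, show 2 * (k + 1) = 2 * k + 1 + 1 by ring, pow_succ, e, one_mul] at a
  rw [← h.mul, ← h.mul, h.Md g this]

/-- the fixed space of an element of order five is non-degenerate of order sixteen -/
theorem c16 (h : Gj T d M β q) {g : Γ} (o : orderOf g = 5) :
    ∃ U : AddSubgroup V, (∀ v, v ∈ U ↔ T g v = v) ∧ Nat.card U = 16 ∧ (∀ u ∈ U, (∀ v ∈ U, β u v = 0) → u = 0) ∧
      ∀ v ∈ U, T d v ∈ U := by
  have : Fact (Nat.Prime 5) := ⟨by norm_num⟩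
  have : Fact (Nat.Prime 3) := ⟨by norm_num⟩
  have g5 : g ^ 5 = 1 := o ▸ pow_orderOf_eq_one g
  have g1 : g ≠ 1 := fun a => by rw [a, orderOf_one] at o; omega
  have i : ∀ w, (T g)^[5] w = w := fun w => by rw [it h, g5, h.one]
  let U : AddSubgroup V := (T g).eqLocus (AddMonoidHom.id V)
  have mU : ∀ v, v ∈ U ↔ T g v = v := fun _ => Iff.rfl
  have dU : ∀ v ∈ U, T d v ∈ U := fun v hv => (mU _).2 (by rw [← cm h (k := 2) g5, (mU v).1 hv])
  have nd : ∀ u ∈ U, (∀ v ∈ U, β u v = 0) → u = 0 := fun u hu k => h.nd u fun w => by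
    have e : ∀ x, β u (T g x) = β u x := fun x => by
      have := h.toQF.inv (h.qT g) u x
      rwa [(mU u).1 hu] at this
    have i5 : T g (T g (T g (T g (T g w)))) = w := i w
    have := k (w + T g w + T g (T g w) + T g (T g (T g w)) + T g (T g (T g (T g w)))) ((mU _).2 (by
      simp only [map_add]; rw [i5]; abel))
    simp only [map_add, e] at this
    revert this
    generalize β u w = x
    revert x
    decide
  refine ⟨U, mU, ?_, nd, dU⟩
  have a := md 5 (T g) i Set.univ fun _ _ => trivial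
  have eU : {v | v ∈ (Set.univ : Set V) ∧ T g v = v} = (U : Set V) := Set.ext fun x => ⟨fun a => a.2, fun a => ⟨trivial, a⟩⟩
  rw [eU, Set.ncard_univ, h.card, ← Nat.card_coe_set_eq] at a
  have dv : Nat.card U ∣ 2 ^ 12 := by rw [show 2 ^ 12 = 4096 from rfl, ← h.card]; exact U.card_addSubgroup_dvd_card
  obtain ⟨k, l, ek⟩ := (Nat.dvd_prime_pow Nat.prime_two).1 dv
  have nt : Nat.card U ≠ 4096 := fun c => g1 (h.fai g fun w =>
    (AddSubgroup.eq_top_of_card_eq U (c.trans h.card.symm)).ge (AddSubgroup.mem_top w))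
  have b := md 5 (T g) i {v | q v = 0} fun w hw => (h.qT g w).trans hw
  have c : {v | q v = 0} = insert 0 {v | v ≠ 0 ∧ q v = 0} := by
    ext v; by_cases e : v = 0 <;> simp [e, h.toQF.q0]
  have e2 : {v | v ∈ {v | q v = 0} ∧ T g v = v} = {v | v ∈ U ∧ q v = 0} := Set.ext fun _ => and_comm
  rw [e2, c, Set.ncard_insert_of_notMem (by simp), h.toQF.n0 (w3 h) (h.qT d) h.hf] at b
  have b3 := md 3 (T d) (w3 h) {v | v ∈ U ∧ q v = 0} fun w hw => ⟨dU w hw.1, (h.qT d w).trans hw.2⟩
  have e3 : {v | v ∈ {v | v ∈ U ∧ q v = 0} ∧ T d v = v} = {0} :=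
    Set.ext fun v => ⟨fun a => fd h v a.2, fun a => by rw [Set.mem_singleton_iff.1 a]; exact ⟨⟨U.zero_mem, h.toQF.q0⟩, map_zero _⟩⟩
  rw [e3, Set.ncard_singleton] at b3
  have ga := h.toQF.gauss nd
  rw [Nat.card_coe_set_eq] at ga
  change 4096 ≡ Nat.card U [MOD 5] at a
  generalize {v | v ∈ U ∧ q v = 0}.ncard = n at b b3 ga
  rw [ek] at a nt ga ⊢
  unfold Nat.ModEq at a b b3
  interval_cases k <;> first | rfl | (exfalso; revert a; decide) | (exact absurd rfl nt) | skip
  · have := sq_eq_sq_iff_eq_or_eq_neg.1 (ga.trans (show _ = (1 : ℤ) ^ 2 by norm_num))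
    push_cast at this; omega
  · have := sq_eq_sq_iff_eq_or_eq_neg.1 (ga.trans (show _ = (16 : ℤ) ^ 2 by norm_num))
    push_cast at this; omega

end H09.S5V
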