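import Mathlib

/-! Abstract Shintani descent. -/

namespace H09
namespace Shin

variable {X : Type*} [Group X]

theorem mem_fix (τ : MulAut X) (x : X) :
    x ∈ (MulEquiv.toMonoidHom τ).eqLocus (MonoidHom.id X) ↔ τ x = x := Iff.rfl

theorem pow_fix (σ : MulAut X) {x : X} (h : σ x = x) (e : ℕ) : (σ ^ e) x = x := by
  induction e with
  | zero => simp
  | succ e ih => rw [pow_succ, MulAut.mul_apply, h, ih]

theorem comm_apply (σ : MulAut X) (e : ℕ) (x : X) : (σ ^ e) (σ x) = σ ((σ ^ e) x) := by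
  rw [← MulAut.mul_apply, ← pow_succ, pow_succ', MulAut.mul_apply]

theorem norm_eq (σ : MulAut X) (a : X) (d : ℕ) :
    ((List.range d).map (fun i => (σ ^ i) (a * (σ a)⁻¹))).prod = a * ((σ ^ d) a)⁻¹ := by
  induction d with
  | zero => simp
  | succ d ih =>
    rw [List.range_succ, List.map_append, List.prod_append, ih]
    simp [pow_succ]

theorem img_fix (σ : MulAut X) (e : ℕ) {a : X} (hg : (σ ^ e) (a * (σ a)⁻¹) = a * (σ a)⁻¹) :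
    σ (((σ ^ e) a)⁻¹ * a) = ((σ ^ e) a)⁻¹ * a := by
  rw [map_mul, map_inv, comm_apply] at hg
  rw [map_mul, map_inv]
  have : (σ ((σ ^ e) a))⁻¹ = ((σ ^ e) a)⁻¹ * (a * (σ a)⁻¹) := by rw [← hg]; group
  rw [this]; group

theorem img_fix' (σ : MulAut X) (e : ℕ) {a : X}
    (hx : σ (((σ ^ e) a)⁻¹ * a) = ((σ ^ e) a)⁻¹ * a) :
    (σ ^ e) (a * (σ a)⁻¹) = a * (σ a)⁻¹ := by
  rw [map_mul, map_inv] at hx
  rw [map_mul, map_inv, comm_apply]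
  have : (σ ((σ ^ e) a))⁻¹ = ((σ ^ e) a)⁻¹ * a * (σ a)⁻¹ := by rw [← hx]; group
  rw [this]; group

theorem twist_iff (σ : MulAut X) (a b k : X) :
    b * (σ b)⁻¹ = k * (a * (σ a)⁻¹) * (σ k)⁻¹ ↔ σ (b⁻¹ * k * a) = b⁻¹ * k * a := by
  simp only [map_mul, map_inv]
  constructor
  · intro h
    have : (σ b)⁻¹ = b⁻¹ * (k * (a * (σ a)⁻¹) * (σ k)⁻¹) := by rw [← h]; group
    rw [this]; group
  · intro h
    have : (σ b)⁻¹ = b⁻¹ * k * a * (σ a)⁻¹ * (σ k)⁻¹ := by rw [← h]; group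
    rw [this]; group

theorem conj_iff (τ : MulAut X) (a b h : X) (hh : τ h = h) :
    (τ b)⁻¹ * b = h * ((τ a)⁻¹ * a) * h⁻¹ ↔ τ (b * h * a⁻¹) = b * h * a⁻¹ := by
  simp only [map_mul, map_inv, hh]
  constructor
  · intro e
    have : τ b = b * (h * ((τ a)⁻¹ * a) * h⁻¹)⁻¹ := by rw [← e]; group
    rw [this]; group
  · intro e
    have : τ b = b * h * a⁻¹ * τ a * h⁻¹ := by rw [← e]; group
    rw [this]; group

theorem pow_img (σ : MulAut X) (e d : ℕ) {a : X}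
    (hx : σ (((σ ^ e) a)⁻¹ * a) = ((σ ^ e) a)⁻¹ * a) :
    (((σ ^ e) ^ d) a)⁻¹ * a = (((σ ^ e) a)⁻¹ * a) ^ d := by
  have h1 := pow_fix σ hx e
  induction d with
  | zero => simp
  | succ d ih =>
    rw [pow_succ', MulAut.mul_apply, pow_succ (((σ ^ e) a)⁻¹ * a), ← ih]
    have h2 : (σ ^ e) ((((σ ^ e) ^ d) a)⁻¹ * a) = (((σ ^ e) ^ d) a)⁻¹ * a := by
      rw [ih, map_pow, h1]
    rw [map_mul, map_inv] at h2
    rw [← h2]; group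

theorem count (σ τ : MulAut X) (hτ : ∀ x, σ x = x → τ x = x)
    (Y : Subgroup X) (hY : ∀ y ∈ Y, σ y ∈ Y) (hY' : ∀ y ∈ Y, τ y ∈ Y)
    (hYL : ∀ y ∈ Y, ∃ a ∈ Y, y = a * (σ a)⁻¹) (hYLe : ∀ y ∈ Y, ∃ a ∈ Y, y = a * (τ a)⁻¹)
    (a : X) :
    Nat.card {k : ↥((MulEquiv.toMonoidHom τ).eqLocus (MonoidHom.id X)) //
        (k : X)⁻¹ * (a * (σ a)⁻¹) * σ k ∈ Y} *
        Nat.card ↥(Y ⊓ (MulEquiv.toMonoidHom σ).eqLocus (MonoidHom.id X)) =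
      Nat.card {h : ↥((MulEquiv.toMonoidHom σ).eqLocus (MonoidHom.id X)) //
        (h : X)⁻¹ * ((τ a)⁻¹ * a) * h ∈ Y} *
        Nat.card ↥(Y ⊓ (MulEquiv.toMonoidHom τ).eqLocus (MonoidHom.id X)) := by
  classical
  let T := {p : X × X // τ p.1 = p.1 ∧ p.2 ∈ Y ∧ σ (a⁻¹ * p.1 * p.2) = a⁻¹ * p.1 * p.2}
  have hA : ∀ k : {k : ↥((MulEquiv.toMonoidHom τ).eqLocus (MonoidHom.id X)) //
        (k : X)⁻¹ * (a * (σ a)⁻¹) * σ k ∈ Y}, ∃ b ∈ Y, σ (a⁻¹ * k * b) = a⁻¹ * k * b := by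
    intro k
    obtain ⟨b, hb, e⟩ := hYL _ k.2
    refine ⟨b, hb, (twist_iff σ b a k).1 ?_⟩
    rw [← e]; group
  choose β hβ hβ' using hA
  have hB : ∀ h : {h : ↥((MulEquiv.toMonoidHom σ).eqLocus (MonoidHom.id X)) //
        (h : X)⁻¹ * ((τ a)⁻¹ * a) * h ∈ Y}, ∃ b ∈ Y, τ (a * h * b⁻¹) = a * h * b⁻¹ := by
    intro h
    obtain ⟨b, hb, e⟩ := hYLe _ (Y.inv_mem h.2)
    refine ⟨b⁻¹, Y.inv_mem hb, (conj_iff τ b⁻¹ a h (hτ _ h.1.2)).1 ?_⟩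
    rw [map_inv, inv_inv]
    have : τ b * b⁻¹ = (b * (τ b)⁻¹)⁻¹ := by group
    rw [this, ← e]; group
  choose γ hγ hγ' using hB
  have e1 : Nat.card ({k : ↥((MulEquiv.toMonoidHom τ).eqLocus (MonoidHom.id X)) //
        (k : X)⁻¹ * (a * (σ a)⁻¹) * σ k ∈ Y} ×
        ↥(Y ⊓ (MulEquiv.toMonoidHom σ).eqLocus (MonoidHom.id X))) = Nat.card T := by
    refine Nat.card_congr (Equiv.ofBijective (fun p => ⟨(p.1, β p.1 * p.2), p.1.1.2,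
      Y.mul_mem (hβ _) p.2.2.1, ?_⟩) ⟨?_, ?_⟩)
    · have h2 : σ p.2 = p.2 := p.2.2.2
      show σ (a⁻¹ * p.1 * (β p.1 * p.2)) = a⁻¹ * p.1 * (β p.1 * p.2)
      rw [← mul_assoc, map_mul, hβ', h2]
    · rintro ⟨k, u⟩ ⟨k', u'⟩ h
      simp only [Subtype.mk.injEq, Prod.mk.injEq, T] at h
      obtain ⟨h1, h2⟩ := h
      have hk : k = k' := Subtype.ext (Subtype.ext h1)
      subst hk
      rw [Subtype.ext (mul_left_cancel h2 : (u : X) = u')]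
    · rintro ⟨⟨k, b⟩, h1, h2, h3⟩
      have h4 := (twist_iff σ b a k).2 h3
      have hk : k⁻¹ * (a * (σ a)⁻¹) * σ k ∈ Y := by
        rw [h4]
        have : k⁻¹ * (k * (b * (σ b)⁻¹) * (σ k)⁻¹) * σ k = b * (σ b)⁻¹ := by group
        rw [this]; exact Y.mul_mem h2 (Y.inv_mem (hY _ h2))
      let k' : {k : ↥((MulEquiv.toMonoidHom τ).eqLocus (MonoidHom.id X)) //
        (k : X)⁻¹ * (a * (σ a)⁻¹) * σ k ∈ Y} := ⟨⟨k, h1⟩, hk⟩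
      refine ⟨(k', ⟨(β k')⁻¹ * b, Y.mul_mem (Y.inv_mem (hβ _)) h2, ?_⟩), ?_⟩
      · show σ ((β k')⁻¹ * b) = (β k')⁻¹ * b
        have h5 : σ (a⁻¹ * k * β k') = a⁻¹ * k * β k' := hβ' k'
        have : (β k')⁻¹ * b = (a⁻¹ * k * β k')⁻¹ * (a⁻¹ * k * b) := by group
        rw [this, map_mul, map_inv, h5]
        exact congrArg _ h3
      · apply Subtype.ext
        simp [k']
  have e2 : Nat.card ({h : ↥((MulEquiv.toMonoidHom σ).eqLocus (MonoidHom.id X)) //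
        (h : X)⁻¹ * ((τ a)⁻¹ * a) * h ∈ Y} ×
        ↥(Y ⊓ (MulEquiv.toMonoidHom τ).eqLocus (MonoidHom.id X))) = Nat.card T := by
    refine Nat.card_congr (Equiv.ofBijective (fun p => ⟨(a * p.1 * (p.2 * γ p.1)⁻¹, p.2 * γ p.1), ?_,
      Y.mul_mem p.2.2.1 (hγ _), ?_⟩) ⟨?_, ?_⟩)
    · have h2 : τ p.2 = p.2 := p.2.2.2
      show τ (a * p.1 * (p.2 * γ p.1)⁻¹) = a * p.1 * (p.2 * γ p.1)⁻¹
      rw [mul_inv_rev, ← mul_assoc, map_mul, hγ', map_inv, h2]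
    · have h2 : σ p.1 = p.1 := p.1.1.2
      show σ (a⁻¹ * (a * p.1 * (p.2 * γ p.1)⁻¹) * (p.2 * γ p.1)) =
        a⁻¹ * (a * p.1 * (p.2 * γ p.1)⁻¹) * (p.2 * γ p.1)
      have : a⁻¹ * (a * p.1 * (p.2 * γ p.1)⁻¹) * (p.2 * γ p.1) = p.1 := by group
      rw [this, h2]
    · rintro ⟨k, u⟩ ⟨k', u'⟩ h
      simp only [Subtype.mk.injEq, Prod.mk.injEq, T] at h
      obtain ⟨h1, h2⟩ := h
      rw [h2] at h1
      have hk : k = k' := Subtype.ext (Subtype.ext (mul_left_cancel (mul_right_cancel h1)))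
      subst hk
      rw [Subtype.ext (mul_right_cancel h2 : (u : X) = u')]
    · rintro ⟨⟨k, b⟩, h1, h2, h3⟩
      have h0 : a * (a⁻¹ * k * b) * b⁻¹ = k := by group
      have h4 := (conj_iff τ b a (a⁻¹ * k * b) (hτ _ h3)).2 (by rw [h0]; exact h1)
      have hk : (a⁻¹ * k * b)⁻¹ * ((τ a)⁻¹ * a) * (a⁻¹ * k * b) ∈ Y := by
        rw [h4]
        have : (a⁻¹ * k * b)⁻¹ * ((a⁻¹ * k * b) * ((τ b)⁻¹ * b) * (a⁻¹ * k * b)⁻¹) *
          (a⁻¹ * k * b) = (τ b)⁻¹ * b := by group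
        rw [this]; exact Y.mul_mem (Y.inv_mem (hY' _ h2)) h2
      let h' : {h : ↥((MulEquiv.toMonoidHom σ).eqLocus (MonoidHom.id X)) //
        (h : X)⁻¹ * ((τ a)⁻¹ * a) * h ∈ Y} := ⟨⟨a⁻¹ * k * b, h3⟩, hk⟩
      refine ⟨(h', ⟨b * (γ h')⁻¹, Y.mul_mem h2 (Y.inv_mem (hγ _)), ?_⟩), ?_⟩
      · show τ (b * (γ h')⁻¹) = b * (γ h')⁻¹
        have h5 : τ (a * (a⁻¹ * k * b) * (γ h')⁻¹) = a * (a⁻¹ * k * b) * (γ h')⁻¹ := hγ' h'
        have : b * (γ h')⁻¹ = k⁻¹ * (a * (a⁻¹ * k * b) * (γ h')⁻¹) := by group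
        have h1' : τ k = k := h1
        rw [this, map_mul, map_inv, h5, h1']
      · apply Subtype.ext
        simp [h', mul_assoc]
  rw [← Nat.card_prod, ← Nat.card_prod, e1, e2]

end Shin
end H09
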