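import Mathlib
import Cfsg.Agent.L.Jt0
import Cfsg.Agent.H04.MaxClass
import Cfsg.Agent.H04.Extraspecial
import Cfsg.Agent.H14.P24

/-!
# The Sylow 3-subgroup in a group of Janko-four type (part O5 of S5565)
-/

set_option autoImplicit false
set_option linter.unusedSectionVars false

namespace H09.TO5
open Cfsg BG Subgroup L.Jt
open scoped Pointwise

universe u
variable {G : Type u} [Group G] [Finite G]

theorem xs {p : ℕ} [Fact p.Prime] (hc : Nat.card G = p ^ 3) (hn : ¬ IsMulCommutative G) : IsExtraspecial p G := by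
  have hG : IsPGroup p G := IsPGroup.of_card hc
  have h1 : ¬ IsMulCommutative (⊤ : Subgroup G) := fun h => hn (H04.isMulCommutative_top_iff.1 h)
  obtain ⟨h2, h3⟩ := H04.center_of_card_cube (card_top.trans hc) h1
  rw [H04.inf_cent_top] at h2 h3
  refine ⟨⟨hG, ?_, h2⟩, h3⟩
  have := H04.frattini_of_card_cube (card_top.trans hc) h1
  rwa [H04.inf_cent_top, H04.frattini_map (hG.to_subgroup ⊤) _ (fun x => ⟨⟨x, trivial⟩, rfl⟩)] at this

theorem idx {H R : Subgroup G} (l : R ≤ H) (c : Nat.card R = 27) (n : ¬ 81 ∣ Nat.card H) :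
    IsPGroup 3 (R.subgroupOf H) ∧ ¬ 3 ∣ (R.subgroupOf H).index := by
  have c' : Nat.card (R.subgroupOf H) = 27 := (Nat.card_congr (subgroupOfEquivOfLe l).toEquiv).trans c
  refine ⟨IsPGroup.of_card (n := 3) (by rw [c']; norm_num), ?_⟩
  rintro ⟨k, hk⟩
  have := (R.subgroupOf H).card_mul_index
  rw [c', hk] at this
  exact n ⟨k, by rw [← this]; ring⟩

theorem inS {H R P : Subgroup G} (l : R ≤ H) (c : Nat.card R = 27) (n : ¬ 81 ∣ Nat.card H) (PH : P ≤ H) (p : IsPGroup 3 P) :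
    ∃ h ∈ H, ∀ x ∈ P, h * x * h⁻¹ ∈ R := by
  haveI : Fact (Nat.Prime 3) := ⟨by norm_num⟩
  obtain ⟨a, b⟩ := idx l c n
  obtain ⟨S, hS⟩ := (p.comap_subtype (K := H)).exists_le_sylow
  obtain ⟨h, e⟩ := MulAction.exists_smul_eq H S (a.toSylow b)
  refine ⟨h, h.2, fun x hx => ?_⟩
  have m : MulAut.conj h • (⟨x, PH hx⟩ : H) ∈ ((h • S : Sylow 3 H) : Subgroup H) :=
    smul_mem_pointwise_smul _ _ _ (hS (show (⟨x, PH hx⟩ : H) ∈ P.comap H.subtype from hx))
  rw [e] at m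
  exact m

variable {z δ : G} {θ : ↥(C_[z] ⊓ C_[δ]) →* Spor.M22}

theorem zd (t : Th z δ θ) : Commute z δ := (show δ * z = z * δ from mem_cent1.1 t.δz).symm
theorem d3 (t : Th z δ θ) : δ ^ 3 = 1 := t.δ3 ▸ pow_orderOf_eq_one δ
theorem z2 (t : Th z δ θ) : z ^ 2 = 1 := t.z2 ▸ pow_orderOf_eq_one z

theorem k3 (t : Th z δ θ) (i j : ℕ) (e : (z ^ i * δ ^ j) ^ 27 = 1) : z ^ i = 1 := by
  rw [((zd t).pow_pow i j).mul_pow, ← pow_mul δ, show j * 27 = 3 * (9 * j) by ring, pow_mul δ, d3 t, one_pow, mul_one, ← pow_mul,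
    show i * 27 = 2 * (13 * i) + i by ring, pow_add, pow_mul, z2 t, one_pow, one_mul] at e
  exact e

theorem cX (t : Th z δ θ) : Nat.card ↥(C_[z] ⊓ C_[δ]) = 6 * 443520 := by
  have m : z * δ ∈ C_[z] ⊓ C_[δ] := mul_mem ⟨mem_cent1.2 rfl, mem_cent1.2 (zd t)⟩ ⟨t.δz, mem_cent1.2 rfl⟩
  have k : θ.ker = zpowers ⟨z * δ, m⟩ := by
    apply le_antisymm
    · intro x hx
      obtain ⟨i, j, e⟩ := (t.ker x).1 hx
      refine mem_zpowers_iff.2 ⟨((3 * i + 4 * j : ℕ) : ℤ), Subtype.ext ?_⟩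
      rw [zpow_natCast, coe_pow, e]
      change (z * δ) ^ _ = _
      rw [(zd t).mul_pow]
      congr 1
      · rw [show 3 * i + 4 * j = 2 * (i + 2 * j) + i by ring, pow_add, pow_mul, z2 t, one_pow, one_mul]
      · rw [show 3 * i + 4 * j = 3 * (i + j) + j by ring, pow_add, pow_mul, d3 t, one_pow, one_mul]
    · rw [zpowers_le]
      exact (t.ker _).2 ⟨1, 1, by simp⟩
  have o : orderOf (⟨z * δ, m⟩ : ↥(C_[z] ⊓ C_[δ])) = 6 := by
    rw [← orderOf_coe]
    change orderOf (z * δ) = 6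
    rw [(zd t).orderOf_mul_eq_mul_orderOf_of_coprime (by rw [t.z2, t.δ3]; norm_num), t.z2, t.δ3]
  have a := θ.ker.card_mul_index
  rw [index_ker, MonoidHom.range_eq_top.2 t.sur, card_top, H14.card_M22, k, Nat.card_zpowers, o] at a
  exact a.symm

theorem main (t : T3 z δ θ) (m2 : M2Stmt) (m3 : M3Stmt) {R : Subgroup G} (RX : R ≤ C_[z] ⊓ C_[δ]) (c : Nat.card R = 27) :
    ¬ IsMulCommutative R ∧ (∀ y ∈ R, y ^ 3 = 1) ∧ N_(R) ≤ C_[z] ∧ Nat.card ↥(N_(R)) = 864 := by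
  haveI : Fact (Nat.Prime 3) := ⟨by norm_num⟩
  have th := t.toTh
  have n81 : ¬ 81 ∣ Nat.card ↥(C_[z] ⊓ C_[δ]) := by rw [cX th]; norm_num
  have δX : δ ∈ C_[z] ⊓ C_[δ] := ⟨t.δz, mem_cent1.2 rfl⟩
  have p3 : ∀ x : G, orderOf x = 3 → IsPGroup 3 (zpowers x) := fun x e =>
    IsPGroup.of_card (n := 1) (by rw [Nat.card_zpowers, e]; norm_num)
  have cδ : ∀ g ∈ C_[δ], g * δ * g⁻¹ = δ := fun g hg => by rw [mem_cent1.1 hg, mul_inv_cancel_right]
  have δR : δ ∈ R := by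
    obtain ⟨h, hX, e⟩ := inS RX c n81 ((zpowers_le).2 δX) (p3 δ t.δ3)
    exact cδ h hX.2 ▸ e δ (mem_zpowers δ)
  have p27 : ∀ y ∈ R, y ^ 27 = 1 := fun y hy => by
    have := pow_card_eq_one' (x := (⟨y, hy⟩ : R))
    rw [c] at this
    exact congrArg Subtype.val this
  have δ1 : δ ≠ 1 := fun e => by have := t.δ3; rw [e, orderOf_one] at this; norm_num at this
  have nc : ¬ IsMulCommutative R := by
    intro cm
    obtain ⟨-, b⟩ := idx RX c n81
    haveI : (R.subgroupOf (C_[z] ⊓ C_[δ])).FiniteIndex := ⟨fun e => b (e ▸ dvd_zero 3)⟩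
    have dc : (⟨δ, δX⟩ : ↥(C_[z] ⊓ C_[δ])) ∈ commutator ↥(C_[z] ⊓ C_[δ]) := by
      have := t.dc
      rw [← map_subtype_commutator] at this
      obtain ⟨x, hx, e⟩ := this
      exact (Subtype.ext e : x = ⟨δ, δX⟩) ▸ hx
    have a1 := MonoidHom.transfer_eq_pow (Abelianization.of : R.subgroupOf (C_[z] ⊓ C_[δ]) →* _) ⟨δ, δX⟩ fun k g _ => by
      have cg : Commute g ⟨δ, δX⟩ := Subtype.ext (mem_cent1.1 g.2.2)
      rw [mul_assoc, ← (cg.pow_right k).eq, inv_mul_cancel_left]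
    rw [MonoidHom.mem_ker.1 (Abelianization.commutator_subset_ker (MonoidHom.transfer
      (Abelianization.of : R.subgroupOf (C_[z] ⊓ C_[δ]) →* _)) dc), eq_comm, ← MonoidHom.mem_ker, Abelianization.ker_of] at a1
    have cb : commutator (R.subgroupOf (C_[z] ⊓ C_[δ])) = ⊥ := by
      rw [commutator_eq_bot_iff_center_eq_top, eq_top_iff]
      intro a _
      refine mem_center_iff.2 fun b => Subtype.ext (Subtype.ext ?_)
      have := congrArg (fun x : R => (x : G)) (cm.is_comm.comm (⟨b.1.1, b.2⟩ : R) ⟨a.1.1, a.2⟩)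
      exact this
    rw [cb, mem_bot] at a1
    have a2 : δ ^ (R.subgroupOf (C_[z] ⊓ C_[δ])).index = 1 := congrArg (fun x => x.1.1) a1
    exact b (t.δ3 ▸ orderOf_dvd_of_pow_eq_one a2)
  let f : R →* Spor.M22 := θ.comp (inclusion RX)
  have kf : f.ker = (zpowers δ).subgroupOf R := by
    ext y
    refine ⟨fun hy => ?_, fun hy => ?_⟩
    · obtain ⟨i, j, e⟩ := (t.ker _).1 hy
      have e' : (y : G) = z ^ i * δ ^ j := e
      rw [k3 th i j (e' ▸ p27 y y.2), one_mul] at e'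
      exact mem_subgroupOf.2 (e' ▸ pow_mem (mem_zpowers δ) j)
    · obtain ⟨j, e⟩ := (mem_powers_iff_mem_zpowers.2 (mem_subgroupOf.1 hy) : (y : G) ∈ Submonoid.powers δ)
      exact (t.ker _).2 ⟨0, j, by rw [pow_zero, one_mul]; exact e.symm⟩
  have ck : Nat.card ((zpowers δ).subgroupOf R) = 3 := by
    rw [Nat.card_congr (subgroupOfEquivOfLe ((zpowers_le).2 δR)).toEquiv, Nat.card_zpowers, t.δ3]
  have kc : (zpowers δ).subgroupOf R ≤ center R := fun y hy => mem_center_iff.2 fun r => Subtype.ext (by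
    obtain ⟨j, e⟩ := mem_zpowers_iff.1 (mem_subgroupOf.1 hy)
    have cr : Commute (r : G) δ := mem_cent1.1 (RX r.2).2
    change (r : G) * y = y * r
    rw [← e]; exact (cr.zpow_right j).eq)
  have cr : Nat.card f.range = 9 := by
    have := f.ker.card_mul_index
    rw [index_ker, kf, ck, c] at this
    omega
  have es : IsExtraspecial 3 R := xs (by rw [c]; norm_num) nc
  have zc : (zpowers δ).subgroupOf R = center R := eq_of_le_of_card_ge kc (by rw [ck, es.2])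
  have nδ : ∀ n ∈ N_(R), n * δ * n⁻¹ ∈ zpowers δ := by
    intro n hn
    have a : n * δ * n⁻¹ ∈ R := (mem_normalizer_iff.1 hn δ).1 δR
    refine mem_subgroupOf.1 (zc.ge (show (⟨_, a⟩ : R) ∈ center R from mem_center_iff.2 fun r => Subtype.ext ?_))
    have b : n⁻¹ * r * n⁻¹⁻¹ ∈ R := (mem_normalizer_iff.1 (inv_mem hn) r).1 r.2
    have e : n⁻¹ * r * n⁻¹⁻¹ * δ = δ * (n⁻¹ * r * n⁻¹⁻¹) := mem_cent1.1 (RX b).2
    change r * (n * δ * n⁻¹) = n * δ * n⁻¹ * r
    calc _ = n * (n⁻¹ * r * n⁻¹⁻¹ * δ) * n⁻¹ := by group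
      _ = _ := by rw [e]; group
  have NH : N_(R) ≤ C_[z] := fun n hn => t.nH n (nδ n hn)
  have o3 : ∀ y : R, f y ≠ 1 → orderOf (f y) = 3 := by
    intro y n
    have a : orderOf (⟨f y, y, rfl⟩ : f.range) ∣ 3 ^ 2 := by rw [show 3 ^ 2 = 9 from rfl, ← cr]; exact orderOf_dvd_natCard _
    obtain ⟨k, l, e⟩ := (Nat.dvd_prime_pow (by norm_num)).1 a
    interval_cases k
    · exact absurd (congrArg Subtype.val (orderOf_eq_one_iff.1 e)) n
    · rw [← orderOf_coe] at e; exact e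
    · exfalso
      haveI : IsCyclic f.range := isCyclic_of_orderOf_eq_card _ (by rw [e, cr]; norm_num)
      exact nc ⟨⟨commutative_of_cyclic_center_quotient f.rangeRestrict (by rw [MonoidHom.ker_rangeRestrict, kf]; exact kc)⟩⟩
  have e3 : ∀ y ∈ R, y ^ 3 = 1 := by
    obtain ⟨x, xH, cx, nx⟩ := t.fu
    have ox : orderOf x = 3 := by
      obtain ⟨g, rfl⟩ := isConj_iff.1 cx
      rw [← t.δ3]; exact (MulAut.conj g).orderOf_eq δ
    obtain ⟨h, hH, e⟩ := inS (RX.trans inf_le_left) c t.c81 ((zpowers_le).2 xH) (p3 x ox)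
    have xR := e x (mem_zpowers x)
    have x3 : (h * x * h⁻¹) ^ 3 = 1 := by rw [conj_pow, ← ox, pow_orderOf_eq_one]; group
    intro y hy
    by_cases k : f ⟨y, hy⟩ = 1
    · obtain ⟨j, e⟩ := mem_zpowers_iff.1 (mem_subgroupOf.1 (kf.le k))
      have e' : δ ^ j = y := e
      rw [← e', ← zpow_natCast, ← zpow_mul, mul_comm, zpow_mul, zpow_natCast, d3 th, one_zpow]
    obtain ⟨g, eg⟩ := isConj_iff.1 (m2 _ _ (o3 ⟨_, xR⟩ fun a => nx h hH (mem_subgroupOf.1 (kf.le a))) (o3 _ k))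
    obtain ⟨g, rfl⟩ := t.sur g
    obtain ⟨i, j, e⟩ := (t.ker ((g * ⟨_, RX xR⟩ * g⁻¹)⁻¹ * ⟨y, RX hy⟩)).1 (by
      rw [map_mul, map_inv, map_mul, map_mul, map_inv]
      exact inv_mul_eq_one.2 eg)
    have w := (g * ⟨_, RX xR⟩ * g⁻¹).2
    have w3 : ((g * ⟨_, RX xR⟩ * g⁻¹ : ↥(C_[z] ⊓ C_[δ])) : G) ^ 3 = 1 := by
      change (g * (h * x * h⁻¹) * (g : G)⁻¹) ^ 3 = 1
      rw [conj_pow, x3]; group
    have ey : y = ((g * ⟨_, RX xR⟩ * g⁻¹ : ↥(C_[z] ⊓ C_[δ])) : G) * (z ^ i * δ ^ j) := by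
      rw [← e]; change y = _ * (_⁻¹ * y); rw [mul_inv_cancel_left]
    generalize ((g * ⟨_, RX xR⟩ * g⁻¹ : ↥(C_[z] ⊓ C_[δ])) : G) = w' at w w3 ey
    have cw : Commute w' (z ^ i * δ ^ j) :=
      ((show Commute w' z from mem_cent1.1 w.1).pow_right i).mul_right ((show Commute w' δ from mem_cent1.1 w.2).pow_right j)
    have y27 := p27 y hy
    rw [ey, cw.mul_pow, show 27 = 3 * 9 from rfl, pow_mul w', w3, one_pow, one_mul] at y27
    rw [ey, cw.mul_pow, w3, one_mul, k3 th i j y27, one_mul, ← pow_mul, mul_comm, pow_mul, d3 th, one_pow]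
  refine ⟨nc, e3, NH, ?_⟩
  have pS : IsPGroup 3 f.range := IsPGroup.of_card (n := 2) (by rw [cr]; norm_num)
  have iS : ¬ 3 ∣ f.range.index := by
    have := f.range.card_mul_index
    rw [cr, H14.card_M22] at this
    omega
  have c72 : Nat.card ↥(N_(f.range)) = 72 := m3 (pS.toSylow iS)
  have eN : (N_(R) ⊓ C_[δ]).subgroupOf (C_[z] ⊓ C_[δ]) = (N_(f.range)).comap θ := by
    ext g
    constructor
    · rintro ⟨a, -⟩
      refine mem_normalizer_fintype ?_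
      rintro _ ⟨r, rfl⟩
      exact ⟨⟨_, (mem_normalizer_iff.1 a r).1 r.2⟩, by
        have : θ (g * ⟨r, RX r.2⟩ * g⁻¹) = θ g * θ ⟨r, RX r.2⟩ * (θ g)⁻¹ := by rw [map_mul, map_mul, map_inv]
        exact this⟩
    · intro a
      refine ⟨mem_normalizer_fintype fun r hr => ?_, g.2.2⟩
      obtain ⟨r', e⟩ := (mem_normalizer_iff.1 (mem_comap.1 a) (f ⟨r, hr⟩)).1 ⟨_, rfl⟩
      obtain ⟨i, j, e2⟩ := (t.ker ((⟨r', RX r'.2⟩ : ↥(C_[z] ⊓ C_[δ]))⁻¹ * (g * ⟨r, RX hr⟩ * g⁻¹))).1 (by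
        rw [map_mul, map_inv, map_mul, map_mul, map_inv]
        exact inv_mul_eq_one.2 e)
      have ey : (g : G) * r * (g : G)⁻¹ = r' * (z ^ i * δ ^ j) := by
        rw [← e2]; change _ = _ * ((r' : G)⁻¹ * _); rw [mul_inv_cancel_left]; rfl
      have cw : Commute (r' : G) (z ^ i * δ ^ j) :=
        ((show Commute (r' : G) z from mem_cent1.1 (RX r'.2).1).pow_right i).mul_right
          ((show Commute (r' : G) δ from mem_cent1.1 (RX r'.2).2).pow_right j)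
      have y27 : ((g : G) * r * (g : G)⁻¹) ^ 27 = 1 := by rw [conj_pow, p27 r hr]; group
      rw [ey, cw.mul_pow, p27 _ r'.2, one_mul] at y27
      change (g : G) * r * (g : G)⁻¹ ∈ R
      rw [ey, k3 th i j y27, one_mul]
      exact mul_mem r'.2 (pow_mem δR j)
  have c432 : Nat.card ↥(N_(R) ⊓ C_[δ]) = 432 := by
    have l : N_(R) ⊓ C_[δ] ≤ C_[z] ⊓ C_[δ] := inf_le_inf_right _ NH
    have a := ((N_(R) ⊓ C_[δ]).subgroupOf (C_[z] ⊓ C_[δ])).card_mul_index
    have b := (N_(f.range)).card_mul_index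
    rw [Nat.card_congr (subgroupOfEquivOfLe l).toEquiv, eN, index_comap_of_surjective _ t.sur, cX th] at a
    rw [c72, H14.card_M22] at b
    have : (N_(f.range)).index = 6160 := by omega
    rw [this] at a
    omega
  obtain ⟨g, gH, eg⟩ := t.inv
  have ne : δ⁻¹ ≠ δ := fun e => δ1 (by
    have := d3 th
    rw [pow_succ, pow_two] at this
    nth_rewrite 1 [← e] at this
    simpa using this)
  have gX : R.map (MulAut.conj g).toMonoidHom ≤ C_[z] ⊓ C_[δ] := by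
    rintro _ ⟨r, hr, rfl⟩
    refine ⟨(C_[z]).mul_mem ((C_[z]).mul_mem gH (RX hr).1) ((C_[z]).inv_mem gH), mem_cent1.2 ?_⟩
    have a : Commute r δ := mem_cent1.1 (RX hr).2
    have b : δ = g * δ⁻¹ * g⁻¹ := by rw [← conj_inv, eg, inv_inv]
    change g * r * g⁻¹ * δ = δ * (g * r * g⁻¹)
    rw [b]
    calc _ = g * (r * δ⁻¹) * g⁻¹ := by group
      _ = _ := by rw [a.inv_right.eq]; group
  obtain ⟨h, hX, eh⟩ := inS RX c n81 gX ((IsPGroup.of_card (n := 3) (by rw [c]; norm_num) : IsPGroup 3 R).map _)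
  have aN : h * g ∈ N_(R) := mem_normalizer_fintype fun r hr => by
    have := eh _ ⟨r, hr, rfl⟩
    change h * (g * r * g⁻¹) * h⁻¹ ∈ R at this
    rwa [show h * (g * r * g⁻¹) * h⁻¹ = h * g * r * (h * g)⁻¹ by group] at this
  have ea : h * g * δ * (h * g)⁻¹ = δ⁻¹ := by
    rw [show h * g * δ * (h * g)⁻¹ = h * (g * δ * g⁻¹) * h⁻¹ by group, eg, ← conj_inv, cδ h hX.2]
  have two : (N_(R) ⊓ C_[δ]).relIndex N_(R) = 2 := by
    rw [relIndex_eq_two_iff]
    refine ⟨h * g, aN, fun b hb => ?_⟩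
    have eb : b * (h * g) * δ * (b * (h * g))⁻¹ = (b * δ * b⁻¹)⁻¹ := by
      rw [show b * (h * g) * δ * (b * (h * g))⁻¹ = b * (h * g * δ * (h * g)⁻¹) * b⁻¹ by group, ea]; group
    by_cases k : b ∈ C_[δ]
    · refine Or.inr ⟨⟨hb, k⟩, fun a => ne ?_⟩
      have := cδ _ a.2
      rwa [eb, cδ b k] at this
    · refine Or.inl ⟨⟨mul_mem hb aN, mem_cent1.2 ?_⟩, fun a => k a.2⟩
      obtain ⟨j, e⟩ := (mem_powers_iff_mem_zpowers.2 (nδ b hb) : _ ∈ Submonoid.powers δ)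
      have e' : δ ^ (j % 3) = b * δ * b⁻¹ := by rw [← t.δ3, pow_mod_orderOf]; exact e
      have l := Nat.mod_lt j (show 0 < 3 by norm_num)
      rw [← mul_inv_eq_iff_eq_mul, eb, ← e']
      generalize j % 3 = n at e' l
      interval_cases n
      · exact absurd (by simpa using e'.symm) δ1
      · exact absurd (mem_cent1.2 (mul_inv_eq_iff_eq_mul.1 (by simpa using e'.symm))) k
      · rw [inv_eq_iff_mul_eq_one, ← pow_succ, d3 th]
  have a := ((N_(R) ⊓ C_[δ]).subgroupOf N_(R)).card_mul_index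
  rw [Nat.card_congr (subgroupOfEquivOfLe inf_le_left).toEquiv, c432, show ((N_(R) ⊓ C_[δ]).subgroupOf N_(R)).index = 2 from two] at a
  omega

/-- part O5 of the cluster on the 3-local structure -/
theorem o5 : O5Stmt.{u} := by
  intro G _ _ z δ θ t m2 m3 R RH
  haveI : Fact (Nat.Prime 3) := ⟨by norm_num⟩
  obtain ⟨S, cS⟩ := Sylow.exists_subgroup_card_pow_prime (G := ↥(C_[z] ⊓ C_[δ])) 3 (n := 3) (by rw [cX t.toTh]; norm_num)
  have c0 : Nat.card (S.map (C_[z] ⊓ C_[δ]).subtype) = 27 := by rw [card_subtype, cS]; norm_num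
  have l0 : S.map (C_[z] ⊓ C_[δ]).subtype ≤ C_[z] ⊓ C_[δ] := map_subtype_le _
  generalize S.map (C_[z] ⊓ C_[δ]).subtype = R0 at c0 l0
  obtain ⟨nc, e3, NH, cN⟩ := main t m2 m3 l0 c0
  obtain ⟨h, hH, e⟩ := inS (l0.trans inf_le_left) c0 t.c81 RH R.2
  have l : (R : Subgroup G).map (MulAut.conj h).toMonoidHom ≤ R0 := by rintro _ ⟨r, hr, rfl⟩; exact e r hr
  have eq : R0 = (R : Subgroup G).map (MulAut.conj h).toMonoidHom :=
    (h • R : Sylow 3 G).3 (IsPGroup.of_card (n := 3) (by rw [c0]; norm_num)) l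
  have inj : Function.Injective (MulAut.conj h).toMonoidHom := (MulAut.conj h).injective
  let ε := (R : Subgroup G).equivMapOfInjective _ inj
  have c : Nat.card (R : Subgroup G) = 27 := by rw [Nat.card_congr ε.toEquiv, ← eq, c0]
  have nc' : ¬ IsMulCommutative (R : Subgroup G) := fun cm => nc (eq ▸ ⟨⟨fun a b => by
    obtain ⟨a, rfl⟩ := ε.surjective a
    obtain ⟨b, rfl⟩ := ε.surjective b
    rw [← map_mul, ← map_mul, cm.is_comm.comm]⟩⟩)
  have eN : N_(R0) = (N_((R : Subgroup G))).map (MulAut.conj h).toMonoidHom := by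
    rw [eq]; exact (map_equiv_normalizer_eq _ _).symm
  refine ⟨xs (by rw [c]; norm_num) nc', c, ?_, fun n hn => ?_, ?_⟩
  · haveI : Nontrivial (R : Subgroup G) := Finite.one_lt_card_iff_nontrivial.1 (by rw [c]; norm_num)
    refine (Monoid.exponent_eq_prime_iff (by norm_num)).2 fun g g1 => orderOf_eq_prime (Subtype.ext ?_) g1
    have := e3 _ (e g g.2)
    rw [conj_pow] at this
    simpa using this
  · have := NH (eN.ge ⟨n, hn, rfl⟩)
    have a := mul_mem (mul_mem (inv_mem hH) this) hH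
    simpa [mul_assoc] using a
  · rw [← cN, eN]
    exact Nat.card_congr ((N_((R : Subgroup G))).equivMapOfInjective _ inj).toEquiv

end H09.TO5
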