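import Mathlib
import Cfsg.Agent.H10.AsAlg
import Cfsg.Agent.H09.GLStab
/-! Tensor-wreath subgroups: basic calculus. -/
namespace H09.Wr
open Matrix H10.As Module
variable {τ κ ι : Type} [Fintype τ] [DecidableEq τ] [Fintype κ] [DecidableEq κ] [Fintype ι] [DecidableEq ι] {F : Type*} [Field F]

section lin
variable {u v φ ψ : κ → F} {a b : Matrix κ κ F}
theorem ex2 (h : u ∉ F ∙ v) : ∃ φ : κ → F, φ ⬝ᵥ u = 1 ∧ φ ⬝ᵥ v = 0 :=
  let ⟨φ, a, b⟩ := exists_dot_eq_one h; ⟨φ, a, b v (Submodule.mem_span_singleton_self v)⟩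
theorem ex1 (h : u ≠ 0) : ∃ φ : κ → F, φ ⬝ᵥ u = 1 := let ⟨φ, a, _⟩ := ex2 (v := 0) (by simpa); ⟨φ, a⟩
theorem ex3 (hk : 3 ≤ Fintype.card κ) (u v : κ → F) : ∃ φ : κ → F, φ ≠ 0 ∧ φ ⬝ᵥ u = 0 ∧ φ ⬝ᵥ v = 0 := by
  obtain ⟨y, a, b⟩ := (Submodule.ne_bot_iff _).1 (LinearMap.ker_ne_bot_of_finrank_lt
    (f := (dotProductBilin F F u).prod (dotProductBilin F F v)) (by simp; omega))
  exact ⟨y, b, by simpa [dotProduct_comm] using a⟩
theorem nsym (h : u ∉ F ∙ v) (h0 : v ≠ 0) : v ∉ F ∙ u := fun m => by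
  obtain ⟨c, rfl⟩ := Submodule.mem_span_singleton.1 m
  exact h (Submodule.mem_span_singleton.2 ⟨c⁻¹, inv_smul_smul₀ (by rintro rfl; simp at h0) _⟩)
theorem ex4 (hk : 3 ≤ Fintype.card κ) (φ : κ → F) (h : u ≠ 0) : ∃ b, φ ⬝ᵥ b = 0 ∧ b ∉ F ∙ u := by
  obtain ⟨ψ, e⟩ := ex1 h
  obtain ⟨b, b0, b1, b2⟩ := ex3 hk φ ψ
  refine ⟨b, by rwa [dotProduct_comm], fun m => ?_⟩
  obtain ⟨c, rfl⟩ := Submodule.mem_span_singleton.1 m
  rw [dotProduct_comm] at b2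
  simp_all

/-- non-zero nilpotent of rank one -/
def RK (a : Matrix κ κ F) : Prop := ∃ u φ : κ → F, u ≠ 0 ∧ φ ≠ 0 ∧ φ ⬝ᵥ u = 0 ∧ a = vecMulVec u φ
theorem RK.sq (h : RK a) : a * a = 0 := by obtain ⟨u, φ, -, -, h, rfl⟩ := h; simp [vecMulVec_mul_vecMulVec, h]
theorem RK.ne (h : RK a) : a ≠ 0 := by obtain ⟨u, φ, h1, h2, -, rfl⟩ := h; simp [h1, h2]
theorem RK.cj (h : RK a) (g : GL κ F) : RK (cj g a) := by
  obtain ⟨u, φ, h1, h2, h, rfl⟩ := h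
  refine ⟨g.1 *ᵥ u, φ ᵥ* (g⁻¹).1, by rwa [Ne, gl_mulVec_eq_zero], fun e => h2 ?_, by rw [← dotProduct_mulVec, inv_mulVec_mulVec, h],
    by rw [cj_apply, mul_vecMulVec, vecMulVec_mul]⟩
  simpa using congrArg (· ᵥ* g.1) e
theorem RK.smul (h : RK a) {c : F} (c0 : c ≠ 0) : RK (c • a) :=
  let ⟨u, φ, h1, h2, h, e⟩ := h; ⟨c • u, φ, smul_ne_zero c0 h1, h2, by simp [h], by simp [e]⟩
theorem rk_single {r s : κ} (h : r ≠ s) : RK (single r s (1 : F)) :=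
  ⟨Pi.single r 1, Pi.single s 1, by simp, by simp, by simp [h.symm], single_eq_single_vecMulVec_single r s⟩
theorem RK.not_sc (h : RK a) : ¬ Sc a := by
  rintro ⟨c, rfl⟩
  have := h.sq
  rw [smul_mul_smul, mul_one] at this
  exact h.ne (by rw [show c = 0 from by_contra fun c0 => h.ne (by rw [← inv_smul_smul₀ c0 (c • 1), smul_smul c, this, smul_zero]), zero_smul])
/-- the transvection -/
def tv (a : Matrix ι ι F) (h : a * a = 0) : GL ι F := ⟨1 + a, 1 - a, by simp [mul_sub, add_mul, h], by simp [mul_add, sub_mul, h]⟩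
theorem cj_tv {a : Matrix ι ι F} (h : a * a = 0) (b) : cj (tv a h) b = (1 + a) * b * (1 - a) := rfl
theorem RK.det (h : RK a) : det (tv a h.sq).1 = 1 := by
  obtain ⟨u, φ, -, -, h', rfl⟩ := id h
  exact (det_one_add_vecMulVec u φ).trans (by simp [h'])

theorem rk_conn (hk : 3 ≤ Fintype.card κ) {P : (κ → F) → (κ → F) → Prop}
    (r : ∀ u φ ψ, u ≠ 0 → φ ≠ 0 → φ ⬝ᵥ u = 0 → ψ ⬝ᵥ u = 0 → ψ ∉ F ∙ φ → P u φ → P u ψ)
    (c : ∀ u v φ, u ≠ 0 → φ ≠ 0 → φ ⬝ᵥ u = 0 → φ ⬝ᵥ v = 0 → v ∉ F ∙ u → P u φ → P v φ)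
    (h1 : u ≠ 0) (h2 : φ ≠ 0) (h3 : φ ⬝ᵥ u = 0) (h4 : v ≠ 0) (h5 : ψ ≠ 0) (h6 : ψ ⬝ᵥ v = 0) (h : P u φ) : P v ψ := by
  have n : ∀ {u v : κ → F}, u ∉ F ∙ v → u ≠ 0 := by rintro _ _ h rfl; simp at h
  have m : ∀ {u v w : κ → F}, u ∉ F ∙ v → w ∈ F ∙ v → u ∉ F ∙ w := fun h h' m => h ((Submodule.span_singleton_le_iff_mem _ _).2 h' m)
  have r' : ∀ u φ ψ, u ≠ 0 → φ ≠ 0 → φ ⬝ᵥ u = 0 → ψ ⬝ᵥ u = 0 → ψ ≠ 0 → P u φ → P u ψ := fun u φ ψ a b c d e h => by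
    by_cases f : ψ ∈ F ∙ φ
    · obtain ⟨χ, g, g'⟩ := ex4 hk u b
      rw [dotProduct_comm] at g
      exact r u χ ψ a (n g') g d (nsym (m g' f) e) (r u φ χ a b c g g' h)
    · exact r u φ ψ a b c d f h
  have c' : ∀ u v φ, u ≠ 0 → φ ≠ 0 → φ ⬝ᵥ u = 0 → φ ⬝ᵥ v = 0 → v ≠ 0 → P u φ → P v φ := fun u v φ a b c' d e h => by
    by_cases f : v ∈ F ∙ u
    · obtain ⟨χ, g, g'⟩ := ex4 hk φ a
      exact c χ v φ (n g') b g d (nsym (m g' f) e) (c u χ φ a b c' g g' h)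
    · exact c u v φ a b c' d f h
  obtain ⟨w, w0, w1, w2⟩ := ex3 hk φ ψ
  rw [dotProduct_comm] at w1 w2
  exact c' w v ψ w0 h5 w2 h6 h4 (r' w φ ψ w0 h2 w1 w2 h5 (c' u w φ h1 h2 h3 w1 w0 h))

theorem rk_conj (hk : 3 ≤ Fintype.card κ) (h : RK a) (h' : RK b) : ∃ d : GL κ F, det d.1 = 1 ∧ cj d a = b := by
  obtain ⟨u, φ, h1, h2, h3, rfl⟩ := h
  obtain ⟨v, ψ, h4, h5, h6, rfl⟩ := h'
  have e : ∀ {u v : κ → F}, u ≠ 0 → v ∉ F ∙ u → ∃ w : κ → F, w ⬝ᵥ u = 1 ∧ w ⬝ᵥ v = 1 := fun h h' =>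
    let ⟨w, a, b⟩ := ex2 h'; let ⟨w', a', b'⟩ := ex2 (nsym h' h); ⟨w + w', by simp [*], by simp [*]⟩
  refine rk_conn hk (P := fun v ψ => ∃ d : GL κ F, det d.1 = 1 ∧ cj d (vecMulVec u φ) = vecMulVec v ψ) ?_ ?_ h1 h2 h3 h4 h5 h6 ⟨1, by simp, by simp⟩
  · rintro u φ ψ - b c d f ⟨g, g1, g2⟩
    obtain ⟨w, w1, w2⟩ := e b f
    rw [dotProduct_comm] at w1 w2
    refine ⟨glTv w (φ - ψ) (by simp [*]) * g, by simp [g1, det_one_add_vecMulVec, w1, w2], ?_⟩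
    rw [cj_mul, g2, cj_eq_iff]
    simp [add_mul, mul_add, vecMulVec_mul_vecMulVec, c, d, w2, ← vecMulVec_add]
  · rintro u v φ a - c d f ⟨g, g1, g2⟩
    obtain ⟨w, w1, w2⟩ := e a f
    refine ⟨glTv (v - u) w (by simp [*]) * g, by simp [g1, det_one_add_vecMulVec, w1, w2], ?_⟩
    rw [cj_mul, g2, cj_eq_iff]
    simp [add_mul, mul_add, vecMulVec_mul_vecMulVec, c, d, w1, ← add_vecMulVec]
end lin

local notation "𝒜" => Matrix (τ → κ) (τ → κ) F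
variable {i j : τ} {β γ X Y : Matrix (τ → κ) (τ → κ) F} {g x y z : GL (τ → κ) F} {π π' : Equiv.Perm τ} {u v w φ ψ : κ → F}

/-- commuting with a factor -/
def Cm (i : τ) (β : 𝒜) : Prop := ∀ a, Commute β (pi1 i a)
theorem cm_pi1 (h : j ≠ i) (b : Matrix κ κ F) : Cm i (pi1 j b) := fun a => (Pi.mulSingle_commute (f := fun _ => Matrix κ κ F) h b a).map pt
theorem Cm.mul (h : Cm i β) (h' : Cm i γ) : Cm i (β * γ) := fun a => (h a).mul_left (h' a)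
theorem Cm.sub (h : Cm i β) (h' : Cm i γ) : Cm i (β - γ) := fun a => (h a).sub_left (h' a)
theorem Cm.add (h : Cm i β) (h' : Cm i γ) : Cm i (β + γ) := fun a => (h a).add_left (h' a)
theorem cm_sc (h : Sc β) (i : τ) : Cm i β := fun _ => h.comm _
theorem sc_of_cm (h : ∀ i, Cm i β) : Sc β := sc_of_pi1 h
theorem cm_pt {A : τ → Matrix κ κ F} (h : A i = 1) : Cm i (pt A) := fun a => Commute.map (funext fun j => by
  by_cases e : j = i <;> simp [e, h]) pt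
theorem pt_mul_pi1 (A : τ → Matrix κ κ F) (h : A i = 1) (a) : pt A * pi1 i a = pt (Function.update A i a) := by
  rw [pi1_apply, ← map_mul]; congr 1; funext j; by_cases e : j = i <;> simp [e, h]
theorem pi1_inj [Nonempty κ] (i : τ) : Function.Injective (pi1 i : Matrix κ κ F → 𝒜) := hom_injective _
theorem Cm.sc [Nonempty κ] {a : Matrix κ κ F} (h : Cm i (pi1 i a)) : Sc a := sc_of_comm fun b => pi1_inj i (by simpa using (h b).eq)

/-- rank one elements of a factor -/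
def VV (i : τ) (u φ : κ → F) : 𝒜 := pi1 i (vecMulVec u φ)
theorem VV_mul (u φ v ψ : κ → F) : VV i u φ * VV i v ψ = (φ ⬝ᵥ v) • VV i u ψ := by simp [VV, ← map_mul, vecMulVec_mul_vecMulVec]
theorem VV_mul' (u φ v ψ : κ → F) (X : 𝒜) : VV i u φ * (VV i v ψ * X) = (φ ⬝ᵥ v) • (VV i u ψ * X) := by rw [← mul_assoc, VV_mul, smul_mul_assoc]
theorem sum_VV (i : τ) : ∑ l, VV i (Pi.single l 1) (Pi.single l 1) = (1 : 𝒜) := by
  simp [VV, ← map_sum, ← single_eq_single_vecMulVec_single, sum_single_one]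
theorem pi1_VV (a : Matrix κ κ F) (u φ) : pi1 i a * VV i u φ = VV i (a *ᵥ u) φ := by simp [VV, ← map_mul, mul_vecMulVec]
theorem VV_pi1 (a : Matrix κ κ F) (u φ) : VV i u φ * pi1 i a = VV i u (φ ᵥ* a) := by simp [VV, ← map_mul, vecMulVec_mul]
theorem sum_smul_VV (u φ : κ → F) : ∑ l, u l • VV i (Pi.single l 1) φ = VV i u φ := by
  simp only [VV, ← map_smul, ← map_sum]; congr 1; ext; simp [Matrix.sum_apply, vecMulVec_apply, Pi.single_apply]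
theorem sum_smul_VV' (u φ : κ → F) : ∑ l, φ l • VV i u (Pi.single l 1) = VV i u φ := by
  simp only [VV, ← map_smul, ← map_sum]; congr 1; ext; simp [Matrix.sum_apply, vecMulVec_apply, Pi.single_apply, mul_comm]
/-- entries with respect to a factor -/
def ent (i : τ) (φ u : κ → F) (β : 𝒜) : 𝒜 := ∑ l, VV i (Pi.single l 1) φ * β * VV i u (Pi.single l 1)
theorem VV_ent (w ψ φ u : κ → F) (β : 𝒜) : VV i w ψ * ent i φ u β = VV i w φ * β * VV i u ψ := by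
  simp only [ent, Finset.mul_sum, mul_assoc, VV_mul', dotProduct_single, mul_one]
  simp only [← mul_smul_comm, ← Finset.mul_sum, sum_smul_VV']
theorem ent_VV (w ψ φ u : κ → F) (β : 𝒜) : ent i φ u β * VV i w ψ = VV i w φ * β * VV i u ψ := by
  simp only [ent, Finset.sum_mul, mul_assoc, VV_mul, single_dotProduct, one_mul, mul_smul_comm]
  simp only [← smul_mul_assoc, ← Finset.sum_mul, sum_smul_VV]
theorem cm_of_VV (h : ∀ r s, Commute β (VV i (Pi.single r 1) (Pi.single s 1))) : Cm i β := fun a => by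
  rw [matrix_eq_sum_single a]
  simp only [map_sum]
  refine Commute.sum_right _ _ _ fun r _ => Commute.sum_right _ _ _ fun s _ => ?_
  rw [show single r s (a r s) = a r s • single r s (1 : F) by simp, map_smul, single_eq_single_vecMulVec_single]
  exact (h r s).smul_right _
theorem cm_ent (φ u : κ → F) (β : 𝒜) : Cm i (ent i φ u β) := cm_of_VV fun _ _ => (ent_VV ..).trans (VV_ent ..).symm
theorem Cm.ent (h : Cm j β) (e : i ≠ j) (φ u : κ → F) : Cm j (ent i φ u β) := fun a =>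
  Commute.sum_left _ _ _ fun _ _ => ((cm_pi1 e _).mul h).mul (cm_pi1 e _) a
theorem Cm.ent_eq (h : Cm i β) (φ u : κ → F) : Wr.ent i φ u β = (φ ⬝ᵥ u) • β := by
  simp only [Wr.ent, VV, ← (h _).eq, mul_assoc]
  simp only [← VV.eq_1, VV_mul, mul_smul_comm, ← Finset.smul_sum, ← Finset.mul_sum, sum_VV, mul_one]
theorem eq_sum_ent (i : τ) (β : 𝒜) :
    β = ∑ r, ∑ s, VV i (Pi.single r 1) (Pi.single s 1) * ent i (Pi.single r 1) (Pi.single s 1) β := by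
  simp only [VV_ent, ← Finset.mul_sum, ← Finset.sum_mul, sum_VV, mul_one, one_mul]
theorem Cm.eq_zero (h : Cm i β) {a : Matrix κ κ F} (a0 : a ≠ 0) (e : pi1 i a * β = 0) : β = 0 := by
  obtain ⟨r, s, h0⟩ : ∃ r s, a r s ≠ 0 := by by_contra! h; exact a0 (ext h)
  have := congrArg (Wr.ent i (Pi.single r 1) (Pi.single s 1)) e
  simp only [Wr.ent, ← mul_assoc, VV_pi1, mul_zero, zero_mul, Finset.sum_const_zero] at this
  simpa [h0] using (h.ent_eq _ _).symm.trans this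
theorem Cm.sc_of (h : Cm i β) {a b : Matrix κ κ F} (a0 : a ≠ 0) (e : pi1 i a * β = pi1 i b) : Sc β := sc_of_cm fun j => by
  by_cases c : j = i
  · exact c ▸ h
  refine fun d => sub_eq_zero.1 (Cm.eq_zero ((h.mul (cm_pi1 c d)).sub ((cm_pi1 c d).mul h)) a0 ?_)
  rw [mul_sub, ← mul_assoc, ← mul_assoc, e, ← (cm_pi1 c d a).eq, mul_assoc, e, (cm_pi1 c d b).eq, sub_self]

/-- a factor element -/
def piU (i : τ) : GL κ F →* GL (τ → κ) F := Units.map (pi1 (F := F) (κ := κ) i : Matrix κ κ F →* 𝒜)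
theorem piU_val (d : GL κ F) : (piU i d).1 = pi1 i d.1 := rfl
theorem cj_piU (d : GL κ F) (a) : cj (piU i d) (pi1 i a) = pi1 i (cj d a) := by simp [cj_apply, piU, ← map_mul]
theorem Cm.cj_piU (h : Cm i β) (d : GL κ F) : cj (piU i d) β = β := cj_eq_iff.2 (h _).eq.symm

/-- `g` carries factor `i` to factor `j` -/
def Mp (g : GL (τ → κ) F) (i j : τ) : Prop := ∀ a, ∃ b, cj g (pi1 i a) = pi1 j b
theorem Mp.sn [Nonempty κ] (h : Mp g i j) : ∃ d : GL κ F, ∀ a, cj g (pi1 i a) = pi1 j (cj d a) := H10.As.sn (φ := (cj g).toAlgHom.comp (pi1 i)) h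
theorem Mp.inv [Nonempty κ] (h : Mp g i j) : Mp g⁻¹ j i := fun b =>
  let ⟨d, e⟩ := h.sn; ⟨cj d⁻¹ b, by rw [← cj_cj_inv d b, ← e, cj_inv_cj, cj_inv_cj]⟩
theorem Mp.mul {l} (h : Mp g j l) (h' : Mp x i j) : Mp (g * x) i l := fun a =>
  let ⟨b, e⟩ := h' a; let ⟨c, e'⟩ := h b; ⟨c, by rw [cj_mul, e, e']⟩
theorem Cm.mp (h : Cm i g.1) : Mp g i i := fun a => ⟨a, cj_eq_iff.2 (h a)⟩
theorem mp_piU (d : GL κ F) (j : τ) : Mp (piU i d) j j := fun a => by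
  by_cases e : j = i
  · subst e; exact ⟨_, cj_piU d a⟩
  · exact ⟨_, (cm_pi1 e a).cj_piU d⟩
theorem Mp.uniq [Nontrivial κ] {l} (h : Mp g i j) (h' : Mp g i l) : j = l := by_contra fun e => by
  obtain ⟨r, s, n⟩ := exists_pair_ne κ
  obtain ⟨b, e1⟩ := h'.mul h.inv (single r s 1)
  rw [mul_inv_cancel, cj_one] at e1
  exact (rk_single n).not_sc (Cm.sc (e1 ▸ cm_pi1 (Ne.symm e) b))
theorem Mp.cm [Nonempty κ] (h : Mp g i j) (e : Cm i β) : Cm j (cj g β) := fun b => by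
  obtain ⟨a, e'⟩ := h.inv b
  rw [← cj_cj_inv g (pi1 j b), e']
  exact (e a).map (cj g)
variable (τ κ F) in
/-- the tensor-wreath group -/
def HH [Nontrivial κ] : Subgroup (GL (τ → κ) F) where
  carrier := {g | ∀ i, ∃ j, Mp g i j}
  one_mem' i := ⟨i, fun a => ⟨a, cj_one _⟩⟩
  mul_mem' h h' i := let ⟨j, e⟩ := h' i; let ⟨l, e'⟩ := h j; ⟨l, e'.mul e⟩
  inv_mem' {g} h j := by
    choose f hf using h
    obtain ⟨i, rfl⟩ := (Finite.injective_iff_surjective.1 fun i l e => (hf i).inv.uniq (e ▸ (hf l).inv) : Function.Surjective f) j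
    exact ⟨i, (hf i).inv⟩
theorem HH_perm [Nontrivial κ] (h : g ∈ HH τ κ F) : ∃ π : Equiv.Perm τ, ∀ i, Mp g i (π i) := by
  choose f hf using h
  exact ⟨.ofBijective f (Finite.injective_iff_bijective.1 fun i l e => (hf i).inv.uniq (e ▸ (hf l).inv)), hf⟩
end H09.Wr
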