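import Mathlib
import Cfsg.Agent.H09.WrA
/-! Tensor-wreath subgroups: patterns and unipotent radicals. -/
namespace H09.Wr
open Matrix H10.As Module
variable {τ κ ι : Type} [Fintype τ] [DecidableEq τ] [Fintype κ] [DecidableEq κ] [Fintype ι] [DecidableEq ι] {F : Type*} [Field F]
local notation "𝒜" => Matrix (τ → κ) (τ → κ) F
variable {i j l : τ} {β γ X Y : Matrix (τ → κ) (τ → κ) F} {g : GL (τ → κ) F} {u v w φ ψ : κ → F} {a b : Matrix κ κ F}
  {M : Subgroup (GL (τ → κ) F)} {Q : Matrix (τ → κ) (τ → κ) F → Prop} {L : AddSubgroup (Matrix (τ → κ) (τ → κ) F)} {J J' : Finset τ}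
  {A : τ → Matrix κ κ F}

/-- `1 + X` lies in `N` -/
def U1 (N : Subgroup (GL ι F)) (X : Matrix ι ι F) : Prop := ∃ g ∈ N, g.1 = 1 + X
section U1
variable {N : Subgroup (GL ι F)} {X Y : Matrix ι ι F}
theorem U1.cj (h : U1 N X) {g} (m : g ∈ N) : U1 N (cj g X) :=
  let ⟨x, m', e⟩ := h; ⟨g * x * g⁻¹, mul_mem (mul_mem m m') (inv_mem m), by rw [← cj_val, e, map_add, map_one]⟩
theorem U1.tv (h : U1 N X) (e : X * X = 0) : Wr.tv X e ∈ N := let ⟨_, m, e'⟩ := h; (Units.ext e' : _ = Wr.tv X e) ▸ m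
theorem U1.sub (h : U1 N X) (h' : U1 N Y) (e : X * Y = 0) (e' : Y * Y = 0) : U1 N (X - Y) :=
  let ⟨x, m, e1⟩ := h; ⟨x * (Wr.tv Y e')⁻¹, mul_mem m (inv_mem (h'.tv e')), by
    change x.1 * (1 - Y) = _; simp [e1, add_mul, mul_sub, e]; abel⟩
theorem U1.comm (h : U1 N X) (h' : U1 N Y) (e : X * X = 0) (e' : Y * Y = 0) (e'' : Y * X = 0) : U1 N (X * Y) := by
  have h1 := (h'.cj (h.tv e)).sub h' (by simp [cj_tv, mul_sub, sub_mul, add_mul, mul_assoc, e', ← mul_assoc Y X, e'']) e'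
  simpa [cj_tv, mul_sub, add_mul, mul_assoc, e''] using h1
end U1

variable (M) in
/-- `M` contains the special linear groups of the factors -/
def H0 : Prop := ∀ i (d : GL κ F), det d.1 = 1 → piU i d ∈ M
variable (M Q) in
/-- closure properties -/
structure Cl : Prop where
  h0 : H0 M
  cj : ∀ g ∈ M, ∀ X, Q X → Q (cj g X)
  sub : ∀ X Y, Q X → Q Y → X * Y = 0 → Y * Y = 0 → Q (X - Y)
theorem H0.cl (h : H0 M) : Cl M (U1 M) := ⟨h, fun _ m _ h => h.cj m, fun _ _ => U1.sub⟩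
theorem H0.u1 (h : H0 M) (e : RK a) (i : τ) : U1 M (pi1 i a) := ⟨_, h i _ e.det, by simp [piU_val, tv]⟩
theorem H0.ptU (h : H0 M) {d : τ → GL κ F} (e : ∀ i, det (d i).1 = 1) : ptU d ∈ M := by
  obtain ⟨g, m, e'⟩ := pt_mem (S := M.toSubmonoid.map (Units.coeHom _)) (a := fun i => (d i).1) fun i => ⟨_, h i _ (e i), rfl⟩
  exact (Units.ext e' : g = H10.As.ptU d) ▸ m
theorem cj_ptU' (d : τ → GL κ F) (A : τ → Matrix κ κ F) : cj (ptU d) (pt A) = pt fun i => cj (d i) (A i) := by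
  rw [cj_eq_iff, ptU_val, ← map_mul, ← map_mul]; congr 1; funext j; simp [cj_mul_self]
theorem cj_rk (e : RK a) (X : 𝒜) : cj (piU i (tv a e.sq)) X = (1 + pi1 i a) * X * (1 - pi1 i a) := by
  simp [cj_apply, ← map_inv, piU_val, tv]

section A
variable (hk : 3 ≤ Fintype.card κ) (hL : ∀ a, RK a → ∀ β ∈ L, (1 + pi1 l a) * β * (1 - pi1 l a) ∈ L) (hβ : β ∈ L)
include hk hL hβ
theorem la1 (h : φ ⬝ᵥ u = 0) (u0 : u ≠ 0) : VV l u φ * ent l φ u β ∈ L := by
  by_cases φ0 : φ = 0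
  · simp [φ0, VV, zero_mem]
  obtain ⟨b, b1, b2⟩ := ex4 hk φ u0
  obtain ⟨χ, c1, c2⟩ := ex2 b2
  have d : ∀ u φ : κ → F, u ≠ 0 → φ ≠ 0 → φ ⬝ᵥ u = 0 → ∀ β ∈ L, β - (1 + VV l u φ) * β * (1 - VV l u φ) ∈ L := fun u φ a b c β m =>
    sub_mem m (hL _ ⟨u, φ, a, b, c, rfl⟩ β m)
  have := d b φ (by rintro rfl; simp at c1) φ0 b1 _ (d u χ u0 (by rintro rfl; simp at c1) c2 _ (d u φ u0 φ0 h β hβ))
  rw [VV_ent]
  convert neg_mem this using 1
  simp only [mul_sub, sub_mul, add_mul, mul_add, mul_one, one_mul, mul_assoc, VV_mul, VV_mul', h, b1, c1, c2, zero_smul, one_smul, mul_zero, zero_mul]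
  abel
omit hk in
theorem la2 (h : ∀ r s, r ≠ s → ent l (Pi.single r 1) (Pi.single s 1) β = 0) {r s : κ} (e : r ≠ s) :
    VV l (Pi.single r 1) (Pi.single s 1) * (ent l (Pi.single s 1) (Pi.single s 1) β - ent l (Pi.single r 1) (Pi.single r 1) β) ∈ L := by
  have h1 : ∀ r s u ψ, r ≠ s → VV l u (Pi.single r 1) * (β * VV l (Pi.single s 1) ψ) = 0 := fun r s u ψ e => by
    rw [← mul_assoc, ← VV_ent, h r s e, mul_zero]
  have := sub_mem (hL _ (rk_single e) β hβ) hβ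
  rw [single_eq_single_vecMulVec_single, ← VV] at this
  convert this using 1
  have h2 : VV l (Pi.single r 1) (Pi.single s 1) * (β * VV l (Pi.single s 1) (Pi.single s 1)) = VV l (Pi.single r 1) (Pi.single s 1) * β := by
    conv_rhs => rw [← mul_one β, ← sum_VV l, Finset.mul_sum, Finset.mul_sum, Finset.sum_eq_single s (fun c _ e => h1 _ _ _ _ e.symm) (by simp)]
  have h3 : VV l (Pi.single r 1) (Pi.single r 1) * (β * VV l (Pi.single r 1) (Pi.single s 1)) = β * VV l (Pi.single r 1) (Pi.single s 1) := by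
    conv_rhs => rw [← one_mul (β * _), ← sum_VV l, Finset.sum_mul, Finset.sum_eq_single r (fun c _ e => h1 _ _ _ _ e) (by simp)]
  simp only [mul_sub, VV_ent, add_mul, mul_assoc, h2, h3, h1 s r _ _ e.symm, one_mul, mul_one]
  abel
theorem la3 (h : ¬ Cm l β) : ∃ a γ, RK a ∧ γ ≠ 0 ∧ Cm l γ ∧ (∀ j, l ≠ j → Cm j β → Cm j γ) ∧ pi1 l a * γ ∈ L := by
  by_contra! H
  have h1 : ∀ r s, r ≠ s → ent l (Pi.single r 1) (Pi.single s 1) β = 0 := fun r s e => by_contra fun n =>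
    H _ _ ⟨_, _, by simp, by simp, by simp [e], rfl⟩ n (cm_ent _ _ _) (fun j e c => c.ent e _ _) (la1 hk hL hβ (by simp [e]) (by simp))
  have h2 : ∀ r s, ent l (Pi.single s 1) (Pi.single s 1) β = ent l (Pi.single r 1) (Pi.single r 1) β := fun r s => by_contra fun n =>
    have e : r ≠ s := by rintro rfl; exact n rfl
    H _ _ ⟨_, _, by simp, by simp, by simp [e.symm], rfl⟩ (sub_ne_zero.2 n) ((cm_ent _ _ _).sub (cm_ent _ _ _))
      (fun j e c => (c.ent e _ _).sub (c.ent e _ _)) (la2 hL hβ h1 e)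
  obtain ⟨o⟩ : Nonempty κ := Fintype.card_pos_iff.1 (by omega)
  refine h (?_ : Cm l β)
  rw [eq_sum_ent l β, Finset.sum_congr rfl fun r _ => Finset.sum_eq_single r (fun s _ e => by rw [h1 r s e.symm, mul_zero]) (by simp)]
  simp only [h2 o, ← Finset.sum_mul, sum_VV, one_mul, cm_ent]
end A

/-- patterns -/
def PA (J : Finset τ) (A : τ → Matrix κ κ F) : Prop := (∀ l ∈ J, RK (A l)) ∧ ∀ l ∉ J, A l = 1
variable (Q) in
/-- existence of a proper pattern -/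
def Pat : Prop := ∃ J A, 2 ≤ J.card ∧ PA J A ∧ Q (pt A)
theorem pt_zero (h : A l = 0) : pt A = 0 := by ext x y; exact Finset.prod_eq_zero (Finset.mem_univ l) (by simp [h])
theorem PA.sq (h : PA J A) (e : l ∈ J) : pt A * pt A = 0 := by rw [← map_mul]; exact pt_zero (h.1 l e).sq
theorem PA.comm (h : PA J A) (e : ∀ l ∈ J, Cm l β) : Commute β (pt A) :=
  pt_mem (S := Submonoid.centralizer {β}) (fun i => Submonoid.mem_centralizer_iff.2 (by
    by_cases c : i ∈ J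
    · simpa using (e i c _).eq
    · simp [h.2 i c])) β rfl
theorem PA.insert (h : PA J A) (e : RK a) : PA (insert l J) (Function.update A l a) :=
  ⟨fun j m => by by_cases c : j = l <;> simp_all [h.1], fun j m => by by_cases c : j = l <;> simp_all [h.2]⟩
theorem pa_single (e : RK a) : PA {i} (Pi.mulSingle i a) := ⟨by simpa, fun l m => by simp_all⟩

section F
variable (hk : 3 ≤ Fintype.card κ) (C : Cl M Q)
include hk C
theorem grow (n : ℕ) : ∀ {J : Finset τ} {A γ}, Fintype.card τ - J.card = n → J.Nonempty → PA J A → (∀ l ∈ J, Cm l γ) → Q (pt A * γ) →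
    Sc γ ∨ Pat Q := by
  induction n using Nat.strong_induction_on with
  | _ n ih =>
  rintro J A γ rfl ⟨o, ho⟩ h1 h2 h3
  have : Nonempty κ := Fintype.card_pos_iff.1 (by omega)
  refine or_iff_not_imp_left.2 fun h => ?_
  obtain ⟨l, h⟩ : ∃ l, ¬ Cm l γ := not_forall.1 (mt sc_of_cm h)
  have hl : l ∉ J := fun m => h (h2 l m)
  have z : ∀ δ δ', (∀ j ∈ J, Cm j δ) → pt A * δ * (pt A * δ') = 0 := fun δ δ' c => by
    rw [mul_assoc, ← mul_assoc δ, (h1.comm c).eq, ← mul_assoc, ← mul_assoc, h1.sq ho, zero_mul, zero_mul]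
  obtain ⟨a, δ, a1, a2, a3, a4, -, a5⟩ := la3 hk (l := l) (L := .ofSub {δ | (∀ j ∈ J, Cm j δ) ∧ Q (pt A * δ)} ⟨γ, h2, h3⟩ fun x m y m' =>
    ⟨fun j e => by simpa [← sub_eq_add_neg] using (m.1 j e).sub (m'.1 j e), by
      simpa [← sub_eq_add_neg, mul_sub] using C.sub _ _ m.2 m'.2 (z _ _ m.1) (z _ _ m'.1)⟩) (fun a e β m => ⟨fun j m' => by
        rw [← cj_rk e]; exact (mp_piU _ j).cm (m.1 j m'), by
        have := C.cj _ (C.h0 l _ e.det) _ m.2
        rwa [map_mul (cj _), (cm_pt (h1.2 l hl)).cj_piU, cj_rk e] at this⟩) ⟨h2, h3⟩ h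
  rw [← mul_assoc, pt_mul_pi1 _ (h1.2 l hl)] at a5
  have := Finset.card_le_univ (insert l J)
  have := Finset.card_pos.2 ⟨o, ho⟩
  refine (ih _ (by simp [hl] at *; omega) rfl (by simp) (h1.insert a1) (fun j m => ?_) a5).elim ?_ id
  · rcases Finset.mem_insert.1 m with rfl | m
    exacts [a3, a4 j (by rintro rfl; exact hl m) (h2 j m)]
  rintro ⟨c, rfl⟩
  refine ⟨_, _, by rw [Finset.card_insert_of_notMem hl]; omega, h1.insert (l := l) (a1.smul (c := c) (by rintro rfl; simp at a2)), ?_⟩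
  rwa [← pt_mul_pi1 _ (h1.2 l hl), map_smul, mul_smul_comm, pt_mul_pi1 _ (h1.2 l hl), ← mul_one (pt _), ← mul_smul_comm]
variable (hp : ¬ Pat Q)
include hp
theorem f1 (e : RK a) (h : Cm i γ) (h' : Q (pi1 i a * γ)) : Sc γ :=
  (grow hk C _ rfl (by simp) (pa_single e) (by simpa) h').resolve_right hp
theorem f2r (u0 : u ≠ 0) (φ0 : φ ≠ 0) (hX : Q X) (h1 : X = VV i u φ * Y) (h2 : X * VV i u φ = 0) : ∃ ψ, ψ ⬝ᵥ u = 0 ∧ X = VV i u ψ := by
  obtain ⟨χ, c⟩ := ex1 u0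
  obtain ⟨w, c'⟩ := ex1 φ0
  have h3 : ∀ ψ Z, X * (VV i u ψ * Z) = 0 := fun ψ Z => by
    simpa [mul_assoc, VV_mul', dotProduct_comm φ, c'] using congrArg (· * (VV i w ψ * Z)) h2
  have h4 : ∀ w ψ, X * VV i w ψ = VV i u ψ * ent i χ w X := fun w ψ => by rw [VV_ent]; nth_rw 2 [h1]; rw [VV_mul', c, one_smul, ← h1]
  have h5 : ∀ w, Sc (ent i χ w X) := fun w => by
    obtain ⟨ψ, ψ0, a, b⟩ := ex3 hk u w
    by_cases w0 : w = 0
    · exact ⟨0, by simp [ent, w0, VV]⟩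
    have e : RK (vecMulVec w ψ) := ⟨w, ψ, w0, ψ0, b, rfl⟩
    have e1 : X * X = 0 := by nth_rw 2 [h1]; exact h3 _ _
    have e2 : VV i w ψ * X = 0 := by rw [h1, VV_mul', a, zero_smul]
    have := C.sub _ _ hX (C.cj _ (C.h0 i _ e.det) _ hX) (by simp [cj_rk e, ← VV.eq_1, add_mul, e2, ← mul_assoc, e1]) (by rw [← map_mul, e1, map_zero])
    refine f1 hk C hp ⟨u, ψ, u0, ψ0, a, rfl⟩ (cm_ent _ _ _) (?_ : Q (VV i u ψ * _))
    simpa [cj_rk e, ← VV.eq_1, add_mul, e2, mul_sub, h4] using this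
  choose ψ hψ using fun s => h5 (Pi.single s 1)
  have h6 : X = VV i u ψ := by rw [← mul_one X, ← sum_VV i, Finset.mul_sum]; simp [h4, hψ, sum_smul_VV']
  have : Nonempty κ := Fintype.card_pos_iff.1 (by omega)
  refine ⟨ψ, ?_, h6⟩
  rw [h6, VV_mul, VV, ← map_smul, ← map_zero (pi1 i)] at h2
  simpa [u0, φ0] using pi1_inj i h2
theorem f2c (u0 : u ≠ 0) (φ0 : φ ≠ 0) (hX : Q X) (h1 : X = Y * VV i u φ) (h2 : VV i u φ * X = 0) : ∃ v, φ ⬝ᵥ v = 0 ∧ X = VV i v φ := by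
  obtain ⟨χ, c⟩ := ex1 u0
  obtain ⟨w, c'⟩ := ex1 φ0
  rw [dotProduct_comm] at c'
  have h3 : ∀ v, VV i v φ * X = 0 := fun v => by simpa [VV_mul', c] using congrArg (VV i v χ * ·) h2
  have h4 : ∀ v ψ, VV i v ψ * X = VV i v φ * ent i ψ w X := fun v ψ => by
    rw [VV_ent, mul_assoc]; nth_rw 2 [h1]; rw [mul_assoc, VV_mul, c', one_smul, ← h1]
  have h5 : ∀ ψ, Sc (ent i ψ w X) := fun ψ => by
    obtain ⟨v, v0, a, b⟩ := ex3 hk φ ψ
    rw [dotProduct_comm] at a b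
    by_cases w0 : ψ = 0
    · exact ⟨0, by simp [ent, w0, VV]⟩
    have e : RK (vecMulVec v ψ) := ⟨v, ψ, v0, w0, b, rfl⟩
    have e0 : ∀ Z, X * Z = Y * (VV i u φ * Z) := fun Z => by rw [← mul_assoc, ← h1]
    have e1 : X * X = 0 := by rw [e0, h3, mul_zero]
    have e2 : X * VV i v ψ = 0 := by rw [e0, VV_mul, a, zero_smul, mul_zero]
    have := C.sub _ _ (C.cj _ (C.h0 i _ e.det) _ hX) hX (by simp [cj_rk e, ← VV.eq_1, mul_sub, e2, mul_assoc, e1]) e1
    refine f1 hk C hp ⟨v, φ, v0, φ0, a, rfl⟩ (cm_ent _ _ _) (?_ : Q (VV i v φ * _))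
    rw [← h4]
    simpa [cj_rk e, ← VV.eq_1, add_mul, e2, mul_sub, mul_assoc] using this
  choose v hv using fun s => h5 (Pi.single s 1)
  have h6 : X = VV i v φ := by rw [← one_mul X, ← sum_VV i, Finset.sum_mul]; simp [h4, hv, sum_smul_VV]
  have : Nonempty κ := Fintype.card_pos_iff.1 (by omega)
  refine ⟨v, ?_, h6⟩
  rw [h6, VV_mul, VV, ← map_smul, ← map_zero (pi1 i)] at h2
  simpa [u0, φ0] using pi1_inj i h2
end F

section N
variable (hk : 3 ≤ Fintype.card κ) (h0 : H0 M)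
include hk
omit hk in
theorem mp_of [Nontrivial κ] (h : ∀ r s, r ≠ s → ∃ b, cj g (pi1 j (single r s 1)) = pi1 i b) : Mp g j i := fun a => by
  have : ∀ r s, ∃ b, cj g (pi1 j (single r s 1)) = pi1 i b := fun r s => by
    by_cases e : r = s
    · obtain ⟨m, e'⟩ := exists_ne r
      obtain ⟨b, e1⟩ := h r m e'.symm
      obtain ⟨c, e2⟩ := h m r e'
      exact ⟨b * c, by rw [map_mul, ← e1, ← e2, ← map_mul, ← map_mul, ← e]; simp⟩
    exact h r s e
  choose b hb using this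
  exact ⟨∑ r, ∑ s, a r s • b r s, by
    simp only [map_sum, map_smul, ← hb]; simp only [← map_smul, ← map_sum, smul_single, smul_eq_mul, mul_one, ← matrix_eq_sum_single]⟩
include h0
theorem n1 (hp : ¬ Pat (U1 M)) (m : g ∈ M) (ea : RK a) (eb : RK b) (e : cj g (pi1 j a) = pi1 i b) : Mp g j i := by
  have : Nontrivial κ := Fintype.one_lt_card_iff_nontrivial.1 (by omega)
  obtain ⟨u, φ, h1, h2, h3, rfl⟩ := ea
  have n : ∀ {u φ : κ → F} {b}, u ≠ 0 → φ ≠ 0 → cj g (VV j u φ) = pi1 i b → b ≠ 0 := by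
    rintro u φ _ a b e rfl
    simpa [a, b] using pi1_inj j ((cj g).injective (e.trans (by simp)) : _ = pi1 j 0)
  have : ∀ v ψ : κ → F, v ≠ 0 → ψ ≠ 0 → ψ ⬝ᵥ v = 0 → ∃ b, RK b ∧ cj g (VV j v ψ) = pi1 i b := fun v ψ a b c =>
    rk_conn hk (P := fun v ψ => ∃ b, RK b ∧ cj g (VV j v ψ) = pi1 i b) ?_ ?_ h1 h2 h3 a b c ⟨_, eb, e⟩
  · exact mp_of fun r s e => by
      obtain ⟨b, -, h⟩ := this (Pi.single r 1) (Pi.single s 1) (by simp) (by simp) (by simp [e.symm])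
      exact ⟨b, by rwa [single_eq_single_vecMulVec_single]⟩
  · rintro u φ ψ a b c d f ⟨_, ⟨v, χ, v0, χ0, h, rfl⟩, e⟩
    have ψ0 : ψ ≠ 0 := by rintro rfl; simp at f
    obtain ⟨w, hw⟩ := ex1 b
    obtain ⟨ω, h1, h2⟩ := f2r hk h0.cl hp v0 χ0 ((h0.u1 ⟨u, ψ, a, ψ0, d, rfl⟩ j).cj m) (Y := cj g (VV j w ψ))
      (by rw [VV, ← e, ← map_mul, VV_mul, dotProduct_comm, hw, one_smul, VV]) (by rw [VV, ← e, ← map_mul, ← VV, VV_mul, d]; simp)
    exact ⟨_, ⟨v, ω, v0, by rintro rfl; simpa using n a ψ0 h2, h1, rfl⟩, h2⟩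
  · rintro u u' φ a b c d f ⟨_, ⟨v, χ, v0, χ0, h, rfl⟩, e⟩
    have u0 : u' ≠ 0 := by rintro rfl; simp at f
    obtain ⟨w, hw⟩ := ex1 a
    obtain ⟨ω, h1, h2⟩ := f2c (i := i) hk h0.cl hp v0 χ0 ((h0.u1 ⟨u', φ, u0, b, d, rfl⟩ j).cj m) (Y := cj g (VV j u' w))
      (by rw [VV.eq_1 i, ← e, ← map_mul, VV_mul, hw, one_smul, VV]) (by rw [VV, ← e, ← map_mul, ← VV, VV_mul, d]; simp)
    exact ⟨_, ⟨ω, χ, by rintro rfl; simpa using n u0 b h2, χ0, h1, rfl⟩, h2⟩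

omit h0 in
theorem Cl.all (C : Cl M Q) (h : PA J A) (e : Q (pt A)) {B : τ → Matrix κ κ F} (h' : PA J B) : Q (pt B) := by
  have : ∀ l, ∃ d : GL κ F, det d.1 = 1 ∧ H10.As.cj d (A l) = B l := fun l => by
    by_cases c : l ∈ J
    · exact rk_conj hk (h.1 l c) (h'.1 l c)
    · exact ⟨1, by simp, by simp [h.2 l c, h'.2 l c]⟩
  choose d d1 d2 using this
  simpa [cj_ptU', d2] using C.cj _ (C.h0.ptU d1) _ e
omit h0 in
theorem RK.split (h : RK a) : ∃ b c, RK b ∧ RK c ∧ b * c = a ∧ c * b = 0 := by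
  obtain ⟨u, φ, h1, h2, h3, rfl⟩ := h
  obtain ⟨w, w1, w2⟩ := ex4 hk φ h1
  obtain ⟨ψ, c1, c2⟩ := ex2 w2
  exact ⟨_, _, ⟨u, ψ, h1, by rintro rfl; simp at c1, c2, rfl⟩, ⟨w, φ, by rintro rfl; simp at c1, h2, w1, rfl⟩,
    by simp [vecMulVec_mul_vecMulVec, c1], by simp [vecMulVec_mul_vecMulVec, h3]⟩
omit h0 in
theorem pat_union (h : ∀ A, PA J A → U1 M (pt A)) (h' : ∀ A, PA J' A → U1 M (pt A)) (e : l ∈ J) (e' : l ∈ J') (hA : PA (J ∪ J') A) :
    U1 M (pt A) := by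
  have : ∀ l, ∃ b c, (l ∈ J → RK b) ∧ (l ∉ J → b = 1) ∧ (l ∈ J' → RK c) ∧ (l ∉ J' → c = 1) ∧ b * c = A l ∧ (l ∈ J → l ∈ J' → c * b = 0) := fun l => by
    by_cases c : l ∈ J <;> by_cases c' : l ∈ J'
    · obtain ⟨b, d, h⟩ := (hA.1 l (by simp [c])).split hk
      exact ⟨b, d, by simp_all⟩
    · exact ⟨A l, 1, by simp [c, c', hA.1]⟩
    · exact ⟨1, A l, by simp [c, c', hA.1]⟩
    · exact ⟨1, 1, by simp [c, c', hA.2]⟩
  choose B C b1 b2 c1 c2 d1 d2 using this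
  have := (h B ⟨b1, b2⟩).comm (h' C ⟨c1, c2⟩) (PA.sq ⟨b1, b2⟩ e) (PA.sq ⟨c1, c2⟩ e') (by rw [← map_mul]; exact pt_zero (d2 l e e'))
  rwa [← map_mul, show B * C = A from funext d1] at this
omit hk h0 in
theorem fp_mul (π π' : Equiv.Perm τ) : fp κ F (π * π') = fp κ F π * fp κ F π' := by
  ext x y; simp [fp, mul_apply, Function.comp_assoc, -mul_ite]; congr
omit hk h0 in
theorem det_fp {a b c : τ} (h : a ≠ c) (h' : b ≠ c) : det (fp κ F (Equiv.swap a c * Equiv.swap b c)).1 = 1 := by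
  let f : Equiv.Perm τ →* Fˣ := GeneralLinearGroup.det.comp (MonoidHom.mk' (fp κ F) fp_mul)
  have : f (Equiv.swap a c) = f (Equiv.swap b c) := isConj_iff_eq.1 (f.map_isConj (Equiv.Perm.isConj_swap h h'))
  have h2 : f (Equiv.swap a c * Equiv.swap b c) = 1 := by rw [map_mul, this, ← map_mul, Equiv.swap_mul_self, map_one]
  exact congrArg Units.val h2
theorem sl_le (hf : ∀ π, det (fp κ F π).1 = 1 → fp κ F π ∈ M) (hp : Pat (U1 M)) : Cfsg.Geo.specialLinear (τ → κ) F ≤ M := by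
  obtain ⟨J, A, h1, h2, h3⟩ := hp
  have h4 : ∀ n, ∀ J : Finset τ, Fintype.card τ - J.card = n → 2 ≤ J.card → (∀ A, PA J A → U1 M (pt A)) → ∀ A, PA .univ A → U1 M (pt A) := by
    intro n
    induction n using Nat.strong_induction_on with
    | _ n ih =>
    rintro J rfl h1 h2
    by_cases e : J = .univ
    · exact e ▸ h2
    obtain ⟨c, hc⟩ : ∃ c, c ∉ J := by simpa [Finset.eq_univ_iff_forall] using e
    obtain ⟨a, ha, b, hb, e⟩ := Finset.one_lt_card.1 h1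
    have n1 : a ≠ c := by rintro rfl; exact hc ha
    have n2 : b ≠ c := by rintro rfl; exact hc hb
    let π := Equiv.swap a c * Equiv.swap b c
    have := Finset.card_lt_card (show J ⊂ J ∪ J.map π.toEmbedding from ⟨Finset.subset_union_left, fun h => hc (h
      (Finset.mem_union_right _ (Finset.mem_map.2 ⟨a, ha, by simp [π, Equiv.swap_apply_of_ne_of_ne e n1]⟩)))⟩)
    have := Finset.card_le_univ (J ∪ J.map π.toEmbedding)
    refine ih _ (by omega) (J ∪ J.map π.toEmbedding) rfl (by omega) fun A => pat_union hk h2 (fun A h => ?_) ha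
      (Finset.mem_map.2 ⟨b, hb, by simp [π]⟩)
    simpa [cj_fp, Function.comp_assoc] using (h2 (A ∘ π) ⟨fun l m => h.1 _ (by simpa), fun l m => h.2 _ (by simpa)⟩).cj (hf π (det_fp n1 n2))
  have h5 : ∀ x y : τ → κ, (∀ l, x l ≠ y l) → ∀ c, U1 M (single x y c) := fun x y h c => by
    by_cases c0 : c = 0
    · exact ⟨1, one_mem _, by simp [c0]⟩
    obtain ⟨o, -⟩ := Finset.card_pos.1 (by omega : 0 < J.card)
    have := h4 _ J rfl h1 (fun _ => h0.cl.all hk h2 h3) (Function.update (fun l => single (x l) (y l) 1) o (c • single (x o) (y o) 1))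
      ⟨fun l _ => by by_cases e : l = o <;> simp [e, -smul_single, RK.smul, rk_single, h, c0], by simp⟩
    rwa [← Function.update_idem 1, ← pt_mul_pi1 _ (by simp), map_smul, mul_smul_comm, pt_mul_pi1 _ (by simp), Function.update_idem,
      Function.update_eq_self, pt_single, smul_single, smul_eq_mul, mul_one] at this
  have : M.comap SpecialLinearGroup.toGL = ⊤ := eq_top_of_transvection_mem _ fun x y e c => by
    have : ∀ l, ∃ z, z ≠ x l ∧ z ≠ y l := fun l => by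
      by_contra! h
      have := Finset.card_le_card (show .univ ⊆ ({x l, y l} : Finset κ) from fun z _ => by simpa [or_iff_not_imp_left] using h z)
      have := Finset.card_le_two (a := x l) (b := y l)
      simp at *; omega
    choose z z1 z2 using this
    obtain ⟨o, -⟩ := Finset.card_pos.1 (by omega : 0 < J.card)
    have n1 : z ≠ x := fun e => z1 o (congrFun e o)
    have n2 : y ≠ z := fun e => z2 o (congrFun e o).symm
    obtain ⟨g, m, e'⟩ := (h5 x z (fun l => (z1 l).symm) c).comm (h5 z y z2 1) (by simp [n1]) (by simp [n2]) (by simp [e.symm])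
    exact Subgroup.mem_comap.2 ((Units.ext (e'.trans (by simp [SpecialLinearGroup.transvection_coe, transvection])) :
      g = SpecialLinearGroup.toGL (SpecialLinearGroup.transvection e c)) ▸ m)
  intro g hg
  obtain ⟨g', rfl⟩ : g ∈ (SpecialLinearGroup.toGL (n := τ → κ) (R := F)).range := by rwa [range_toGL_eq_ker_det]
  exact this.ge (Subgroup.mem_top g')
end N
end H09.Wr
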