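import Mathlib
import Cfsg.Agent.H09.WrB
/-! Tensor-wreath subgroups: conjugates of root elements. -/
namespace H09.Wr
open Matrix H10.As Module
variable {τ κ ι : Type} [Fintype τ] [DecidableEq τ] [Fintype κ] [DecidableEq κ] [Fintype ι] [DecidableEq ι] {F : Type*} [Field F]
local notation "𝒜" => Matrix (τ → κ) (τ → κ) F
variable {i j l : τ} {β γ ε X Y : Matrix (τ → κ) (τ → κ) F} {g y : GL (τ → κ) F} {u v w φ ψ : κ → F} {a b α : Matrix κ κ F}
  {M : Subgroup (GL (τ → κ) F)}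

/-- the rank bound -/
def RB (ε : 𝒜) : Prop := ε * ε = 0 ∧ ε ≠ 0 ∧ ∀ i (u φ : κ → F), u ≠ 0 → φ ≠ 0 → ε.rank ≤ (VV i u φ : 𝒜).rank
theorem rank_cj (g : GL ι F) (a : Matrix ι ι F) : (cj g a).rank ≤ a.rank := (rank_mul_le_left _ _).trans (rank_mul_le_right _ _)
theorem RB.cj (h : RB ε) (g : GL (τ → κ) F) : RB (cj g ε) :=
  ⟨by rw [← map_mul, h.1, map_zero], by simpa using h.2.1, fun i u φ a b => (rank_cj _ _).trans (h.2.2 i u φ a b)⟩
theorem RK.rb (h : RK a) (j : τ) : RB (pi1 j a) := by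
  have : Nonempty κ := by obtain ⟨u, φ, h1, -⟩ := h; by_contra! h; exact h1 (Subsingleton.elim _ _)
  refine ⟨by rw [← map_mul, h.sq, map_zero], fun e => h.ne (pi1_inj j (e.trans (map_zero _).symm)), fun i v ψ v0 ψ0 => ?_⟩
  obtain ⟨u, φ, -, -, -, rfl⟩ := h
  obtain ⟨χ, c⟩ := ex1 v0
  obtain ⟨w, c'⟩ := ex1 ψ0
  have : pi1 j (vecMulVec u φ) = H10.As.cj (fp κ F (Equiv.swap i j)) (VV i u χ * VV i v ψ * VV i w φ) := by
    simp only [VV_mul, smul_mul_assoc, c, dotProduct_comm ψ, c', one_smul]; simp [VV, cj_fp_pi1]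
  rw [this]
  exact (rank_cj _ _).trans ((rank_mul_le_left _ _).trans (rank_mul_le_right _ _))
theorem RB.not_sc (h : RB ε) : ¬ Sc ε := by
  rintro ⟨c, rfl⟩
  obtain ⟨h1, h2, -⟩ := h
  rw [smul_mul_smul, mul_one] at h1
  exact h2 (by rw [show c = 0 from by_contra fun c0 => h2 (by rw [← inv_smul_smul₀ c0 (c • 1), smul_smul c, h1, smul_zero]), zero_smul])
theorem r0 {a b c : Matrix ι ι F} (h : a.rank ≤ (a * b).rank) (e : c * (a * b) = 0) : c * a = 0 := by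
  have := Submodule.eq_of_le_of_finrank_le (show LinearMap.range (a * b).mulVecLin ≤ LinearMap.range a.mulVecLin by
    rw [mulVecLin_mul]; exact LinearMap.range_comp_le_range _ _) h
  refine ext_of_mulVec_single fun i => ?_
  obtain ⟨w, hw⟩ := this.ge ⟨Pi.single i 1, rfl⟩
  simp only [mulVecLin_apply] at hw
  rw [← mulVec_mulVec, ← hw, mulVec_mulVec, e, zero_mulVec, zero_mulVec]
theorem sc_of_span (h : ∀ u : κ → F, α *ᵥ u ∈ F ∙ u) : Sc α := by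
  obtain ⟨c, e⟩ := LinearMap.exists_eq_smul_id_of_forall_notLinearIndependent (f := α.mulVecLin) fun u => by
    obtain ⟨c, e⟩ := Submodule.mem_span_singleton.1 (h u)
    rw [LinearIndependent.pair_iff]
    exact fun h => one_ne_zero (h (-c) 1 (by simp [← e])).2
  exact ⟨c, toLin'.injective (by simpa [toLin'_apply', Module.End.one_eq_id] using e)⟩

variable (hk : 3 ≤ Fintype.card κ)
include hk
theorem rstar (h : RB ε) (e : ε = pi1 i α * y.1 + γ) (h1 : Cm i y.1) (h2 : Cm i γ) (n : ¬ Sc α) :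
    ∃ c : F, c • y.1 + γ = 0 ∧ RK (α - c • 1) := by
  have : Nonempty κ := Fintype.card_pos_iff.1 (by omega)
  obtain ⟨u, hu⟩ := not_forall.1 (mt sc_of_span n)
  have u0 : u ≠ 0 := by rintro rfl; simp at hu
  obtain ⟨χ, c1, c2⟩ := ex2 hu
  obtain ⟨φ, c3⟩ := ex1 u0
  have φ0 : φ ≠ 0 := by rintro rfl; simp at c3
  have k1 : ∀ v ξ, VV i v ξ * ε = y.1 * VV i v (ξ ᵥ* α) + γ * VV i v ξ := fun v ξ => by
    rw [e, mul_add, ← mul_assoc, VV_pi1, VV, VV, (h1 _).eq, (h2 _).eq]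
  have k2 : ∀ v ξ, VV i v ξ * (ε * VV i u φ) = (ξ ⬝ᵥ α *ᵥ u) • (y.1 * VV i v φ) + (ξ ⬝ᵥ u) • (γ * VV i v φ) := fun v ξ => by
    rw [← mul_assoc, k1, add_mul, mul_assoc, mul_assoc, VV_mul, VV_mul, dotProduct_mulVec, mul_smul_comm, mul_smul_comm]
  have k3 : ε.rank ≤ (ε * VV i u φ).rank := (h.2.2 i u φ u0 φ0).trans (by
    have : VV i u φ = (y⁻¹).1 * VV i u χ * (ε * VV i u φ) := by simp [mul_assoc, k2, c1, c2]
    nth_rw 1 [this]; exact rank_mul_le_right _ _)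
  obtain ⟨ξ, ξ0, d1, d2⟩ := ex3 hk u (α *ᵥ u)
  rw [dotProduct_comm] at d1 d2
  have k4 := (k1 u ξ).symm.trans (r0 k3 (by rw [k2, dotProduct_comm, d2, dotProduct_comm, d1]; simp))
  have k5 : ∀ {v ψ : κ → F} {β : 𝒜}, Cm i β → v ≠ 0 → ψ ≠ 0 → β * VV i v ψ = 0 → β = 0 := fun c a b e =>
    c.eq_zero (a := vecMulVec _ _) (by simp [a, b]) ((c _).eq.symm.trans e)
  obtain ⟨c, hc⟩ : ∃ c : F, c • ξ = ξ ᵥ* α := Submodule.mem_span_singleton.1 (by_contra fun m => by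
    obtain ⟨w, w1, w2⟩ := ex2 m
    have := congrArg (· * VV i w φ) k4
    simp only [add_mul, mul_assoc, VV_mul, dotProduct_comm _ w, w1, w2, one_smul, zero_smul, mul_zero, add_zero, zero_mul] at this
    exact y.ne_zero (k5 h1 u0 φ0 this))
  have k6 : c • y.1 + γ = 0 := k5 (((cm_sc ⟨c, rfl⟩ i).mul h1).add h2 |> fun h => by simpa using h) u0 ξ0 (by
    rw [← k4, ← hc]; simp [add_mul, VV])
  have k7 : ε = pi1 i (α - c • 1) * y.1 := by rw [e, eq_neg_of_add_eq_zero_right k6]; simp [sub_mul, sub_eq_add_neg, add_mul]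
  set a := α - c • 1
  have a1 : a *ᵥ u ≠ 0 := fun e => hu (Submodule.mem_span_singleton.2 ⟨c, by simpa [a, sub_mulVec, smul_mulVec, sub_eq_zero, eq_comm] using e⟩)
  have a2 : ∀ ξ, ξ ⬝ᵥ a *ᵥ u = 0 → ξ ᵥ* a = 0 := fun ξ e => by
    have := r0 (c := VV i u ξ) k3 (by rw [k7, mul_assoc, VV, VV, (h1 _).eq]; simp only [← mul_assoc, ← VV.eq_1, VV_pi1, VV_mul, ← dotProduct_mulVec, e, zero_smul, zero_mul])
    rw [k7, ← mul_assoc, VV_pi1, Units.mul_left_eq_zero, VV, ← map_zero (pi1 i)] at this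
    simpa [u0] using pi1_inj i this
  have a3 : a * a = 0 := pi1_inj i (by
    have := h.1
    rw [k7, mul_assoc, ← mul_assoc y.1, (h1 _).eq, mul_assoc, ← mul_assoc, ← Units.val_mul, Units.mul_left_eq_zero] at this
    rwa [map_mul, map_zero])
  have a4 : ∀ s, ∃ c : F, c • a *ᵥ u = a *ᵥ Pi.single s 1 := fun s => Submodule.mem_span_singleton.1 (by_contra fun m => by
    obtain ⟨w, w1, w2⟩ := ex2 m
    rw [dotProduct_mulVec, a2 w w2] at w1
    simp at w1)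
  choose ψ hψ using a4
  have a5 : a = vecMulVec (a *ᵥ u) ψ := by ext r s; simpa [vecMulVec_apply, mul_comm] using (congrFun (hψ s) r).symm
  refine ⟨c, k6, a *ᵥ u, ψ, a1, fun e => a1 (by rw [a5, e]; simp), ?_, a5⟩
  have := congrArg (· *ᵥ u) a3
  rw [← mulVec_mulVec, zero_mulVec] at this
  nth_rw 1 [a5] at this
  rw [vecMulVec_mulVec] at this
  simpa [a1] using this
/-- multiplicative version -/
theorem rmul (h : RB ε) (e : y.1 = 1 + ε) (m : Mp y i i) : Cm i ε ∨ ∃ a, RK a ∧ ε = pi1 i a := by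
  have : Nonempty κ := Fintype.card_pos_iff.1 (by omega)
  obtain ⟨d, hd⟩ := m.sn
  have h1 : Cm i ((piU i d)⁻¹ * y).1 := fun a => cj_eq_iff.1 (by rw [cj_mul, hd, ← map_inv, cj_piU, cj_inv_cj])
  have e1 : ε = pi1 i d.1 * ((piU i d)⁻¹ * y).1 + -1 := by rw [← piU_val, ← Units.val_mul, mul_inv_cancel_left, e]; abel
  have h2 : Cm i (-1 : 𝒜) := cm_sc ⟨-1, by simp⟩ i
  by_cases n : Sc d.1
  · obtain ⟨c, e2⟩ := n
    exact .inl (e1 ▸ ((cm_sc ⟨c, by simp [e2]⟩ i).mul h1).add h2)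
  obtain ⟨c, c1, c2⟩ := rstar hk h e1 h1 h2 n
  have c0 : c ≠ 0 := by rintro rfl; simp at c1
  refine .inr ⟨_, c2.smul (inv_ne_zero c0), ?_⟩
  rw [e1, (eq_inv_smul_iff₀ c0).2 (add_neg_eq_zero.1 c1)]
  simp [smul_sub, c0, sub_eq_add_neg]
/-- additive version -/
theorem radd (h : RB ε) (m : Cm i (ε - pi1 i b)) : Cm i ε ∨ ∃ a, RK a ∧ ε = pi1 i a := by
  by_cases n : Sc b
  · obtain ⟨c, e2⟩ := n
    exact .inl (by simpa using m.add (cm_sc (β := pi1 i b) ⟨c, by simp [e2]⟩ i))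
  obtain ⟨c, c1, c2⟩ := rstar hk (y := 1) h (by simp) (cm_sc ⟨1, by simp⟩ i) m n
  exact .inr ⟨_, c2, by rw [map_sub, map_smul, map_one, eq_sub_iff_add_eq, add_comm, ← sub_eq_zero, ← c1, add_sub_assoc]; rfl⟩
omit hk in
theorem RB.std (h : RB ε) (m : ∀ i, Cm i ε ∨ ∃ a, RK a ∧ ε = pi1 i a) : ∃ i a, RK a ∧ ε = pi1 i a := by
  by_contra! H
  exact h.not_sc (sc_of_cm fun i => (m i).resolve_right fun ⟨a, h1, h2⟩ => H i a h1 h2)
omit hk in
theorem grp3 {G : Type*} [Group G] {y a b c : G} (hy : y * y = 1) (ha : a * a = 1) (ab : a⁻¹ * b = c) (bc : b⁻¹ * c = a)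
    (h : Commute a (y * c * y)) : a * y * a⁻¹ * (b * y * b⁻¹) * (c * y * c⁻¹) = y :=
  calc _ = a * (y * (a⁻¹ * b) * y) * (b⁻¹ * c) * y * c⁻¹ := by group
   _ = y * c * y * (a * a) * y * c⁻¹ := by rw [ab, bc, h.eq]; group
   _ = y * c * (y * y) * c⁻¹ := by rw [ha]; group
   _ = y := by rw [hy]; group
omit hk in
theorem piU_tv (e : RK a) : (piU i (tv a e.sq)).1 = 1 + pi1 i a := by simp [piU_val, tv]
theorem odd_case (h : ε * ε = 0) (e : y.1 = 1 + ε) {p q q' : τ} (m : Mp y p q) (m' : Mp y⁻¹ p q') (n : q ≠ p) (n' : q' ≠ p) : (2 : F) = 0 := by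
  have : Nontrivial κ := Fintype.one_lt_card_iff_nontrivial.1 (by omega)
  obtain ⟨r, s, rs⟩ := exists_pair_ne κ
  obtain ⟨d, hd⟩ := m.sn
  obtain ⟨d', hd'⟩ := m'.sn
  obtain ⟨u, φ, -, -, -, e1⟩ := (rk_single (F := F) rs).cj d
  obtain ⟨u', φ', -, -, -, e2⟩ := (rk_single (F := F) rs).cj d'
  obtain ⟨ψ, ψ0, c1, c2⟩ := ex3 hk u u'
  obtain ⟨w, c3⟩ := ex1 ψ0
  have w0 : vecMulVec w ψ ≠ 0 := by rw [Ne, vecMulVec_eq_zero]; rintro (rfl | rfl) <;> simp at c3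
  have k : Commute (VV q w ψ : 𝒜) (VV q' w ψ) := by
    by_cases c : q = q'
    · rw [c]
    · exact cm_pi1 c _ _
  have e3 : (y⁻¹).1 = 1 - ε := congrArg (fun y : GL _ F => (y⁻¹).1) (Units.ext e : y = tv ε h)
  have k1 : VV q w ψ * VV q' w ψ * (y.1 * pi1 p (single r s 1)) = 0 := by
    rw [← cj_mul_self, hd, e1, k.eq, ← VV, mul_assoc, VV_mul', c1]; simp
  have k2 : VV q w ψ * VV q' w ψ * ((y⁻¹).1 * pi1 p (single r s 1)) = 0 := by
    rw [← cj_mul_self, hd', e2, ← VV, mul_assoc, VV_mul', c2]; simp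
  have k3 := congrArg₂ (· + ·) k1 k2
  simp only [← mul_add, ← add_mul, e, e3, add_add_sub_cancel, add_zero, ← two_smul F (1 : 𝒜), smul_mul_assoc, mul_smul_comm, one_mul] at k3
  refine (smul_eq_zero.1 k3).resolve_right fun k4 => ?_
  have c : Cm p (VV q w ψ * VV q' w ψ) := (cm_pi1 n _).mul (cm_pi1 n' _)
  have k5 := c.eq_zero (rk_single rs).ne ((c _).eq.symm.trans k4)
  have k6 : ∀ q : τ, (VV q w ψ : 𝒜) ≠ 0 := fun q e => w0 (pi1_inj q (e.trans (map_zero _).symm))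
  by_cases c : q' = q
  · rw [c, VV_mul, dotProduct_comm, c3, one_smul] at k5
    exact k6 _ k5
  · exact k6 _ ((cm_pi1 c _).eq_zero w0 k5)
theorem se [Nontrivial κ] (h0 : H0 M) (hp : ¬ Pat (U1 M)) (m : g ∈ M) (ea : RK a) (hy : y ∈ HH τ κ F) (e : y.1 = 1 + cj g (pi1 j a)) : ∃ i, Mp g j i := by
  by_contra H
  have R := (ea.rb j).cj g
  obtain ⟨p, H1⟩ : ∃ p, ¬ Mp y p p := by
    by_contra! H1
    obtain ⟨i, b, eb, e⟩ := R.std fun i => rmul hk R e (H1 i)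
    exact H ⟨i, n1 hk h0 hp m ea eb e⟩
  obtain ⟨q, hq⟩ := hy p
  obtain ⟨q', hq'⟩ := inv_mem hy p
  have n : q ≠ p := by rintro rfl; exact H1 hq
  have c2 : ∀ X : 𝒜, X + X = 0 := fun X => by
    rw [← two_smul F, odd_case hk R.1 e hq hq' n (by rintro rfl; exact H1 (by simpa using hq'.inv)), zero_smul]
  have sq : ∀ {y : GL (τ → κ) F} {ε}, ε * ε = 0 → y.1 = 1 + ε → y * y = 1 := fun h e => Units.ext (by simp [e, mul_add, add_mul, h, add_assoc, c2])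
  have yy := sq R.1 e
  have ey : y = g * piU j (tv a ea.sq) * g⁻¹ := Units.ext (by rw [← cj_val, piU_tv ea, map_add, map_one, e])
  have ym : y ∈ M := ey ▸ mul_mem (mul_mem m (h0 _ _ ea.det)) (inv_mem m)
  have cm : ∀ {b c} (eb : RK b) (ec : RK c), Commute (piU p (tv b eb.sq)) (y * piU p (tv c ec.sq) * y) := fun {b c} eb ec => Units.ext (by
    obtain ⟨d, hd⟩ := hq c
    nth_rw 2 4 [eq_inv_of_mul_eq_one_left yy]
    rw [Units.val_mul, Units.val_mul (y * _ * _), ← cj_val, piU_tv ec, map_add, map_one, hd]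
    exact (((cm_sc ⟨1, by simp⟩ p).add (cm_pi1 n d)) _).eq.symm)
  have key : ∀ {b} (eb : RK b), Cm j (g⁻¹ * (piU p (tv b eb.sq) * y * (piU p (tv b eb.sq))⁻¹) * g).1 := fun {b} eb => by
    set x := piU p (tv b eb.sq)
    have xm : x ∈ M := h0 _ _ eb.det
    have xx : x * x = 1 := sq (eb.rb p).1 (piU_tv eb)
    have m1 : g⁻¹ * x * g ∈ M := mul_mem (mul_mem (inv_mem m) xm) m
    have e1 : (g⁻¹ * (x * y * x⁻¹) * g).1 = 1 + cj (g⁻¹ * x * g) (pi1 j a) := by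
      rw [← map_one (cj (g⁻¹ * x * g)), ← map_add, ← piU_tv ea, cj_val, ey]; congr 1; group
    have e2 : cj (g⁻¹ * (x * y * x⁻¹) * g) (pi1 j a) = pi1 j a := by
      have : x * y * x⁻¹ * y * (x * y * x⁻¹)⁻¹ = y := by
        rw [mul_inv_eq_iff_eq_mul, inv_eq_of_mul_eq_one_left xx]
        simpa [mul_assoc] using (cm eb eb).eq
      have := congrArg Units.val this
      rw [← cj_val, e, map_add, map_one, add_right_inj] at this
      rw [cj_mul, cj_mul, this, cj_inv_cj]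
    rcases rmul hk ((ea.rb j).cj _) e1 (n1 hk h0 hp (mul_mem (mul_mem (inv_mem m) (mul_mem (mul_mem xm ym) (inv_mem xm))) m) ea ea e2) with h | ⟨c, ec, h⟩
    · exact e1 ▸ (cm_sc ⟨1, by simp⟩ j).add h
    have e3 : (g⁻¹ * x * g).1 = 1 + cj g⁻¹ (pi1 p b) := by rw [← map_one (cj g⁻¹), ← map_add, ← piU_tv eb, cj_val, inv_inv]
    rcases rmul hk ((eb.rb p).cj _) e3 (n1 hk h0 hp m1 ea ec h) with h | ⟨c, ec, h⟩
    · obtain ⟨d, hd⟩ := hq b
      have := (h a).map (cj g)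
      rw [cj_cj_inv] at this
      have : cj y (pi1 p b) = pi1 p b := cj_eq_iff.2 (by rw [e]; exact ((Commute.one_right _).add_right this).eq.symm)
      exact (eb.not_sc (Cm.sc (i := p) (by rw [← this, hd]; exact cm_pi1 n d))).elim
    · exact (H ⟨p, by simpa using (n1 hk h0 hp (inv_mem m) eb ec h).inv⟩).elim
  obtain ⟨u, -, u0, -⟩ := id ea
  obtain ⟨φ, φ0, c1, -⟩ := ex3 hk u u
  obtain ⟨ψ, c3, c4⟩ := ex4 hk u φ0
  rw [dotProduct_comm] at c3
  have r1 : RK _ := ⟨u, φ, u0, φ0, c1, rfl⟩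
  have r2 : RK _ := ⟨u, ψ, u0, by rintro rfl; simp at c4, c3, rfl⟩
  have r3 : RK _ := ⟨u, φ + ψ, u0, fun e => c4 (by simp [eq_neg_of_add_eq_zero_right e]), by simp [*], rfl⟩
  have i2 : ∀ {b} (eb : RK b), (piU p (tv b eb.sq))⁻¹ = piU p (tv b eb.sq) := fun eb => inv_eq_of_mul_eq_one_left (sq (eb.rb p).1 (piU_tv eb))
  have := ((key r1).mul (key r2)).mul (key r3)
  rw [← Units.val_mul, ← Units.val_mul, show ∀ a b c : GL (τ → κ) F, g⁻¹ * a * g * (g⁻¹ * b * g) * (g⁻¹ * c * g) = g⁻¹ * (a * b * c) * g⁻¹⁻¹ from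
    fun a b c => by group, grp3 yy (sq (r1.rb p).1 (piU_tv r1)) ?_ ?_ (cm r1 r3), ← cj_val, e, map_add, map_one, cj_inv_cj] at this
  · exact ea.not_sc (Cm.sc (i := j) (by simpa using this.sub (cm_sc (β := 1) ⟨1, by simp⟩ j)))
  all_goals
    refine Units.ext ?_
    rw [i2, Units.val_mul, piU_tv, piU_tv, piU_tv]
    simp [mul_add, add_mul, ← map_mul, vecMulVec_mul_vecMulVec, c1, c3, vecMulVec_add, add_assoc, add_left_comm (pi1 p (vecMulVec u ψ)), c2]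
    any_goals assumption
end H09.Wr
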