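import Mathlib
import Cfsg.Agent.H09.WrC
/-! Tensor-wreath subgroups: averaging over cosets. -/
namespace H09.Wr
open Matrix H10.As Module
variable {τ κ ι : Type} [Fintype τ] [DecidableEq τ] [Fintype κ] [DecidableEq κ] [Fintype ι] [DecidableEq ι] {F : Type*} [Field F]
local notation "𝒜" => Matrix (τ → κ) (τ → κ) F
variable {i j l : τ} {β γ ε X Y : Matrix (τ → κ) (τ → κ) F} {g y : GL (τ → κ) F} {u v w φ ψ : κ → F} {a b α : Matrix κ κ F}
  {M : Subgroup (GL (τ → κ) F)}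

theorem free_sum {A G X R : Type*} [Group A] [Fintype A] [Group G] [MulAction G X] [AddCommMonoid R] (θ : A →* G) (s : Finset X) (f : X → R)
    (h1 : ∀ a, ∀ x ∈ s, θ a • x ∈ s) (h2 : ∀ a ≠ 1, ∀ x ∈ s, θ a • x ≠ x) (h3 : ∀ x, ∑ a, f (θ a • x) = 0) : ∑ x ∈ s, f x = 0 := by
  classical
  refine Finset.sum_cancels_of_partition_cancels ⟨fun x y => ∃ a, θ a • y = x, fun x => ⟨1, by simp⟩, fun ⟨a, h⟩ => ⟨a⁻¹, by simp [← h]⟩,
    fun ⟨a, h⟩ ⟨b, h'⟩ => ⟨a * b, by simp [mul_smul, h, h']⟩⟩ fun x hx => ?_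
  rw [← h3 x]
  exact (Finset.sum_bij (fun a _ => θ a • x) (fun a _ => Finset.mem_filter.2 ⟨h1 a x hx, a, rfl⟩)
    (fun a _ b _ h => by_contra fun e => h2 (b⁻¹ * a) (by rwa [ne_eq, inv_mul_eq_one, eq_comm]) x hx (by simp [mul_smul, h]))
    (fun y hy => (Finset.mem_filter.1 hy).2.imp fun a h => ⟨Finset.mem_univ _, h⟩) fun a _ => rfl).symm
theorem exn (s : Finset κ) (h : s.card < Fintype.card κ) : ∃ z, z ∉ s := by
  by_contra! H
  exact h.ne (congrArg _ (Finset.eq_univ_iff_forall.2 H))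

/-- sums of factor elements -/
def NN (X : 𝒜) : Prop := ∀ l, ∃ b, Cm l (X - pi1 l b)
variable [Nontrivial κ] (hk : 3 ≤ Fintype.card κ) (h0 : H0 M) (hp : ¬ Pat (U1 M))
include hk h0 hp
theorem fin1 (m : g ∈ M) (h : ∀ j, ∃ a, RK a ∧ NN (cj g (pi1 j a))) : g ∈ HH τ κ F := fun j => by
  obtain ⟨a, ea, h⟩ := h j
  obtain ⟨i, b, eb, e⟩ := ((ea.rb j).cj g).std fun i => let ⟨_, c⟩ := h i; radd hk ((ea.rb j).cj g) c
  exact ⟨i, n1 hk h0 hp m ea eb e⟩
theorem avg [Finite F] {W Λ : Type*} [AddCommGroup W] [AddCommGroup Λ] [Fintype Λ] (ρ : GL (τ → κ) F → W →+ W)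
    (hρ : ∀ g h w, ρ (g * h) w = ρ g (ρ h w)) {δ : W} (hδ : ∀ g ∈ HH τ κ F, ρ g δ = δ)
    (hT : ∀ l w, w ≠ 0 → ∃ f : W →+ F, f w ≠ 0 ∧ ∃ (e : Λ →+ Matrix κ κ F) (h : ∀ a b, e a * e b = 0), (∀ a ≠ 0, RK (e a)) ∧
      ∀ w, ∑ a, f (ρ (piU l (tv (e a) (h a a))) w) = 0) (m : g ∈ M) : ρ g δ = δ := by
  classical
  have := Fintype.ofFinite (GL (τ → κ) F ⧸ HH τ κ F)
  let val : GL (τ → κ) F ⧸ HH τ κ F → W := Quotient.lift (fun g => ρ g δ) fun a b h => by
    rw [← mul_inv_cancel_left a b, hρ, hδ _ (QuotientGroup.leftRel_apply.1 h)]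
  have ev : ∀ (g : GL (τ → κ) F) ω, val (g • ω) = ρ g (val ω) := fun g ω => by
    induction ω using QuotientGroup.induction_on with | H k => exact hρ g k δ
  let P (J : Finset τ) (ω : GL (τ → κ) F ⧸ HH τ κ F) : Prop := ∃ g ∈ M, ω = g ∧ ∀ l ∈ J, ∃ i, Mp g i l
  have st : ∀ J ω, ∀ t ∈ M, (∀ l ∈ J, Mp t l l) → P J ω → P J (t • ω) := by
    rintro J _ t m h ⟨g, m', rfl, h'⟩
    exact ⟨t * g, mul_mem m m', rfl, fun l e => (h' l e).imp fun i c => (h l e).mul c⟩
  have key : ∀ J, ∑ ω with P J ω, val ω = ∑ ω with P ∅ ω, val ω := fun J => by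
    induction J using Finset.induction_on with
    | empty => rfl
    | insert l J _ ih =>
    rw [← ih, ← Finset.sum_filter_add_sum_filter_not (.filter (P J) .univ) (P (insert l J)), Finset.filter_filter, Finset.filter_filter,
      Finset.filter_congr (q := P (insert l J)) fun ω _ => and_iff_right_of_imp fun ⟨g, m, e, h⟩ => ⟨g, m, e, fun l c => h l (by simp [c])⟩,
      left_eq_add]
    by_contra n
    obtain ⟨f, n', e, h, h1, h2⟩ := hT l _ n
    let θ : Multiplicative Λ →* GL (τ → κ) F := (piU l).comp (.mk' (fun a => tv (e a.toAdd) (h _ _)) fun a b => Units.ext (by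
      simp [tv, mul_add, add_mul, h, add_assoc]))
    have tm : ∀ a, θ a ∈ M := fun a => h0 _ _ (by
      by_cases c : a.toAdd = 0
      · simp [tv, c]
      · exact (h1 _ c).det)
    refine n' ((map_sum ..).trans (free_sum θ _ _ (fun a ω => ?_) (fun a c ω m e => ?_) fun ω => by
      simp only [ev]; exact (Fintype.sum_equiv Multiplicative.toAdd _ _ fun _ => rfl).trans (h2 (val ω))))
    · simp only [Finset.mem_filter, Finset.mem_univ, true_and]
      exact And.imp (st _ _ _ (tm a) fun l _ => mp_piU _ _) (mt fun c => by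
        simpa using st _ _ (θ a⁻¹) (tm _) (fun l _ => mp_piU _ _) c)
    obtain ⟨-, ⟨g, m', rfl, h3⟩, h4⟩ := Finset.mem_filter.1 m
    obtain ⟨i, hi⟩ := se hk h0 hp (inv_mem m') (h1 a.toAdd c) (y := g⁻¹ * θ a * g) (j := l) (by simpa [mul_assoc] using inv_mem (QuotientGroup.eq.1 e))
      (by rw [← map_one (cj g⁻¹), ← map_add, ← piU_tv (h1 a.toAdd c), cj_val, inv_inv]; rfl)
    exact h4 ⟨g, m', rfl, by simpa using ⟨⟨i, by simpa using hi.inv⟩, h3⟩⟩
  have k1 : ∑ ω with P ∅ ω, val ω = δ := by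
    rw [← key .univ, Finset.sum_eq_single (QuotientGroup.mk 1) (fun ω m n => ?_) fun n => (n ?_).elim]
    · exact hδ 1 (one_mem _)
    · obtain ⟨g, -, rfl, h⟩ := (Finset.mem_filter.1 m).2
      exact (n (QuotientGroup.eq.2 (by rw [mul_one]; exact fun l => (h l (by simp)).imp fun i c => c.inv))).elim
    · exact Finset.mem_filter.2 ⟨by simp, 1, one_mem _, rfl, fun l _ => ⟨l, fun a => ⟨a, cj_one _⟩⟩⟩
  rw [← k1, map_sum]
  exact Finset.sum_nbij' (g • ·) (g⁻¹ • ·) (by simpa using fun ω => st ∅ ω g m (by simp)) (by simpa using fun ω => st ∅ ω _ (inv_mem m) (by simp))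
    (by simp) (by simp) fun ω _ => (ev g ω).symm

omit [Nontrivial κ] hk h0 hp
/-- partial trace -/
def ptr (j : τ) : 𝒜 →ₗ[F] Matrix κ κ F where
  toFun Y := of fun r s => trace (Y * pi1 j (single s r 1))
  map_add' _ _ := by ext; simp [add_mul]
  map_smul' _ _ := by ext; simp
theorem tr_ptr (Y : 𝒜) (a) : trace (ptr j Y * a) = trace (Y * pi1 j a) := by
  induction a using Matrix.induction_on' with
  | h_zero => simp
  | h_add a b h h' => simp [mul_add, h, h']
  | h_std_basis r s c => rw [show single r s c = c • single r s (1 : F) by simp, map_smul]; simp [-smul_single, trace_mul_single, ptr]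
/-- the equivariant map -/
def Phi : 𝒜 →ₗ[F] 𝒜 := ∑ j, (pi1 j).toLinearMap ∘ₗ ptr j
theorem nn_phi (Y : 𝒜) : NN (Phi Y) := fun l => ⟨ptr l Y, fun a => by
  simp only [Phi, LinearMap.sum_apply]
  rw [← Finset.add_sum_erase _ _ (Finset.mem_univ l)]
  simpa using Commute.sum_left (.erase .univ l) (fun j => pi1 j (ptr j Y)) _ fun j m => cm_pi1 (Finset.mem_erase.1 m).1 _ a⟩
theorem pi1_ent (a : Matrix κ κ F) (x y : τ → κ) : pi1 l a x y = a (x l) (y l) * ∏ j ∈ Finset.univ.erase l, (1 : Matrix κ κ F) (x j) (y j) :=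
  pt_update 1 l a x y
theorem phi_single {r s : κ} (h : r ≠ s) :
    Phi (single (Function.update (fun _ => r) l r) (Function.update (fun _ => r) l s) (1 : F)) = pi1 l (single r s 1) := by
  simp only [Phi, LinearMap.sum_apply]
  rw [Finset.sum_eq_single l (fun j _ n => ?_) (by simp)]
  · refine congrArg (pi1 l) (ext fun a b => ?_)
    simp only [ptr, LinearMap.coe_mk, AddHom.coe_mk, of_apply, trace_single_mul, pi1_ent, Function.update_self, one_smul]
    rw [Finset.prod_eq_one fun j m => by rw [Function.update_of_ne (Finset.mem_erase.1 m).1, Function.update_of_ne (Finset.mem_erase.1 m).1, one_apply_eq]]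
    simp [single_apply, and_comm, eq_comm]
  · refine (congrArg (pi1 j) (ext fun a b => ?_)).trans (map_zero _)
    simp only [ptr, LinearMap.coe_mk, AddHom.coe_mk, of_apply, trace_single_mul, pi1_ent]
    rw [Finset.prod_eq_zero (i := l) (by simp [n.symm]) (by simp [h.symm])]; simp
theorem phi_cj [Nontrivial κ] (h : g ∈ HH τ κ F) (Y : 𝒜) : cj g (Phi (cj g⁻¹ Y)) = Phi Y := by
  obtain ⟨π, hπ⟩ := HH_perm h
  simp only [Phi, LinearMap.sum_apply, map_sum]
  refine Fintype.sum_equiv π _ _ fun i => ?_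
  obtain ⟨d, hd⟩ := (hπ i).sn
  refine (hd _).trans (congrArg (pi1 (π i)) (sub_eq_zero.1 (eq_zero_of_trace fun b => ?_)))
  rw [sub_mul, trace_sub, tr_ptr, ← cj_cj_inv d b, ← map_mul, trace_cj, tr_ptr, ← hd, ← trace_cj g, map_mul, cj_cj_inv, sub_self]
include hk h0 hp in
theorem le_HH1 [Nontrivial κ] [Fintype F] (hc : 4 ≤ Fintype.card κ ∨ ∑ c : F, c = 0) : M ≤ HH τ κ F := fun g m => by
  obtain ⟨r, s, rs⟩ := exists_pair_ne κ
  have := avg hk h0 hp (W := 𝒜 →ₗ[F] 𝒜) (Λ := F) (fun g => .mk' (fun Θ => (cj g).toLinearMap ∘ₗ Θ ∘ₗ (cj g⁻¹).toLinearMap) fun _ _ => by ext1; simp)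
    (fun g h w => by ext1; simp [cj_mul]) (δ := Phi) (fun g h => LinearMap.ext (phi_cj h)) (fun l Θ n => ?_) m
  · have h1 : ∀ Y, cj g (Phi (cj g⁻¹ Y)) = Phi Y := LinearMap.congr_fun this
    exact fin1 hk h0 hp m fun j => ⟨_, rk_single rs, by
      rw [← phi_single rs, ← cj_inv_cj g (single _ _ _), h1]
      exact nn_phi _⟩
  obtain ⟨x, z, w, y, n⟩ : ∃ x z w y, Θ (single x z 1) w y ≠ 0 := by
    by_contra! h
    exact n ((stdBasis F _ _).ext fun ⟨x, z⟩ => by ext w y; simp [stdBasis_eq_single, h])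
  obtain ⟨s, hs⟩ := exn {x l, y l} (Finset.card_le_two.trans_lt hk)
  obtain ⟨r, hr, h'⟩ : ∃ r, r ∉ ({s, z l} : Finset κ) ∧ (r ≠ w l ∨ ∑ c : F, c = 0) := hc.elim
    (fun h => let ⟨r, e⟩ := exn {s, z l, w l} (Finset.card_le_three.trans_lt h); ⟨r, by simp_all⟩)
    fun h => let ⟨r, e⟩ := exn {s, z l} (Finset.card_le_two.trans_lt hk); ⟨r, e, .inr h⟩
  simp only [Finset.mem_insert, Finset.mem_singleton, not_or] at hs hr
  refine ⟨.mk' (fun Θ => Θ (single x z 1) w y) fun _ _ => rfl, n, .mk' (· • single r s 1) fun _ _ => add_smul .., fun a b => by simp [Ne.symm hr.1],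
    fun c c0 => (rk_single hr.1).smul c0, fun Θ => ?_⟩
  have e1 : pi1 l (single r s (1 : F)) * single x z 1 = 0 := by
    ext a b; by_cases c : z = b
    · simp [← c, pi1_ent, single_apply, hs.1]
    · simp [Ne.symm c]
  have e2 : single x z 1 * pi1 l (single r s (1 : F)) = 0 := by
    ext a b; by_cases c : x = a
    · simp [← c, pi1_ent, single_apply, hr.2]
    · simp [Ne.symm c]
  have e3 : ∀ Z : 𝒜, (Z * pi1 l (single r s (1 : F))) w y = 0 := fun Z => by simp [mul_apply, pi1_ent, single_apply, hs.2]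
  have e4 : (∑ c : F, c) * (pi1 l (single r s (1 : F)) * Θ (single x z 1)) w y = 0 :=
    h'.elim (fun h => by simp [mul_apply, pi1_ent, single_apply, h]) fun h => by simp [h]
  change ∑ c : F, cj _ (Θ (cj _ (single x z 1))) w y = 0
  simp [-smul_single, cj_apply, ← map_inv, piU_val, tv, mul_add, add_mul, mul_sub, sub_mul, e1, e2, e3, Finset.sum_add_distrib, ← Finset.sum_mul, e4]
end H09.Wr
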