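import Mathlib
import Cfsg.Agent.H09.WrD
/-! Tensor-wreath subgroups: factors of dimension three over the field of two elements. -/
namespace H09.Wr
open Matrix H10.As Module Kronecker
variable {τ κ ι : Type} [Fintype τ] [DecidableEq τ] [Fintype κ] [DecidableEq κ] [Fintype ι] [DecidableEq ι] {F : Type*} [Field F]
section B
local notation "𝒜" => Matrix (τ → κ) (τ → κ) F
variable {l : τ} {β : Matrix (τ → κ) (τ → κ) F} {M : Subgroup (GL (τ → κ) F)} {L : AddSubgroup (Matrix (τ → κ) (τ → κ) F)}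
theorem ent_sub_pi1 (φ u : κ → F) (β : 𝒜) (b) : ent l φ u (β - pi1 l b) = ent l φ u β - (φ ⬝ᵥ b *ᵥ u) • 1 := by
  simp only [ent, mul_sub, sub_mul, Finset.sum_sub_distrib, VV_pi1, VV_mul, ← Finset.smul_sum, sum_VV, dotProduct_mulVec]
theorem lemB (hk : 3 ≤ Fintype.card κ) (C : Cl M (· ∈ L)) (hp : ¬ Pat (· ∈ L)) (h1 : ∀ i a, RK a → pi1 i a ∈ L) (hβ : β ∈ L) : NN β := fun l => by
  have hL : ∀ a, RK a → ∀ β ∈ L, (1 + pi1 l a) * β * (1 - pi1 l a) ∈ L := fun a e β m => cj_rk (i := l) e β ▸ C.cj _ (C.h0 l _ e.det) _ m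
  have : ∀ r s, ∃ c : F, (r = s → c = 0) ∧ (r ≠ s → ent l (Pi.single r 1) (Pi.single s 1) β = c • 1) := fun r s => by
    by_cases e : r = s
    · exact ⟨0, by simp [e]⟩
    obtain ⟨c, h⟩ := f1 hk C hp ⟨_, _, by simp, by simp, by simp [e], rfl⟩ (cm_ent _ _ _) (la1 hk hL hβ (u := Pi.single s 1) (φ := Pi.single r 1) (by simp [e]) (by simp))
    exact ⟨c, by simp [e, h]⟩
  choose c c1 c2 using this
  have m : β - pi1 l (of c) ∈ L := sub_mem hβ (by
    rw [matrix_eq_sum_single (of c)]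
    simp only [map_sum]
    refine sum_mem fun r _ => sum_mem fun s _ => ?_
    by_cases e : c r s = 0
    · simp [e]
    · exact h1 _ _ (by simpa using (rk_single (mt (c1 r s) e)).smul e))
  have h2 : ∀ r s, r ≠ s → ent l (Pi.single r 1) (Pi.single s 1) (β - pi1 l (of c)) = 0 := fun r s e => by simp [ent_sub_pi1, c2 r s e]
  obtain ⟨o⟩ : Nonempty κ := Fintype.card_pos_iff.1 (by omega)
  generalize e1 : β - pi1 l (of c) = γ at m h2
  have : ∀ s, ∃ d : F, ent l (Pi.single s 1) (Pi.single s 1) γ = ent l (Pi.single o 1) (Pi.single o 1) γ + d • 1 := fun s => by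
    by_cases e : o = s
    · exact ⟨0, by simp [e]⟩
    obtain ⟨d, h⟩ := f1 hk C hp ⟨_, _, by simp, by simp, by simp [Ne.symm e], rfl⟩ ((cm_ent _ _ _).sub (cm_ent _ _ _)) (la2 hL m h2 e)
    exact ⟨d, by rw [← h]; abel⟩
  choose d hd using this
  refine ⟨of c + ∑ s, d s • vecMulVec (Pi.single s 1) (Pi.single s 1), ?_⟩
  rw [map_add, ← sub_sub, e1, eq_sum_ent l γ, Finset.sum_congr rfl fun r _ => Finset.sum_eq_single r (fun s _ e => by rw [h2 r s e.symm, mul_zero]) (by simp)]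
  rw [Finset.sum_congr rfl fun r _ => by rw [hd r]]
  simp only [mul_add, Finset.sum_add_distrib, ← Finset.sum_mul, sum_VV, one_mul, mul_smul_comm, mul_one, map_sum, map_smul, ← VV.eq_1,
    add_sub_cancel_right, cm_ent]
end B

/-- triple Kronecker product -/
def K3 (A B C : Matrix ι ι F) : Matrix (ι × ι × ι) (ι × ι × ι) F := A ⊗ₖ (B ⊗ₖ C)
theorem K3_mul (A B C A' B' C' : Matrix ι ι F) : K3 (A * A') (B * B') (C * C') = K3 A B C * K3 A' B' C' := by simp [K3, mul_kronecker_mul]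
/-- derivation action -/
def DD : Matrix ι ι F →+ Matrix (ι × ι × ι) (ι × ι × ι) F :=
  .mk' (fun X => K3 X 1 1 + K3 1 X 1 + K3 1 1 X) fun _ _ => by simp only [K3, add_kronecker, kronecker_add]; abel
theorem DD_apply (X : Matrix ι ι F) : DD X = K3 X 1 1 + K3 1 X 1 + K3 1 1 X := rfl
theorem DD_cj (g : GL ι F) (X) : DD (cj g X) * K3 g.1 g.1 g.1 = K3 g.1 g.1 g.1 * DD X := by
  simp only [DD_apply, add_mul, mul_add, ← K3_mul, cj_mul_self, mul_one, one_mul]
/-- mixed determinant -/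
def d3 (A B C : Matrix (Fin 3) (Fin 3) F) (a b c : Fin 3) : F :=
  A a 0 * B b 1 * C c 2 - A a 0 * B b 2 * C c 1 - A a 1 * B b 0 * C c 2 + A a 1 * B b 2 * C c 0 + A a 2 * B b 0 * C c 1 - A a 2 * B b 1 * C c 0
/-- alternating tensor -/
def eps (p : Fin 3 × Fin 3 × Fin 3) : F := d3 1 1 1 p.1 p.2.1 p.2.2
theorem K3_eps (A B C : Matrix (Fin 3) (Fin 3) F) (p) : (K3 A B C *ᵥ eps) p = d3 A B C p.1 p.2.1 p.2.2 := by
  simp [K3, mulVec, dotProduct, Fintype.sum_prod_type, Fin.sum_univ_three, eps, d3]; ring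
/-- tensor product of alternating tensors -/
def dl (p : (τ → Fin 3) × (τ → Fin 3) × (τ → Fin 3)) : F := ∏ l, eps (p.1 l, p.2.1 l, p.2.2 l)
theorem K3_pt (A B C : τ → Matrix (Fin 3) (Fin 3) F) (p) :
    (K3 (pt A) (pt B) (pt C) *ᵥ dl) p = ∏ l, d3 (A l) (B l) (C l) (p.1 l) (p.2.1 l) (p.2.2 l) := by
  have : ∀ l, d3 (A l) (B l) (C l) (p.1 l) (p.2.1 l) (p.2.2 l) = _ := fun l => (K3_eps _ _ _ (p.1 l, p.2.1 l, p.2.2 l)).symm
  simp [this, K3, mulVec, dotProduct, Fintype.sum_prod_type, pt_apply, Finset.prod_univ_sum, Finset.prod_mul_distrib, dl]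
theorem fin3 {P : Fin 3 → Prop} (a : P 0) (b : P 1) (c : P 2) : ∀ i, P i := by intro i; fin_cases i <;> assumption
theorem det_rows (A : Matrix (Fin 3) (Fin 3) F) : ∀ a b c, d3 A A A a b c = d3 1 1 1 a b c * det A := by
  refine fin3 ?_ ?_ ?_ <;> refine fin3 ?_ ?_ ?_ <;> refine fin3 ?_ ?_ ?_ <;> simp [d3, det_fin_three] <;> ring
theorem det_der (A : Matrix (Fin 3) (Fin 3) F) : ∀ a b c, d3 A 1 1 a b c + d3 1 A 1 a b c + d3 1 1 A a b c = d3 1 1 1 a b c * trace A := by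
  refine fin3 ?_ ?_ ?_ <;> refine fin3 ?_ ?_ ?_ <;> refine fin3 ?_ ?_ ?_ <;> simp [d3, trace_fin_three] <;> ring
theorem DD_pt (A : τ → Matrix (Fin 3) (Fin 3) F) (x y z) : (DD (pt A) *ᵥ dl) (x, y, z) =
    ∏ l, d3 (A l) 1 1 (x l) (y l) (z l) + ∏ l, d3 1 (A l) 1 (x l) (y l) (z l) + ∏ l, d3 1 1 (A l) (x l) (y l) (z l) := by
  rw [DD_apply, ← map_one (pt (τ := τ))]
  simp only [add_mulVec, Pi.add_apply, K3_pt, Pi.one_apply]
theorem DD_pi1 (i : τ) {a : Matrix (Fin 3) (Fin 3) F} (h : RK a) : DD (pi1 i a) *ᵥ dl = 0 := by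
  ext ⟨x, y, z⟩
  rw [pi1_apply, DD_pt]
  simp only [← Finset.mul_prod_erase _ _ (Finset.mem_univ i), Pi.mulSingle_eq_same]
  have : ∀ f : Matrix (Fin 3) (Fin 3) F → τ → F, ∏ l ∈ .erase .univ i, f ((Pi.mulSingle i a : τ → _) l) l = ∏ l ∈ .erase .univ i, f 1 l :=
    fun f => Finset.prod_congr rfl fun l m => by rw [Pi.mulSingle_eq_of_ne (Finset.mem_erase.1 m).1]
  rw [this fun A l => d3 A 1 1 (x l) (y l) (z l), this fun A l => d3 1 A 1 (x l) (y l) (z l), this fun A l => d3 1 1 A (x l) (y l) (z l),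
    ← add_mul, ← add_mul, det_der]
  obtain ⟨u, φ, -, -, h, rfl⟩ := h
  simp [trace_vecMulVec, dotProduct_comm u, h]
theorem dl_HH [Nonempty τ] (h2 : ∀ c : F, c ≠ 0 → c = 1) {g : GL (τ → Fin 3) F} (h : g ∈ HH τ (Fin 3) F) : K3 g.1 g.1 g.1 *ᵥ dl = dl := by
  obtain ⟨π, hπ⟩ := HH_perm h
  obtain ⟨u, rfl⟩ := exists_ptU hπ
  have : K3 (ptU u).1 (ptU u).1 (ptU u).1 *ᵥ dl = dl := by
    ext p; simp only [ptU_val, K3_pt, fun l => det_rows (u l).1, h2 _ (u _).det_ne_zero, mul_one, dl, eps]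
  rw [Units.val_mul, K3_mul, ← mulVec_mulVec, this]
  ext p
  simpa [K3, mulVec, dotProduct, Fintype.sum_prod_type, fp, -mul_ite, dl] using Equiv.prod_comp π fun l => (eps (p.1 l, p.2.1 l, p.2.2 l) : F)
theorem le_HH2 [Nonempty τ] [Fintype F] (h2 : ∀ c : F, c ≠ 0 → c = 1) {M : Subgroup (GL (τ → Fin 3) F)} (h0 : H0 M) (hp : ¬ Pat (U1 M)) :
    M ≤ HH τ (Fin 3) F := fun g m => by
  have hk : 3 ≤ Fintype.card (Fin 3) := by simp
  let L : AddSubgroup (Matrix (τ → Fin 3) (τ → Fin 3) F) := .comap DD (mulVec.addMonoidHomLeft dl).ker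
  have mL : ∀ X, X ∈ L ↔ DD X *ᵥ dl = 0 := fun _ => .rfl
  have cL : ∀ g : GL (τ → Fin 3) F, K3 g.1 g.1 g.1 *ᵥ dl = dl → ∀ X ∈ L, cj g X ∈ L := fun g e X m => by
    rw [mL, ← e, mulVec_mulVec, DD_cj, ← mulVec_mulVec, (mL X).1 m, mulVec_zero]
  have C : Cl (HH τ (Fin 3) F) (· ∈ L) := ⟨fun i d _ j => ⟨j, mp_piU d j⟩, fun g m => cL g (dl_HH h2 m), fun _ _ a b _ _ => sub_mem a b⟩
  have := avg hk h0 hp (Λ := F × F) (fun g => (K3 g.1 g.1 g.1).mulVecLin.toAddMonoidHom)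
    (fun g h w => by simp [K3_mul]) (δ := dl) (fun g h => dl_HH h2 h) (fun l w n => ?_) m
  · refine fin1 hk h0 hp m fun j => ⟨_, rk_single (zero_ne_one' (Fin 3)), lemB hk C ?_ (fun i a h => DD_pi1 i h)
      (cL g this _ (DD_pi1 j (rk_single zero_ne_one)))⟩
    rintro ⟨J, A, h1, h3, h4⟩
    obtain ⟨a, ha, b, hb, e⟩ := Finset.one_lt_card.1 h1
    have := congrFun ((mL _).1 (C.all hk h3 h4 (B := fun l => if l ∈ J then single 0 1 1 else 1) ⟨by simp +contextual [rk_single], by simp +contextual⟩))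
      (fun _ => 0, fun l => if l = a then 0 else if l ∈ J then 2 else 1, fun l => if l = a then 2 else if l ∈ J then 0 else 2)
    rw [DD_pt, Finset.prod_eq_zero (f := fun l => d3 1 _ 1 _ _ _) (Finset.mem_univ b) (by simp [e.symm, hb, d3]),
      Finset.prod_eq_zero (f := fun l => d3 1 1 _ _ _ _) (Finset.mem_univ a) (by simp [ha, d3]),
      add_zero, add_zero, Pi.zero_apply, Finset.prod_eq_zero_iff] at this
    obtain ⟨l, -, h⟩ := this
    by_cases c : l = a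
    · rw [if_pos c, if_pos c] at h; simp [c, ha, d3] at h
    · rw [if_neg c, if_neg c] at h
      by_cases c' : l ∈ J
      · simp only [if_pos c'] at h; simp [d3] at h
      · simp only [if_neg c'] at h; simp [d3] at h
  obtain ⟨⟨x, y, z⟩, n⟩ := Function.ne_iff.1 n
  obtain ⟨r, hr⟩ := exn {x l, y l} (Finset.card_le_two.trans_lt hk)
  simp only [Finset.mem_insert, Finset.mem_singleton, not_or] at hr
  refine ⟨Pi.evalAddMonoidHom _ (x, y, z), n, .mk' (fun c => c.1 • single r (r + 1) 1 + c.2 • single r (r + 2) 1) fun _ _ => by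
    simp only [Prod.fst_add, Prod.snd_add, add_smul]; abel, fun a b => by simp [mul_add, add_mul], fun c c0 => ⟨Pi.single r 1,
      c.1 • Pi.single (r + 1) 1 + c.2 • Pi.single (r + 2) 1, by simp, fun e => c0 (Prod.ext (by simpa using congrFun e (r + 1))
        (by simpa using congrFun e (r + 2))), by simp, by simp [-smul_single, single_eq_single_vecMulVec_single, vecMulVec_add]⟩, fun ω => ?_⟩
  have e1 : ∀ s v, pi1 l (single r s (1 : F)) x v = 0 := fun s v => by simp [pi1_ent, single_apply, hr.1]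
  have e2 : ∀ s v, pi1 l (single r s (1 : F)) y v = 0 := fun s v => by simp [pi1_ent, single_apply, hr.2]
  simp [-smul_single, piU_val, tv, K3, mulVec, dotProduct, Fintype.sum_prod_type, e1, e2, one_apply, add_mul, Finset.sum_add_distrib, mul_assoc,
    ← Finset.mul_sum, ← Finset.sum_mul]
end H09.Wr
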