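import Mathlib
import Cfsg.Agent.H09.WrE
import Cfsg.Agent.H10.AsBig
/-! Tensor-wreath subgroups are maximal in the special linear group. -/
namespace H09.Wr
open Matrix H10.As Module Cfsg.Geo
variable {τ κ ι : Type} [Fintype τ] [DecidableEq τ] [Fintype κ] [DecidableEq κ] [Fintype ι] [DecidableEq ι] {F : Type*} [Field F]
theorem det_sq0 {a : Matrix ι ι F} (h : a * a = 0) : det (1 + a) = 1 := by
  have := congrArg (Polynomial.eval 1) (sub_eq_zero.1 (isNilpotent_charpoly_sub_pow_of_isNilpotent (M := -a) ⟨2, by simp [sq, h]⟩).eq_zero)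
  simpa [eval_charpoly] using this
theorem det_piU (i : τ) {d : GL κ F} (h : det d.1 = 1) : det (piU i d).1 = 1 := by
  have : ((specialLinear (τ → κ) F).comap (piU i)).comap SpecialLinearGroup.toGL = ⊤ := eq_top_of_transvection_mem _ fun r s e c =>
    mem_specialLinear.2 (by
      change det (pi1 i (1 + single r s c)) = 1
      rw [map_add, map_one]; exact det_sq0 (by simp [← map_mul, e.symm]))
  obtain ⟨g', rfl⟩ : d ∈ (SpecialLinearGroup.toGL (n := κ) (R := F)).range := by rwa [range_toGL_eq_ker_det, MonoidHom.mem_ker, Units.ext_iff]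
  exact mem_specialLinear.1 (this.ge (Subgroup.mem_top g'))
theorem main [Fintype F] {m : ℕ} [Nontrivial (Fin m)] (hm : 3 ≤ m) [Nonempty τ] {M : Subgroup (GL (τ → Fin m) F)}
    (h : HH τ (Fin m) F ⊓ specialLinear _ F ≤ M) : specialLinear _ F ≤ M ∨ M ≤ HH τ (Fin m) F := by
  have hk : 3 ≤ Fintype.card (Fin m) := by simpa
  have h0 : H0 M := fun i d e => h ⟨fun j => ⟨j, mp_piU d j⟩, mem_specialLinear.2 (det_piU i e)⟩
  by_cases hp : Pat (U1 M)
  · exact .inl (sl_le hk h0 (fun π e => h ⟨fun j => ⟨π j, fun a => ⟨a, cj_fp_pi1 π j a⟩⟩, mem_specialLinear.2 e⟩) hp)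
  right
  by_cases c : 4 ≤ m
  · exact le_HH1 hk h0 hp (.inl (by simpa))
  obtain rfl : m = 3 := by omega
  by_cases c : 2 < Fintype.card F
  · exact le_HH1 hk h0 hp (.inr (by simpa using FiniteField.sum_pow_lt_card_sub_one F 1 (by omega)))
  classical
  refine le_HH2 (fun c c0 => by_contra fun c1 => ?_) h0 hp
  have := Finset.card_le_univ ({c, 0, 1} : Finset F)
  rw [Finset.card_eq_three.2 ⟨c, 0, 1, c0, c1, zero_ne_one, rfl⟩] at this
  omega
theorem not_le [Nontrivial κ] [Nontrivial τ] (hk : 3 ≤ Fintype.card κ) : ¬ specialLinear _ F ≤ HH τ κ F := fun h => by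
  obtain ⟨r, s, e⟩ := exists_pair_ne κ
  obtain ⟨i, j, n⟩ := exists_pair_ne τ
  have h1 : pi1 i (single r s (1 : F)) * pi1 j (single r s 1) * (pi1 i (single r s 1) * pi1 j (single r s 1)) = 0 := by
    rw [mul_assoc, ← mul_assoc (pi1 j _), (cm_pi1 n.symm _ _).eq, ← mul_assoc, ← mul_assoc, ← map_mul]; simp [e.symm]
  have h2 : pi1 i (single r s (1 : F)) * pi1 j (single r s 1) ≠ 0 := fun c => (rk_single e).ne
    (pi1_inj j (((cm_pi1 n.symm _).eq_zero (rk_single e).ne c).trans (map_zero _).symm))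
  have R : RB (pi1 i (single r s (1 : F)) * pi1 j (single r s 1)) :=
    ⟨h1, h2, fun l u φ a b => (rank_mul_le_left _ _).trans (((rk_single e).rb i).2.2 l u φ a b)⟩
  obtain ⟨l, m⟩ := h (mem_specialLinear.2 (det_sq0 h1) : tv _ h1 ∈ _) i
  obtain rfl : l = i := by_contra fun c => by
    obtain ⟨b, hb⟩ := m (single r s 1)
    rw [cj_eq_iff.2 ((Commute.one_left _).add_left ((Commute.refl _).mul_left (cm_pi1 n.symm _ _))).eq] at hb
    exact (rk_single e).not_sc (Cm.sc (i := i) (hb ▸ cm_pi1 c b))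
  rcases rmul hk R rfl m with c | ⟨a, -, c⟩
  · refine (rk_single (F := F) e).not_sc (sc_of_comm fun b => sub_eq_zero.1 (by_contra fun c' => ((rk_single (F := F) e).rb j).2.1
      ((cm_pi1 n.symm _).eq_zero c' ?_)))
    rw [map_sub, map_mul, map_mul, sub_mul, mul_assoc, ← (cm_pi1 n.symm _ b).eq, ← mul_assoc, (c b).eq, mul_assoc, sub_self]
  · exact ((rk_single e).rb j).not_sc ((cm_pi1 n.symm _).sc_of (rk_single e).ne c)
theorem mem_iff {m t : ℕ} [Nontrivial (Fin m)] [NeZero t] {e : ι ≃ (Fin t → Fin m)} {P g : GL ι F} :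
    g ∈ tensorWreathSubgroup m t e P ↔ pl e P g ∈ HH (Fin t) (Fin m) F := by
  have : NeZero m := ⟨by rintro rfl; exact not_nontrivial (Fin 0) ‹_›⟩
  refine ⟨fun h => ?_, fun h => ?_⟩
  · obtain ⟨π, u, e⟩ := wl_wreath g h
    exact fun j => ⟨π j, fun a => ⟨_, by rw [e, cj_mul, cj_ptU, cj_fp_pi1]⟩⟩
  · obtain ⟨π, hπ⟩ := HH_perm h
    obtain ⟨u, e'⟩ := exists_ptU hπ
    exact (mem_co e P).2 (e' ▸ mem_wreath π u)
theorem wreath_max [Fintype F] {m t : ℕ} (hm : 3 ≤ m) (ht : 2 ≤ t) (e : ι ≃ (Fin t → Fin m)) (P : GL ι F) :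
    IsMaximalIn (specialLinear ι F) (tensorWreathSubgroup m t e P ⊓ specialLinear ι F) := by
  have : Nontrivial (Fin m) := Fin.nontrivial_iff_two_le.2 (by omega)
  have : Nontrivial (Fin t) := Fin.nontrivial_iff_two_le.2 ht
  have : NeZero t := ⟨by omega⟩
  have sl : ∀ g, pl e P g ∈ specialLinear _ F ↔ g ∈ specialLinear ι F := fun g => by
    simp [mem_specialLinear, pl_val, pm, cj_apply, mul_right_comm _ (det g.1), GeneralLinearGroup.det_ne_zero P]
  refine ⟨inf_le_right.lt_of_ne fun h => not_le (F := F) (τ := Fin t) (κ := Fin m) (by simpa) fun g m => ?_, fun M h1 h2 => ?_⟩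
  · obtain ⟨g, rfl⟩ := (pl e P).surjective g
    exact mem_iff.1 (h.ge ((sl g).1 m)).1
  rcases main hm (M := M.map (pl e P).toMonoidHom) (fun g m => by
    obtain ⟨g, rfl⟩ := (pl e P).surjective g
    exact ⟨g, h1 ⟨mem_iff.2 m.1, (sl g).1 m.2⟩, rfl⟩) with h | h
  · refine .inr (h2.antisymm fun g m => ?_)
    obtain ⟨g', m', e'⟩ := h ((sl g).2 m)
    exact (pl e P).injective e' ▸ m'
  · exact .inl (le_antisymm (fun g m => ⟨mem_iff.2 (h ⟨g, m, rfl⟩), h2 m⟩) h1)
end H09.Wr
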