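import Mathlib
import Cfsg.Agent.H09.WrF
/-! Unitary tensor-wreath subgroups: patterns. -/
namespace H09.Wr
open Matrix H10.As Module
variable {τ κ ι : Type} [Fintype τ] [DecidableEq τ] [Fintype κ] [DecidableEq κ] [Fintype ι] [DecidableEq ι] {F : Type*} [Field F] [StarRing F]

/-- unitary -/
def Un (g : GL ι F) : Prop := g.1ᴴ * g.1 = 1
section Un
variable {g x : GL ι F}
theorem Un.inv_val (h : Un g) : (g⁻¹).1 = g.1ᴴ := Units.inv_eq_of_mul_eq_one_left h
theorem Un.mul (h : Un g) (h' : Un x) : Un (g * x) := by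
  rw [Un, Units.val_mul, conjTranspose_mul, ← h.inv_val, ← h'.inv_val]; simp [mul_assoc]
theorem Un.inv (h : Un g) : Un g⁻¹ := by rw [Un, h.inv_val, conjTranspose_conjTranspose, ← h.inv_val]; simp
theorem Un.cj_star (h : Un g) (X) : (cj g X)ᴴ = cj g Xᴴ := by simp [cj_apply, h.inv_val, mul_assoc]
end Un
variable (F) in
/-- the involution is non-trivial, the norm is onto -/
structure UF : Prop where
  ne : ∃ ζ : F, star ζ ≠ ζ
  nm : ∀ c : F, star c = c → ∃ a, star a * a = c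
theorem UF.tr (h : UF F) {c : F} (hc : star c = c) : ∃ t, t + star t = c := by
  obtain ⟨ζ, e⟩ := h.ne
  have := sub_ne_zero.2 e
  have := sub_ne_zero.2 e.symm
  refine ⟨ζ * c / (ζ - star ζ), ?_⟩
  simp only [star_div₀, star_mul', star_sub, star_star, hc]; field_simp; ring
theorem UF.skew (h : UF F) : ∃ s : F, s ≠ 0 ∧ star s = -s := let ⟨ζ, e⟩ := h.ne; ⟨ζ - star ζ, sub_ne_zero.2 e.symm, by simp⟩
theorem UF.mu (h : UF F) : ∃ μ : F, star μ * μ = 1 ∧ μ * μ ≠ 1 := by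
  obtain ⟨ζ, e⟩ := h.ne
  have k : ∀ ζ : F, star ζ ≠ ζ → star ζ ≠ -ζ → ∃ μ : F, star μ * μ = 1 ∧ μ * μ ≠ 1 := fun ζ a b => by
    have z : ζ ≠ 0 := by rintro rfl; simp at a
    have z' : star ζ ≠ 0 := by simpa
    refine ⟨star ζ / ζ, by simp; field_simp, fun e => ?_⟩
    rcases mul_self_eq_one_iff.1 e with e | e
    · exact a (by simpa [div_eq_iff z] using e)
    · exact b (by simpa [div_eq_iff z] using e)
  by_cases c : star ζ = -ζ
  · exact k (ζ + 1) (by simpa) fun e' => e (by rw [star_add, star_one, c] at e'; linear_combination c - ζ * e')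
  · exact k ζ e c
section lin
variable {u v w φ : κ → F} {c : F} {a : Matrix κ κ F}
theorem sd (u w : κ → F) : star (star u ⬝ᵥ w) = star w ⬝ᵥ u := by simp [dotProduct, mul_comm]
theorem sd0 (h : star u ⬝ᵥ w = 0) : star w ⬝ᵥ u = 0 := by rw [← sd, h, star_zero]
theorem exk {m : ℕ} (s : Fin m → κ → F) (h : m < Fintype.card κ) : ∃ w, w ≠ 0 ∧ ∀ i, s i ⬝ᵥ w = 0 := by
  obtain ⟨y, a, b⟩ := (Submodule.ne_bot_iff _).1 (LinearMap.ker_ne_bot_of_finrank_lt (f := (of s).mulVecLin) (by simpa))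
  exact ⟨y, b, congrFun a⟩
theorem ex_iso (hF : UF F) {m : ℕ} (s : Fin m → κ → F) (h : m + 2 ≤ Fintype.card κ) : ∃ w, w ≠ 0 ∧ star w ⬝ᵥ w = 0 ∧ ∀ i, s i ⬝ᵥ w = 0 := by
  obtain ⟨w, w0, h1⟩ := exk s (by omega)
  by_cases c : star w ⬝ᵥ w = 0
  · exact ⟨w, w0, c, h1⟩
  obtain ⟨v, v0, h2⟩ := exk (Fin.cons (star w) s : Fin (m + 1) → κ → F) (by omega)
  have h3 : star w ⬝ᵥ v = 0 := h2 0
  obtain ⟨a, ha⟩ := hF.nm (-(star v ⬝ᵥ v) / (star w ⬝ᵥ w)) (by simp [sd])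
  refine ⟨v + a • w, fun e => ?_, ?_, fun i => by simp [h1, show s i ⬝ᵥ v = 0 from h2 i.succ]⟩
  · have := congrArg (star w ⬝ᵥ ·) e
    obtain rfl : a = 0 := by simpa [h3, c] using this
    exact v0 (by simpa using e)
  · rw [eq_div_iff c] at ha
    simp [h3, sd0 h3]; linear_combination ha
theorem partner (hF : UF F) (h : star u ⬝ᵥ u = 0) (e : star u ⬝ᵥ v = 1) : ∃ t : F, star (v + t • u) ⬝ᵥ (v + t • u) = 0 := by
  obtain ⟨t, ht⟩ := hF.tr (c := -(star v ⬝ᵥ v)) (by simp [sd])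
  exact ⟨t, by simp [h, e, ← sd u v]; linear_combination ht⟩
theorem ex_partner (hF : UF F) (h : star u ⬝ᵥ u = 0) (u0 : u ≠ 0) : ∃ v, star u ⬝ᵥ v = 1 ∧ star v ⬝ᵥ v = 0 := by
  obtain ⟨v, e⟩ := ex1 (star_ne_zero.2 u0)
  rw [dotProduct_comm] at e
  obtain ⟨t, ht⟩ := partner hF h e
  exact ⟨_, by simp [h, e], ht⟩
/-- Heisenberg elements -/
def hz (u w : κ → F) (c : F) : Matrix κ κ F := vecMulVec u (star w) - vecMulVec w (star u) + c • vecMulVec u (star u)
/-- data of a Heisenberg element -/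
structure HZ (u w : κ → F) (c : F) : Prop where
  uu : star u ⬝ᵥ u = 0
  uw : star u ⬝ᵥ w = 0
  cc : star c = -c - star w ⬝ᵥ w
theorem HZ.un (h : HZ u w c) : (1 + hz u w c)ᴴ * (1 + hz u w c) = 1 := by
  simp [hz, mul_add, add_mul, mul_sub, sub_mul, vecMulVec_mul_vecMulVec, h.uu, h.uw, sd0 h.uw, h.cc, sub_smul]; abel
/-- the group element -/
def HZ.gl (h : HZ u w c) : GL κ F := ⟨1 + hz u w c, (1 + hz u w c)ᴴ, mul_eq_one_comm.1 h.un, h.un⟩
theorem det_nil {a : Matrix ι ι F} (h : IsNilpotent a) : det (1 + a) = 1 := by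
  have := congrArg (Polynomial.eval 1) (sub_eq_zero.1 (isNilpotent_charpoly_sub_pow_of_isNilpotent (M := -a) h.neg).eq_zero)
  simpa [eval_charpoly] using this
theorem HZ.det (h : HZ u w c) : det h.gl.1 = 1 := det_nil ⟨3, by
  simp [pow_succ, hz, mul_add, add_mul, mul_sub, sub_mul, vecMulVec_mul_vecMulVec, h.uu, h.uw, sd0 h.uw]⟩
theorem ex_HZ (hF : UF F) (h : star u ⬝ᵥ u = 0) (h' : star u ⬝ᵥ w = 0) : ∃ c, HZ u w c := by
  obtain ⟨t, ht⟩ := hF.tr (c := -(star w ⬝ᵥ w)) (by simp [sd])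
  exact ⟨t, h, h', by linear_combination ht⟩
theorem hz0 (h : star u ⬝ᵥ u = 0) (e : star c = -c) : HZ u 0 c := ⟨h, by simp, by simpa⟩
/-- isotropic rank one -/
def RU (a : Matrix κ κ F) : Prop := ∃ (u : κ → F) (c : F), u ≠ 0 ∧ c ≠ 0 ∧ star u ⬝ᵥ u = 0 ∧ a = c • vecMulVec u (star u)
theorem RU.rk (h : RU a) : RK a := let ⟨u, _, a, b, d, e⟩ := h; e ▸ RK.smul ⟨u, star u, a, by simpa, d, rfl⟩ b
theorem RU.smul (h : RU a) (c0 : c ≠ 0) : RU (c • a) := let ⟨u, c', a, b, d, e⟩ := h; ⟨u, c * c', a, mul_ne_zero c0 b, d, by rw [e, smul_smul]⟩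
end lin

local notation "𝒜" => Matrix (τ → κ) (τ → κ) F
variable {i j l : τ} {β γ X Y : Matrix (τ → κ) (τ → κ) F} {g : GL (τ → κ) F} {u v w φ ψ : κ → F} {a b : Matrix κ κ F}
  {M : Subgroup (GL (τ → κ) F)} {L : AddSubgroup (Matrix (τ → κ) (τ → κ) F)} {J J' : Finset τ} {A : τ → Matrix κ κ F} {c : F}
theorem pt_star (A : τ → Matrix κ κ F) : (pt A)ᴴ = pt fun l => (A l)ᴴ := by ext; simp [pt_apply]
theorem pi1_star (a : Matrix κ κ F) : (pi1 i a)ᴴ = pi1 i aᴴ := by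
  rw [pi1_apply, pt_star, pi1_apply]; congr 1; funext l; by_cases e : l = i <;> simp [e]
theorem VV_star (u φ : κ → F) : (VV i u φ)ᴴ = VV i (star φ) (star u) := by simp [VV, pi1_star]
theorem Cm.star (h : Cm i β) : Cm i βᴴ := fun a => show _ = _ by simpa [pi1_star] using congrArg conjTranspose (h aᴴ).eq.symm
theorem Un.piU {d : GL κ F} (h : Un d) (i : τ) : Un (piU i d) := by rw [Un, piU_val, pi1_star, ← map_mul, h, map_one]
theorem pi1_hz (u w : κ → F) (c : F) : pi1 i (hz u w c) = VV i u (star w) - VV i w (star u) + c • VV i u (star u) := by simp [hz, VV]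
theorem cj_hz (h : HZ u w c) (X : 𝒜) : cj (piU i h.gl) X = (1 + (VV i u (star w) - VV i w (star u) + c • VV i u (star u))) * X *
    (1 + (VV i w (star u) - VV i u (star w) + star c • VV i u (star u))) := by
  simp [cj_apply, ← map_inv, piU_val, HZ.gl, hz, VV]
theorem VV_add (u v φ : κ → F) : (VV i (u + v) φ : 𝒜) = VV i u φ + VV i v φ := by simp [VV, add_vecMulVec]
theorem VV_add' (u φ ψ : κ → F) : (VV i u (φ + ψ) : 𝒜) = VV i u φ + VV i u ψ := by simp [VV, vecMulVec_add]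
theorem VV_smul (c : F) (u φ : κ → F) : (VV i (c • u) φ : 𝒜) = c • VV i u φ := by simp [VV]
theorem VV_smul' (c : F) (u φ : κ → F) : (VV i u (c • φ) : 𝒜) = c • VV i u φ := by simp [VV]
theorem VV_zero (φ : κ → F) : (VV i 0 φ : 𝒜) = 0 := by simp [VV]
theorem VV_zero' (φ : κ → F) : (VV i φ 0 : 𝒜) = 0 := by simp [VV]
theorem ent_add (φ u v : κ → F) (β : 𝒜) : ent i φ (u + v) β = ent i φ u β + ent i φ v β := by simp [ent, VV_add, mul_add, Finset.sum_add_distrib]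
theorem ent_add' (φ ψ u : κ → F) (β : 𝒜) : ent i (φ + ψ) u β = ent i φ u β + ent i ψ u β := by simp [ent, VV_add', add_mul, Finset.sum_add_distrib]
theorem ent_smul (c : F) (φ u : κ → F) (β : 𝒜) : ent i φ (c • u) β = c • ent i φ u β := by simp [ent, VV_smul, Finset.smul_sum]
theorem ent_smul' (c : F) (φ u : κ → F) (β : 𝒜) : ent i (c • φ) u β = c • ent i φ u β := by simp [ent, VV_smul', Finset.smul_sum]

variable (M) in
/-- overgroups inside the unitary group -/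
structure HU : Prop where
  uf : UF F
  hk : 3 ≤ Fintype.card κ
  un : ∀ g ∈ M, Un g
  h0 : ∀ i (d : GL κ F), Un d → det d.1 = 1 → piU i d ∈ M
theorem HU.hz (H : HU M) (h : HZ u w c) (i : τ) : piU i h.gl ∈ M := H.h0 i _ h.un h.det
theorem HU.u1 (H : HU M) (h : HZ u w c) (i : τ) : U1 M (pi1 i (Wr.hz u w c)) := ⟨_, H.hz h i, by simp [piU_val, HZ.gl]⟩

section A
variable (hF : UF F) (hk : 3 ≤ Fintype.card κ) (hL : ∀ u w c (h : HZ u w c), ∀ β ∈ L, cj (piU l h.gl) β ∈ L) (hβ : β ∈ L)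
include hF hk hL hβ
theorem la1u (h : star u ⬝ᵥ u = 0) (u0 : u ≠ 0) : ∃ c : F, c ≠ 0 ∧ c • VV l u (star u) * ent l (star u) u β ∈ L := by
  obtain ⟨w, w1, w2⟩ := ex4 hk (star u) u0
  obtain ⟨χ, c1, c2⟩ := ex2 w2
  obtain ⟨ζ, e⟩ := hF.ne
  obtain ⟨s, s0, hs⟩ := hF.skew
  have c3 : star (star (ζ • χ)) ⬝ᵥ u = 0 := by simp [c2]
  have c4 : star (star (ζ • χ)) ⬝ᵥ w = ζ := by simp [c1]
  generalize star (ζ • χ) = w' at c3 c4
  obtain ⟨c, h2⟩ := ex_HZ hF h w1
  obtain ⟨c', h3⟩ := ex_HZ hF h (sd0 c3)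
  have d : ∀ u w c (h : HZ u w c), ∀ β ∈ L, cj (piU l h.gl) β - β ∈ L := fun u w c h β m => sub_mem (hL u w c h β m) m
  have := d _ _ _ h3 _ (d _ _ _ h2 _ (d _ _ _ (hz0 h hs) β hβ))
  refine ⟨s * (ζ - star ζ), mul_ne_zero s0 (sub_ne_zero.2 e.symm), ?_⟩
  rw [smul_mul_assoc, VV_ent]
  convert this using 1
  simp only [cj_hz, star_zero, VV_zero, VV_zero', sub_zero, zero_add, mul_sub, sub_mul, add_mul, mul_add, mul_one, one_mul, mul_assoc, VV_mul, VV_mul', h, w1,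
    sd0 w1, c3, sd0 c3, c4, ← sd w' w, zero_smul, mul_zero, zero_mul, smul_mul_assoc, mul_smul_comm, smul_zero, hs, smul_add, smul_sub]
  module
theorem la3u (h : ¬ Cm l β) : ∃ a γ, RU a ∧ γ ≠ 0 ∧ Cm l γ ∧ (∀ j, l ≠ j → Cm j β → Cm j γ) ∧ pi1 l a * γ ∈ L := by
  by_contra! H
  have h0 : ∀ u, u ≠ 0 → star u ⬝ᵥ u = 0 → ent l (star u) u β = 0 := fun u u0 h => by_contra fun n =>
    let ⟨c, c0, e⟩ := la1u hF hk hL hβ h u0
    H _ _ ⟨u, c, u0, c0, h, rfl⟩ n (cm_ent _ _ _) (fun j e c => c.ent e _ _) (by rwa [map_smul])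
  have h1 : ∀ r s, r ≠ s → ent l (Pi.single r 1) (Pi.single s 1) β = 0 ∧
      ent l (Pi.single s 1) (Pi.single s 1) β = ent l (Pi.single r 1) (Pi.single r 1) β := fun r s e => by
    obtain ⟨ν, hν⟩ := hF.nm (-1) (by simp)
    obtain ⟨μ, m1, m2⟩ := hF.mu
    have k : ∀ ν : F, star ν * ν = -1 → ent l (Pi.single r 1) (Pi.single r 1) β + ν • ent l (Pi.single r 1) (Pi.single s 1) β +
        star ν • ent l (Pi.single s 1) (Pi.single r 1) β - ent l (Pi.single s 1) (Pi.single s 1) β = 0 := fun ν hν => by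
      have := h0 (Pi.single r 1 + ν • Pi.single s 1) (fun h => by simpa [e] using congrFun h r) (by simp [e, e.symm, mul_comm ν, hν])
      simp only [star_add, star_smul, Pi.star_single, star_one, ent_add, ent_add', ent_smul, ent_smul', smul_add, smul_smul, mul_comm ν, hν] at this
      linear_combination (norm := module) this
    have k1 := k ν hν
    have k2 := k (ν * μ) (by rw [star_mul']; linear_combination (star μ * μ) * hν - m1)
    have k3 := k (ν * star μ) (by rw [star_mul', star_star]; linear_combination (star μ * μ) * hν - m1)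
    simp only [star_mul', star_star] at k2 k3
    have n0 : ν ≠ 0 := by rintro rfl; simp at hν
    have n1 : μ - 1 ≠ 0 := fun e => m2 (by rw [sub_eq_zero.1 e, mul_one])
    have n2 : μ * μ - 1 ≠ 0 := sub_ne_zero.2 m2
    have n3 : μ ≠ 0 := by rintro rfl; simp at m1
    have e1 : star μ = μ⁻¹ := eq_inv_of_mul_eq_one_left m1
    rw [e1] at k2 k3
    have a1 : ent l (Pi.single r 1) (Pi.single s 1) β = 0 := smul_right_injective _ (mul_ne_zero n0 (mul_ne_zero n1 n2)) (by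
      have := congrArg₂ (· + ·) (congrArg ((μ * μ) • ·) (congrArg₂ (· - ·) k2 k1)) (congrArg (μ • ·) (congrArg₂ (· - ·) k3 k1))
      simp only [smul_zero, sub_zero, add_zero] at this ⊢
      rw [← this]; match_scalars <;> field_simp <;> ring)
    have a2 : ent l (Pi.single s 1) (Pi.single r 1) β = 0 := smul_right_injective _ (mul_ne_zero (star_ne_zero.2 n0) n1) (by
      rw [a1] at k1 k3; linear_combination (norm := module) k3 - k1)
    exact ⟨a1, by rw [a1, a2] at k1; linear_combination (norm := module) -k1⟩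
  obtain ⟨o⟩ : Nonempty κ := Fintype.card_pos_iff.1 (by omega)
  have h2 : ∀ s, ent l (Pi.single s 1) (Pi.single s 1) β = ent l (Pi.single o 1) (Pi.single o 1) β := fun s => by
    by_cases e : o = s
    exacts [e ▸ rfl, (h1 o s e).2]
  refine h (?_ : Cm l β)
  rw [eq_sum_ent l β, Finset.sum_congr rfl fun r _ => Finset.sum_eq_single r (fun s _ e => by rw [(h1 r s e.symm).1, mul_zero]) (by simp)]
  simp only [h2, ← Finset.sum_mul, sum_VV, one_mul, cm_ent]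
end A

/-- unitary patterns -/
def PU (J : Finset τ) (A : τ → Matrix κ κ F) : Prop := (∀ l ∈ J, RU (A l)) ∧ ∀ l ∉ J, A l = 1
theorem PU.pa (h : PU J A) : PA J A := ⟨fun l m => (h.1 l m).rk, h.2⟩
theorem PU.insert (h : PU J A) (e : RU a) : PU (insert l J) (Function.update A l a) :=
  ⟨fun j m => by by_cases c : j = l <;> simp_all [h.1], fun j m => by by_cases c : j = l <;> simp_all [h.2]⟩
variable (M) in
/-- existence of a proper pattern -/
def PatU : Prop := ∃ J A, 2 ≤ J.card ∧ PU J A ∧ U1 M (pt A)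
/-- the group of partners of a pattern -/
def LL (h : PA J A) (ho : i ∈ J) (e : U1 M (pt A * γ)) (e' : ∀ l ∈ J, Cm l γ) : AddSubgroup 𝒜 :=
  have z : ∀ δ δ', (∀ j ∈ J, Cm j δ) → pt A * δ * (pt A * δ') = 0 := fun δ δ' c => by
    rw [mul_assoc, ← mul_assoc δ, (h.comm c).eq, ← mul_assoc, ← mul_assoc, h.sq ho, zero_mul, zero_mul]
  .ofSub {δ | (∀ j ∈ J, Cm j δ) ∧ U1 M (pt A * δ)} ⟨γ, e', e⟩ fun x m y m' =>
    ⟨fun j e => by simpa [← sub_eq_add_neg] using (m.1 j e).sub (m'.1 j e), by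
      simpa [← sub_eq_add_neg, mul_sub] using m.2.sub m'.2 (z _ _ m.1) (z _ _ m'.1)⟩
theorem LL_cj (H : HU M) {h : PA J A} {ho : i ∈ J} {e : U1 M (pt A * γ)} {e' : ∀ l ∈ J, Cm l γ} (hl : l ∉ J) (u w c) (k : HZ u w c) :
    ∀ β ∈ LL h ho e e', cj (piU l k.gl) β ∈ LL h ho e e' := fun β m =>
  have : Nonempty κ := Fintype.card_pos_iff.1 (by have := H.hk; omega)
  ⟨fun j m' => (mp_piU _ j).cm (m.1 j m'), by
  have := m.2.cj (H.hz k l)
  rwa [map_mul (cj _), (cm_pt (h.2 l hl)).cj_piU] at this⟩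
theorem growu (H : HU M) (n : ℕ) : ∀ {J : Finset τ} {A γ}, Fintype.card τ - J.card = n → J.Nonempty → PU J A → (∀ l ∈ J, Cm l γ) →
    U1 M (pt A * γ) → Sc γ ∨ PatU M := by
  induction n using Nat.strong_induction_on with
  | _ n ih =>
  rintro J A γ rfl ⟨o, ho⟩ h1 h2 h3
  have := H.hk
  have : Nonempty κ := Fintype.card_pos_iff.1 (by omega)
  refine or_iff_not_imp_left.2 fun h => ?_
  obtain ⟨l, h⟩ : ∃ l, ¬ Cm l γ := not_forall.1 (mt sc_of_cm h)
  have hl : l ∉ J := fun m => h (h2 l m)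
  obtain ⟨a, δ, a1, a2, a3, a4, -, a5⟩ := la3u H.uf H.hk (l := l) (L := LL h1.pa ho h3 h2) (LL_cj H hl) ⟨h2, h3⟩ h
  rw [← mul_assoc, pt_mul_pi1 _ (h1.2 l hl)] at a5
  have := Finset.card_le_univ (insert l J)
  have := Finset.card_pos.2 ⟨o, ho⟩
  refine (ih _ (by simp [hl] at *; omega) rfl (by simp) (h1.insert a1) (fun j m => ?_) a5).elim ?_ id
  · rcases Finset.mem_insert.1 m with rfl | m
    exacts [a3, a4 j (by rintro rfl; exact hl m) (h2 j m)]
  rintro ⟨c, rfl⟩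
  refine ⟨_, _, by rw [Finset.card_insert_of_notMem hl]; omega, h1.insert (l := l) (a1.smul (c := c) (by rintro rfl; simp at a2)), ?_⟩
  rwa [← pt_mul_pi1 _ (h1.2 l hl), map_smul, mul_smul_comm, pt_mul_pi1 _ (h1.2 l hl), ← mul_one (pt _), ← mul_smul_comm]
theorem f1u (H : HU M) (hp : ¬ PatU M) (v0 : v ≠ 0) (hv : star v ⬝ᵥ v = 0) (h : Cm i γ) (h' : U1 M (VV i v (star v) * γ)) : Sc γ :=
  (growu H _ (J := {i}) (A := Pi.mulSingle i (vecMulVec v (star v))) rfl (by simp)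
    ⟨by simpa using ⟨v, 1, v0, one_ne_zero, hv, by simp⟩, fun l m => by simp_all⟩ (by simpa) h').resolve_right hp
end H09.Wr
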