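import Mathlib
import Cfsg.Agent.H09.WuA
/-! Unitary tensor-wreath subgroups: unipotent radicals. -/
namespace H09.Wr
open Matrix H10.As Module
variable {τ κ ι : Type} [Fintype τ] [DecidableEq τ] [Fintype κ] [DecidableEq κ] [Fintype ι] [DecidableEq ι] {F : Type*} [Field F]
local notation "𝒜" => Matrix (τ → κ) (τ → κ) F
variable {i j l : τ} {β γ X Y : Matrix (τ → κ) (τ → κ) F} {g : GL (τ → κ) F} {u v w v0 φ ψ χ : κ → F} {a b : Matrix κ κ F}
  {M : Subgroup (GL (τ → κ) F)} {c : F}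

theorem VV_ne (u0 : u ≠ 0) (φ0 : φ ≠ 0) : (VV i u φ : 𝒜) ≠ 0 := fun e => by
  have : Nonempty κ := by by_contra! h; exact u0 (Subsingleton.elim _ _)
  simpa [u0, φ0] using pi1_inj i (e.trans (map_zero _).symm)
theorem Cm.of_VV (h : Cm i β) (u0 : u ≠ 0) (φ0 : φ ≠ 0) (e : VV i u φ * β = 0) : β = 0 := h.eq_zero (a := vecMulVec _ _) (by simp [u0, φ0]) e
theorem rank_VV (u φ : κ → F) (v0 : v ≠ 0) (ψ0 : ψ ≠ 0) : (VV j u φ : 𝒜).rank ≤ (VV i v ψ : 𝒜).rank := by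
  obtain ⟨χ, c⟩ := ex1 v0
  obtain ⟨w, c'⟩ := ex1 ψ0
  have : VV j u φ = cj (fp κ F (Equiv.swap i j)) (VV i u χ * VV i v ψ * VV i w φ) := by
    simp only [VV_mul, smul_mul_assoc, c, dotProduct_comm ψ, c', one_smul]; simp [VV, cj_fp_pi1]
  rw [this]
  exact (rank_cj _ _).trans ((rank_mul_le_left _ _).trans (rank_mul_le_right _ _))
theorem rk1 (e : cj g (VV j u φ) = pi1 i b) : ∃ v χ, cj g (VV j u φ) = VV i v χ := by
  by_cases b0 : b = 0
  · exact ⟨0, 0, by rw [e, b0]; simp [VV]⟩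
  obtain ⟨x, hx⟩ : ∃ x, b *ᵥ x ≠ 0 := by by_contra! h; exact b0 (ext_of_mulVec_single fun _ => by simp only [h, zero_mulVec])
  have : Nonempty κ := by by_contra! h; exact hx (Subsingleton.elim _ _)
  have a4 : ∀ s, ∃ c : F, c • b *ᵥ x = b *ᵥ Pi.single s 1 := fun s => Submodule.mem_span_singleton.1 (by_contra fun m => by
    obtain ⟨w, w1, w2⟩ := ex2 m
    have := r0 (a := pi1 i b) (b := VV i x (b *ᵥ x)) (c := VV i (b *ᵥ x) w) (by
      rw [pi1_VV, ← e]; exact (rank_cj _ _).trans (rank_VV _ _ hx hx)) (by rw [pi1_VV, VV_mul, w2, zero_smul])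
    rw [VV_pi1] at this
    exact VV_ne hx (fun e => by simp [dotProduct_mulVec, e, -mulVec_single] at w1) this)
  choose ψ hψ using a4
  exact ⟨b *ᵥ x, ψ, e.trans (congrArg (pi1 i) (by ext r s; simpa [vecMulVec_apply, mul_comm] using (congrFun (hψ s) r).symm))⟩
theorem U1.of_mul {N : Subgroup (GL ι F)} {g x : GL ι F} {Z} (m : g ∈ N) (m' : x ∈ N) (e : g.1 = (1 + Z) * x.1) : U1 N Z :=
  ⟨g * x⁻¹, mul_mem m (inv_mem m'), by simp [e]⟩
theorem dec (e : φ ⬝ᵥ v0 = 1) (h : ∀ a, φ ⬝ᵥ a = 0 → ∃ r : F, ∀ ξ, X * VV i a ξ = r • VV i v ξ) : ∃ ρ, X = VV i v ρ + X * VV i v0 φ := by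
  choose ρ hρ using fun s => h (Pi.single s 1 + (-φ s) • v0) (by simp [e])
  refine ⟨ρ, ?_⟩
  have : ∀ s, VV i (Pi.single s 1 + (-φ s) • v0) (Pi.single s 1) = VV i (Pi.single s 1) (Pi.single s 1) - φ s • (VV i v0 (Pi.single s 1) : 𝒜) :=
    fun s => by simp [VV, add_vecMulVec, sub_eq_add_neg]
  rw [← sum_smul_VV', ← Finset.sum_congr rfl fun s _ => hρ s _, ← Finset.mul_sum]
  simp only [this]; simp [sum_smul_VV', mul_sub, sum_VV]
variable [StarRing F]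
theorem HU.star (H : HU M) (h : U1 M X) : Xᴴ = -X - Xᴴ * X := by
  obtain ⟨x, m, e⟩ := h
  have := H.un x m
  rw [Un, e] at this
  simp only [conjTranspose_add, conjTranspose_one, mul_add, add_mul, mul_one, one_mul] at this
  rw [← sub_eq_zero, ← sub_eq_zero.2 this]; abel
variable (H : HU M) (hp : ¬ PatU M)
include H hp
theorem f0u (v0' : v ≠ 0) (hv : star v ⬝ᵥ v = 0) (e : star v ⬝ᵥ v0 = 1) (hX : U1 M X) (h : X = X * VV i v0 (star v)) : ∃ c : F, X = c • VV i v (star v) := by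
  have h1 : X * (1 - VV i v0 (star v)) = 0 := by rw [mul_sub, ← h]; simp
  have h2 : Xᴴ * (1 - VV i v0 (star v)) = 0 := by rw [H.star hX, sub_mul, neg_mul, mul_assoc, h1]; simp
  have h3 : X = VV i v (star v0) * X := by simpa [VV_star, sub_mul, sub_eq_zero] using congrArg conjTranspose h2
  have h4 : X = VV i v (star v) * ent i (star v0) v0 X := by rw [VV_ent, ← h3, ← h]
  obtain ⟨c, hc⟩ := f1u H hp v0' hv (cm_ent _ _ _) (h4 ▸ hX)
  exact ⟨c, by rw [h4, hc]; simp⟩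
theorem f2u (v0' : v ≠ 0) (hv : star v ⬝ᵥ v = 0) (χ0 : χ ≠ 0) (hX : U1 M X) {Y1 Y2} (h1 : X = VV i v χ * Y1 + Y2 * (VV i v χ)ᴴ)
    (h2 : X * VV i v χ = 0) (h3 : (VV i v χ)ᴴ * X = 0) : X ∈ (pi1 i).range := by
  obtain ⟨v0, e, -⟩ := ex_partner H.uf hv v0'
  obtain ⟨z, hz⟩ := ex1 χ0
  have e' : star v0 ⬝ᵥ v = 1 := by rw [← sd, e, star_one]
  have k1 : ∀ ξ, X * VV i v ξ = 0 := fun ξ => by simpa [mul_assoc, VV_mul, dotProduct_comm χ, hz] using congrArg (· * VV i z ξ) h2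
  have k2 : ∀ b, VV i b (star v) * X = 0 := fun b => by
    simpa [VV_star, VV_mul', star_dotProduct_star, dotProduct_comm χ, hz] using congrArg (VV i b (star z) * ·) h3
  have k3 : ∀ a ξ, star v ⬝ᵥ a = 0 → X * VV i a ξ = VV i v ξ * ent i (star v0) a X := fun a ξ h => by
    have : X * VV i a ξ = VV i v χ * (Y1 * VV i a ξ) := by rw [h1]; simp [add_mul, mul_assoc, VV_star, VV_mul, h]
    rw [VV_ent, mul_assoc, this, VV_mul', e', one_smul]
  have k4 : ∀ a b, star v ⬝ᵥ a = 0 → VV i b (star a) * X = -(VV i b (star v) * (ent i (star v0) a X)ᴴ) := fun a b h => by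
    have h1 : Xᴴ * VV i v (star b) = 0 := by simpa [VV_star] using congrArg conjTranspose (k2 b)
    have : Xᴴ * VV i a (star b) = -(VV i v (star b) * ent i (star v0) a X) := by
      rw [H.star hX, sub_mul, mul_assoc, neg_mul, k3 _ _ h, ← mul_assoc, h1]; simp
    have := congrArg conjTranspose this
    simp only [conjTranspose_mul, VV_star, star_star, conjTranspose_conjTranspose, conjTranspose_neg] at this
    rw [this, VV, ((cm_ent _ _ _).star _).eq]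
  obtain ⟨x, m, ex⟩ := id hX
  have k5 : ∀ a, star v ⬝ᵥ a = 0 → Sc ((ent i (star v0) a X)ᴴ - ent i (star v0) a X) := fun a h => by
    obtain ⟨c, hc⟩ := ex_HZ H.uf hv h
    refine f1u H hp v0' hv ((cm_ent _ _ _).star.sub (cm_ent _ _ _)) (U1.of_mul (mul_mem m (H.hz hc i)) (mul_mem (H.hz hc i) m) ?_)
    have c1 : Cm i ((ent i (star v0) a X)ᴴ - ent i (star v0) a X) := (cm_ent _ _ _).star.sub (cm_ent _ _ _)
    have c2 : VV i v (star v) * ((1 + pi1 i (Wr.hz v a c)) * (1 + X)) = VV i v (star v) := by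
      simp [pi1_hz, mul_add, add_mul, mul_sub, sub_mul, VV_mul, VV_mul', hv, h, k2]
    have c3 : X * pi1 i (Wr.hz v a c) = -(VV i v (star v) * ent i (star v0) a X) := by simp [pi1_hz, mul_add, mul_sub, k1, k3 _ _ h]
    have c4 : pi1 i (Wr.hz v a c) * X = -(VV i v (star v) * (ent i (star v0) a X)ᴴ) := by simp [pi1_hz, add_mul, sub_mul, k2, k4 _ _ h]
    simp only [Units.val_mul, piU_val, HZ.gl, ex, map_add, map_one]
    rw [add_mul 1 (_ * _), VV, ← (c1 _).eq, mul_assoc, ← VV, c2, VV, (c1 _).eq, ← VV]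
    simp only [mul_add, add_mul, mul_sub, mul_one, one_mul, c3, c4]
    abel
  obtain ⟨ζ, hζ⟩ := H.uf.ne
  obtain ⟨ρ, hρ⟩ := dec (X := X) (i := i) (v := v) e fun a h => by
    obtain ⟨c1, e1⟩ := k5 a h
    obtain ⟨c2, e2⟩ := k5 (ζ • a) (by simp [h])
    rw [ent_smul, conjTranspose_smul] at e2
    refine ⟨(star ζ - ζ)⁻¹ * (c2 - star ζ * c1), fun ξ => ?_⟩
    rw [k3 _ _ h, mul_smul, show ent i (star v0) a X = (star ζ - ζ)⁻¹ • (c2 - star ζ * c1) • 1 from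
      (eq_inv_smul_iff₀ (sub_ne_zero.2 hζ)).2 (by linear_combination (norm := module) e2 - star ζ • e1)]
    simp
  have k6 : ρ ⬝ᵥ v = 0 := by
    have := congrArg (· * VV i v χ) hρ
    simpa [k1, add_mul, mul_assoc, VV_mul, hv, VV_ne v0' χ0] using this.symm
  obtain ⟨c, hc⟩ := ex_HZ H.uf hv (w := star ρ) (by rw [star_dotProduct_star, k6, star_zero])
  obtain ⟨c', h4⟩ := f0u H hp v0' hv e (X := ((piU i hc.gl)⁻¹).1 * (X - pi1 i (Wr.hz v (star ρ) c))) (i := i)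
    ⟨_, mul_mem (inv_mem (H.hz hc i)) m, by
      rw [Units.val_mul, Units.inv_mul_eq_iff_eq_mul, mul_add, Units.mul_inv_cancel_left, ex]; simp [piU_val, HZ.gl]⟩ (by
      rw [mul_assoc, pi1_hz, hρ]; congr 1; simp [sub_mul, add_mul, mul_assoc, VV_mul, e]; abel)
  rw [Units.inv_mul_eq_iff_eq_mul, sub_eq_iff_eq_add] at h4
  exact h4 ▸ add_mem (mul_mem ((pi1 i).mem_range_self _) (Subalgebra.smul_mem _ ((pi1 i).mem_range_self _) _)) ((pi1 i).mem_range_self _)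
omit H hp [StarRing F] in
/-- the elements of a factor carried into another factor -/
def SS (j i : τ) (g : GL (τ → κ) F) : Subalgebra F (Matrix κ κ F) where
  carrier := {a | ∃ b, pi1 i b = cj g (pi1 j a)}
  mul_mem' := fun ⟨b, e⟩ ⟨c, e'⟩ => ⟨b * c, by simp only [map_mul, e, e']⟩
  add_mem' := fun ⟨b, e⟩ ⟨c, e'⟩ => ⟨b + c, by simp only [map_add, e, e']⟩
  algebraMap_mem' c := ⟨algebraMap _ _ c, by simp only [AlgHom.commutes, AlgEquiv.commutes]⟩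
omit H hp [StarRing F] in
theorem mem_SS : a ∈ SS j i g ↔ ∃ b, pi1 i b = cj g (pi1 j a) := .rfl
omit hp in
theorem SS_star (m : g ∈ M) (h : a ∈ SS j i g) : aᴴ ∈ SS j i g :=
  let ⟨b, e⟩ := mem_SS.1 h; mem_SS.2 ⟨bᴴ, by rw [← pi1_star, e, (H.un g m).cj_star, pi1_star]⟩
omit hp in
theorem pfacts (m : g ∈ M) (u0 : u ≠ 0) (hu : star u ⬝ᵥ u = 0) (φ0 : φ ≠ 0) (e : cj g (VV j u φ) = VV i v χ) : v ≠ 0 ∧ χ ≠ 0 ∧ star v ⬝ᵥ v = 0 := by
  have n : (VV i v χ : 𝒜) ≠ 0 := e ▸ by simpa using VV_ne u0 φ0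
  have χ0 : χ ≠ 0 := by rintro rfl; simp [VV] at n
  have : (VV i v χ : 𝒜)ᴴ * VV i v χ = 0 := by rw [← e, (H.un g m).cj_star, ← map_mul, VV_star, VV_mul, hu]; simp
  exact ⟨by rintro rfl; simp [VV] at n, χ0, by simpa [VV_star, VV_mul, VV_ne, χ0] using this⟩
theorem stepA (m : g ∈ M) (u0 : u ≠ 0) (hu : star u ⬝ᵥ u = 0) (φ0 : φ ≠ 0) (e : cj g (VV j u φ) = VV i v χ) (hw : star u ⬝ᵥ w = 0) :
    vecMulVec w (star u) ∈ SS j i g := by
  obtain ⟨v0, χ0, hv⟩ := pfacts H m u0 hu φ0 e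
  obtain ⟨z, hz⟩ := ex1 φ0
  rw [dotProduct_comm] at hz
  have k1 : ∀ w c, HZ u w c → Wr.hz u w c ∈ SS j i g := fun w c h => (pi1 i).mem_range.1 <| f2u H hp v0 hv χ0 ((H.u1 h j).cj m)
    (Y1 := cj g (VV j z (star w + c • star u))) (Y2 := cj g (-VV j w (star z))) (by
      rw [← e, (H.un g m).cj_star, ← map_mul, ← map_mul, ← map_add, pi1_hz]; congr 1
      simp [VV_star, VV_mul, hz, star_dotProduct_star, VV_add', VV_smul', mul_add]; abel)
    (by rw [← e, ← map_mul, pi1_hz]; simp [add_mul, sub_mul, VV_mul, hu, sd0 h.uw])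
    (by rw [← e, (H.un g m).cj_star, ← map_mul, pi1_hz]; simp [VV_star, mul_add, mul_sub, VV_mul, hu, h.uw])
  obtain ⟨s, s0, hs⟩ := H.uf.skew
  have k2 : vecMulVec u (star u) ∈ SS j i g := by simpa [Wr.hz, s0] using Subalgebra.smul_mem _ (k1 0 s (hz0 hu hs)) s⁻¹
  have k3 : ∀ w, star u ⬝ᵥ w = 0 → vecMulVec u (star w) - vecMulVec w (star u) ∈ SS j i g := fun w h =>
    let ⟨c, hc⟩ := ex_HZ H.uf hu h; by simpa [Wr.hz] using sub_mem (k1 w c hc) (Subalgebra.smul_mem _ k2 c)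
  obtain ⟨ζ, hζ⟩ := H.uf.ne
  have := Subalgebra.smul_mem _ (sub_mem (k3 (ζ • w) (by simp [hw])) (Subalgebra.smul_mem _ (k3 w hw) (star ζ))) (star ζ - ζ)⁻¹
  convert this using 1
  rw [eq_inv_smul_iff₀ (sub_ne_zero.2 hζ)]; simp [smul_sub, sub_smul]
omit H hp in
theorem tor {u u' w : κ → F} {l : F} (l0 : l ≠ 0) (h1 : star u ⬝ᵥ u = 0) (h2 : star u' ⬝ᵥ u' = 0) (h3 : star u ⬝ᵥ u' = 1) (h4 : star u ⬝ᵥ w = 0)
    (h5 : star u' ⬝ᵥ w = 0) (h6 : star w ⬝ᵥ w ≠ 0) : ∃ d : GL κ F, Un d ∧ det d.1 = 1 ∧ d.1 = 1 + (l - 1) • vecMulVec u (star u') +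
      ((star l)⁻¹ - 1) • vecMulVec u' (star u) + ((star l / l - 1) / (star w ⬝ᵥ w)) • vecMulVec w (star w) := by
  have h7 : star u' ⬝ᵥ u = 1 := by rw [← sd, h3, star_one]
  have l1 : star l ≠ 0 := by simpa
  have : ∀ a : Matrix κ κ F, aᴴ * a = 1 → det a = 1 → ∃ d : GL κ F, Un d ∧ det d.1 = 1 ∧ d.1 = a := fun a h h' =>
    ⟨⟨_, _ᴴ, mul_eq_one_comm.1 h, h⟩, h, h', rfl⟩
  refine this _ ?_ ?_
  · simp [mul_add, add_mul, vecMulVec_mul_vecMulVec, h1, h2, h3, h4, h5, h7, sd0 h4, sd0 h5, sd, smul_smul]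
    match_scalars <;> field_simp <;> ring
  · rw [show 1 + (l - 1) • vecMulVec u (star u') + ((star l)⁻¹ - 1) • vecMulVec u' (star u) + ((star l / l - 1) / (star w ⬝ᵥ w)) • vecMulVec w (star w) =
      (1 + vecMulVec ((l - 1) • u) (star u')) * (1 + vecMulVec (((star l)⁻¹ - 1) • u') (star u)) *
        (1 + vecMulVec (((star l / l - 1) / (star w ⬝ᵥ w)) • w) (star w)) by simp [mul_add, add_mul, vecMulVec_mul_vecMulVec, h2, h4, h5]]
    simp only [det_mul, det_one_add_vecMulVec]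
    simp [h3, h7, h6]; field_simp
end H09.Wr
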