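import Mathlib
import Cfsg.Agent.H09.WuB
/-! Unitary tensor-wreath subgroups: elements carrying a slice to a slice. -/
namespace H09.Wr
open Matrix H10.As Module
variable {τ κ ι : Type} [Fintype τ] [DecidableEq τ] [Fintype κ] [DecidableEq κ] [Fintype ι] [DecidableEq ι] {F : Type*} [Field F]
local notation "𝒜" => Matrix (τ → κ) (τ → κ) F
variable {i j l : τ} {β γ X Y : Matrix (τ → κ) (τ → κ) F} {g : GL (τ → κ) F} {u v w v0 φ ψ χ : κ → F} {a b : Matrix κ κ F}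
  {M : Subgroup (GL (τ → κ) F)} {c : F}
theorem kl (φ0 : φ ≠ 0) (e : cj g (VV j u φ) = VV i v χ) (h : ψ ⬝ᵥ v = 1) (ξ) : cj g (VV j u ξ) = VV i v ψ * cj g (VV j u ξ) := by
  obtain ⟨z, hz⟩ := ex1 φ0
  have : VV j u ξ = VV j u φ * (VV j z ξ : 𝒜) := by rw [VV_mul, dotProduct_comm, hz, one_smul]
  rw [this, map_mul, e, VV_mul', h, one_smul]
variable [StarRing F]
theorem kr (hg : Un g) (φ0 : φ ≠ 0) (e : cj g (VV j u φ) = VV i v χ) (h : star v ⬝ᵥ v0 = 1) (b) :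
    cj g (VV j b (star u)) = cj g (VV j b (star u)) * VV i v0 (star v) := by
  simpa [hg.cj_star, VV_star] using congrArg conjTranspose (kl φ0 e (ψ := star v0) (by rw [← sd, h, star_one]) (star b))
theorem ex_aniso (hF : UF F) (hk : 3 ≤ Fintype.card κ) {u u' : κ → F} (h1 : star u ⬝ᵥ u = 0) (h2 : star u' ⬝ᵥ u' = 0) (h3 : star u ⬝ᵥ u' = 1) :
    ∃ w, star u ⬝ᵥ w = 0 ∧ star u' ⬝ᵥ w = 0 ∧ star w ⬝ᵥ w ≠ 0 := by
  have h7 : star u' ⬝ᵥ u = 1 := by rw [← sd, h3, star_one]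
  obtain ⟨w, w0, a, b⟩ := ex3 hk (star u) (star u')
  rw [dotProduct_comm] at a b
  by_cases c : star w ⬝ᵥ w = 0
  · obtain ⟨x, e⟩ := ex1 (star_ne_zero.2 w0)
    rw [dotProduct_comm] at e
    obtain ⟨y, y1, y2, y3⟩ : ∃ y, star u ⬝ᵥ y = 0 ∧ star u' ⬝ᵥ y = 0 ∧ star w ⬝ᵥ y = 1 :=
      ⟨x - (star u ⬝ᵥ x) • u' - (star u' ⬝ᵥ x) • u, by simp [h1, h3], by simp [h2, h7], by simp [e, sd0 a, sd0 b]⟩
    obtain ⟨t, ht⟩ := hF.tr (c := 1 - star y ⬝ᵥ y) (by simp [sd])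
    refine ⟨y + t • w, by simp [*], by simp [*], fun h => one_ne_zero (α := F) ?_⟩
    simp [c, y3, ← sd w y] at h
    linear_combination h - ht
  · exact ⟨w, a, b, c⟩
variable (H : HU M) (hp : ¬ PatU M)
include H hp
theorem stepC {l : F} (l0 : l ≠ 0) (hl : star l * l ≠ 1) (m : g ∈ M) (u0 : u ≠ 0) (hu : star u ⬝ᵥ u = 0) (φ0 : φ ≠ 0)
    (e : cj g (VV j u φ) = VV i v χ) (a) : vecMulVec a (star u) ∈ SS j i g := by
  obtain ⟨v0', χ0, hv⟩ := pfacts H m u0 hu φ0 e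
  obtain ⟨u', h3, h2⟩ := ex_partner H.uf hu u0
  have h7 : star u' ⬝ᵥ u = 1 := by rw [← sd, h3, star_one]
  obtain ⟨v0, e0, -⟩ := ex_partner H.uf hv v0'
  have e0' : star v0 ⬝ᵥ v = 1 := by rw [← sd, e0, star_one]
  obtain ⟨w, h4, h5, h6⟩ := ex_aniso H.uf H.hk hu h2 h3
  have hg := H.un g m
  have e' : cj g⁻¹ (VV i v χ) = VV j u φ := by rw [← e, cj_inv_cj]
  obtain ⟨c, hc⟩ : ∃ c : F, cj g (VV j u (star u)) = c • VV i v (star v) := by
    obtain ⟨b, hb⟩ := stepA H hp m u0 hu φ0 e hu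
    exact ⟨_, by rw [kl φ0 e e0', kr hg φ0 e e0, VV.eq_1 j, ← hb, pi1_VV, VV_mul]⟩
  have c0 : c ≠ 0 := by rintro rfl; simp [VV_ne, u0] at hc
  set X := cj g (VV j u (star u')) with hX
  obtain ⟨ρ, hρ⟩ := dec (X := X) (i := i) (v := v) e0 fun a h => by
    obtain ⟨b, hb⟩ := stepA H hp (inv_mem m) v0' hv χ0 e' h
    have h1 := kr hg.inv χ0 e' h3 a
    nth_rw 2 [VV.eq_1 i] at h1
    rw [← hb, pi1_VV] at h1
    have : X * VV i a (star v) = (star u' ⬝ᵥ b *ᵥ u' * c) • VV i v (star v) := by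
      rw [← cj_cj_inv g (VV i a _), h1, ← map_mul, VV_mul, map_smul, hc, smul_smul]
    exact ⟨_, fun ξ => by simpa [mul_assoc, VV_mul, e0] using congrArg (· * VV i v0 ξ) this⟩
  have k1 : ρ ⬝ᵥ v = 1 := by
    have : X * VV i v χ = VV i v χ := by rw [← e, ← map_mul, VV_mul, h7, one_smul]
    rw [hρ, add_mul, mul_assoc, VV_mul, VV_mul, hv, zero_smul, mul_zero, add_zero] at this
    exact smul_left_injective F (VV_ne v0' χ0) (this.trans (one_smul _ _).symm)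
  have k2 : star v ⬝ᵥ star ρ = 1 := by rw [star_dotProduct_star, k1, star_one]
  obtain ⟨t, ht⟩ := partner H.uf hv k2
  obtain ⟨γ, cγ, k3⟩ : ∃ γ, Cm i γ ∧ X = VV i v (star (star ρ + t • v)) + VV i v (star v) * γ :=
    ⟨ent i (star v0) v0 X - star t • 1, (cm_ent _ _ _).sub (cm_sc ⟨_, rfl⟩ i), by
      rw [mul_sub, VV_ent, ← kl φ0 e e0', ← hX]; nth_rw 1 [hρ]; simp [VV_add', VV_smul']⟩
  have k4 : star v ⬝ᵥ (star ρ + t • v) = 1 := by simp [k2, hv]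
  generalize star ρ + t • v = v' at ht k3 k4
  have k4' : star v' ⬝ᵥ v = 1 := by rw [← sd, k4, star_one]
  have cm : ∀ a b Z, γ * (VV i a b * Z) = VV i a b * (γ * Z) := fun a b Z => by rw [← mul_assoc, VV, (cγ _).eq, mul_assoc]
  have cm' : ∀ a b, γ * VV i a b = VV i a b * γ := fun a b => (cγ _).eq
  have cm'' : ∀ a b, γᴴ * VV i a b = VV i a b * γᴴ := fun a b => (cγ.star _).eq
  have k5 : γᴴ = -γ := eq_neg_of_add_eq_zero_left ((cγ.star.add cγ).of_VV v0' (star_ne_zero.2 v0') (by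
    have : X * Xᴴ = 0 := by rw [hX, hg.cj_star, ← map_mul, VV_star, star_star, VV_mul, h2]; simp
    simpa [k3, VV_star, mul_add, add_mul, mul_assoc, cm, cm', cm'', VV_mul, VV_mul', ht, hv, k4, k4', add_comm] using this))
  obtain ⟨b, hb⟩ := stepA H hp m u0 hu φ0 e h4
  obtain ⟨w1, χ1, e1⟩ := rk1 (g := g) (j := j) (u := w) (φ := star u) hb.symm
  have n1 : (VV i w1 χ1 : 𝒜) ≠ 0 := e1 ▸ by simpa using VV_ne (by rintro rfl; simp at h6) (star_ne_zero.2 u0)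
  have χ1' : χ1 ≠ 0 := by rintro rfl; simp [VV] at n1
  have k6 : star v ⬝ᵥ w1 = 0 := by
    have : c • VV i v (star v) * VV i w1 χ1 = 0 := by rw [← hc, ← e1, ← map_mul, VV_mul, h4]; simp
    simpa [VV_mul, c0, VV_ne v0' χ1'] using this
  have k7 : star v' ⬝ᵥ w1 = 0 := by
    have : X * VV i w1 χ1 = 0 := by rw [← e1, ← map_mul, VV_mul, h5]; simp
    simpa [k3, add_mul, mul_assoc, cm', VV_mul, VV_mul', k6, VV_ne v0' χ1'] using this
  have k8 : star w1 ⬝ᵥ w1 ≠ 0 := fun h => by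
    have : (VV i w1 χ1 : 𝒜)ᴴ * VV i w1 χ1 = 0 := by rw [VV_star, VV_mul, h, zero_smul]
    rw [← e1, hg.cj_star, ← map_mul, VV_star, VV_mul] at this
    simp [h6, VV_ne, u0] at this
  have k9 : (star w ⬝ᵥ w)⁻¹ • cj g (VV j w (star w)) = (star w1 ⬝ᵥ w1)⁻¹ • VV i w1 (star w1) := by
    obtain ⟨y, hy⟩ := ex1 χ1'
    have a1 : (star w ⬝ᵥ w)⁻¹ • cj g (VV j w (star w)) * VV i w1 (star w1) = VV i w1 (star w1) := by
      rw [show VV i w1 (star w1) = VV i w1 χ1 * VV i y (star w1) by rw [VV_mul, dotProduct_comm, hy, one_smul], ← e1, ← mul_assoc, smul_mul_assoc,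
        ← map_mul, VV_mul, map_smul, inv_smul_smul₀ h6]
    have a2 := congrArg conjTranspose (kl (star_ne_zero.2 u0) e1 (ψ := (star w1 ⬝ᵥ w1)⁻¹ • star w1) (by simp [k8]) (star w))
    rw [conjTranspose_mul, hg.cj_star, VV_star, VV_star, star_star, star_smul, star_star, VV_smul, star_inv₀, sd] at a2
    nth_rw 1 [a2]
    rw [mul_smul_comm, smul_comm, ← smul_mul_assoc, a1]
  obtain ⟨d, d1, d2, d3⟩ := tor l0 hu h2 h3 h4 h5 h6
  obtain ⟨d', d1', d2', d3'⟩ := tor l0 hv ht k4 k6 k7 k8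
  have l1 : star l ≠ 0 := by simpa
  obtain ⟨r, hr⟩ := f1u H hp v0' hv (γ := (star l * l - 1) • γ) (fun a => (cγ a).smul_left _)
    (U1.of_mul (mul_mem (mul_mem m (H.h0 j d d1 d2)) (inv_mem m)) (H.h0 i d' d1' d2') (by
      have : cj g (VV j u' (star u)) = VV i v' (star v) - VV i v (star v) * γ := by
        simpa [hX, hg.cj_star, VV_star, k5, cm', sub_eq_add_neg] using congrArg conjTranspose k3
      rw [← cj_val, piU_val, piU_val, d3, d3']
      simp only [map_add, map_smul, map_one, ← VV.eq_1, div_eq_mul_inv _ (_ ⬝ᵥ _), mul_smul, k9, ← hX, this, k3]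
      simp only [mul_add, add_mul, one_mul, mul_one, mul_smul_comm, smul_mul_assoc, mul_assoc, cm', VV_mul', hv, k4, k6, zero_smul, one_smul]
      match_scalars <;> field_simp <;> ring))
  have s1 : vecMulVec u (star u') ∈ SS j i g := ⟨vecMulVec v (star v') + ((star l * l - 1)⁻¹ * r) • vecMulVec v (star v), by
    rw [← VV.eq_1 j, ← hX, k3, (eq_inv_smul_iff₀ (sub_ne_zero.2 hl)).2 hr]; simp [VV, smul_smul]⟩
  have := add_mem (stepA H hp m u0 hu φ0 e (w := a - (star u ⬝ᵥ a) • u') (by simp [h3])) (Subalgebra.smul_mem _ (SS_star H m s1) (star u ⬝ᵥ a))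
  simpa [sub_vecMulVec] using this
theorem n1u [Nontrivial κ] (hq : (∃ l : F, l ≠ 0 ∧ star l * l ≠ 1) ∨ 4 ≤ Fintype.card κ) (m : g ∈ M) (u0 : u ≠ 0) (hu : star u ⬝ᵥ u = 0) (φ0 : φ ≠ 0)
    (e : cj g (VV j u φ) = VV i v χ) : Mp g j i := by
  have P : ∀ {w φ}, vecMulVec w φ ∈ SS j i g → ∃ v χ, cj g (VV j w φ) = VV i v χ := fun ⟨_, h⟩ => rk1 h.symm
  have k1 : ∀ z, z ≠ 0 → star z ⬝ᵥ z = 0 → ∀ w, star z ⬝ᵥ w = 0 → vecMulVec w (star z) ∈ SS j i g := fun z z0 hz w hw => by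
    rcases hq with ⟨l, l0, hl⟩ | hk
    · obtain ⟨v, χ, h⟩ := P (stepC H hp l0 hl m u0 hu φ0 e z)
      exact stepA H hp m z0 hz (star_ne_zero.2 u0) h hw
    obtain ⟨y, y0, hy, h⟩ := ex_iso H.uf ![star u, star z] hk
    obtain ⟨v, χ, h1⟩ := P (stepA H hp m u0 hu φ0 e (h 0))
    obtain ⟨v, χ, h2⟩ := P (stepA H hp m y0 hy (star_ne_zero.2 u0) h1 (sd0 (h 1)))
    exact stepA H hp m z0 hz (star_ne_zero.2 y0) h2 hw
  have k2 : ∀ z, z ≠ 0 → star z ⬝ᵥ z = 0 → ∀ a, vecMulVec a (star z) ∈ SS j i g := fun z z0 hz a => by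
    by_cases c : star z ⬝ᵥ a = 0
    · exact k1 z z0 hz a c
    obtain ⟨y, y0, hy, h⟩ := ex_iso H.uf ![star a] H.hk
    obtain ⟨ω, c1, c2⟩ := ex2 (u := star y) (v := star z) fun m => by
      obtain ⟨r, e⟩ := Submodule.mem_span_singleton.1 m
      have := sd0 (h 0)
      rw [← e] at this
      obtain rfl : r = 0 := by simpa [c] using this
      exact y0 (by simpa using e.symm)
    simpa [vecMulVec_mul_vecMulVec, dotProduct_comm _ ω, c1] using mul_mem (k1 y y0 hy a (sd0 (h 0))) (k1 z z0 hz ω (by rwa [dotProduct_comm]))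
  suffices k : ∀ r s : κ, r ≠ s → single r s 1 ∈ SS j i g from
    mp_of (g := g) (j := j) (i := i) fun r s n => let ⟨b, h⟩ := mem_SS.1 (k r s n); ⟨b, h.symm⟩
  intro r s n
  obtain ⟨ν, hν⟩ := H.uf.nm (-1) (by simp)
  obtain ⟨μ, m1, m2⟩ := H.uf.mu
  have k3 : ∀ ν : F, star ν * ν = -1 → single r s 1 + star ν • single r r 1 ∈ SS j i g := fun ν hν => by
    have := k2 (Pi.single s 1 + ν • Pi.single r 1)
      (fun h => by simpa [n.symm] using congrFun h s) (by simp [n, n.symm, mul_comm ν, hν]) (Pi.single r 1)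
    rwa [star_add, star_smul, vecMulVec_add, vecMulVec_smul, Pi.star_single, Pi.star_single, star_one, ← single_eq_single_vecMulVec_single,
      ← single_eq_single_vecMulVec_single] at this
  have n1 : star μ - 1 ≠ 0 := fun e => m2 (by rw [sub_eq_zero.1 e, one_mul] at m1; simp [m1])
  convert Subalgebra.smul_mem _ (sub_mem (Subalgebra.smul_mem _ (k3 ν hν) (star μ))
    (k3 (ν * μ) (by rw [star_mul']; linear_combination (star μ * μ) * hν - m1))) (star μ - 1)⁻¹ using 1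
  rw [eq_inv_smul_iff₀ n1, star_mul']; module
end H09.Wr
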