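import Mathlib
import Cfsg.Agent.H09.WuC
import Cfsg.Agent.H10.MaxB
/-! Unitary tensor-wreath subgroups: from a pattern to all patterns. -/
namespace H09.Wr
open Matrix H10 H10.As Module
variable {τ κ ι : Type} [Fintype τ] [DecidableEq τ] [Fintype κ] [DecidableEq κ] [Fintype ι] [DecidableEq ι] {F : Type*} [Field F] [StarRing F]
variable (ι) in
/-- the standard hermitian form -/
def uf (hF : UF F) : Form F (ι → F) := .ofHerm (starRingEnd F) star_star (hF.tr (star_one _))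
  (LinearMap.mk₂'ₛₗ (starRingEnd F) (RingHom.id F) (fun x y => star x ⬝ᵥ y) (by simp) (fun c x y => by simp; exact .inl rfl) (by simp) (by simp)) ⟨fun x y => sd x y⟩
section form
variable (hF : UF F)
theorem uf_B (x y : ι → F) : (uf ι hF).B x y = star x ⬝ᵥ y := rfl
theorem uf_Q (x : ι → F) : (uf ι hF).Q x = star x ⬝ᵥ x := rfl
theorem uf_T (a : F) : (uf ι hF).T a = a + star a := rfl
theorem uf_ε : (uf ι hF).ε = 1 := rfl
instance uf_nondeg : (uf ι hF).Nondeg := ⟨fun x h => by ext i; simpa [uf_B] using h (Pi.single i 1)⟩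
theorem un_iff {g : GL ι F} : Un g ↔ ∀ x y, star (g.1 *ᵥ x) ⬝ᵥ g.1 *ᵥ y = star x ⬝ᵥ y := by
  simp only [star_mulVec, dotProduct_mulVec, vecMul_vecMul]
  exact ⟨fun h x y => by rw [h, vecMul_one], fun h => by
    ext i j; simpa [one_apply, Pi.single_apply, eq_comm] using h (Pi.single i 1) (Pi.single j 1)⟩
theorem un_toGL (g : (uf ι hF).Isom) : Un ((uf ι hF).toGL g) := un_iff.2 fun x y => by simp only [toGL_mulVec]; exact g.2.B x y
theorem Un.ex {g : GL ι F} (h : Un g) : ∃ x : (uf ι hF).Isom, (uf ι hF).toGL x = g :=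
  ⟨⟨glEquiv g, un_iff.1 h, fun x => un_iff.1 h x x⟩, glEquiv.symm_apply_apply g⟩
theorem toGL_sg {p w : ι → F} {s : F} (hp : (uf ι hF).Q p = 0) (hw : (uf ι hF).B p w = 0) (hs : (uf ι hF).T s = (uf ι hF).Q w) :
    ((uf ι hF).toGL ((uf ι hF).siegel p w s)).1 = 1 + hz p w (-s) := ext_of_mulVec_single fun i => by
  rw [toGL_mulVec, Form.siegel_apply _ hp hw hs]
  simp only [hz, uf_B, uf_ε, add_mulVec, sub_mulVec, vecMulVec_mulVec, smul_mulVec, one_mulVec, op_smul_eq_smul]; module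
include hF in
theorem tr_iso (hk : 3 ≤ Fintype.card ι) {u v : ι → F} (u0 : u ≠ 0) (hu : star u ⬝ᵥ u = 0) (v0 : v ≠ 0) (hv : star v ⬝ᵥ v = 0) :
    ∃ d : GL ι F, Un d ∧ det d.1 = 1 ∧ d.1 *ᵥ u = v := by
  obtain ⟨g, m, e⟩ := Form.Big.exists_E_map_sing (φ := uf ι hF) (fun e f h s => by
    obtain ⟨w, h1, h2, h3⟩ := ex_aniso hF hk h.Qe h.Qf h.Bef
    obtain ⟨a, ha⟩ := hF.nm ((s + star s) / (star w ⬝ᵥ w)) (by simp [sd, add_comm])
    exact ⟨a • w, by simp [uf_B, h1], by simp [uf_B, h2], by rw [Form.Q_smul]; exact ((eq_div_iff h3).1 ha).symm⟩) hu u0 hv v0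
  exact ⟨_, un_toGL hF g, (det_toGL g).trans ((Form.mem_SIsom _).1 (Form.E_le_SIsom m)), (toGL_mulVec g u).trans e⟩
theorem Un.cj_vv {d : GL ι F} (h : Un d) (u v : ι → F) : cj d (vecMulVec u (star v)) = vecMulVec (d.1 *ᵥ u) (star (d.1 *ᵥ v)) := by
  rw [cj_apply, mul_vecMulVec, vecMulVec_mul, h.inv_val, star_mulVec]
include hF in
theorem ex_z (hk : 3 ≤ Fintype.card ι) {u u' : ι → F} (h1 : star u ⬝ᵥ u = 0) (h2 : star u' ⬝ᵥ u' = 0) (h3 : star u ⬝ᵥ u' = 1) (a : F) :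
    ∃ z, star z ⬝ᵥ z = 0 ∧ star z ⬝ᵥ u = 1 ∧ star u' ⬝ᵥ z = a := by
  obtain ⟨w, h4, h5, h6⟩ := ex_aniso hF hk h1 h2 h3
  have h7 : star u' ⬝ᵥ u = 1 := by rw [← sd, h3, star_one]
  obtain ⟨b, hb⟩ := hF.nm (-(a + star a) / (star w ⬝ᵥ w)) (by simp [sd, add_comm])
  rw [eq_div_iff h6] at hb
  exact ⟨u' + a • u + b • w, by simp [*, sd0 h4, sd0 h5]; linear_combination hb, by simp [*, sd0 h4], by simp [*]⟩
end form

local notation "𝒜" => Matrix (τ → κ) (τ → κ) F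
variable {i j l : τ} {β γ X Y : Matrix (τ → κ) (τ → κ) F} {g : GL (τ → κ) F} {u u' v w φ ψ : κ → F} {a b : Matrix κ κ F}
  {M : Subgroup (GL (τ → κ) F)} {J J' : Finset τ} {A : τ → Matrix κ κ F} {c : F} {z : τ → κ → F}
theorem HU.ptU (H : HU M) {d : τ → GL κ F} (e : ∀ i, Un (d i) ∧ det (d i).1 = 1) : ptU d ∈ M := by
  obtain ⟨g, m, e'⟩ := pt_mem (S := M.toSubmonoid.map (Units.coeHom _)) (a := fun i => (d i).1) fun i => ⟨_, H.h0 i _ (e i).1 (e i).2, rfl⟩
  exact (Units.ext e' : g = H10.As.ptU d) ▸ m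
omit [StarRing F] in
theorem pt_smul (c : τ → F) (A : τ → Matrix κ κ F) : pt (fun l => c l • A l) = (∏ l, c l) • pt A := by ext; simp [pt_apply, Finset.prod_mul_distrib]
omit [StarRing F] in
theorem pt_split (l : τ) (A : τ → Matrix κ κ F) : pt A = pt (Function.update A l 1) * pi1 l (A l) := by rw [pt_mul_pi1 _ (by simp)]; simp
/-- families of isotropic vectors -/
def Iso (z : τ → κ → F) : Prop := ∀ l, z l ≠ 0 ∧ star (z l) ⬝ᵥ z l = 0
/-- standard patterns -/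
def pz (J : Finset τ) (z : τ → κ → F) : 𝒜 := pt fun l => if l ∈ J then vecMulVec (z l) (star (z l)) else 1
variable (M J) in
/-- all patterns -/
def AP : Prop := ∀ z, Iso z → ∀ s : F, star s = -s → U1 M (s • pz J z)
theorem hu_iso (H : HU M) : ∃ u u' : κ → F, u ≠ 0 ∧ star u ⬝ᵥ u = 0 ∧ star u ⬝ᵥ u' = 1 ∧ star u' ⬝ᵥ u' = 0 :=
  let ⟨u, a, b, _⟩ := ex_iso H.uf (![] : Fin 0 → κ → F) (by have := H.hk; omega); let ⟨v, c⟩ := ex_partner H.uf b a; ⟨u, v, a, b, c⟩
theorem ap_of (H : HU M) (hJ : J.Nonempty) (h : PU J A) (e : U1 M (pt A)) : AP M J := fun z hz s hs => by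
  obtain ⟨o, ho⟩ := hJ
  have : ∀ l, ∃ (d : GL κ F) (c : F), (Un d ∧ det d.1 = 1) ∧ c ≠ 0 ∧ cj d (A l) = c • if l ∈ J then vecMulVec (z l) (star (z l)) else 1 := fun l => by
    by_cases m : l ∈ J
    · obtain ⟨u, c, u0, c0, hu, e⟩ := h.1 l m
      obtain ⟨d, d1, d2, d3⟩ := tr_iso H.uf H.hk u0 hu (hz l).1 (hz l).2
      exact ⟨d, c, ⟨d1, d2⟩, c0, by simp [e, m, d1.cj_vv, d3]⟩
    · exact ⟨1, 1, ⟨by simp [Un], by simp⟩, one_ne_zero, by simp [h.2 l m, m]⟩
  choose d c d1 c0 d2 using this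
  have e1 := e.cj (H.ptU d1)
  simp only [cj_ptU', d2, pt_smul, ← pz.eq_1] at e1
  have c1 : ∏ l, c l ≠ 0 := Finset.prod_ne_zero_iff.2 fun l _ => c0 l
  generalize ∏ l, c l = c at e1 c1
  have p1 : PA J fun l => if l ∈ J then vecMulVec (z l) (star (z l)) else 1 :=
    ⟨fun l m => by simpa [m] using ⟨_, _, (hz l).1, star_ne_zero.2 (hz l).1, (hz l).2, rfl⟩, by simp +contextual⟩
  have p2 : (pz J z)ᴴ = pz J z := by rw [pz, pt_star]; congr 1; funext l; split_ifs <;> simp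
  have p3 : pz J z ≠ 0 := fun e => by
    have : ∀ l, ∃ x y, (if l ∈ J then vecMulVec (z l) (star (z l)) else 1) x y ≠ 0 := fun l => by
      obtain ⟨x, hx⟩ := Function.ne_iff.1 (hz l).1
      exact ⟨x, x, by split_ifs <;> simp_all [vecMulVec_apply]⟩
    choose x y h using this
    exact Finset.prod_ne_zero_iff.2 (fun l _ => h l) (congrFun₂ e x y)
  have c2 : star c = -c := smul_left_injective F p3 (by simpa [p2, show pz J z * pz J z = 0 from p1.sq ho] using H.star e1)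
  obtain ⟨r, hr⟩ := H.uf.nm (s / c) (by simp [hs, c2, neg_div_neg_eq])
  by_cases r0 : r = 0
  · exact ⟨1, one_mem _, by simp [show s = 0 by simpa [r0, c1, eq_comm (a := (0 : F))] using hr]⟩
  obtain ⟨d, d1, d2, d3⟩ := tr_iso H.uf H.hk (hz o).1 (hz o).2 (smul_ne_zero r0 (hz o).1) (by simp [(hz o).2])
  convert e1.cj (H.h0 o d d1 d2) using 1
  rw [pz, pt_split o, map_smul, map_mul, cj_piU, (cm_pt (by simp)).cj_piU, if_pos ho, d1.cj_vv, d3]
  simp [smul_smul, hr, mul_div_cancel₀, c1]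
theorem U1.comm2 {N : Subgroup (GL ι F)} {X Y : Matrix ι ι F} (h : U1 N X) (h' : U1 N Y) (e : X * X = 0) (e' : Y * Y = 0) (e1 : X * (Y * X) = 0)
    (e2 : Y * (X * Y) = 0) : U1 N (X * Y - Y * X) := by
  have h1 := (h'.cj (h.tv e)).sub h' (by simp [cj_tv, mul_sub, sub_mul, add_mul, mul_assoc, e', e2]) e'
  convert h1 using 1
  simp [cj_tv, mul_sub, add_mul, mul_assoc, e1]; abel
theorem extr (H : HU M) (h1 : star u ⬝ᵥ u = 0) (h2 : star u' ⬝ᵥ u' = 0) (h3 : star u ⬝ᵥ u' = 1) (K : Finset τ) : ∀ {J A} {α : F}, J.Nonempty → PU J A →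
    Disjoint K J → α ≠ 0 → (K = ∅ → star α ≠ α) → U1 M (pt A * (α • pt (fun l => if l ∈ K then vecMulVec u (star u') else 1) -
      star α • (pt fun l => if l ∈ K then vecMulVec u (star u') else 1)ᴴ)) → ∃ A, PU (K ∪ J) A ∧ U1 M (pt A) := by
  induction K using Finset.induction_on with
  | empty =>
    rintro J A α ⟨o, ho⟩ h - - n e
    refine ⟨fun l => (Pi.mulSingle o (α - star α) : τ → F) l • A l, ⟨fun l m => (h.1 l (by simpa using m)).smul ?_, fun l m => ?_⟩, ?_⟩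
    · by_cases c : l = o <;> simp [c, sub_ne_zero, (n rfl).symm]
    · simp [Pi.mulSingle_eq_of_ne (show l ≠ o by rintro rfl; simp [ho] at m), h.2 l (by simpa using m)]
    · simpa [pt_smul, sub_smul, ← Pi.one_def, mul_sub] using e
  | insert l K hl ih =>
    rintro J A α ⟨o, ho⟩ h d α0 - e
    obtain ⟨ζ, hζ⟩ := H.uf.ne
    obtain ⟨y, y1, y2, y3⟩ := ex_z H.uf H.hk h1 h2 h3 (ζ / α)
    obtain ⟨d1, d2⟩ := Finset.disjoint_insert_left.1 d
    have e1 : (pt fun j => if j ∈ insert l K then vecMulVec u (star u') else 1) = (pt fun j => if j ∈ K then vecMulVec u (star u') else 1) * VV l u (star u') := by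
      rw [VV, pt_mul_pi1 _ (by simp [hl])]; congr 1; funext j; by_cases c : j = l <;> simp [c]
    have e2 : ∀ j ∈ J, Cm j (pt fun j => if j ∈ insert l K then vecMulVec u (star u') else 1) := fun j m => cm_pt (if_neg (Finset.disjoint_right.1 d m))
    have e3 : Cm l (pt fun j => if j ∈ K then vecMulVec u (star u') else 1) := cm_pt (if_neg hl)
    have e4 := fun j m a => ((e2 j m a).smul_left α).sub_left (((e2 j m).star a).smul_left (star α))
    obtain ⟨c, c0, -, e5⟩ := la1u H.uf H.hk (L := LL h.pa ho e e4) (LL_cj H d1) ⟨e4, e⟩ y1 (by rintro rfl; simp at y2)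
    rw [Finset.insert_union, ← Finset.union_insert]
    refine ih (α := ζ) (by simp) (h.insert ⟨y, c, by rintro rfl; simp at y2, c0, y1, rfl⟩) (by simp [hl, d2]) (by rintro rfl; simp at hζ) (fun _ => hζ) ?_
    convert e5 using 1
    generalize (pt fun j => if j ∈ K then vecMulVec u (star u') else 1) = P at e1 e3
    have e6 : ∀ a b, P * VV l a b = VV l a b * P := fun a b => (e3 _).eq
    have e7 : ∀ a b, Pᴴ * VV l a b = VV l a b * Pᴴ := fun a b => (e3.star _).eq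
    rw [← pt_mul_pi1 _ (h.2 l d1), mul_assoc, smul_mul_assoc c, VV_ent, e1, map_smul, ← VV]
    simp [mul_sub, sub_mul, mul_assoc, VV_star, e6, e7, VV_mul, VV_mul', y2, y3, ← sd u' y, ← sd y u, smul_smul, mul_div_cancel₀, α0, smul_sub, mul_comm c]
theorem ap_union (H : HU M) {a b c : τ} (h : AP M J) (h' : AP M J') (a1 : a ∈ J) (a2 : a ∈ J') (b1 : b ∈ J) (b2 : b ∉ J') (c1 : c ∉ J) (c2 : c ∈ J') :
    AP M (J ∪ J') := by
  obtain ⟨u, u', u0, h1, h3, h2⟩ := hu_iso H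
  have u1 : u' ≠ 0 := by rintro rfl; simp at h3
  obtain ⟨s, s0, hs⟩ := H.uf.skew
  obtain ⟨A, e1, e2⟩ := extr H h1 h2 h3 (J ∩ J') (J := (J ∪ J') \ (J ∩ J')) (α := s * s)
    (A := fun l => if l ∈ J ∩ J' then 1 else if l ∈ J then vecMulVec u (star u) else if l ∈ J' then vecMulVec u' (star u') else 1) ⟨b, by simp [*]⟩
    ⟨fun l m => by
      by_cases m1 : l ∈ J <;> by_cases m2 : l ∈ J' <;> simp [m1, m2] at m ⊢
      exacts [⟨u, 1, u0, one_ne_zero, h1, by simp⟩, ⟨u', 1, u1, one_ne_zero, h2, by simp⟩], fun l m => by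
      by_cases m1 : l ∈ J <;> by_cases m2 : l ∈ J' <;> simp [m1, m2] at m ⊢⟩ Finset.disjoint_sdiff (mul_ne_zero s0 s0)
    (fun e => absurd (Finset.mem_inter.2 ⟨a1, a2⟩) (by simp [e])) (by
      convert (h _ (fun _ => ⟨u0, h1⟩) s hs).comm2 (h' _ (fun _ => ⟨u1, h2⟩) s hs) ?_ ?_ ?_ ?_ using 1
      all_goals simp only [pz, mul_sub, mul_smul_comm, smul_mul_assoc, smul_smul, ← map_mul, pt_star, star_mul', hs, neg_mul_neg]
      · congr 3 <;> funext l <;> by_cases m1 : l ∈ J <;> by_cases m2 : l ∈ J' <;> simp [m1, m2, vecMulVec_mul_vecMulVec, h3, ← sd u u']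
      · rw [pt_zero (l := a) (by simp [a1, vecMulVec_mul_vecMulVec, h1]), smul_zero]
      · rw [pt_zero (l := a) (by simp [a2, vecMulVec_mul_vecMulVec, h2]), smul_zero]
      · rw [pt_zero (l := b) (by simp [b1, b2, vecMulVec_mul_vecMulVec, h1]), smul_zero]
      · rw [pt_zero (l := c) (by simp [c1, c2, vecMulVec_mul_vecMulVec, h2]), smul_zero])
  rw [Finset.union_sdiff_of_subset Finset.inter_subset_union] at e1
  exact ap_of H ⟨a, by simp [a1]⟩ e1 e2
theorem ap_univ (H : HU M) (hf : ∀ π, det (fp κ F π).1 = 1 → fp κ F π ∈ M) (n : ℕ) :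
    ∀ J : Finset τ, Fintype.card τ - J.card = n → 2 ≤ J.card → AP M J → AP M .univ := by
  induction n using Nat.strong_induction_on with
  | _ n ih =>
  rintro J rfl h1 h2
  by_cases e : J = .univ
  · exact e ▸ h2
  obtain ⟨c, hc⟩ : ∃ c, c ∉ J := by simpa [Finset.eq_univ_iff_forall] using e
  obtain ⟨a, ha, b, hb, e⟩ := Finset.one_lt_card.1 h1
  have n1 : a ≠ c := by rintro rfl; exact hc ha
  have n2 : b ≠ c := by rintro rfl; exact hc hb
  let π := Equiv.swap a c * Equiv.swap b c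
  have m : c ∈ J.map π.toEmbedding := Finset.mem_map.2 ⟨a, ha, by simp [π, Equiv.swap_apply_of_ne_of_ne e n1]⟩
  have := Finset.card_lt_card (show J ⊂ J ∪ J.map π.toEmbedding from ⟨Finset.subset_union_left, fun h => hc (h (Finset.mem_union_right _ m))⟩)
  have := Finset.card_le_univ (J ∪ J.map π.toEmbedding)
  refine ih _ (by omega) (J ∪ J.map π.toEmbedding) rfl (by omega) (ap_union H h2 (fun z hz s hs => ?_) ha
    (Finset.mem_map.2 ⟨b, hb, by simp [π]⟩) hb (by simpa [π, ← Equiv.Perm.inv_def, Equiv.swap_apply_of_ne_of_ne e.symm n2] using hc) hc m)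
  simpa [pz, cj_fp, Function.comp_def] using (h2 (z ∘ π) (fun l => hz _) s hs).cj (hf π (det_fp n1 n2))
end H09.Wr
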