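import Mathlib
import Cfsg.Agent.H09.WuD
/-! Unitary tensor-wreath subgroups: a pattern generates the special unitary group. -/
namespace H09.Wr
open Matrix H10 H10.As Module
variable {τ κ ι : Type} [Fintype τ] [DecidableEq τ] [Fintype κ] [DecidableEq κ] [Fintype ι] [DecidableEq ι] {F : Type*} [Field F]
/-- pure tensors -/
def pv : MultilinearMap F (fun _ : τ => κ → F) ((τ → κ) → F) := .pi fun x => (MultilinearMap.mkPiAlgebra F τ F).compLinearMap fun l => .proj (x l)
theorem pv_apply (z : τ → κ → F) (x : τ → κ) : pv z x = ∏ l, z l (x l) := rfl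
theorem ml_span {L : Submodule F ((τ → κ) → F)} {Z : τ → Set (κ → F)} (h : ∀ z, (∀ l, z l ∈ Z l) → pv z ∈ L) {z : τ → κ → F}
    (hz : ∀ l, z l ∈ Submodule.span F (Z l)) : pv z ∈ L := by
  suffices ∀ J : Finset τ, ∀ z : τ → κ → F, (∀ l, z l ∈ Submodule.span F (Z l)) → (∀ l ∉ J, z l ∈ Z l) → pv z ∈ L from this .univ z hz (by simp)
  intro J
  induction J using Finset.induction_on with
  | empty => exact fun z _ e => h z (by simpa using e)
  | insert l J _ ih =>
  intro z h1 h2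
  simpa using (Submodule.span_le (p := L.comap (pv.toLinearMap z l))).2 (fun y m => ih _
    (fun j => by by_cases c : j = l <;> simp [c, h1]; exact Submodule.subset_span m) fun j e => by by_cases c : j = l <;> simp_all) (h1 l)
theorem pv_top {L : Submodule F ((τ → κ) → F)} (h : ∀ z, pv z ∈ L) (x) : x ∈ L := by
  rw [pi_eq_sum_univ' x]
  refine sum_mem fun y _ => L.smul_mem _ ?_
  convert h fun l => Pi.single (y l) 1 using 1
  ext y'; simp [pv_apply, Pi.single_apply, Finset.prod_ite_zero, funext_iff]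
variable [StarRing F]
theorem pv_dot (a b : τ → κ → F) : star (pv a) ⬝ᵥ pv b = ∏ l, star (a l) ⬝ᵥ b l := by
  simp [dotProduct, pv_apply, Finset.prod_univ_sum, Finset.prod_mul_distrib]
theorem pv_vv (a b : τ → κ → F) : vecMulVec (pv a) (star (pv b)) = pt fun l => vecMulVec (a l) (star (b l)) := by
  ext; simp [vecMulVec_apply, pv_apply, pt_apply, Finset.prod_mul_distrib]
theorem pv0 {a b : τ → κ → F} (l : τ) (h : star (a l) ⬝ᵥ b l = 0) : star (pv a) ⬝ᵥ pv b = 0 := (pv_dot a b).trans (Finset.prod_eq_zero (Finset.mem_univ l) h)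
theorem pv1 {a b : τ → κ → F} (h : ∀ l, star (a l) ⬝ᵥ b l ≠ 0) : star (pv a) ⬝ᵥ pv b ≠ 0 := pv_dot a b ▸ Finset.prod_ne_zero_iff.2 fun l _ => h l
theorem span_Z (hF : UF F) {u : κ → F} (u0 : u ≠ 0) (hu : star u ⬝ᵥ u = 0) (x) : x ∈ Submodule.span F {b | star b ⬝ᵥ b = 0 ∧ star b ⬝ᵥ u ≠ 0} := by
  obtain ⟨u', h3, h2⟩ := ex_partner hF hu u0
  obtain ⟨s, s0, hs⟩ := hF.skew
  have k : ∀ y, star u ⬝ᵥ y = 1 → star y ⬝ᵥ y = 0 → y ∈ Submodule.span F {b | star b ⬝ᵥ b = 0 ∧ star b ⬝ᵥ u ≠ 0} := fun y a b =>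
    Submodule.subset_span ⟨b, by simp [← sd u y, a]⟩
  have k1 := k u' h3 h2
  have k2 := sub_mem (k (u' + s • u) (by simp [*]) (by simp [*, ← sd u u'])) k1
  rw [add_sub_cancel_left, Submodule.smul_mem_iff _ s0] at k2
  obtain ⟨t, ht⟩ := partner hF hu (v := x + (1 - star u ⬝ᵥ x) • u') (by simp [h3])
  simpa using sub_mem (sub_mem (k _ (by simp [h3, hu]) ht) (Submodule.smul_mem _ t k2)) (Submodule.smul_mem _ (1 - star u ⬝ᵥ x) k1)

variable {M : Subgroup (GL (τ → κ) F)} {z b : τ → κ → F} {l m : τ} {w : κ → F}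
theorem lam (H : HU M) (h : AP M .univ) (hz : Iso z) (n : m ≠ l) (hw : star (z l) ⬝ᵥ w = 0) : U1 M (Wr.hz (pv z) (pv (Function.update z l w)) 0) := by
  let B := pt (Function.update (fun j => vecMulVec (z j) (star (z j))) l 1)
  have e0 : ∀ a b, vecMulVec (pv (Function.update z l a)) (star (pv (Function.update z l b))) = B * pi1 l (vecMulVec a (star b)) := fun a b => by
    rw [pv_vv, pt_mul_pi1 _ (by simp)]; congr 1; funext j; by_cases c : j = l <;> simp [c]
  have e1 : ∀ a b, B * pi1 l a * (B * pi1 l b) = 0 := fun a b => by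
    simp only [B, pi1_apply, ← map_mul]; exact pt_zero (l := m) (by simp [n, vecMulVec_mul_vecMulVec, (hz m).2])
  let L : AddSubgroup (Matrix κ κ F) := .ofSub {a | U1 M (B * pi1 l a)} ⟨0, 1, one_mem _, by simp⟩ fun x a y b => by
    simpa [← sub_eq_add_neg, mul_sub] using U1.sub a b (e1 _ _) (e1 _ _)
  have e2 : ∀ y (s : F), star y ⬝ᵥ y = 0 → y ≠ 0 → star s = -s → s • vecMulVec y (star y) ∈ L := fun y s a b c => by
    have := h (Function.update z l y) (fun j => by by_cases c : j = l <;> simp [c, hz j, a, b]) s c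
    simp only [pz, Finset.mem_univ, if_true, ← pv_vv, e0] at this
    rwa [← mul_smul_comm, ← map_smul] at this
  obtain ⟨s, s0, hs⟩ := H.uf.skew
  have e3 : ∀ v, star v ⬝ᵥ v = 0 → star (z l) ⬝ᵥ v = 1 → vecMulVec (z l) (star v) - vecMulVec v (star (z l)) ∈ L := fun v a b => by
    have := sub_mem (sub_mem (e2 (z l + (-s⁻¹) • v) s (by simp [a, b, (hz l).2, ← sd (z l) v, hs]) (fun e => by
      simpa [(hz l).2, b, s0] using congrArg (star (z l) ⬝ᵥ ·) e) hs) (e2 _ s (hz l).2 (hz l).1 hs)) (e2 ((-s⁻¹) • v) s (by simp [a]) (by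
        rw [smul_ne_zero_iff]; exact ⟨by simpa, by rintro rfl; simp at b⟩) hs)
    convert this using 1
    simp only [star_add, star_smul, add_vecMulVec, vecMulVec_add, smul_vecMulVec, vecMulVec_smul, star_neg, star_inv₀, hs]
    match_scalars <;> field_simp <;> ring
  obtain ⟨u', h3, h2⟩ := ex_partner H.uf (hz l).2 (hz l).1
  obtain ⟨t, ht⟩ := partner H.uf (hz l).2 (v := w + u') (by simp [h3, hw])
  have := sub_mem (sub_mem (e3 _ ht (by simp [h3, hw, (hz l).2])) (e3 _ h2 h3)) (e2 _ (star t - t) (hz l).2 (hz l).1 (by simp))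
  have e4 : pv z = pv (Function.update z l (z l)) := by simp
  rw [Wr.hz, e4, e0, e0, zero_smul, add_zero, ← mul_sub, ← map_sub]
  change _ ∈ L
  convert this using 1
  simp only [star_add, star_smul, add_vecMulVec, vecMulVec_add, smul_vecMulVec, vecMulVec_smul]
  module
theorem sg_mem (hF : UF F) {N : Subgroup (GL ι F)} {p w : ι → F} {s : F} (hp : (uf ι hF).Q p = 0) (hw : (uf ι hF).B p w = 0)
    (hs : (uf ι hF).T s = (uf ι hF).Q w) (h : U1 N (hz p w (-s))) : (uf ι hF).siegel p w s ∈ N.comap (uf ι hF).toGL :=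
  let ⟨_, m, e⟩ := h; Subgroup.mem_comap.2 (Units.ext (e.trans (toGL_sg hF hp hw hs).symm) ▸ m)
theorem full (H : HU M) (h : AP M .univ) [Nontrivial τ] (hz : Iso z) : (uf _ H.uf).Full (M.comap (uf _ H.uf).toGL) (pv z) := by
  obtain ⟨o⟩ : Nonempty τ := inferInstance
  have hp : ∀ z : τ → κ → F, Iso z → (uf _ H.uf).Q (pv z) = 0 := fun z hz => pv0 o (hz o).2
  have hX : ∀ z (hz : Iso z), ∀ t, (uf _ H.uf).T t = 0 → (uf _ H.uf).siegel (pv z) 0 t ∈ M.comap (uf _ H.uf).toGL := fun z hz t ht =>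
    sg_mem _ (hp z hz) (by simp) (by simpa) (by
      simpa [Wr.hz, pz, pv_vv] using h z hz (-t) (by rw [star_neg, neg_neg]; exact neg_eq_of_add_eq_zero_left ht))
  let L := fun z hz => Form.sgSub _ (hp z hz) (hX z hz)
  have k1 : ∀ z hz l w, star (z l) ⬝ᵥ w = 0 → pv (Function.update z l w) ∈ L z hz := fun z hz l w hw => by
    obtain ⟨m, n⟩ := exists_ne l
    refine ⟨pv0 l (by simpa), fun c => ?_⟩
    rw [← pv.map_update_smul]
    have : (uf (τ → κ) H.uf).T 0 = (uf _ H.uf).Q (pv (Function.update z l (c • w))) := (map_zero _).trans (pv0 m (by simp [n, (hz m).2])).symm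
    exact ⟨0, this, sg_mem _ (hp z hz) (pv0 l (by simp [hw])) this (by simpa using lam H h hz n (w := c • w) (by simp [hw]))⟩
  have k2 : ∀ b (hb : Iso b) l w, star (b l) ⬝ᵥ w = 0 → star (b l) ⬝ᵥ z l = 0 → star w ⬝ᵥ z l = 0 → ∀ x ∈ L z hz,
      (star (pv (Function.update b l w)) ⬝ᵥ x) • pv b - (star (pv b) ⬝ᵥ x) • pv (Function.update b l w) ∈ L z hz := fun b hb l w h1 h2 h3 x m => by
    obtain ⟨j, n⟩ := exists_ne l
    have a1 := k1 b hb l w h1
    have a2 : (uf (τ → κ) H.uf).T 0 = (uf _ H.uf).Q (pv (Function.update b l w)) := (map_zero _).trans (pv0 j (by simp [n, (hb j).2])).symm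
    have := sub_mem (Form.map_mem_sgSub (Form.siegel_mem_of_mem_sgSub a1 a2)
      (Form.siegel_apply_of_orth (hp b hb) a1.1 a2 (pv0 l h2) (pv0 l (by simpa))) m) m
    rw [Form.siegel_apply _ (hp b hb) a1.1 a2] at this
    simpa [uf_B, uf_ε, add_sub_right_comm _ _ x, sub_right_comm _ _ x] using this
  have k0 : ∀ l (b : τ → κ → F) w, (∀ j, b j ∈ if j = l then {w} else {b | star b ⬝ᵥ b = 0 ∧ star b ⬝ᵥ z j ≠ 0}) →
      Iso (Function.update b l (z l)) ∧ b l = w ∧ ∀ j ≠ l, star (b j) ⬝ᵥ z j ≠ 0 := fun l b w e => ⟨fun j => by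
    by_cases c : j = l
    · simp [c, hz l]
    · have := e j; rw [if_neg c] at this; exact ⟨by rintro e; simp_all, by simpa [c] using this.1⟩, by simpa using e l, fun j c => by
      have := e j; rw [if_neg c] at this; exact this.2⟩
  have sp : ∀ l (b : τ → κ → F) j, b j ∈ Submodule.span F (if j = l then {b l} else {b | star b ⬝ᵥ b = 0 ∧ star b ⬝ᵥ z j ≠ 0}) := fun l b j => by
    split_ifs with c
    exacts [c ▸ Submodule.mem_span_singleton_self _, span_Z H.uf (hz j).1 (hz j).2 _]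
  choose u' h3 h2 using fun l => ex_partner H.uf (hz l).2 (hz l).1
  have k3 : ∀ l b, b l = z l → pv b ∈ L z hz := fun l b e => ml_span (fun b' e' => by
    obtain ⟨a1, a2, a3⟩ := k0 l b' _ e'
    rw [← e, ← a2, Function.update_eq_self] at a1
    obtain ⟨w, h4, -, h6⟩ := ex_aniso H.uf H.hk (hz l).2 (h2 l) (h3 l)
    have := k2 b' a1 l w (by rwa [a2, e]) (by rw [a2, e, (hz l).2]) (sd0 h4) _ (k1 z hz l w h4)
    rwa [pv0 l (a := b') (by simpa [a2, e]), zero_smul, sub_zero, Submodule.smul_mem_iff _ (pv1 fun j => by by_cases c : j = l <;> simp [c, h6, a3])] at this)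
    (sp l b)
  have k4 : ∀ l b, star (z l) ⬝ᵥ b l = 0 → pv b ∈ L z hz := fun l b e => ml_span (fun b' e' => by
    obtain ⟨a1, a2, a3⟩ := k0 l b' _ e'
    obtain ⟨j, n⟩ := exists_ne l
    have := k2 _ a1 l (b' l) (by simpa [a2]) (by simp [(hz l).2]) (sd0 (a2 ▸ e)) _ (k3 j (Function.update z l (u' l)) (by simp [n]))
    rwa [Submodule.sub_mem_iff_right _ (Submodule.smul_mem _ _ (k3 l _ (Function.update_self ..))), Function.update_idem, Function.update_eq_self,
      Submodule.smul_mem_iff _ (pv1 fun j => by by_cases c : j = l <;> simp [c, h3, a3])] at this) (sp l b)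
  refine Form.full_of_le_sgSub (hp := hp z hz) (hX := hX z hz) fun x m => ?_
  obtain ⟨y, a, _, a', rfl⟩ := Submodule.mem_sup.1 (pv_top (L := L z hz ⊔ F ∙ pv u') (fun b => ml_span (Z := fun l => {w | star (z l) ⬝ᵥ w = 0 ∨ w = u' l})
    (fun b e => by
      by_cases c : ∃ l, star (z l) ⬝ᵥ b l = 0
      · exact let ⟨l, c⟩ := c; Submodule.mem_sup_left (k4 l b c)
      · rw [show b = u' from funext fun l => (e l).resolve_left fun e => c ⟨l, e⟩]
        exact Submodule.mem_sup_right (Submodule.mem_span_singleton_self _)) fun l => by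
      simpa using add_mem (Submodule.subset_span (s := {w | star (z l) ⬝ᵥ w = 0 ∨ w = u' l}) (.inl (by simp [h3] :
        star (z l) ⬝ᵥ (b l - (star (z l) ⬝ᵥ b l) • u' l) = 0))) (Submodule.smul_mem _ (star (z l) ⬝ᵥ b l) (Submodule.subset_span (.inr rfl)))) x)
  obtain ⟨c, rfl⟩ := Submodule.mem_span_singleton.1 a'
  have := (Form.mem_perp_singleton _).1 m
  rw [map_add, a.1, map_smul, uf_B, pv_dot] at this
  obtain rfl : c = 0 := by simpa [h3] using this
  simpa using a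
theorem su_le {q : ℕ} (hq : Nat.card F = q ^ 2) (hs : ∀ a : F, star a = a ^ q) (H : HU M) (hf : ∀ π, det (fp κ F π).1 = 1 → fp κ F π ∈ M) (hp : PatU M)
    {g : GL (τ → κ) F} (h1 : Un g) (h2 : det g.1 = 1) : g ∈ M := by
  obtain ⟨J, A, a1, a2, a3⟩ := hp
  have h := ap_univ H hf _ J rfl a1 (ap_of H (Finset.card_pos.1 (by omega)) a2 a3)
  have := Finset.card_le_univ J
  have : Nontrivial τ := Fintype.one_lt_card_iff_nontrivial.1 (by omega)
  obtain ⟨u, u', u0, b1, b3, b2⟩ := hu_iso H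
  obtain ⟨o⟩ : Nonempty τ := inferInstance
  have := Form.E_le_of_full (full H h (z := fun _ => u) fun _ => ⟨u0, b1⟩) (pv0 o b1) (full H h (z := fun _ => u') fun _ => ⟨by rintro rfl; simp at b3, b2⟩)
    (pv0 o b2) (pv1 (by simp [b3]))
  rw [Form.IsUnitary.E_eq_SIsom (φ := uf _ H.uf) (q := q) ⟨Form.isHerm_ofHerm _ _ _ _ _, hq, hs⟩ (by
    simpa using H.hk.trans (Nat.le_self_pow Fintype.card_ne_zero _))] at this
  obtain ⟨x, rfl⟩ := h1.ex H.uf
  exact this ((Form.mem_SIsom _).2 ((det_toGL x).symm.trans h2))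
end H09.Wr
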