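import Mathlib
import Cfsg.Agent.H09.WuE
/-! Unitary tensor-wreath subgroups: conjugates of root elements. -/
namespace H09.Wr
open Matrix H10.As Module
variable {τ κ ι : Type} [Fintype τ] [DecidableEq τ] [Fintype κ] [DecidableEq κ] [Fintype ι] [DecidableEq ι] {F : Type*} [Field F]
theorem grp5 {G K : Type*} [Group G] [Group K] (f : K →* G) {y : G} (hy : y * y = 1) (h : ∀ a b, Commute (f a) (y * f b * y)) {a b c d e : K}
    (h1 : a * (b⁻¹ * c) * (d⁻¹ * e) = 1) (h2 : a⁻¹ * b * (c⁻¹ * d) = e) :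
    f a * y * (f a)⁻¹ * (f b * y * (f b)⁻¹) * (f c * y * (f c)⁻¹) * (f d * y * (f d)⁻¹) * (f e * y * (f e)⁻¹) = y :=
  calc _ = f a * (y * f (a⁻¹ * b) * y) * (f (b⁻¹ * c) * (y * f (c⁻¹ * d) * y)) * f (d⁻¹ * e) * y * (f e)⁻¹ := by simp only [map_mul, map_inv]; group
   _ = y * f (a⁻¹ * b) * y * (f a * (y * f (c⁻¹ * d) * y)) * f (b⁻¹ * c) * f (d⁻¹ * e) * y * (f e)⁻¹ := by rw [(h _ _).eq, (h _ _).eq]; group
   _ = y * f (a⁻¹ * b) * (y * y) * f (c⁻¹ * d) * y * f (a * (b⁻¹ * c) * (d⁻¹ * e)) * y * (f e)⁻¹ := by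
     rw [(h _ _).eq, map_mul f (a * _), map_mul f a]; group
   _ = y * f (a⁻¹ * b * (c⁻¹ * d)) * (y * y) * (f e)⁻¹ := by rw [h1, map_one, map_mul f (_ * b)]; nth_rw 1 [hy]; group
   _ = y := by rw [hy, h2]; group
variable [StarRing F]
local notation "𝒜" => Matrix (τ → κ) (τ → κ) F
variable {i j l : τ} {β γ ε X Y : Matrix (τ → κ) (τ → κ) F} {g y : GL (τ → κ) F} {u v w φ ψ : κ → F} {a b : Matrix κ κ F}
  {M : Subgroup (GL (τ → κ) F)}
/-- unitary root elements -/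
def RS (a : Matrix κ κ F) : Prop := RU a ∧ aᴴ = -a
theorem RS.rk (h : RS a) : RK a := h.1.rk
theorem rs_of {s : F} (u0 : u ≠ 0) (hu : star u ⬝ᵥ u = 0) (s0 : s ≠ 0) (hs : star s = -s) : RS (s • vecMulVec u (star u)) :=
  ⟨⟨u, s, u0, s0, hu, rfl⟩, by simp [hs]⟩
theorem un_tv {a : Matrix ι ι F} (h : a * a = 0) (e : aᴴ = -a) : Un (tv a h) := by simp [Un, tv, e, mul_add, add_mul, h]
theorem RS.mem (H : HU M) (h : RS a) (i : τ) : piU i (tv a h.rk.sq) ∈ M := H.h0 _ _ (un_tv _ h.2) h.rk.det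
theorem five (hF : UF F) (hk : 3 ≤ Fintype.card κ) (h2 : (2 : F) = 0) (hq : (∃ l : F, l ≠ 0 ∧ star l * l ≠ 1) ∨ 4 ≤ Fintype.card κ) :
    ∃ b : Fin 5 → Matrix κ κ F, (∀ i, RS (b i)) ∧ (∀ i j, b i * b j = 0) ∧ b 0 - b 1 + b 2 - b 3 + b 4 = 0 := by
  suffices ∃ (x : Fin 5 → κ → F) (s : Fin 5 → F), (∀ i, x i ≠ 0 ∧ s i ≠ 0 ∧ star (s i) = s i) ∧ (∀ i j, star (x i) ⬝ᵥ x j = 0) ∧
      ∑ i, s i • vecMulVec (x i) (star (x i)) = 0 by
    obtain ⟨x, s, h1, h3, h4⟩ := this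
    refine ⟨fun i => s i • vecMulVec (x i) (star (x i)), fun i => rs_of (h1 i).1 (h3 i i) (h1 i).2.1 (by linear_combination (h1 i).2.2 + s i * h2),
      fun i j => by simp [vecMulVec_mul_vecMulVec, h3], ?_⟩
    rw [Fin.sum_univ_five] at h4
    linear_combination (norm := module) h4 - h2 • (s 1 • vecMulVec (x 1) (star (x 1)) + s 3 • vecMulVec (x 3) (star (x 3)))
  obtain ⟨u, u0, hu, -⟩ := ex_iso hF (![] : Fin 0 → κ → F) (by omega)
  by_cases c : ∃ l : F, l ≠ 0 ∧ star l * l ≠ 1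
  · obtain ⟨l, l0, hl⟩ := c
    refine ⟨fun _ => u, ![1, star l * l, star l * l - 1, 1, 1], by simp [Fin.forall_fin_succ, u0, l0, sub_ne_zero.2 hl, mul_comm l], fun _ _ => hu, ?_⟩
    simp only [Fin.sum_univ_five, cons_val_zero, cons_val_one, cons_val]
    linear_combination (norm := module) h2 • ((star l * l + 1) • vecMulVec u (star u))
  obtain ⟨u', h3, -⟩ := ex_partner hF hu u0
  obtain ⟨v, v0, hv, h⟩ := ex_iso hF ![star u, star u'] (hq.resolve_left c)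
  have h4 : star u ⬝ᵥ v = 0 := h 0
  have h5 : star u' ⬝ᵥ v = 0 := h 1
  have n : ∀ c : F, u + c • v ≠ 0 := fun c e => by simpa [h5, ← sd u u', h3] using congrArg (star u' ⬝ᵥ ·) e
  obtain ⟨ζ, hζ⟩ := hF.tr (star_one F)
  have h6 : star ζ * ζ = 1 := by_contra fun e => c ⟨ζ, by rintro rfl; simp at hζ, e⟩
  refine ⟨![u, v, u + (1 : F) • v, u + ζ • v, u + star ζ • v], 1, by simp [-one_smul, Fin.forall_fin_succ, u0, v0, n],
    by simp [Fin.forall_fin_succ, hu, hv, h4, sd0 h4], ?_⟩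
  simp only [Fin.sum_univ_five, cons_val_zero, cons_val_one, cons_val, Pi.one_apply, one_smul, star_add, star_smul, star_star, add_vecMulVec, vecMulVec_add,
    smul_vecMulVec, vecMulVec_smul]
  linear_combination (norm := module) h2 • ((2 : F) • vecMulVec u (star u) + (2 : F) • vecMulVec v (star v) + vecMulVec u (star v) + vecMulVec v (star u)) +
    hζ • (vecMulVec u (star v) + vecMulVec v (star u)) + h6 • ((2 : F) • vecMulVec v (star v))
variable [Nontrivial κ] (H : HU M) (hp : ¬ PatU M) (hq : (∃ l : F, l ≠ 0 ∧ star l * l ≠ 1) ∨ 4 ≤ Fintype.card κ)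
include H hp hq
theorem n1s (m : g ∈ M) (ea : RS a) (eb : RK b) (e : cj g (pi1 j a) = pi1 i b) : Mp g j i := by
  obtain ⟨⟨u, c, u0, c0, hu, rfl⟩, -⟩ := ea
  obtain ⟨v, χ, -, -, -, rfl⟩ := eb
  exact n1u H hp hq m u0 hu (smul_ne_zero c0 (star_ne_zero.2 u0)) (by rwa [VV, vecMulVec_smul])
theorem seu (m : g ∈ M) (ea : RS a) (hy : y ∈ HH τ κ F) (e : y.1 = 1 + cj g (pi1 j a)) : ∃ i, Mp g j i := by
  by_contra K
  have hk := H.hk
  have R := (ea.rk.rb j).cj g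
  obtain ⟨p, H1⟩ : ∃ p, ¬ Mp y p p := by
    by_contra! H1
    obtain ⟨i, b, eb, e⟩ := R.std fun i => rmul hk R e (H1 i)
    exact K ⟨i, n1s H hp hq m ea eb e⟩
  obtain ⟨q, hq1⟩ := hy p
  obtain ⟨q', hq'⟩ := inv_mem hy p
  have n : q ≠ p := by rintro rfl; exact H1 hq1
  have c1 := odd_case hk R.1 e hq1 hq' n (by rintro rfl; exact H1 (by simpa using hq'.inv))
  have c2 : ∀ X : 𝒜, X + X = 0 := fun X => by rw [← two_smul F, c1, zero_smul]
  have sq : ∀ {y : GL (τ → κ) F} {ε}, ε * ε = 0 → y.1 = 1 + ε → y * y = 1 := fun h e => Units.ext (by simp [e, mul_add, add_mul, h, add_assoc, c2])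
  have yy := sq R.1 e
  have ey : y = g * piU j (tv a ea.rk.sq) * g⁻¹ := Units.ext (by rw [← cj_val, piU_tv ea.rk, map_add, map_one, e])
  have ym : y ∈ M := ey ▸ mul_mem (mul_mem m (ea.mem H j)) (inv_mem m)
  have cm : ∀ b c : GL κ F, Commute (piU p b) (y * piU p c * y) := fun b c => Units.ext (by
    obtain ⟨d, hd⟩ := hq1 c.1
    nth_rw 2 4 [eq_inv_of_mul_eq_one_left yy]
    rw [Units.val_mul, Units.val_mul (y * _ * _), ← cj_val, piU_val c, hd]
    exact (cm_pi1 n d _).eq.symm)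
  have key : ∀ {b} (eb : RS b), Cm j (g⁻¹ * (piU p (tv b eb.rk.sq) * y * (piU p (tv b eb.rk.sq))⁻¹) * g).1 := fun {b} eb => by
    set x := piU p (tv b eb.rk.sq)
    have xm : x ∈ M := eb.mem H p
    have xx : x * x = 1 := sq (eb.rk.rb p).1 (piU_tv eb.rk)
    have m1 : g⁻¹ * x * g ∈ M := mul_mem (mul_mem (inv_mem m) xm) m
    have e1 : (g⁻¹ * (x * y * x⁻¹) * g).1 = 1 + cj (g⁻¹ * x * g) (pi1 j a) := by
      rw [← map_one (cj (g⁻¹ * x * g)), ← map_add, ← piU_tv ea.rk, cj_val, ey]; congr 1; group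
    have e2 : cj (g⁻¹ * (x * y * x⁻¹) * g) (pi1 j a) = pi1 j a := by
      have : x * y * x⁻¹ * y * (x * y * x⁻¹)⁻¹ = y := by
        rw [mul_inv_eq_iff_eq_mul, inv_eq_of_mul_eq_one_left xx]
        simpa [mul_assoc] using (cm _ _).eq
      have := congrArg Units.val this
      rw [← cj_val, e, map_add, map_one, add_right_inj] at this
      rw [cj_mul, cj_mul, this, cj_inv_cj]
    rcases rmul hk ((ea.rk.rb j).cj _) e1 (n1s H hp hq (mul_mem (mul_mem (inv_mem m) (mul_mem (mul_mem xm ym) (inv_mem xm))) m) ea ea.rk e2) with h | ⟨c, ec, h⟩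
    · exact e1 ▸ (cm_sc ⟨1, by simp⟩ j).add h
    have e3 : (g⁻¹ * x * g).1 = 1 + cj g⁻¹ (pi1 p b) := by rw [← map_one (cj g⁻¹), ← map_add, ← piU_tv eb.rk, cj_val, inv_inv]
    rcases rmul hk ((eb.rk.rb p).cj _) e3 (n1s H hp hq m1 ea ec h) with h | ⟨c, ec, h⟩
    · obtain ⟨d, hd⟩ := hq1 b
      have := (h a).map (cj g)
      rw [cj_cj_inv] at this
      have : cj y (pi1 p b) = pi1 p b := cj_eq_iff.2 (by rw [e]; exact ((Commute.one_right _).add_right this).eq.symm)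
      exact (eb.rk.not_sc (Cm.sc (i := p) (by rw [← this, hd]; exact cm_pi1 n d))).elim
    · exact (K ⟨p, by simpa using (n1s H hp hq (inv_mem m) eb ec h).inv⟩).elim
  obtain ⟨b, r, b1, b2⟩ := five H.uf hk c1 hq
  have := ((((key (r 0)).mul (key (r 1))).mul (key (r 2))).mul (key (r 3))).mul (key (r 4))
  simp only [← Units.val_mul] at this
  rw [show ∀ a b c d e : GL (τ → κ) F, g⁻¹ * a * g * (g⁻¹ * b * g) * (g⁻¹ * c * g) * (g⁻¹ * d * g) * (g⁻¹ * e * g) = g⁻¹ * (a * b * c * d * e) * g⁻¹⁻¹ from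
    fun a b c d e => by group, grp5 _ yy cm, ← cj_val, e, map_add, map_one, cj_inv_cj] at this
  · exact ea.rk.not_sc (Cm.sc (i := j) (by simpa using this.sub (cm_sc (β := 1) ⟨1, by simp⟩ j)))
  all_goals
    refine Units.ext ?_
    simp only [tv, Units.val_mul, Units.inv_mk, mul_add, add_mul, mul_sub, sub_mul, mul_one, one_mul, b1, Units.val_one, mul_zero, zero_mul]
  · linear_combination (norm := abel) b2
  · linear_combination (norm := abel) -b2
end H09.Wr
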