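import Mathlib
import Cfsg.Agent.H09.WuF
/-! Unitary tensor-wreath subgroups: averaging. -/
namespace H09.Wr
open Matrix H10.As Module
variable {τ κ ι : Type} [Fintype τ] [DecidableEq τ] [Fintype κ] [DecidableEq κ] [Fintype ι] [DecidableEq ι] {F : Type*} [Field F]
local notation "𝒜" => Matrix (τ → κ) (τ → κ) F
variable {i j l : τ} {β γ ε X Y : Matrix (τ → κ) (τ → κ) F} {g y : GL (τ → κ) F} {u v w φ ψ : κ → F} {M : Subgroup (GL (τ → κ) F)}
theorem avgg [Finite F] {T : Subgroup (GL (τ → κ) F)} {W Λ R : Type*} [AddCommGroup W] [Group Λ] [Fintype Λ] [AddCommGroup R]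
    (ρ : GL (τ → κ) F → W →+ W) (hρ : ∀ g h w, ρ (g * h) w = ρ g (ρ h w)) {δ : W} (hδ : ∀ g ∈ T, ρ g δ = δ) (hT1 : ∀ g ∈ T, ∀ l, ∃ i, Mp g l i)
    (hT2 : ∀ g ∈ M, (∀ l, ∃ i, Mp g l i) → g ∈ T) [Nonempty κ]
    (hT : ∀ l w, w ≠ 0 → (∀ d, piU l d ∈ M → ρ (piU l d) w = w) → ∃ f : W →+ R, f w ≠ 0 ∧ ∃ θ : Λ →* GL κ F, (∀ a, piU l (θ a) ∈ M) ∧
      (∀ a ≠ 1, ∀ g ∈ M, g * piU l (θ a) * g⁻¹ ∈ T → ∃ i, Mp g l i) ∧ ∀ w, ∑ a, f (ρ (piU l (θ a)) w) = 0) (m : g ∈ M) : ρ g δ = δ := by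
  classical
  have := Fintype.ofFinite (GL (τ → κ) F ⧸ T)
  let val : GL (τ → κ) F ⧸ T → W := Quotient.lift (fun g => ρ g δ) fun a b h => by
    rw [← mul_inv_cancel_left a b, hρ, hδ _ (QuotientGroup.leftRel_apply.1 h)]
  have ev : ∀ (g : GL (τ → κ) F) ω, val (g • ω) = ρ g (val ω) := fun g ω => by
    induction ω using QuotientGroup.induction_on with | H k => exact hρ g k δ
  have iv : ∀ (g : GL (τ → κ) F) (s : Finset _), (∀ ω ∈ s, g • ω ∈ s) → (∀ ω ∈ s, g⁻¹ • ω ∈ s) → ρ g (∑ ω ∈ s, val ω) = ∑ ω ∈ s, val ω :=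
    fun g s a b => (map_sum ..).trans (Finset.sum_nbij' (g • ·) (g⁻¹ • ·) a b (by simp) (by simp) fun ω _ => (ev g ω).symm)
  let P (J : Finset τ) (ω : GL (τ → κ) F ⧸ T) : Prop := ∃ g ∈ M, ω = g ∧ ∀ l ∈ J, ∃ i, Mp g i l
  have st : ∀ J ω, ∀ t ∈ M, (∀ l ∈ J, Mp t l l) → P J ω → P J (t • ω) := by
    rintro J _ t m h ⟨g, m', rfl, h'⟩
    exact ⟨t * g, mul_mem m m', rfl, fun l e => (h' l e).imp fun i c => (h l e).mul c⟩
  have key : ∀ J, ∑ ω with P J ω, val ω = ∑ ω with P ∅ ω, val ω := fun J => by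
    induction J using Finset.induction_on with
    | empty => rfl
    | insert l J _ ih =>
    rw [← ih, ← Finset.sum_filter_add_sum_filter_not (.filter (P J) .univ) (P (insert l J)), Finset.filter_filter, Finset.filter_filter,
      Finset.filter_congr (q := P (insert l J)) fun ω _ => and_iff_right_of_imp fun ⟨g, m, e, h⟩ => ⟨g, m, e, fun l c => h l (by simp [c])⟩,
      left_eq_add]
    by_contra n
    have s1 : ∀ d, piU l d ∈ M → ∀ ω ∈ Finset.univ.filter fun ω => P J ω ∧ ¬ P (insert l J) ω,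
        piU l d • ω ∈ Finset.univ.filter fun ω => P J ω ∧ ¬ P (insert l J) ω := fun d m ω => by
      simp only [Finset.mem_filter, Finset.mem_univ, true_and]
      exact And.imp (st _ _ _ m fun l _ => mp_piU _ _) (mt fun c => by
        simpa using st _ _ (piU l d⁻¹) (by simpa) (fun l _ => mp_piU _ _) c)
    obtain ⟨f, n', θ, tm, h1, h2⟩ := hT l _ n fun d m => iv _ _ (s1 d m) (by simpa only [map_inv] using s1 d⁻¹ (by simpa))
    refine n' ((map_sum ..).trans (free_sum ((piU l).comp θ) _ _ (fun a => s1 _ (tm a)) (fun a c ω m e => ?_) fun ω => by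
      simp only [ev]; exact h2 (val ω)))
    obtain ⟨-, ⟨g, m', rfl, h3⟩, h4⟩ := Finset.mem_filter.1 m
    obtain ⟨i, hi⟩ := h1 a c _ (inv_mem m') (by simpa [mul_assoc] using inv_mem (QuotientGroup.eq.1 e))
    exact h4 ⟨g, m', rfl, by simpa using ⟨⟨i, by simpa using hi.inv⟩, h3⟩⟩
  have k1 : ∑ ω with P ∅ ω, val ω = δ := by
    rw [← key .univ, Finset.sum_eq_single (QuotientGroup.mk 1) (fun ω m n => ?_) fun n => (n ?_).elim]
    · exact hδ 1 (one_mem _)
    · obtain ⟨g, m', rfl, h⟩ := (Finset.mem_filter.1 m).2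
      exact (n (QuotientGroup.eq.2 (by rw [mul_one]; exact hT2 _ (inv_mem m') fun l => (h l (by simp)).imp fun i c => c.inv))).elim
    · exact Finset.mem_filter.2 ⟨by simp, 1, one_mem _, rfl, fun l _ => ⟨l, fun a => ⟨a, cj_one _⟩⟩⟩
  rw [← k1]
  exact iv _ _ (by simpa using fun ω => st ∅ ω g m (by simp)) (by simpa using fun ω => st ∅ ω _ (inv_mem m) (by simp))
/-- conjugation action on linear maps -/
def rh (g : GL ι F) : (Matrix ι ι F →ₗ[F] Matrix ι ι F) →+ (Matrix ι ι F →ₗ[F] Matrix ι ι F) :=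
  .mk' (fun Θ => (cj g).toLinearMap ∘ₗ Θ ∘ₗ (cj g⁻¹).toLinearMap) fun _ _ => by ext1; simp
theorem rh_apply (g : GL ι F) (Θ Y) : rh g Θ Y = cj g (Θ (cj g⁻¹ Y)) := rfl
/-- matrix coefficients -/
def GG (l : τ) (Y : 𝒜) (d a c b : κ) (δ α γ β : κ → F) : (𝒜 →ₗ[F] 𝒜) →+ 𝒜 :=
  .mk' (fun Θ => VV l (Pi.single d 1) δ * Θ (VV l α (Pi.single a 1) * Y * VV l (Pi.single c 1) γ) * VV l β (Pi.single b 1)) fun _ _ => by simp [mul_add, add_mul]
theorem GG_apply (d a c b : κ) (δ α γ β : κ → F) (Θ : 𝒜 →ₗ[F] 𝒜) : GG l Y d a c b δ α γ β Θ =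
    VV l (Pi.single d 1) δ * Θ (VV l α (Pi.single a 1) * Y * VV l (Pi.single c 1) γ) * VV l β (Pi.single b 1) := rfl
theorem GG_rh (d a c b : κ) (δ α γ β : κ → F) (Θ : 𝒜 →ₗ[F] 𝒜) (D : GL κ F) : GG l Y d a c b δ α γ β (rh (piU l D) Θ) =
    GG l Y d a c b (δ ᵥ* D.1) ((D⁻¹).1 *ᵥ α) (γ ᵥ* D.1) ((D⁻¹).1 *ᵥ β) Θ := by
  simp only [GG_apply, rh_apply, cj_apply, inv_inv, ← map_inv, piU_val, ← VV_pi1, ← pi1_VV, mul_assoc]
theorem GG_ex {Θ : 𝒜 →ₗ[F] 𝒜} (h : Θ ≠ 0) (l : τ) :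
    ∃ Y d a c b, GG l Y d a c b (Pi.single d 1) (Pi.single a 1) (Pi.single c 1) (Pi.single b 1) Θ ≠ 0 := by
  by_contra! k
  refine h (LinearMap.ext fun Y => ?_)
  rw [← mul_one (Θ Y), ← one_mul (Θ Y), ← mul_one Y, ← one_mul Y, ← sum_VV l]
  simp only [Finset.sum_mul, Finset.mul_sum, map_sum, ← GG_apply, k, Finset.sum_const_zero, LinearMap.zero_apply]
variable [StarRing F]
theorem UF.mu3 (h : UF F) {l : F} (l0 : l ≠ 0) (hl : star l * l ≠ 1) : ∃ η : F, star η * η = 1 ∧ η * η * η ≠ 1 := by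
  by_contra! H
  have k : ∀ ζ : F, star ζ ^ 3 = ζ ^ 3 := fun ζ => by
    by_cases z : ζ = 0
    · simp [z]
    have := star_ne_zero.2 z
    have := H (star ζ / ζ) (by simp; field_simp)
    field_simp at this
    exact this
  obtain ⟨ζ, e⟩ := h.ne
  have k1 := k (ζ + 1)
  have k2 := k (ζ + star l * l)
  simp only [star_add, star_one, star_mul', star_star] at k1 k2
  have k3 : (3 : F) = 0 := mul_left_cancel₀ (mul_ne_zero (mul_ne_zero (sub_ne_zero.2 e) (mul_ne_zero (star_ne_zero.2 l0) l0)) (sub_ne_zero.2 hl)) (by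
    linear_combination k2 - k ζ - (star l * l) * (k1 - k ζ))
  exact e (sub_eq_zero.1 (pow_eq_zero_iff (n := 3) (by simp) |>.1 (by linear_combination k ζ + (ζ * ζ * star ζ - ζ * star ζ * star ζ) * k3)))
/-- torus weights -/
def wt (ζ : F) (x y i : κ) : F := if i = x then ζ else if i = y then star ζ else 1
theorem wt_norm {ζ : F} (e : star ζ * ζ = 1) (x y i : κ) : star (wt ζ x y i) * wt ζ x y i = 1 := by unfold wt; split_ifs <;> simp [e, mul_comm ζ]
theorem wt_prod {ζ : F} (e : star ζ * ζ = 1) {x y : κ} (n : x ≠ y) : ∏ i, wt ζ x y i = 1 := by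
  rw [Finset.prod_eq_mul x y n (fun i _ h => by simp [wt, h]) (by simp) (by simp)]; simp [wt, n.symm, mul_comm ζ, e]
theorem comb1 (hk : 3 ≤ Fintype.card κ) {ζ : F} (e : star ζ * ζ = 1) (n : ζ ≠ 1) {a b d : κ}
    (k : ∀ x y, x ≠ y → wt ζ x y a * wt ζ x y d = wt ζ x y a * wt ζ x y b) : d = b := by_contra fun n' => by
  obtain ⟨y, hy⟩ := exn {d, b} (Finset.card_le_two.trans_lt hk)
  simp only [Finset.mem_insert, Finset.mem_singleton, not_or, ← ne_eq] at hy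
  have := mul_left_cancel₀ (right_ne_zero_of_mul_eq_one (wt_norm e d y a)) (k d y hy.1.symm)
  simp [wt, hy.2.symm, Ne.symm n', n] at this
theorem comb (hF : UF F) (hk : 3 ≤ Fintype.card κ) (hq : (∃ l : F, l ≠ 0 ∧ star l * l ≠ 1) ∨ 4 ≤ Fintype.card κ) {a b c d : κ}
    (h : ∀ μ : κ → F, (∀ i, star (μ i) * μ i = 1) → ∏ i, μ i = 1 → μ c * μ d = μ a * μ b) : c = a ∧ d = b ∨ c = b ∧ d = a := by
  have k := fun ζ e x y (n : x ≠ y) => h _ (wt_norm (ζ := ζ) e x y) (wt_prod e n)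
  obtain ⟨ζ, e, n⟩ := hF.mu
  have n1 : ζ ≠ 1 := by rintro rfl; simp at n
  by_contra! H
  have ca : c ≠ a := fun e' => H.1 e' (comb1 hk e n1 (e' ▸ k ζ e))
  have cb : c ≠ b := fun e' => H.2 e' (comb1 hk e n1 fun x y n => (k ζ e x y n).trans (e' ▸ mul_comm _ _))
  have da : d ≠ a := fun e' => cb (comb1 hk e n1 fun x y n => (mul_comm _ _).trans (e' ▸ k ζ e x y n))
  have db : d ≠ b := fun e' => ca (comb1 hk e n1 fun x y n => ((mul_comm _ _).trans (k ζ e x y n)).trans (e' ▸ mul_comm _ _))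
  have k2 : ∀ ζ : F, star ζ * ζ = 1 → ζ * (if d = c then ζ else 1) = star ζ * if b = a then star ζ else 1 := fun ζ e => by
    simpa only [wt, if_true, if_neg ca.symm, if_neg cb.symm, if_neg da] using k ζ e c a ca
  have k3 : ∀ s : Finset κ, s.card < Fintype.card κ → c ∈ s → a ∈ s → b ∈ s → d ≠ c := fun s h0 h1 h2 h3 e' => n (by
    obtain ⟨y, hy⟩ := exn s h0
    have h1 := ne_of_mem_of_not_mem h1 hy
    simpa only [wt, e', if_true, if_neg ca.symm, if_neg cb.symm, if_neg (ne_of_mem_of_not_mem h2 hy), if_neg (ne_of_mem_of_not_mem h3 hy), mul_one]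
      using k ζ e c y h1)
  have k4 : ∀ s : Finset κ, s.card < Fintype.card κ → a ∈ s → c ∈ s → d ∈ s → b ≠ a := fun s h0 h1 h2 h3 e' => n (by
    obtain ⟨y, hy⟩ := exn s h0
    have h1 := ne_of_mem_of_not_mem h1 hy
    simpa only [wt, e', if_true, if_neg ca, if_neg da, if_neg (ne_of_mem_of_not_mem h2 hy), if_neg (ne_of_mem_of_not_mem h3 hy), mul_one]
      using (k ζ e a y h1).symm)
  by_cases dc : d = c <;> by_cases ba : b = a
  · exact k3 {c, a} (Finset.card_le_two.trans_lt hk) (by simp) (by simp) (by simp [ba]) dc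
  · rcases hq with ⟨l, l0, hl⟩ | hq
    · obtain ⟨η, h1, h2⟩ := hF.mu3 l0 hl
      exact h2 (by have := k2 η h1; rw [if_pos dc, if_neg ba] at this; linear_combination η * this + h1)
    · exact k3 {c, a, b} (Finset.card_le_three.trans_lt hq) (by simp) (by simp) (by simp) dc
  · rcases hq with ⟨l, l0, hl⟩ | hq
    · obtain ⟨η, h1, h2⟩ := hF.mu3 l0 hl
      exact h2 (by have := k2 η h1; rw [if_neg dc, if_pos ba] at this; linear_combination η * η * this + (star η * η + 1) * h1)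
    · exact k4 {c, a, d} (Finset.card_le_three.trans_lt hq) (by simp) (by simp) (by simp) ba
  · exact n (by have := k2 ζ e; rw [if_neg dc, if_neg ba] at this; linear_combination ζ * this + e)
theorem sum_skew [Fintype (skewAdjoint F)] (hF : UF F) : (Fintype.card (skewAdjoint F) : F) = 0 ∧
    ((∃ l : F, l ≠ 0 ∧ star l * l ≠ 1) → ∑ s : skewAdjoint F, s.1 = 0) := by
  obtain ⟨s, s0, hs⟩ := hF.skew
  refine ⟨by simpa [Finset.sum_add_distrib, s0] using Equiv.sum_comp (Equiv.addRight (⟨s, hs⟩ : skewAdjoint F)) Subtype.val, fun ⟨l, l0, hl⟩ => ?_⟩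
  have := (Finite.injective_iff_bijective.1 (show Function.Injective fun s : skewAdjoint F => (⟨star l * l * s.1, by
    simp [skewAdjoint.mem_iff, mul_comm l]⟩ : skewAdjoint F) from fun a b h => by simpa [l0] using h)).sum_comp Subtype.val
  simp only [← Finset.mul_sum] at this
  exact mul_left_cancel₀ (sub_ne_zero.2 hl) (by linear_combination this)
omit [StarRing F] in
theorem nl_gen [Nontrivial κ] (hk : 3 ≤ Fintype.card κ) {a a' : Matrix κ κ F} (ea : RK a) (ea' : RK a') (n : i ≠ j) (e : g.1 = 1 + pi1 i a * pi1 j a') :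
    g ∉ HH τ κ F := fun h => by
  have h1 : pi1 i a * pi1 j a' * (pi1 i a * pi1 j a') = 0 := by
    rw [mul_assoc, ← mul_assoc (pi1 j _), (cm_pi1 n.symm _ _).eq, ← mul_assoc, ← mul_assoc, ← map_mul]; simp [ea.sq]
  have h2 : pi1 i a * pi1 j a' ≠ 0 := fun c => ea'.ne (pi1_inj j (((cm_pi1 n.symm _).eq_zero ea.ne c).trans (map_zero _).symm))
  have R : RB (pi1 i a * pi1 j a') := ⟨h1, h2, fun l u φ a b => (rank_mul_le_left _ _).trans ((ea.rb i).2.2 l u φ a b)⟩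
  obtain ⟨l, m⟩ := h i
  obtain rfl : l = i := by_contra fun c => by
    obtain ⟨b, hb⟩ := m a
    rw [cj_eq_iff.2 (e ▸ ((Commute.one_left _).add_left ((Commute.refl _).mul_left (cm_pi1 n.symm _ _))).eq)] at hb
    exact ea.not_sc (Cm.sc (i := i) (hb ▸ cm_pi1 c b))
  rcases rmul hk R e m with c | ⟨b, -, c⟩
  · refine ea.not_sc (sc_of_comm fun b => sub_eq_zero.1 (by_contra fun c' => (ea'.rb j).2.1 ((cm_pi1 n.symm _).eq_zero c' ?_)))
    rw [map_sub, map_mul, map_mul, sub_mul, mul_assoc, ← (cm_pi1 n.symm _ b).eq, ← mul_assoc, (c b).eq, mul_assoc, sub_self]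
  · exact (ea'.rb j).not_sc ((cm_pi1 n.symm _).sc_of ea.ne c)
theorem le_HHu [Nontrivial κ] [Finite F] (H : HU M) (hp : ¬ PatU M) (hq : (∃ l : F, l ≠ 0 ∧ star l * l ≠ 1) ∨ 4 ≤ Fintype.card κ) :
    M ≤ HH τ κ F := fun g m => by
  have hk := H.hk
  have := Fintype.ofFinite (skewAdjoint F)
  obtain ⟨ν, hν⟩ := H.uf.nm (-1) (by simp)
  have := avgg (T := HH τ κ F) (Λ := Multiplicative (skewAdjoint F)) (R := 𝒜) rh (fun g h w => by ext1; simp [rh_apply, cj_mul]) (δ := Phi)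
    (fun g h => LinearMap.ext (phi_cj h)) (fun g h => h) (fun g _ h => h) (fun l Θ n iv => ?_) m
  · intro j
    obtain ⟨r, s, t, rs, rt, st⟩ := Fintype.two_lt_card_iff.1 hk
    have e0 : Pi.single r 1 + ν • Pi.single s 1 ≠ (0 : κ → F) := fun h => by simpa [rs] using congrFun h r
    have R := (RK.rb ⟨_, Pi.single t 1, e0, by simp, by simp [rt.symm, st.symm], rfl⟩ j).cj g
    have N : NN (cj g (pi1 j (vecMulVec (Pi.single r 1 + ν • Pi.single s 1) (Pi.single t 1)))) := by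
      rw [add_vecMulVec, smul_vecMulVec, ← single_eq_single_vecMulVec_single, ← single_eq_single_vecMulVec_single, map_add, map_smul, ← phi_single rt,
        ← phi_single st, ← map_smul, ← map_add, ← cj_inv_cj g (_ + _), ← rh_apply, this]
      exact nn_phi _
    obtain ⟨i, _, ⟨v, χ, -, -, -, rfl⟩, e⟩ := R.std fun i => (N i).elim fun _ => radd hk R
    exact ⟨i, n1u H hp hq m e0 (by simp [rs, rs.symm, mul_comm ν, hν]) (by simp) e⟩
  obtain ⟨Y, d, a, c, b, n⟩ := GG_ex n l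
  have k1 : ∀ d' a' c' b', GG l Y d a c b (Pi.single d' 1) (Pi.single a' 1) (Pi.single c' 1) (Pi.single b' 1) Θ ≠ 0 → c' = a' ∧ d' = b' ∨ c' = b' ∧ d' = a' :=
    fun d' a' c' b' n => comb H.uf hk hq fun μ h1 h2 => by
      let D : GL κ F := ⟨diagonal μ, diagonal (star μ), by simp [mul_comm (μ _), h1], by simp [h1]⟩
      have := congrArg (GG l Y d a c b (Pi.single d' 1) (Pi.single a' 1) (Pi.single c' 1) (Pi.single b' 1))
        (iv D (H.h0 _ _ (by simp [Un, D, h1]) (by simpa [D])))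
      have e1 : ∀ x, Pi.single x 1 ᵥ* D.1 = μ x • Pi.single x 1 := fun x => by simp [D, ← Pi.single_smul]
      have e2 : ∀ x, (D⁻¹).1 *ᵥ Pi.single x 1 = star (μ x) • Pi.single x 1 := fun x => by simp [D, ← Pi.single_smul]
      rw [GG_rh, e1, e1, e2, e2] at this
      simp only [GG_apply, VV_smul, VV_smul', smul_mul_assoc, mul_smul_comm, map_smul, smul_smul] at this n
      have := smul_left_injective F n (this.trans (one_smul _ _).symm)
      linear_combination (μ a' * μ b') * this - μ c' * μ d' * (μ b' * star (μ b') * h1 a' + h1 b')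
  have k2 : ∀ δ γ u, GG l Y d a c b δ (Pi.single a 1) γ (Pi.single b 1) Θ ≠ 0 → u ≠ 0 → star u ⬝ᵥ u = 0 → δ ⬝ᵥ u = 0 → γ ⬝ᵥ u = 0 → u a = 0 →
      (u b = 0 ∨ ∃ l : F, l ≠ 0 ∧ star l * l ≠ 1) → ∃ f : (𝒜 →ₗ[F] 𝒜) →+ 𝒜, f Θ ≠ 0 ∧ ∃ θ : Multiplicative (skewAdjoint F) →* GL κ F, (∀ a, piU l (θ a) ∈ M) ∧
      (∀ a ≠ 1, ∀ g ∈ M, g * piU l (θ a) * g⁻¹ ∈ HH τ κ F → ∃ i, Mp g l i) ∧ ∀ w, ∑ a, f (rh (piU l (θ a)) w) = 0 := fun δ γ u n u0 hu h1 h2 h3 h4 => by
    have e0 : ∀ s t : F, s • vecMulVec u (star u) * t • vecMulVec u (star u) = 0 := fun s t => by simp [vecMulVec_mul_vecMulVec, hu]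
    refine ⟨GG l Y d a c b δ (Pi.single a 1) γ (Pi.single b 1), n, .mk' (fun s => tv (s.toAdd.1 • vecMulVec u (star u)) (e0 _ _)) fun s t => Units.ext (by
      simp [tv, mul_add, add_mul, add_smul, add_assoc, vecMulVec_mul_vecMulVec, hu]), fun s => H.h0 _ _ (un_tv (e0 _ _) (by simp)) (det_sq0 (e0 _ _)),
      fun s s1 g m e => seu H hp hq m (rs_of u0 hu (by simpa using s1) s.toAdd.2) e (by rw [← cj_val]; simp [piU_val, tv]), fun w => ?_⟩
    refine (Fintype.sum_equiv Multiplicative.toAdd _ (fun s => GG l Y d a c b δ (Pi.single a 1) γ (Pi.single b 1) w -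
      (s.1 * star (u b)) • GG l Y d a c b δ (Pi.single a 1) γ u w) fun s => ?_).trans ?_
    · simp only [GG_rh, MonoidHom.mk'_apply, tv, Units.inv_mk, vecMul_add, vecMul_smul, vecMul_vecMulVec, h1, h2, sub_mulVec, smul_mulVec, vecMulVec_mulVec,
        op_smul_eq_smul, dotProduct_single, Pi.star_apply, h3, one_mulVec, vecMul_one, star_zero, zero_mul, zero_smul, smul_zero, add_zero, sub_zero]
      simp [GG_apply, sub_eq_add_neg, ← neg_smul, VV_add, VV_smul, mul_add, smul_smul]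
    rw [Finset.sum_sub_distrib, ← Finset.sum_smul, ← Finset.sum_mul, Finset.sum_const, Finset.card_univ, ← Nat.cast_smul_eq_nsmul F, (sum_skew H.uf).1]
    rcases h4 with h | h <;> simp [h, (sum_skew H.uf).2]
  by_cases c1 : a = b ∨ 4 ≤ Fintype.card κ
  · obtain ⟨u, u0, hu, h1, h2⟩ : ∃ u : κ → F, u ≠ 0 ∧ star u ⬝ᵥ u = 0 ∧ u a = 0 ∧ u b = 0 := by
      rcases c1 with rfl | c1
      · obtain ⟨u, u0, hu, h⟩ := ex_iso H.uf ![Pi.single a 1] hk
        exact ⟨u, u0, hu, by simpa using h 0, by simpa using h 0⟩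
      · obtain ⟨u, u0, hu, h⟩ := ex_iso H.uf ![Pi.single a 1, Pi.single b 1] c1
        exact ⟨u, u0, hu, by simpa using h 0, by simpa using h 1⟩
    rcases k1 _ _ _ _ n with ⟨rfl, rfl⟩ | ⟨rfl, rfl⟩ <;> exact k2 _ _ u n u0 hu (by simpa) (by simpa) h1 (.inl h2)
  push Not at c1
  obtain ⟨r, hr⟩ := exn {a, b} (Finset.card_le_two.trans_lt hk)
  simp only [Finset.mem_insert, Finset.mem_singleton, not_or, ← ne_eq] at hr
  have u0 : Pi.single b 1 + ν • Pi.single r 1 ≠ (0 : κ → F) := fun h => by simpa [hr.2.symm] using congrFun h b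
  have hu : star (Pi.single b 1 + ν • Pi.single r 1 : κ → F) ⬝ᵥ (Pi.single b 1 + ν • Pi.single r 1) = 0 := by simp [hr.2, hr.2.symm, mul_comm ν, hν]
  have h3 : (Pi.single b 1 + ν • Pi.single r 1 : κ → F) a = 0 := by simp [c1.1, hr.1.symm]
  rcases k1 _ _ _ _ n with ⟨rfl, rfl⟩ | ⟨rfl, rfl⟩
  · refine k2 _ (Pi.single c 1) _ ?_ u0 hu hu (by rw [single_dotProduct, h3, mul_zero]) h3 (.inr (hq.resolve_right c1.2.not_ge))
    have := mt (k1 r c c d) (by simp [hr, c1])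
    simp only [GG_apply, not_not] at this n ⊢
    simpa [VV_add', VV_smul', add_mul, this] using n
  · refine k2 (Pi.single d 1) _ _ ?_ u0 hu (by rw [single_dotProduct, h3, mul_zero]) hu h3 (.inr (hq.resolve_right c1.2.not_ge))
    have := mt (k1 d d r c) (by simp [hr, c1])
    simp only [GG_apply, not_not] at this n ⊢
    simpa [VV_add', VV_smul', add_mul, mul_add, this] using n
end H09.Wr
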