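import Mathlib
import Cfsg.Agent.H09.WuG
import Cfsg.Agent.H10.AsU1
/-! Unitary tensor-wreath subgroups are maximal. -/
namespace H09.Wr
open Matrix H10 H10.As Module Cfsg.Geo Cfsg
variable {τ κ ι : Type} [Fintype τ] [DecidableEq τ] [Fintype κ] [DecidableEq κ] [Fintype ι] [DecidableEq ι] {F : Type*} [Field F]
theorem max_of {G K : Type*} [Group G] [Group K] (e : G ≃* K) {S T : Subgroup G} {S' T' : Subgroup K} (hS : ∀ g, g ∈ S ↔ e g ∈ S') (hT : ∀ g, g ∈ T ↔ e g ∈ T')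
    (h1 : ¬ S' ≤ T') (h2 : ∀ M, T' ⊓ S' ≤ M → M ≤ S' → S' ≤ M ∨ M ≤ T') : IsMaximalIn S (T ⊓ S) := by
  refine ⟨inf_le_right.lt_of_ne fun h => h1 fun g m => ?_, fun M a b => ?_⟩
  · obtain ⟨g, rfl⟩ := e.surjective g
    exact (hT g).1 (h.ge ((hS g).2 m)).1
  rcases h2 (M.map e.toMonoidHom) (fun g m => by
    obtain ⟨g, rfl⟩ := e.surjective g
    exact ⟨g, a ⟨(hT g).2 m.1, (hS g).2 m.2⟩, rfl⟩) (by rintro _ ⟨g, m, rfl⟩; exact (hS g).1 (b m)) with h | h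
  · refine .inr (b.antisymm fun g m => ?_)
    obtain ⟨g', m', e'⟩ := h ((hS g).1 m)
    exact e.injective e' ▸ m'
  · exact .inl (le_antisymm (fun g m => ⟨(hT g).2 (h ⟨g, m, rfl⟩), b m⟩) a)
theorem ptU_HH [Nontrivial κ] (d : τ → GL κ F) : ptU d ∈ HH τ κ F := fun i => ⟨i, fun a => ⟨_, cj_ptU d i a⟩⟩
theorem det_pl (e : ι ≃ κ) (P g : GL ι F) : det (pl e P g).1 = det g.1 := by
  simp [pl_val, pm, cj_apply, mul_right_comm _ (det g.1), GeneralLinearGroup.det_ne_zero P]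
section
variable [StarRing F]
variable (ι F) in
/-- the special unitary group -/
def SUg : Subgroup (GL ι F) where
  carrier := {g | Un g ∧ det g.1 = 1}
  one_mem' := ⟨by simp [Un], by simp⟩
  mul_mem' a b := ⟨a.1.mul b.1, by simp [a.2, b.2]⟩
  inv_mem' a := ⟨a.1.inv, by simp [a.2]⟩
theorem un_fp (π : Equiv.Perm τ) : Un (fp κ F π) := by
  have : (fp κ F π).1ᴴ = ((fp κ F π)⁻¹).1 := by ext x y; simp [fp, eq_comm (a := y), Equiv.eq_comp_symm, Equiv.Perm.inv_def, apply_ite star, eq_comm (a := x)]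
  rw [Un, this]; simp
theorem mainu [Finite F] [Nontrivial κ] {q : ℕ} (hq : Nat.card F = q ^ 2) (hs : ∀ a : F, star a = a ^ q) (hF : UF F) (hk : 3 ≤ Fintype.card κ)
    (h : (∃ l : F, l ≠ 0 ∧ star l * l ≠ 1) ∨ 4 ≤ Fintype.card κ) (M : Subgroup (GL (τ → κ) F)) (h1 : HH τ κ F ⊓ SUg _ F ≤ M) (h2 : M ≤ SUg _ F) :
    SUg _ F ≤ M ∨ M ≤ HH τ κ F := by
  have H : HU M := ⟨hF, hk, fun g m => (h2 m).1, fun i d a b => h1 ⟨fun j => ⟨j, mp_piU d j⟩, a.piU i, det_piU i b⟩⟩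
  by_cases hp : PatU M
  · exact .inl fun g m => su_le hq hs H (fun π e => h1 ⟨fun j => ⟨π j, fun a => ⟨a, cj_fp_pi1 π j a⟩⟩, un_fp π, e⟩) hp m.1 m.2
  · exact .inr (le_HHu H hp h)
theorem not_leu [Nontrivial κ] [Nontrivial τ] (hF : UF F) (hk : 3 ≤ Fintype.card κ) : ¬ SUg _ F ≤ HH τ κ F := fun h => by
  obtain ⟨i, j, n⟩ := exists_pair_ne τ
  obtain ⟨u, u0, hu, -⟩ := ex_iso hF (![] : Fin 0 → κ → F) (by omega)
  obtain ⟨s, s0, hs⟩ := hF.skew
  have c : ∀ a b, (pi1 j a : Matrix (τ → κ) (τ → κ) F) * pi1 i b = pi1 i b * pi1 j a := fun a b => (cm_pi1 n.symm _ _).eq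
  have h1 : pi1 i (s • vecMulVec u (star u)) * pi1 j (vecMulVec u (star u)) * (pi1 i (s • vecMulVec u (star u)) * pi1 j (vecMulVec u (star u))) = 0 := by
    rw [mul_assoc, ← mul_assoc (pi1 j _), c, ← mul_assoc, ← mul_assoc, ← map_mul]; simp [vecMulVec_mul_vecMulVec, hu]
  exact nl_gen hk (rs_of u0 hu s0 hs).rk ⟨u, _, u0, star_ne_zero.2 u0, hu, rfl⟩ n rfl (h (⟨un_tv h1 (by simp [pi1_star, hs, c]), det_sq0 h1⟩ : tv _ h1 ∈ SUg _ F))
end
theorem wreath_max_u [Fintype F] {n q : ℕ} (hF : Fintype.card F = q ^ 2) {k t : ℕ} (hk : 3 ≤ k) (ht : 2 ≤ t) (hex : ¬ (q = 2 ∧ k = 3))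
    {e : Fin n ≃ (Fin t → Fin k)} {P : GL (Fin n) F} {f₁} (hf₁ : IsUnitaryFormPow q f₁)
    (hT : IsTensorPowerFormStructure (fun x : F => x ^ q) (hermForm n F q) f₁ e P) :
    IsMaximalIn (GU n F q ⊓ specialLinear (Fin n) F) (tensorWreathSubgroup k t e P ⊓ (GU n F q ⊓ specialLinear (Fin n) F)) := by
  have : Nontrivial (Fin k) := Fin.nontrivial_iff_two_le.2 (by omega)
  have : Nontrivial (Fin t) := Fin.nontrivial_iff_two_le.2 ht
  have : NeZero t := ⟨by omega⟩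
  have hq : Nat.card F = q ^ 2 := by simpa
  let _ : StarRing F := { star := conj hq, star_involutive := conj_conj hq, star_mul a b := by simp [mul_comm], star_add := map_add _ }
  have hs : ∀ a : F, star a = a ^ q := fun _ => rfl
  have hU : UF F := ⟨exists_not_fixed hq, fun c h => by simpa [hs] using exists_norm_eq hq h⟩
  obtain ⟨A, hA⟩ := exists_orthonormal (sf_of_herm (conj_conj hq) hf₁.1 hf₁.2 hf₁.3 hf₁.4) (conj_ne_id hq)
  obtain ⟨c, c0, hc⟩ := hT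
  have k1 : ∀ x y, pf e (P * Geo.glReindex e.symm (ptU fun _ => A)) (hermForm n F q) x y = c * (star y ⬝ᵥ x) := fun x y => by
    rw [pf_eq, lq_mul, lq_mul]
    refine (hc _ _).trans (congrArg _ ((formOfGram_mulVec (σ := conj hq) (pt fun _ => gramMatrix f₁) _ _ x y).trans ?_))
    have : ((ptU fun _ : Fin t => A).1ᵀ * pt (fun _ => gramMatrix f₁) * (ptU fun _ : Fin t => A).1.map (conj hq)) = pt fun _ => A.1ᵀ * gramMatrix f₁ * A.1.map (conj hq) := by
      rw [← Pi.mul_def, ← Pi.mul_def, map_mul, map_mul]; congr 1; ext; simp [ptU_val, pt_apply]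
    rw [this, hA, one_smul, ← Pi.one_def, map_one, formOfGram_eq, one_mulVec, dotProduct_comm]; rfl
  refine max_of (pl e (P * Geo.glReindex e.symm (ptU fun _ => A))) (S' := SUg _ F) (T' := HH _ _ F) (fun g => and_congr ?_ ?_) (fun g => ?_) (not_leu hU (by simpa))
    (mainu hq hs hU (by simpa) ?_)
  · refine Iff.trans (b := Sim (hermForm n F q) g 1) (by simp [Sim]; rfl) ((sim_pl e (P * Geo.glReindex e.symm (ptU fun _ => A))).symm.trans ?_)
    simp only [Sim, k1, one_mul, mul_right_inj' c0, un_iff]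
    exact forall_comm
  · rw [det_pl]; exact mem_specialLinear
  · rw [mem_iff, pl_mul, mul_mem_cancel_right (ptU_HH _), mul_mem_cancel_left (inv_mem (ptU_HH _))]
  by_contra! h
  have := two_le_q hq
  have h3 : 3 ≤ q := by simp at h; omega
  obtain ⟨g, hg⟩ := IsCyclic.exists_ofOrder_eq_natCard (α := Fˣ)
  have h4 := orderOf_le_of_pow_eq_one (x := g) (n := q + 1) (by omega) (Units.ext (by simpa [hs, pow_succ] using h.1 g g.ne_zero))
  rw [hg, Nat.card_units, hq] at h4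
  have := Nat.mul_le_mul_left q h3
  rw [sq] at h4
  omega
end H09.Wr
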