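import Mathlib
import Cfsg.Agent.H09.WuH
/-! Symplectic tensor-wreath subgroups: patterns. -/
namespace H09.Wr
open Matrix H10.As Module
variable {τ κ ι : Type} [Fintype τ] [DecidableEq τ] [Fintype κ] [DecidableEq κ] [Fintype ι] [DecidableEq ι] {F : Type*} [Field F]
/-- adjoint -/
def ad (J : GL ι F) : Matrix ι ι F →ₗ[F] Matrix ι ι F := (cj J⁻¹).toLinearMap ∘ₗ (transposeLinearEquiv ι ι F F).toLinearMap
/-- isometries -/
def Is (J g : GL ι F) : Prop := ad J g.1 * g.1 = 1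
/-- the covector of a vector -/
def st (J : GL ι F) : (ι → F) →ₗ[F] ι → F := J.1.vecMulLinear
/-- alternating -/
def Al (J : GL ι F) : Prop := ∀ u, st J u ⬝ᵥ u = 0
section ad
variable {J g x : GL ι F} {u v w : ι → F} {a b : Matrix ι ι F}
theorem ad_apply (a) : ad J a = (J⁻¹).1 * aᵀ * J.1 := rfl
theorem ad_mul (a b) : ad J (a * b) = ad J b * ad J a := by simp [ad_apply, mul_assoc]
@[simp] theorem ad_one : ad J 1 = 1 := by simp [ad_apply]
theorem ad_ad {c : F} (c0 : c ≠ 0) (h : J.1ᵀ = c • J.1) (a) : ad J (ad J a) = a := by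
  have : (J⁻¹).1ᵀ = c⁻¹ • (J⁻¹).1 := by
    rw [eq_inv_smul_iff₀ c0, ← J.mul_right_inj, mul_smul_comm, ← smul_mul_assoc, ← h, ← transpose_mul]; simp
  simp [-coe_units_inv, ad_apply, h, this, mul_assoc, c0]
theorem Is.inv_val (h : Is J g) : (g⁻¹).1 = ad J g.1 := Units.inv_eq_of_mul_eq_one_left h
theorem Is.mul (h : Is J g) (h' : Is J x) : Is J (g * x) := by rw [Is, Units.val_mul, ad_mul, ← h.inv_val, ← h'.inv_val]; simp [mul_assoc]
theorem Is.inv (h : Is J g) : Is J g⁻¹ := by rw [Is]; nth_rw 2 [h.inv_val]; rw [← ad_mul]; simp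
theorem Is.cj_ad (h : Is J g) (X) : ad J (cj g X) = cj g (ad J X) := by
  rw [cj_apply, ad_mul, ad_mul, ← h.inv_val, ← h.inv.inv_val, inv_inv, cj_apply, mul_assoc]
theorem is_tv (h : a * a = 0) (e : ad J a = -a) : Is J (tv a h) := by simp [Is, tv, e, mul_add, add_mul, h]
theorem st_apply (u) : st J u = u ᵥ* J.1 := rfl
theorem st_surj (φ) : ∃ u, st J u = φ := ⟨φ ᵥ* (J⁻¹).1, by simp [st_apply]⟩
@[simp] theorem st_eq_zero : st J u = 0 ↔ u = 0 := ⟨fun h => by simpa [st_apply] using congrArg (· ᵥ* (J⁻¹).1) h, by simp +contextual⟩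
theorem Al.anti (h : Al J) (u v) : st J u ⬝ᵥ v = -(st J v ⬝ᵥ u) := by
  have := h (u + v)
  simp only [map_add, add_dotProduct, dotProduct_add, h u, h v] at this
  linear_combination this
theorem Al.z (h : Al J) (e : st J u ⬝ᵥ v = 0) : st J v ⬝ᵥ u = 0 := by rw [h.anti, e, neg_zero]
theorem Al.tr (h : Al J) : J.1ᵀ = (-1 : F) • J.1 := by ext i j; simpa [st_apply] using h.anti (Pi.single j 1) (Pi.single i 1)
theorem Al.ad_vv (h : Al J) (u v) : ad J (vecMulVec u (st J v)) = -vecMulVec v (st J u) := by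
  rw [ad_apply, transpose_vecMulVec, mul_vecMulVec, vecMulVec_mul, st_apply, ← mulVec_transpose, h.tr]; simp [smul_mulVec, neg_mulVec, mulVec_neg, st_apply]
theorem Is.st (h : Is J g) (u) : st J (g.1 *ᵥ u) = st J u ᵥ* (g⁻¹).1 := by
  rw [h.inv_val, ad_apply, st_apply, st_apply, ← vecMul_transpose]; simp [mul_assoc]
theorem Is.cj_vv (h : Is J g) (u v) : cj g (vecMulVec u (Wr.st J v)) = vecMulVec (g.1 *ᵥ u) (Wr.st J (g.1 *ᵥ v)) := by
  rw [cj_apply, mul_vecMulVec, vecMulVec_mul, h.st]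
theorem ex_st (u0 : u ≠ 0) : ∃ v, st J u ⬝ᵥ v = 1 := let ⟨v, e⟩ := ex1 ((st_eq_zero (J := J)).not.2 u0); ⟨v, by rwa [dotProduct_comm]⟩
theorem Al.ex2 (h : Al J) (e : u ∉ F ∙ v) : ∃ w, st J u ⬝ᵥ w = 1 ∧ st J v ⬝ᵥ w = 0 := by
  obtain ⟨φ, a, b⟩ := Wr.ex2 e
  obtain ⟨w, rfl⟩ := st_surj (J := J) φ
  exact ⟨-w, by simp [h.anti u, a], by simp [h.z b]⟩
theorem Al.tors (h : Al J) {l : F} (l0 : l ≠ 0) (e : st J u ⬝ᵥ v = 1) :
    ∃ d, Is J d ∧ d.1 = 1 + (1 - l) • vecMulVec u (st J v) + (l⁻¹ - 1) • vecMulVec v (st J u) := by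
  have : ∀ a : Matrix ι ι F, ad J a * a = 1 → ∃ d : GL ι F, Is J d ∧ d.1 = a := fun a h => ⟨⟨_, _, mul_eq_one_comm.1 h, h⟩, h, rfl⟩
  refine this _ ?_
  simp [mul_add, add_mul, vecMulVec_mul_vecMulVec, h.ad_vv, h u, h v, e, h.anti v u, smul_smul]
  match_scalars <;> field_simp <;> ring
/-- transvection type -/
def RE (J : GL ι F) (a : Matrix ι ι F) : Prop := ∃ (u : ι → F) (c : F), u ≠ 0 ∧ c ≠ 0 ∧ a = c • vecMulVec u (st J u)
/-- rank two type -/
def RD (J : GL ι F) (a : Matrix ι ι F) : Prop := ∃ u w, u ≠ 0 ∧ w ∉ F ∙ u ∧ st J u ⬝ᵥ w = 0 ∧ a = vecMulVec u (st J w) - vecMulVec w (st J u)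
/-- either type -/
def RT (J : GL ι F) (a : Matrix ι ι F) : Prop := RE J a ∨ RD J a
theorem RT.sq (hJ : Al J) (h : RT J a) : a * a = 0 := by
  obtain ⟨u, c, -, -, rfl⟩ | ⟨u, w, -, -, e, rfl⟩ := h <;> simp [mul_sub, sub_mul, vecMulVec_mul_vecMulVec, hJ u, *]
  simp [hJ w, hJ.z e]
theorem RT.smul (h : RT J a) {c : F} (c0 : c ≠ 0) : RT J (c • a) := by
  obtain ⟨u, d, a1, a2, rfl⟩ | ⟨u, w, a1, a2, e, rfl⟩ := h
  · exact .inl ⟨u, c * d, a1, mul_ne_zero c0 a2, smul_smul ..⟩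
  · exact .inr ⟨u, c • w, a1, by rwa [Submodule.smul_mem_iff _ c0], by simp [e], by simp [smul_sub]⟩
theorem Al.tv (h : Al J) (u) (s : F) : ∃ d, Is J d ∧ d.1 = 1 + s • vecMulVec u (st J u) ∧ (d⁻¹).1 = 1 - s • vecMulVec u (st J u) :=
  ⟨Wr.tv _ (by simp [vecMulVec_mul_vecMulVec, h u]), is_tv _ (by simp [h.ad_vv]), rfl, rfl⟩
end ad

local notation "𝒜" => Matrix (τ → κ) (τ → κ) F
variable {i j l : τ} {β γ X Y : Matrix (τ → κ) (τ → κ) F} {g : GL (τ → κ) F} {u v w φ ψ : κ → F} {a b : Matrix κ κ F} {J : GL κ F}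
  {M : Subgroup (GL (τ → κ) F)} {L : AddSubgroup (Matrix (τ → κ) (τ → κ) F)} {K : Finset τ} {A : τ → Matrix κ κ F} {c : F}
/-- the tensor power of a form -/
def JW (J : GL κ F) : GL (τ → κ) F := ptU fun _ => J
theorem ad_pt (A : τ → Matrix κ κ F) : ad (JW J) (pt A) = pt fun l => ad J (A l) := by
  change pt (fun _ => (J⁻¹).1) * pt (fun l => (A l)ᵀ) * pt (fun _ => J.1) = _
  rw [← map_mul, ← map_mul]; rfl
theorem ad_pi1 (a : Matrix κ κ F) : ad (JW J) (pi1 i a) = pi1 i (ad J a) := by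
  rw [pi1_apply, ad_pt, pi1_apply]; congr 1; funext l; by_cases e : l = i <;> simp [e]
theorem Al.ad_VV (h : Al J) (u v : κ → F) : ad (JW J) (VV i u (st J v)) = -VV i v (st J u) := by simp [VV, ad_pi1, h.ad_vv]
theorem Al.adad (h : Al J) (X : 𝒜) : ad (JW J) (ad (JW J) X) = X := ad_ad (c := ∏ _ : τ, -1) (by simp) (by
  rw [JW, ptU_val, ← pt_smul, ← h.tr]; rfl) X
theorem Cm.ad (hJ : Al J) (h : Cm i β) : Cm i (ad (JW J) β) := fun a => show _ = _ by
  simpa [ad_mul, ad_pi1, ad_ad (by simp) hJ.tr] using congrArg (Wr.ad (JW J)) (h (Wr.ad J a)).eq.symm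
theorem Is.piU {d : GL κ F} (h : Is J d) (i : τ) : Is (JW J) (piU i d) := by rw [Is, piU_val, ad_pi1, ← map_mul, h, map_one]
theorem vv_add (u v φ : κ → F) : (VV i (u + v) φ : 𝒜) = VV i u φ + VV i v φ := by simp [VV, add_vecMulVec]
theorem vv_add' (u φ ψ : κ → F) : (VV i u (φ + ψ) : 𝒜) = VV i u φ + VV i u ψ := by simp [VV, vecMulVec_add]
theorem vv_smul (c : F) (u φ : κ → F) : (VV i (c • u) φ : 𝒜) = c • VV i u φ := by simp [VV]
theorem vv_smul' (c : F) (u φ : κ → F) : (VV i u (c • φ) : 𝒜) = c • VV i u φ := by simp [VV]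
theorem vv_neg' (u φ : κ → F) : (VV i u (-φ) : 𝒜) = -VV i u φ := by simp [VV]
theorem en_add (φ u v : κ → F) (β : 𝒜) : ent i φ (u + v) β = ent i φ u β + ent i φ v β := by simp [ent, vv_add, mul_add, Finset.sum_add_distrib]
theorem en_add' (φ ψ u : κ → F) (β : 𝒜) : ent i (φ + ψ) u β = ent i φ u β + ent i ψ u β := by simp [ent, vv_add', add_mul, Finset.sum_add_distrib]
theorem en_smul (c : F) (φ u : κ → F) (β : 𝒜) : ent i φ (c • u) β = c • ent i φ u β := by simp [ent, vv_smul, Finset.smul_sum]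
theorem en_smul' (c : F) (φ u : κ → F) (β : 𝒜) : ent i (c • φ) u β = c • ent i φ u β := by simp [ent, vv_smul', Finset.smul_sum]
theorem cm_of_ent (h : ∀ φ u, φ ⬝ᵥ u = 0 → ent l φ u β = 0) : Cm l β := by
  have h1 : ∀ r s, r ≠ s → ent l (Pi.single r 1) (Pi.single s 1) β = 0 := fun r s e => h _ _ (by simp [e])
  cases isEmpty_or_nonempty κ
  · exact fun a => by simp [Subsingleton.elim a 0]
  obtain ⟨o⟩ : Nonempty κ := inferInstance
  have h2 : ∀ s, ent l (Pi.single s 1) (Pi.single s 1) β = ent l (Pi.single o 1) (Pi.single o 1) β := fun s => by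
    by_cases e : o = s
    · rw [e]
    have := h (Pi.single s 1 + (-1 : F) • Pi.single o 1) (Pi.single s 1 + Pi.single o 1) (by simp [e, Ne.symm e])
    simp only [en_add, en_add', en_smul', h1 _ _ e, h1 _ _ (Ne.symm e)] at this
    linear_combination (norm := module) this
  rw [eq_sum_ent l β, Finset.sum_congr rfl fun r _ => Finset.sum_eq_single r (fun s _ e => by rw [h1 r s e.symm, mul_zero]) (by simp)]
  simp only [h2, ← Finset.sum_mul, sum_VV, one_mul, cm_ent]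
variable (J M) in
/-- overgroups inside the isometry group -/
structure HS : Prop where
  al : Al J
  h2 : (2 : F) ≠ 0
  iso : ∀ g ∈ M, Is (JW J) g
  h0 : ∀ i d, Is J d → piU i d ∈ M
theorem HS.u1 (H : HS J M) (h : a * a = 0) (e : ad J a = -a) (i : τ) : U1 M (pi1 i a) := ⟨_, H.h0 i _ (is_tv h e), by simp [piU_val, tv]⟩
theorem HS.uE (H : HS J M) (i : τ) (u) (c : F) : U1 M (c • VV i u (st J u)) := by
  simpa [VV] using H.u1 (a := c • vecMulVec u (st J u)) (by simp [vecMulVec_mul_vecMulVec, H.al u]) (by simp [H.al.ad_vv]) i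
theorem HS.uH (H : HS J M) (i : τ) (e : st J u ⬝ᵥ w = 0) (c : F) : U1 M (c • (VV i u (st J w) + VV i w (st J u))) := by
  simpa [VV] using H.u1 (a := c • (vecMulVec u (st J w) + vecMulVec w (st J u)))
    (by simp [mul_add, add_mul, vecMulVec_mul_vecMulVec, H.al u, H.al w, e, H.al.z e]) (by simp [H.al.ad_vv, add_comm]) i
theorem HS.ad (H : HS J M) (h : U1 M X) : ad (JW J) X = -X - ad (JW J) X * X := by
  obtain ⟨x, m, e⟩ := h
  have := H.iso x m
  rw [Is, e] at this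
  simp only [map_add, ad_one, mul_add, add_mul, mul_one, one_mul] at this
  rw [← sub_eq_zero, ← sub_eq_zero.2 this]; abel
section A
variable (hJ : Al J) (hL : ∀ d, Is J d → ∀ β ∈ L, cj (piU l d) β ∈ L) (hβ : β ∈ L)
include hJ hL hβ
theorem la0s (u) (s : F) : s • (VV l u (st J u) * β - β * VV l u (st J u)) - (s * s) • (VV l u (st J u) * β * VV l u (st J u)) ∈ L := by
  obtain ⟨d, d1, d2, d3⟩ := hJ.tv u s
  convert sub_mem (hL d d1 β hβ) hβ using 1
  simp only [cj_apply, ← map_inv, piU_val, d2, d3, map_add, map_sub, map_one, map_smul, ← VV.eq_1, mul_sub, add_mul, mul_one, one_mul, smul_mul_assoc,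
    mul_smul_comm]
  module
theorem la1s (u) : (2 : F) • VV l u (st J u) * ent l (st J u) u β ∈ L := by
  convert neg_mem (add_mem (la0s hJ hL hβ u 1) (la0s hJ hL hβ u (-1))) using 1
  rw [smul_mul_assoc, VV_ent]; module
theorem la3s (h2 : (2 : F) ≠ 0) (h : ¬ Cm l β) : ∃ a γ, RT J a ∧ γ ≠ 0 ∧ Cm l γ ∧ (∀ j, l ≠ j → Cm j β → Cm j γ) ∧ pi1 l a * γ ∈ L := by
  by_contra! H
  have h0 : ∀ u, ent l (st J u) u β = 0 := fun u => by_contra fun n =>
    H _ _ (.inl ⟨u, 2, by rintro rfl; simp [ent, VV] at n, h2, rfl⟩) n (cm_ent _ _ _) (fun j e c => c.ent e _ _) (by rw [map_smul]; exact la1s hJ hL hβ u)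
  refine h (cm_of_ent fun φ w e => by_contra fun n => ?_)
  obtain ⟨u, rfl⟩ := st_surj (J := J) φ
  refine H _ _ (.inr ⟨u, w, by rintro rfl; simp [ent, VV] at n, fun m => ?_, e, rfl⟩) n (cm_ent _ _ _) (fun j e c => c.ent e _ _) ?_
  · obtain ⟨c, rfl⟩ := Submodule.mem_span_singleton.1 m
    simp [en_smul, h0] at n
  have h1 : ent l (st J w) u β = -ent l (st J u) w β := by
    have := h0 (u + w)
    simp only [map_add, en_add, en_add', h0] at this
    linear_combination (norm := module) this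
  have h3 : ∀ a b, VV l a (st J u) * (β * VV l u b) = 0 := fun a b => by rw [← mul_assoc, ← VV_ent, h0, mul_zero]
  convert neg_mem (la0s hJ hL (la0s hJ hL hβ u 1) w 1) using 1
  have h4 := VV_ent (i := l) w (st J u) (st J w) u β
  rw [h1, mul_neg] at h4
  simp only [map_sub, ← VV.eq_1, sub_mul, mul_sub, VV_ent, neg_eq_iff_eq_neg.1 h4, mul_assoc, h3, VV_mul, VV_mul', e, hJ.z e, one_smul, zero_smul,
    mul_zero, mul_one, zero_mul]
  abel
end A
variable (J) in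
/-- patterns -/
def PT (K : Finset τ) (A : τ → Matrix κ κ F) : Prop := (∀ l ∈ K, RT J (A l)) ∧ ∀ l ∉ K, A l = 1
variable (J M) in
/-- existence of a proper pattern -/
def PatS : Prop := ∃ K A, 2 ≤ K.card ∧ PT J K A ∧ U1 M (pt A)
theorem comm_pt (h : ∀ l ∉ K, A l = 1) (e : ∀ l ∈ K, Cm l β) : Commute β (pt A) :=
  pt_mem (S := Submonoid.centralizer {β}) (fun i => Submonoid.mem_centralizer_iff.2 (by
    by_cases c : i ∈ K
    · simpa using (e i c _).eq
    · simp [h i c])) β rfl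
/-- the group of partners of a pattern -/
def LS (h : ∀ l ∉ K, A l = 1) (ho : A i * A i = 0) (M : Subgroup (GL (τ → κ) F)) : AddSubgroup 𝒜 :=
  have z : ∀ δ δ', (∀ j ∈ K, Cm j δ) → pt A * δ * (pt A * δ') = 0 := fun δ δ' c => by
    rw [mul_assoc, ← mul_assoc δ, (comm_pt h c).eq, ← mul_assoc, ← mul_assoc, ← map_mul, pt_zero (l := i) ho, zero_mul, zero_mul]
  .ofSub {δ | (∀ j ∈ K, Cm j δ) ∧ U1 M (pt A * δ)} ⟨0, fun _ _ _ => .zero_left _, 1, one_mem _, by simp⟩ fun x m y m' =>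
    ⟨fun j e => by simpa [← sub_eq_add_neg] using (m.1 j e).sub (m'.1 j e), by
      simpa [← sub_eq_add_neg, mul_sub] using m.2.sub m'.2 (z _ _ m.1) (z _ _ m'.1)⟩
theorem LS_cj [Nonempty κ] {h : ∀ l ∉ K, A l = 1} {ho : A i * A i = 0} (hl : l ∉ K) {d} (m : piU l d ∈ M) : ∀ β ∈ LS h ho M, cj (piU l d) β ∈ LS h ho M :=
  fun β e => ⟨fun j m' => (mp_piU _ j).cm (e.1 j m'), by
    have := e.2.cj m
    rwa [map_mul (cj _), (cm_pt (h l hl)).cj_piU] at this⟩
theorem PT.insert (h : PT J K A) (e : RT J a) : PT J (insert l K) (Function.update A l a) :=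
  ⟨fun j m => by by_cases c : j = l <;> simp_all [h.1], fun j m => by by_cases c : j = l <;> simp_all [h.2]⟩
theorem grows [Nonempty κ] (H : HS J M) (n : ℕ) : ∀ {K : Finset τ} {A γ}, Fintype.card τ - K.card = n → K.Nonempty → PT J K A → (∀ l ∈ K, Cm l γ) →
    U1 M (pt A * γ) → Sc γ ∨ PatS J M := by
  induction n using Nat.strong_induction_on with
  | _ n ih =>
  rintro K A γ rfl ⟨o, ho⟩ h1 h2 h3
  refine or_iff_not_imp_left.2 fun h => ?_
  obtain ⟨l, h⟩ : ∃ l, ¬ Cm l γ := not_forall.1 (mt sc_of_cm h)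
  have hl : l ∉ K := fun m => h (h2 l m)
  obtain ⟨a, δ, a1, a2, a3, a4, -, a5⟩ := la3s H.al (l := l) (L := LS h1.2 ((h1.1 o ho).sq H.al) M) (fun d e => LS_cj hl (H.h0 l d e)) ⟨h2, h3⟩ H.h2 h
  rw [← mul_assoc, pt_mul_pi1 _ (h1.2 l hl)] at a5
  have := Finset.card_le_univ (insert l K)
  have := Finset.card_pos.2 ⟨o, ho⟩
  refine (ih _ (by simp [hl] at *; omega) rfl (by simp) (h1.insert a1) (fun j m => ?_) a5).elim ?_ id
  · rcases Finset.mem_insert.1 m with rfl | m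
    exacts [a3, a4 j (by rintro rfl; exact hl m) (h2 j m)]
  rintro ⟨c, rfl⟩
  refine ⟨_, _, by rw [Finset.card_insert_of_notMem hl]; omega, h1.insert (l := l) (a1.smul (c := c) (by rintro rfl; simp at a2)), ?_⟩
  rwa [← pt_mul_pi1 _ (h1.2 l hl), map_smul, mul_smul_comm, pt_mul_pi1 _ (h1.2 l hl), ← mul_one (pt _), ← mul_smul_comm]
theorem f1s [Nonempty κ] (H : HS J M) (hp : ¬ PatS J M) (e : RT J a) (h : Cm i γ) (h' : U1 M (pi1 i a * γ)) : Sc γ :=
  (grows H _ (K := {i}) (A := Pi.mulSingle i a) rfl (by simp) ⟨by simpa, fun l m => by simp_all⟩ (by simpa) h').resolve_right hp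
end H09.Wr
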