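import Mathlib
import Cfsg.Agent.H09.WsA
/-! Symplectic tensor-wreath subgroups: elements carrying a slice to a slice. -/
namespace H09.Wr
open Matrix H10.As Module
variable {τ κ ι : Type} [Fintype τ] [DecidableEq τ] [Fintype κ] [DecidableEq κ] [Fintype ι] [DecidableEq ι] {F : Type*} [Field F]
local notation "𝒜" => Matrix (τ → κ) (τ → κ) F
variable {i j l : τ} {β γ X Y e₁ e₂ : Matrix (τ → κ) (τ → κ) F} {g : GL (τ → κ) F} {u v w v0 φ ψ χ a : κ → F} {J : GL κ F}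
  {M : Subgroup (GL (τ → κ) F)} {c : F}
theorem Cm.vv (h : Cm i β) (a b : κ → F) : β * VV i a b = VV i a b * β := (h _).eq
theorem Cm.vv' (h : Cm i β) (a b : κ → F) (Z : 𝒜) : β * (VV i a b * Z) = VV i a b * (β * Z) := by rw [← mul_assoc, h.vv, mul_assoc]
theorem Cm.smul (h : Cm i β) (c : F) : Cm i (c • β) := fun a => (h a).smul_left c
theorem U1.cm2 {N : Subgroup (GL ι F)} {X Y : Matrix ι ι F} (h : U1 N X) (h' : U1 N Y) (e : X * X = 0) (e' : Y * Y = 0) (e1 : X * (Y * X) = 0)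
    (e2 : Y * (X * Y) = 0) : U1 N (X * Y - Y * X) := letI : StarRing F := starRingOfComm; h.comm2 h' e e' e1 e2
theorem re_vv (v0 : v ≠ 0) : RT J (vecMulVec v (st J v)) := .inl ⟨v, 1, v0, one_ne_zero, by simp⟩
theorem dim2 (hJ : Al J) (hk : Fintype.card κ = 2) (e : st J u ⬝ᵥ v = 1) : vecMulVec v (st J u) - vecMulVec u (st J v) = 1 := by
  have := (mul_eq_one_comm_of_equiv (Fintype.equivFinOfCardEq hk).symm (A := of ![-st J v, st J u]) (B := (of ![u, v])ᵀ)).1 (by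
    ext i j; fin_cases i <;> fin_cases j <;> simp [mul_apply, ← dotProduct.eq_1, hJ u, hJ v, e, hJ.anti v u])
  rw [← this]; ext; simp [mul_apply, vecMulVec_apply]; ring
variable [Nonempty κ] (H : HS J M) (hp : ¬ PatS J M)
include H hp
theorem f0s (v0' : v ≠ 0) (e : st J v ⬝ᵥ v0 = 1) (hX : U1 M X) (h : X = X * VV i v0 (st J v)) : ∃ c : F, X = c • VV i v (st J v) := by
  have h1 : X * (1 - VV i v0 (st J v)) = 0 := by rw [mul_sub, ← h]; simp
  have h2 : ad (JW J) X * (1 - VV i v0 (st J v)) = 0 := by rw [H.ad hX, sub_mul, neg_mul, mul_assoc, h1]; simp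
  have h3 : X = VV i v (-st J v0) * X := by
    simpa [ad_mul, H.al.adad, H.al.ad_VV, add_mul, vv_neg', add_eq_zero_iff_eq_neg] using congrArg (ad (JW J)) h2
  have h4 : X = VV i v (st J v) * ent i (-st J v0) v0 X := by rw [VV_ent, ← h3, ← h]
  obtain ⟨c, hc⟩ := f1s H hp (re_vv v0') (cm_ent _ _ _) (h4 ▸ hX)
  exact ⟨c, by rw [h4, hc]; simp⟩
theorem zl (v0' : v ≠ 0) (ha : st J v ⬝ᵥ a = 0) (n : a ∉ F ∙ v) (c1 : Cm i e₁) (c2 : Cm i e₂) (c3 : Cm i γ) (hs : Sc (e₁ + e₂))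
    (h : U1 M (VV i a (st J v) * e₁ + VV i v (st J a) * e₂ + VV i v (st J v) * γ)) : Sc e₁ := by
  obtain ⟨v0, e, e'⟩ := H.al.ex2 (nsym n v0')
  obtain ⟨d, d1, d2⟩ := H.al.tors (l := -1) (by simp) e
  have z := H.al.z ha
  have k1 : cj (piU i d) (VV i a (st J v) * e₁ + VV i v (st J a) * e₂ + VV i v (st J v) * γ) =
      -(VV i a (st J v) * e₁ + VV i v (st J a) * e₂ - VV i v (st J v) * γ) := by
    have a1 : d.1 *ᵥ a = a := by simp [d2, add_mulVec, smul_mulVec, vecMulVec_mulVec, ha, H.al.z e']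
    have a2 : d.1 *ᵥ v = (-1 : F) • v := by
      simp only [d2, add_mulVec, smul_mulVec, vecMulVec_mulVec, H.al v, H.al.anti v0 v, e, one_mulVec, op_smul_eq_smul]; module
    simp only [map_add, map_mul, VV, cj_piU, c1.cj_piU, c2.cj_piU, c3.cj_piU, d1.cj_vv, a1, a2, map_smul, smul_vecMulVec, vecMulVec_smul, smul_mul_assoc]
    module
  obtain ⟨x, m, ex⟩ := id h
  obtain ⟨y, m', ey⟩ := h.cj (H.h0 i d d1)
  obtain ⟨c, hc⟩ := f1s H hp (re_vv v0') (c3.smul 2) (i := i) ⟨x * y, mul_mem m m', by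
    rw [Units.val_mul, ex, ey, k1, ← VV]
    simp only [mul_add, add_mul, mul_neg, mul_sub, mul_assoc, c1.vv', c2.vv', c3.vv', VV_mul', ha, z, H.al v, H.al a, zero_smul, one_mul, mul_one, mul_smul_comm]
    module⟩
  obtain ⟨s, hs⟩ := hs
  have := (h.sub (H.uE i v (c / 2)) ?_ ?_).sub (H.uH i z (s / 2)) ?_ ?_
  · obtain ⟨r, hr⟩ := f1s H hp (i := i) (.inr ⟨v, a, v0', n, ha, rfl⟩) ((cm_sc ⟨s / 2, rfl⟩ i).sub c1) (by
      convert this using 1
      rw [eq_sub_of_add_eq' hs, (eq_inv_smul_iff₀ H.h2).2 hc]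
      simp only [map_sub, ← VV.eq_1, mul_sub, sub_mul, mul_smul_comm, mul_one]
      have := H.h2
      match_scalars <;> field_simp <;> ring)
    exact ⟨s / 2 - r, by rw [sub_smul, ← hr]; abel⟩
  all_goals simp [mul_add, add_mul, sub_mul, mul_assoc, c1.vv, c2.vv, c3.vv, VV_mul, VV_mul', ha, z, H.al v, H.al a]
theorem f2s (v0' : v ≠ 0) (χ0 : χ ≠ 0) (hX : U1 M X) (hX2 : X * X = 0) {Y1 Y2} (h1 : X = VV i v χ * Y1 + Y2 * ad (JW J) (VV i v χ))
    (h2 : X * VV i v χ = 0) : ∃ r, ∃ c : F, st J v ⬝ᵥ r = 0 ∧ X = VV i v (st J r) + VV i r (st J v) + c • VV i v (st J v) := by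
  obtain ⟨v0, e⟩ := ex_st (J := J) v0'
  obtain ⟨z, hz⟩ := ex1 χ0
  obtain ⟨χ, rfl⟩ := st_surj (J := J) χ
  have e' : -st J v0 ⬝ᵥ v = 1 := by rw [neg_dotProduct, ← H.al.anti, e]
  have hX3 : ad (JW J) X = -X := by
    have : ad (JW J) X * X = 0 := by rw [H.ad hX, sub_mul, mul_assoc, neg_mul, hX2]; simp
    rw [H.ad hX, this, sub_zero]
  have k1 : ∀ ξ, X * VV i v ξ = 0 := fun ξ => by simpa [mul_assoc, VV_mul, dotProduct_comm _ z, hz] using congrArg (· * VV i z ξ) h2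
  have k2 : ∀ b, VV i b (st J v) * X = 0 := fun b => by simpa [ad_mul, hX3, H.al.ad_VV] using congrArg (ad (JW J)) (k1 (st J b))
  have k3 : ∀ a ξ, st J v ⬝ᵥ a = 0 → X * VV i a ξ = VV i v ξ * ent i (-st J v0) a X := fun a ξ h => by
    have : X * VV i a ξ = VV i v (st J χ) * (Y1 * VV i a ξ) := by rw [h1]; simp [add_mul, mul_assoc, H.al.ad_VV, VV_mul, h]
    rw [VV_ent, mul_assoc, this, VV_mul', e', one_smul]
  have k4 : ∀ a b, st J v ⬝ᵥ a = 0 → VV i b (st J a) * X = -(VV i b (st J v) * ad (JW J) (ent i (-st J v0) a X)) := fun a b h => by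
    simpa [ad_mul, hX3, H.al.ad_VV, ((cm_ent _ _ _).ad H.al).vv] using congrArg (ad (JW J)) (k3 a (st J b) h)
  obtain ⟨ρ, hρ⟩ := dec (X := X) (i := i) (v := v) e fun a h => by
    suffices Sc (ent i (-st J v0) a X) from let ⟨r, hr⟩ := this; ⟨r, fun ξ => by simp [k3 _ _ h, hr]⟩
    by_cases n : a ∈ F ∙ v
    · obtain ⟨c, rfl⟩ := Submodule.mem_span_singleton.1 n
      exact ⟨0, by simp [ent, vv_smul, mul_assoc, k1]⟩
    have c1 : Cm i (ent i (-st J v0) a X) := cm_ent _ _ _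
    have c2 := c1.ad H.al
    have k3 := fun ξ => k3 a ξ h
    have k4 := fun b => k4 a b h
    generalize ent i (-st J v0) a X = ε at c1 c2 k3 k4
    have z := H.al.z h
    have k5 : Sc (ε + ad (JW J) ε) := f1s H hp (re_vv v0') (c1.add c2) (by
      have a1 : X * (1 : F) • (VV i v (st J a) + VV i a (st J v)) = VV i v (st J v) * ε := by simp [mul_add, k1, k3]
      have a2 : (1 : F) • (VV i v (st J a) + VV i a (st J v)) * X = -(VV i v (st J v) * ad (JW J) ε) := by simp [add_mul, k2, k4]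
      convert hX.cm2 (H.uH i h 1) hX2 (by simp [mul_add, add_mul, VV_mul, h, z, H.al v, H.al a]) (by rw [a2, mul_neg, ← mul_assoc, k1]; simp)
        (by rw [a1]; simp [add_mul, VV_mul', z, H.al v]) using 1
      rw [a1, a2, ← VV, mul_add, sub_neg_eq_add])
    obtain ⟨d, d1, d2, d3⟩ := H.al.tv a 1
    obtain ⟨c, hc⟩ := zl H hp v0' h n (c2.smul (-1)) (c1.smul (-1)) ((c1.mul c2).smul (-1)) (let ⟨s, hs⟩ := k5; ⟨-s, by rw [neg_smul s, ← hs]; module⟩) (by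
      obtain ⟨x, m, ex⟩ := hX.cj (H.h0 i d d1)
      refine ⟨x * (tv X hX2)⁻¹, mul_mem m (inv_mem (hX.tv hX2)), ?_⟩
      have a1 : cj (piU i d) X = X - VV i a (st J v) * ad (JW J) ε - VV i v (st J a) * ε := by
        simp only [cj_apply, ← map_inv, piU_val, d2, d3, map_add, map_sub, map_one, one_smul, ← VV.eq_1, mul_sub, add_mul, one_mul, mul_one, mul_assoc, k3, k4,
          VV_mul', z, zero_smul, neg_mul, c2.vv, h, neg_zero]
        abel
      have a2 : VV i a (st J v) * ad (JW J) ε * X = 0 := by rw [← c2.vv, mul_assoc, k2, mul_zero]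
      have a3 : VV i v (st J a) * ε * X = -(VV i v (st J v) * (ε * ad (JW J) ε)) := by rw [← c1.vv, mul_assoc, k4, mul_neg, c1.vv']
      simp only [Units.val_mul, ex, a1, tv, Units.inv_mk, mul_sub, add_mul, sub_mul, a2, a3, hX2, mul_one, one_mul, mul_smul_comm]
      module)
    exact let ⟨s, hs⟩ := k5; ⟨s + c, by rw [add_smul, ← hs, ← hc]; module⟩
  have k6 : ρ ⬝ᵥ v = 0 := by
    have := congrArg (· * VV i v (st J χ)) hρ
    simpa [k1, add_mul, mul_assoc, VV_mul, H.al v, VV_ne v0' χ0] using this.symm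
  obtain ⟨r, rfl⟩ := st_surj (J := J) ρ
  obtain ⟨c', h4⟩ := f0s H hp v0' e (i := i) (hX.sub (H.uH i (H.al.z k6) 1) (by
    rw [one_smul, mul_add, k1, hρ]; simp [add_mul, mul_assoc, VV_mul, H.al.z k6, H.al r]) (by
    simp [mul_add, add_mul, VV_mul, k6, H.al.z k6, H.al v, H.al r])) (by rw [hρ]; simp [sub_mul, add_mul, mul_assoc, VV_mul, e])
  exact ⟨r, c', H.al.z k6, by rw [← h4]; simp⟩
omit hp in
theorem krs (m : g ∈ M) (φ0 : φ ≠ 0) (e : cj g (VV j u φ) = VV i v χ) (h : st J v ⬝ᵥ v0 = 1) (b) :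
    cj g (VV j b (st J u)) = cj g (VV j b (st J u)) * VV i v0 (st J v) := by
  have := congrArg (ad (JW J)) (kl φ0 e (ψ := st J (-v0)) (by simp [H.al.anti v0, h]) (st J b))
  simpa [-map_neg, ad_mul, (H.iso g m).cj_ad, H.al.ad_VV, map_neg (cj g), VV, neg_vecMulVec, ad_pi1, H.al.ad_vv, map_neg (pi1 _)] using this
omit [Nonempty κ] H hp in
theorem ne_of_cj (u0 : u ≠ 0) (φ0 : φ ≠ 0) (e : cj g (VV j u φ) = VV i v χ) : v ≠ 0 ∧ χ ≠ 0 :=
  have n : (VV i v χ : 𝒜) ≠ 0 := e ▸ by simpa using VV_ne u0 φ0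
  ⟨by rintro rfl; simp [VV] at n, by rintro rfl; simp [VV] at n⟩
theorem step0 (m : g ∈ M) (u0 : u ≠ 0) (φ0 : φ ≠ 0) (e : cj g (VV j u φ) = VV i v χ) : ∃ c : F, c ≠ 0 ∧ cj g (VV j u (st J u)) = c • VV i v (st J v) := by
  obtain ⟨v0', -⟩ := ne_of_cj u0 φ0 e
  obtain ⟨v0, e0⟩ := ex_st (J := J) v0'
  obtain ⟨c, hc⟩ := f0s H hp v0' e0 (by simpa using (H.uE j u 1).cj m) (krs H m φ0 e e0 u)
  exact ⟨c, by rintro rfl; simp [VV_ne, u0] at hc, hc⟩
theorem stepE (m : g ∈ M) (u0 : u ≠ 0) (φ0 : φ ≠ 0) (e : cj g (VV j u φ) = VV i v χ) (hw : st J u ⬝ᵥ w = 0) : vecMulVec w (st J w) ∈ SS j i g := by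
  obtain ⟨c, c0, hc⟩ := step0 H hp m u0 φ0 e
  by_cases n : w ∈ F ∙ u
  · obtain ⟨s, rfl⟩ := Submodule.mem_span_singleton.1 n
    exact ⟨(s * s * c) • vecMulVec v (st J v), by simp [← VV.eq_1, hc, smul_smul, mul_assoc]⟩
  obtain ⟨v0', χ0⟩ := ne_of_cj u0 φ0 e
  obtain ⟨v0, e0⟩ := ex_st (J := J) v0'
  obtain ⟨u', h3⟩ := ex_st (J := J) u0
  obtain ⟨z, hz⟩ := ex1 φ0
  rw [dotProduct_comm] at hz
  have hg := H.iso g m
  have hw' := H.al.z hw
  obtain ⟨φ, rfl⟩ := st_surj (J := J) φ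
  obtain ⟨r, s, h1, h2⟩ := f2s H hp v0' χ0 ((H.uH j hw 1).cj m) (by rw [← map_mul]; simp [mul_add, add_mul, VV_mul, hw, hw', H.al u, H.al w])
    (Y1 := cj g (VV j z (st J w))) (Y2 := cj g (VV j w (st J z))) (by
      rw [← e, hg.cj_ad, ← map_mul, ← map_mul, ← map_add]; simp [H.al.ad_VV, VV_mul, hz, H.al.anti z φ])
    (by rw [← e, ← map_mul]; simp [add_mul, VV_mul, hw', H.al u])
  rw [one_smul, map_add] at h2
  have e0' : -st J v0 ⬝ᵥ v = 1 := by rw [neg_dotProduct, ← H.al.anti, e0]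
  have k1 := kl φ0 e e0' (st J w)
  have k2 := krs H m φ0 e e0 w
  set X1 := cj g (VV j u (st J w))
  set X2 := cj g (VV j w (st J u))
  have n1 : r ∉ F ∙ v := fun m => by
    obtain ⟨t, rfl⟩ := Submodule.mem_span_singleton.1 m
    obtain ⟨w', a1, a2⟩ := H.al.ex2 n
    have : cj g (VV j u (st J w) + VV j w (st J u)) = cj g (((t + t + s) / c) • VV j u (st J u)) := by
      rw [map_add, h2, map_smul (cj g), hc]; simp only [map_smul, vv_smul, vv_smul']; match_scalars; field_simp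
    simpa [add_mul, VV_mul, a1, a2, VV_ne, u0] using congrArg (· * VV j w' (st J u)) ((cj g).injective this)
  obtain ⟨γ1, c1, k3⟩ : ∃ γ, Cm i γ ∧ X1 = VV i v (st J r) + VV i v (st J v) * γ := ⟨ent i (-st J v0) v0 X1 - (st J r ⬝ᵥ v0) • 1,
    (cm_ent _ _ _).sub (cm_sc ⟨_, rfl⟩ i), by
      have := congrArg (· * VV i v0 (st J v)) h2
      simp only [add_mul, ← k2, VV_mul, e0, smul_mul_assoc, one_smul] at this
      rw [mul_sub, VV_ent, ← k1, mul_smul_comm, mul_one]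
      linear_combination (norm := module) h2 - this⟩
  have k4 : X2 = VV i r (st J v) + VV i v (st J v) * (s • 1 - γ1) := by
    rw [mul_sub, mul_smul_comm, mul_one]; linear_combination (norm := module) h2 - k3
  have c2 : Cm i (s • 1 - γ1) := (cm_sc ⟨_, rfl⟩ i).sub c1
  have k5 : ∀ x y, VV i x (st J v) * (cj g (VV j u' (st J u')) * VV i v y) = -c⁻¹ • VV i x y := fun x y => by
    have : c • VV i v (st J v) * (cj g (VV j u' (st J u')) * c • VV i v (st J v)) = -(c • VV i v (st J v)) := by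
      rw [← hc, ← map_mul, ← map_mul]; simp [VV_mul, h3, H.al.anti u' u]
    have := congrArg (fun Z => (c⁻¹ * c⁻¹) • (VV i x (-st J v0) * (Z * VV i v0 y))) this
    simpa [mul_assoc, VV_mul, VV_mul', e0, e0', smul_smul, c0, -neg_dotProduct] using this
  have k6 : cj g (VV j w (st J w)) = c⁻¹ • VV i r (st J r) + (VV i r (st J v) * c⁻¹ • γ1 + VV i v (st J r) * c⁻¹ • (s • 1 - γ1) +
      VV i v (st J v) * c⁻¹ • ((s • 1 - γ1) * γ1)) := by
    have : VV j w (st J w) = -(VV j w (st J u) * (VV j u' (st J u') * VV j u (st J w))) := by simp [VV_mul, h3, H.al.anti u' u]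
    rw [this, map_neg, map_mul, map_mul]
    change -(X2 * (_ * X1)) = _
    rw [k3, k4, ← c2.vv]
    generalize s • 1 - γ1 = γ2 at c2
    have k7 : ∀ x y, VV i x (st J v) * (cj g (VV j u' (st J u')) * (VV i v y * γ1)) = -c⁻¹ • (VV i x y * γ1) := fun x y => by
      rw [← mul_assoc _ _ γ1, ← mul_assoc, k5, smul_mul_assoc]
    simp only [mul_add, add_mul, mul_assoc, k5, k7, smul_mul_assoc, mul_smul_comm]
    simp only [c2.vv, c2.vv']
    module
  have z1 := H.al.z h1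
  obtain ⟨t, ht⟩ := zl H hp v0' h1 n1 (c1.smul c⁻¹) (c2.smul c⁻¹) ((c2.mul c1).smul c⁻¹) ⟨c⁻¹ * s, by module⟩ (by
    have := ((H.uE j w 1).cj m).sub (H.uE i r c⁻¹) (by
      rw [one_smul, k6]; simp [add_mul, mul_assoc, c1.vv, c2.vv, c2.vv', VV_mul, VV_mul', h1, H.al r]) (by simp [VV_mul, H.al r])
    rwa [one_smul, k6, add_sub_cancel_left] at this)
  rw [inv_smul_eq_iff₀ c0] at ht
  rw [mem_SS, ← VV, k6, ht]
  exact (pi1 i).mem_range.1 (add_mem (Subalgebra.smul_mem _ ((pi1 i).mem_range_self _) _) (by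
    refine add_mem (add_mem ?_ ?_) ?_ <;> refine mul_mem ((pi1 i).mem_range_self _) (Sc.mem ?_ _)
    exacts [⟨t, by simp [c0]⟩, ⟨c⁻¹ * (s - c * t), by module⟩, ⟨c⁻¹ * (s - c * t) * (c * t), by simp [sub_mul]; module⟩]))
theorem step2 (hk : Fintype.card κ = 2) {l : F} (l0 : l ≠ 0) (hl : l * l ≠ 1) (m : g ∈ M) (u0 : u ≠ 0) (φ0 : φ ≠ 0) (e : cj g (VV j u φ) = VV i v χ) (a) :
    vecMulVec a (st J u) ∈ SS j i g := by
  obtain ⟨c, c0, hc⟩ := step0 H hp m u0 φ0 e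
  obtain ⟨v0', χ0⟩ := ne_of_cj u0 φ0 e
  obtain ⟨v0, e0⟩ := ex_st (J := J) v0'
  obtain ⟨u', h3⟩ := ex_st (J := J) u0
  have e0' : -st J v0 ⬝ᵥ v = 1 := by rw [neg_dotProduct, ← H.al.anti, e0]
  have k1 := kl φ0 e e0' (st J u')
  have k0 : VV i v0 (st J v) - VV i v (st J v0) = 1 := by rw [VV, VV, ← map_sub, dim2 H.al hk e0, map_one]
  have k2 : cj g (VV j u (st J u')) = VV i v (st J v0) + VV i v (st J v) * ent i (-st J v0) v0 (cj g (VV j u (st J u'))) := by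
    have : cj g (VV j u (st J u')) * c • VV i v (st J v) = -(c • VV i v (st J v)) := by rw [← hc, ← map_mul]; simp [VV_mul, H.al.anti u' u, h3]
    have : cj g (VV j u (st J u')) * VV i v (st J v0) = -VV i v (st J v0) := by
      simpa [mul_assoc, VV_mul, e0, c0] using congrArg (fun Z => c⁻¹ • (Z * VV i v0 (st J v0))) this
    rw [VV_ent, ← k1, eq_add_of_sub_eq k0, mul_add, this]; simp
  obtain ⟨d, d1, d2⟩ := H.al.tors l0 h3
  obtain ⟨d', d1', d2'⟩ := H.al.tors l0 e0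
  have c1 : Cm i (ent i (-st J v0) v0 (cj g (VV j u (st J u')))) := cm_ent _ _ _
  generalize ent i (-st J v0) v0 (cj g (VV j u (st J u'))) = α at k2 c1
  obtain ⟨r, hr⟩ := f1s H hp (re_vv v0') (c1.smul (1 - l * l)) (U1.of_mul (mul_mem (mul_mem m (H.h0 j d d1)) (inv_mem m)) (H.h0 i d' d1') (by
    rw [← cj_val, piU_val, piU_val, d2, d2', eq_add_of_sub_eq (dim2 H.al hk h3)]
    simp only [map_add, map_smul, map_one, ← VV.eq_1, k2, smul_add]
    simp only [mul_add, add_mul, one_mul, mul_one, mul_smul_comm, smul_mul_assoc, mul_assoc, c1.vv, VV_mul', H.al v, e0, zero_smul, one_smul]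
    rw [eq_add_of_sub_eq k0]
    match_scalars <;> field_simp <;> ring))
  have s1 : vecMulVec u (st J u') ∈ SS j i g := ⟨vecMulVec v (st J v0) + ((1 - l * l)⁻¹ * r) • vecMulVec v (st J v), by
    rw [← VV.eq_1 j, k2, (eq_inv_smul_iff₀ (sub_ne_zero.2 hl.symm)).2 hr]; simp [VV, smul_smul]⟩
  have s2 : vecMulVec u (st J u) ∈ SS j i g := ⟨c • vecMulVec v (st J v), by simp [← VV.eq_1, hc]⟩
  have := congrArg (· *ᵥ a) (dim2 H.al hk h3)
  simp only [sub_mulVec, vecMulVec_mulVec, one_mulVec, op_smul_eq_smul] at this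
  rw [← this, sub_vecMulVec, smul_vecMulVec, smul_vecMulVec, eq_add_of_sub_eq (dim2 H.al hk h3)]
  exact sub_mem (Subalgebra.smul_mem _ (add_mem (one_mem _) s1) _) (Subalgebra.smul_mem _ s2 _)
theorem n1p [Nontrivial κ] (hq : 3 ≤ Fintype.card κ ∨ Fintype.card κ = 2 ∧ ∃ l : F, l ≠ 0 ∧ l * l ≠ 1) (m : g ∈ M) (u0 : u ≠ 0) (φ0 : φ ≠ 0)
    (e : cj g (VV j u φ) = VV i v χ) : Mp g j i := by
  have P : ∀ {w φ}, vecMulVec w φ ∈ SS j i g → ∃ v χ, cj g (VV j w φ) = VV i v χ := fun ⟨_, h⟩ => rk1 h.symm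
  have k1 : ∀ z, vecMulVec z (st J z) ∈ SS j i g := fun z => by
    by_cases z0 : z = 0
    · simp [z0]
    rcases hq with hk | ⟨hk, l, l0, hl⟩
    · obtain ⟨y, y0, h1, h2⟩ := ex3 hk (st J u) (st J z)
      rw [dotProduct_comm] at h1 h2
      obtain ⟨v, χ, h⟩ := P (stepE H hp m u0 φ0 e h1)
      exact stepE H hp m y0 (by simpa) h (H.al.z h2)
    · obtain ⟨v, χ, h⟩ := P (step2 H hp hk l0 hl m u0 φ0 e z)
      exact stepE H hp m z0 (by simpa) h (H.al z)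
  have k2 : ∀ x y, st J x ⬝ᵥ y ≠ 0 → vecMulVec x (st J y) ∈ SS j i g := fun x y n => by
    simpa [vecMulVec_mul_vecMulVec, n] using Subalgebra.smul_mem _ (mul_mem (k1 x) (k1 y)) (st J x ⬝ᵥ y)⁻¹
  refine mp_of (g := g) (j := j) (i := i) fun r s _ => (mem_SS.1 ?_).imp fun _ => Eq.symm
  rw [single_eq_single_vecMulVec_single]
  obtain ⟨y, hy⟩ := st_surj (J := J) (Pi.single s 1)
  obtain ⟨y0, e0⟩ := ex_st (J := J) (u := Pi.single r 1) (by simp)
  rw [← hy]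
  by_cases c : st J (Pi.single r 1) ⬝ᵥ y = 0
  · have := sub_mem (k2 (Pi.single r 1) (y + y0) (by rw [dotProduct_add, c, e0]; simp)) (k2 _ y0 (e0 ▸ one_ne_zero))
    rwa [map_add, vecMulVec_add, add_sub_cancel_right] at this
  · exact k2 _ _ c
end H09.Wr
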