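import Mathlib
import Cfsg.Agent.H09.WsB
/-! Symplectic tensor-wreath subgroups in odd characteristic: averaging. -/
namespace H09.Wr
open Matrix H10.As Module
variable {τ κ ι : Type} [Fintype τ] [DecidableEq τ] [Fintype κ] [DecidableEq κ] [Fintype ι] [DecidableEq ι] {F : Type*} [Field F]
local notation "𝒜" => Matrix (τ → κ) (τ → κ) F
variable {i j l : τ} {β γ ε X Y : Matrix (τ → κ) (τ → κ) F} {g y : GL (τ → κ) F} {u v w φ ψ χ : κ → F} {J : GL κ F} {α b : Matrix κ κ F}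
  {M : Subgroup (GL (τ → κ) F)} {c : F}
theorem rso (n : ¬ Sc α) (h1 : Cm i β) (h2 : Cm i γ) (e : (pi1 i α * β + γ) * (pi1 i α * β + γ) = 0) : ∃ a : F, a • (β * β) + (β * γ + γ * β) = 0 := by
  obtain ⟨u, hu⟩ := not_forall.1 (mt sc_of_span n)
  obtain ⟨φ, c1, c2⟩ := ex2 hu
  refine ⟨φ ⬝ᵥ α *ᵥ α *ᵥ u, (((h1.mul h1).smul _).add ((h1.mul h2).add (h2.mul h1))).of_VV (u := u) (φ := φ) (by rintro rfl; simp at hu)
    (by rintro rfl; simp at c1) ?_⟩
  have a1 : ∀ Z, β * (pi1 i α * Z) = pi1 i α * (β * Z) := fun Z => by rw [← mul_assoc, (h1 _).eq, mul_assoc]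
  have a2 : ∀ Z, γ * (pi1 i α * Z) = pi1 i α * (γ * Z) := fun Z => by rw [← mul_assoc, (h2 _).eq, mul_assoc]
  have a3 : ∀ u Z, pi1 i α * (VV i u φ * Z) = VV i (α *ᵥ u) φ * Z := fun u Z => by rw [← mul_assoc, pi1_VV]
  simpa [-mulVec_mulVec, mul_add, add_mul, mul_assoc, a1, a2, a3, h1.vv, h2.vv, h1.vv', h2.vv', VV_mul', c1, c2, add_assoc, add_comm (VV i u φ * (γ * β))]
    using congrArg (fun Z => VV i u φ * (Z * VV i u φ)) e
variable (h2 : (2 : F) ≠ 0)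
include h2
theorem rmulo [Nonempty κ] (h : ε * ε = 0) (e : y.1 = 1 + ε) (m : Mp y i i) : Cm i ε ∨ ∃ a, ε = pi1 i a := by
  obtain ⟨d, hd⟩ := m.sn
  have h1 : Cm i ((piU i d)⁻¹ * y).1 := fun a => cj_eq_iff.1 (by rw [cj_mul, hd, ← map_inv, cj_piU, cj_inv_cj])
  have e1 : ε = pi1 i d.1 * ((piU i d)⁻¹ * y).1 + -1 := by rw [← piU_val, ← Units.val_mul, mul_inv_cancel_left, e]; abel
  have h3 : Cm i (-1 : 𝒜) := cm_sc ⟨-1, by simp⟩ i
  by_cases n : Sc d.1
  · obtain ⟨c, e2⟩ := n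
    exact .inl (e1 ▸ ((cm_sc ⟨c, by simp [e2]⟩ i).mul h1).add h3)
  obtain ⟨a, ha⟩ := rso n h1 h3 (e1 ▸ h)
  generalize (piU i d)⁻¹ * y = z at e1 ha
  have : a • z.1 = (2 : F) • 1 := z.mul_left_inj.1 (by simp only [smul_mul_assoc, one_mul]; simp only [mul_neg, neg_mul, mul_one, one_mul] at ha; linear_combination (norm := module) ha)
  have a0 : a ≠ 0 := by rintro rfl; simp [h2, eq_comm (a := (0 : 𝒜))] at this
  exact .inr ⟨(a⁻¹ * 2) • d.1 - 1, by rw [e1, (eq_inv_smul_iff₀ a0).2 this]; simp [smul_smul, sub_eq_add_neg]⟩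
theorem raddo (h : ε * ε = 0) (m : Cm i (ε - pi1 i b)) : Cm i ε ∨ ∃ a, ε = pi1 i a := by
  by_cases n : Sc b
  · obtain ⟨c, e2⟩ := n
    exact .inl (by simpa using m.add (cm_sc (β := pi1 i b) ⟨c, by simp [e2]⟩ i))
  obtain ⟨a, ha⟩ := rso n (cm_sc ⟨1, (one_smul _ _).symm⟩ i) m (by simpa)
  refine .inr ⟨b - (a / 2) • 1, smul_right_injective _ h2 ?_⟩
  simp only [mul_one, one_mul, map_sub, map_smul, map_one, smul_sub, smul_smul, mul_div_cancel₀ _ h2] at ha ⊢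
  linear_combination (norm := module) ha
theorem odd2 [Nontrivial κ] (h : ε * ε = 0) (e : y.1 = 1 + ε) (hy : y ∈ HH τ κ F) (p : τ) : Mp y p p := by
  obtain ⟨q, m⟩ := hy p
  obtain ⟨q', m'⟩ := inv_mem hy p
  by_contra H
  have n : q ≠ p := by rintro rfl; exact H m
  have n' : q' ≠ p := by rintro rfl; exact H (by simpa using m'.inv)
  by_cases c : q = q'
  · subst c
    rcases rmulo h2 (ε := (2 : F) • ε) (y := y * y) (by simp [h]) (by simp [e, mul_add, add_mul, h, two_smul, add_assoc]) ((by simpa using m'.inv : Mp y q p).mul m)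
      with k | ⟨a, k⟩
    · exact H (Cm.mp (e ▸ (cm_sc ⟨1, by simp⟩ p).add (by simpa [h2] using k.smul 2⁻¹)))
    · refine H fun b => ⟨(1 + (2 : F)⁻¹ • a) * b * (1 - (2 : F)⁻¹ • a), ?_⟩
      rw [(Units.ext e : y = tv ε h), cj_tv, (eq_inv_smul_iff₀ h2).2 k]; simp
  obtain ⟨r, s, rs⟩ := exists_pair_ne κ
  obtain ⟨d, hd⟩ := m.sn
  obtain ⟨d', hd'⟩ := m'.sn
  obtain ⟨u, φ, -, c1, c2, e1⟩ := (rk_single (F := F) rs).cj d
  obtain ⟨u', φ', -, c3, c4, e2⟩ := (rk_single (F := F) rs).cj d'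
  have k : Commute (VV q φ φ : 𝒜) (VV q' φ' φ') := cm_pi1 c _ _
  have e3 : (y⁻¹).1 = 1 - ε := congrArg (fun y : GL _ F => (y⁻¹).1) (Units.ext e : y = tv ε h)
  have k1 : VV q φ φ * VV q' φ' φ' * (y.1 * pi1 p (single r s 1)) = 0 := by
    rw [← cj_mul_self, hd, e1, k.eq, ← VV, mul_assoc, VV_mul', c2]; simp
  have k2 : VV q φ φ * VV q' φ' φ' * ((y⁻¹).1 * pi1 p (single r s 1)) = 0 := by
    rw [← cj_mul_self, hd', e2, ← VV, mul_assoc, VV_mul', c4]; simp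
  have k3 := congrArg₂ (· + ·) k1 k2
  simp only [← mul_add, ← add_mul, e, e3, add_add_sub_cancel, add_zero, ← two_smul F (1 : 𝒜), smul_mul_assoc, mul_smul_comm, one_mul] at k3
  have c' : Cm p (VV q φ φ * VV q' φ' φ') := (cm_pi1 n _).mul (cm_pi1 n' _)
  exact VV_ne c3 c3 ((cm_pi1 (Ne.symm c) _).of_VV c1 c1 (c'.eq_zero (rk_single rs).ne ((c' _).eq.symm.trans ((smul_eq_zero.1 k3).resolve_left h2))))
omit h2
variable [Nontrivial κ] (H : HS J M) (hp : ¬ PatS J M) (hq : 3 ≤ Fintype.card κ ∨ Fintype.card κ = 2 ∧ ∃ l : F, l ≠ 0 ∧ l * l ≠ 1)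
include H hp hq
theorem fins (m : g ∈ M) (u0 : u ≠ 0) (φ0 : φ ≠ 0) (e : φ ⬝ᵥ u = 0) (h : ∀ i, Cm i (cj g (VV j u φ)) ∨ ∃ a, cj g (VV j u φ) = pi1 i a) : ∃ i, Mp g j i := by
  by_contra! K
  exact ((RK.rb ⟨u, φ, u0, φ0, e, rfl⟩ j).cj g).not_sc (sc_of_cm fun i => (h i).resolve_right fun ⟨a, h⟩ =>
    let ⟨_, _, h⟩ := rk1 h; K i (n1p H hp hq m u0 φ0 h))
theorem le_HHs [Fintype F] (hc : 4 ≤ Fintype.card κ ∨ 5 ≤ Fintype.card F) : M ≤ HH τ κ F := fun g m => by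
  have sq : ∀ (g : GL (τ → κ) F) (j : τ) {u φ : κ → F}, φ ⬝ᵥ u = 0 → cj g (VV j u φ) * cj g (VV j u φ) = 0 := fun g j u φ e => by
    rw [← map_mul, VV_mul, e]; simp
  have := avgg (T := HH τ κ F) (Λ := Multiplicative F) (R := 𝒜) rh (fun g h w => by ext1; simp [rh_apply, cj_mul]) (δ := Phi)
    (fun g h => LinearMap.ext (phi_cj h)) (fun g h => h) (fun g _ h => h) (fun l Θ n _ => ?_) m
  · intro j
    obtain ⟨r, s, rs⟩ := exists_pair_ne κ
    have N : NN (cj g (VV j (Pi.single r 1) (Pi.single s 1))) := by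
      rw [VV, ← single_eq_single_vecMulVec_single, ← phi_single rs, ← cj_inv_cj g (single _ _ _), ← rh_apply, this]
      exact nn_phi _
    exact fins H hp hq m (by simp) (by simp) (by simp [rs.symm]) fun i => (N i).elim fun _ => raddo H.h2 (sq _ _ (by simp [rs.symm]))
  obtain ⟨Y, d, a, c, b, n⟩ := GG_ex n l
  have h3 : 3 ≤ Fintype.card F := by
    classical
    have := Finset.card_le_univ ({0, 1, -1} : Finset F)
    rwa [Finset.card_eq_three.2 ⟨0, 1, -1, zero_ne_one, by simp, fun e => H.h2 (by linear_combination e), rfl⟩] at this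
  have S : ∀ i < Fintype.card F - 1, ∑ s : F, s ^ i = 0 := FiniteField.sum_pow_lt_card_sub_one F
  obtain ⟨u, u0, h1, h2⟩ : ∃ u : κ → F, u ≠ 0 ∧ u d = 0 ∧ ((u c = 0 ∧ st J u a = 0) ∨ ∑ s : F, s ^ 2 = 0 ∧ ∑ s : F, s ^ 3 = 0) := by
    let _ : StarRing F := starRingOfComm
    rcases hc with hc | hc
    · obtain ⟨u, u0, h⟩ := exk ![Pi.single d 1, Pi.single c 1, st J (Pi.single a 1)] hc
      exact ⟨u, u0, by simpa using h 0, .inl ⟨by simpa using h 1, by simpa using H.al.z (h 2)⟩⟩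
    · obtain ⟨u, u0, h⟩ := exk ![(Pi.single d 1 : κ → F)] Fintype.one_lt_card
      exact ⟨u, u0, by simpa using h 0, .inr ⟨S 2 (by omega), S 3 (by omega)⟩⟩
  have e0 : ∀ s t : F, s • vecMulVec u (st J u) * t • vecMulVec u (st J u) = 0 := fun s t => by simp [vecMulVec_mul_vecMulVec, H.al u]
  refine ⟨_, n, .mk' (fun s => tv (s.toAdd • vecMulVec u (st J u)) (e0 _ _)) fun s t => Units.ext (by
    simp [tv, mul_add, add_mul, add_smul, add_assoc, vecMulVec_mul_vecMulVec, H.al u]), fun s => H.h0 _ _ (is_tv (e0 _ _) (by simp [H.al.ad_vv])),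
    fun s s1 g m e => ?_, fun w => ?_⟩
  · have e1 : (g * piU l (tv (s.toAdd • vecMulVec u (st J u)) (e0 _ _)) * g⁻¹).1 = 1 + cj g (VV l u (s.toAdd • st J u)) := by
      rw [← cj_val]; simp [piU_val, tv, VV]
    exact fins H hp hq m u0 (smul_ne_zero (by simpa using s1) (by simpa)) (by simp [H.al u]) fun i =>
      rmulo H.h2 (sq _ _ (by simp [H.al u])) e1 (odd2 H.h2 (sq _ _ (by simp [H.al u])) e1 e i)
  let G := fun α γ β => GG l Y d a c b (Pi.single d 1) α γ β w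
  refine (Fintype.sum_equiv Multiplicative.toAdd _ (fun s => s ^ 0 • G (Pi.single a 1) (Pi.single c 1) (Pi.single b 1) +
    s ^ 1 • (-st J u a • G u (Pi.single c 1) (Pi.single b 1) + u c • G (Pi.single a 1) (st J u) (Pi.single b 1) - st J u b • G (Pi.single a 1) (Pi.single c 1) u) +
    s ^ 2 • (-(st J u a * u c) • G u (st J u) (Pi.single b 1) + (st J u a * st J u b) • G u (Pi.single c 1) u - (u c * st J u b) • G (Pi.single a 1) (st J u) u) +
    s ^ 3 • (st J u a * u c * st J u b) • G u (st J u) u) fun s => ?_).trans ?_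
  · simp only [GG_rh, MonoidHom.mk'_apply, tv, Units.inv_mk, vecMul_add, vecMul_smul, vecMul_vecMulVec, sub_mulVec, smul_mulVec, vecMulVec_mulVec,
      op_smul_eq_smul, dotProduct_single, single_dotProduct, h1, one_mulVec, vecMul_one, mul_zero, zero_smul, smul_zero, add_zero, mul_one, one_mul]
    simp only [G, GG_apply, sub_eq_add_neg, ← neg_smul, vv_add, vv_add', vv_smul, vv_smul', mul_add, add_mul, map_add, map_smul, smul_mul_assoc, mul_smul_comm]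
    module
  simp only [Finset.sum_add_distrib, ← Finset.sum_smul, S 0 (by omega), S 1 (by omega)]
  rcases h2 with ⟨h, h'⟩ | ⟨h, h'⟩ <;> simp [h, h']
end H09.Wr
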