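import Mathlib
import Cfsg.Agent.H09.WsC
/-! Symplectic tensor-wreath subgroups: from a pattern to all patterns. -/
namespace H09.Wr
open Matrix H10 H10.As Module
variable {τ κ ι : Type} [Fintype τ] [DecidableEq τ] [Fintype κ] [DecidableEq κ] [Fintype ι] [DecidableEq ι] {F : Type*} [Field F]
theorem ex_two {φ ψ : ι → F} (h : φ ≠ 0) (h' : ψ ≠ 0) : ∃ z, φ ⬝ᵥ z ≠ 0 ∧ ψ ⬝ᵥ z ≠ 0 := by
  obtain ⟨a, ha⟩ := ex1 h
  obtain ⟨b, hb⟩ := ex1 h'
  rw [dotProduct_comm] at ha hb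
  by_cases c : ψ ⬝ᵥ a = 0
  · by_cases c' : φ ⬝ᵥ b = 0
    exacts [⟨a + b, by simp [*], by simp [*]⟩, ⟨b, c', by simp [hb]⟩]
  · exact ⟨a, by simp [ha], c⟩
theorem is_one {J : GL ι F} : Is J 1 := by simp [Is]
theorem tr_s {J : GL ι F} (hJ : Al J) {u v : ι → F} (u0 : u ≠ 0) (v0 : v ≠ 0) : ∃ d, Is J d ∧ d.1 *ᵥ u = v := by
  have k : ∀ u v, st J v ⬝ᵥ u ≠ 0 → ∃ d, Is J d ∧ d.1 *ᵥ u = v := fun u v n =>
    let ⟨d, a, b, _⟩ := hJ.tv (v - u) (st J v ⬝ᵥ u)⁻¹; ⟨d, a, by simp [b, add_mulVec, smul_mulVec, vecMulVec_mulVec, hJ u, smul_smul, n]⟩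
  obtain ⟨y, a, b⟩ := ex_two ((st_eq_zero (J := J)).not.2 u0) ((st_eq_zero (J := J)).not.2 v0)
  obtain ⟨d, d1, d2⟩ := k u y (mt hJ.z a)
  obtain ⟨d', d1', d2'⟩ := k y v b
  exact ⟨d' * d, d1'.mul d1, by rw [Units.val_mul, ← mulVec_mulVec, d2, d2']⟩
theorem RE.cj {J d : GL ι F} {a} (h : RE J a) (e : Is J d) : RE J (cj d a) :=
  let ⟨u, c, u0, c0, e'⟩ := h; ⟨d.1 *ᵥ u, c, by rwa [Ne, gl_mulVec_eq_zero], c0, by rw [e', map_smul, e.cj_vv]⟩
theorem RE.ad {J : GL ι F} {a} (hJ : Al J) (h : RE J a) : ad J a = -a := by obtain ⟨u, c, -, -, rfl⟩ := h; simp [hJ.ad_vv]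
theorem RD.ad {J : GL ι F} {a} (hJ : Al J) (h : RD J a) : ad J a = a := by obtain ⟨u, c, -, -, -, rfl⟩ := h; simp [hJ.ad_vv]; abel
theorem RT.ne {J : GL ι F} {a} (hJ : Al J) (h : RT J a) : a ≠ 0 := by
  obtain ⟨u, c, u0, c0, rfl⟩ | ⟨u, w, u0, n, e, rfl⟩ := h
  · simp [u0, c0]
  · obtain ⟨y, a, b⟩ := hJ.ex2 n
    exact fun h => by simpa [sub_mulVec, vecMulVec_mulVec, a, b, u0] using congrArg (· *ᵥ y) h
local notation "𝒜" => Matrix (τ → κ) (τ → κ) F
variable {i j l : τ} {β γ X Y : Matrix (τ → κ) (τ → κ) F} {g : GL (τ → κ) F} {u v w φ ψ : κ → F} {a b : Matrix κ κ F} {J : GL κ F}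
  {M : Subgroup (GL (τ → κ) F)} {K S : Finset τ} {A : τ → Matrix κ κ F} {c : F} {z : τ → κ → F}
theorem pt_ne (h : ∀ l, A l ≠ 0) : pt A ≠ 0 := fun e => by
  have : ∀ l, ∃ x y, A l x y ≠ 0 := fun l => by by_contra! k; exact h l (ext k)
  choose x y k using this
  exact Finset.prod_ne_zero_iff.2 (fun l _ => k l) (congrFun₂ e x y)
theorem HS.ptU (H : HS J M) {d : τ → GL κ F} (e : ∀ i, Is J (d i)) : ptU d ∈ M := by
  obtain ⟨g, m, e'⟩ := pt_mem (S := M.toSubmonoid.map (Units.coeHom _)) (a := fun i => (d i).1) fun i => ⟨_, H.h0 i _ (e i), rfl⟩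
  exact (Units.ext e' : g = H10.As.ptU d) ▸ m
theorem HS.skew (H : HS J M) (h : U1 M X) (e : X * X = 0) : Wr.ad (JW J) X = -X := by
  have : Wr.ad (JW J) X * X = 0 := by rw [H.ad h, sub_mul, mul_assoc, neg_mul, e]; simp
  rw [H.ad h, this, sub_zero]
variable (J) in
/-- patterns of transvection type -/
def PE (K : Finset τ) (A : τ → Matrix κ κ F) : Prop := (∀ l ∈ K, RE J (A l)) ∧ ∀ l ∉ K, A l = 1
theorem PE.ad (hJ : Al J) (h : PE J K A) : ad (JW J) (pt A) = (-1 : F) ^ K.card • pt A := by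
  rw [ad_pt, ← Finset.prod_const, ← Fintype.prod_ite_mem, ← pt_smul]; congr 1; funext l
  split_ifs with c
  exacts [by simp [(h.1 l c).ad hJ], by simp [h.2 l c]]
variable (J) in
/-- standard patterns -/
def pe (K : Finset τ) (z : τ → κ → F) : 𝒜 := pt fun l => if l ∈ K then vecMulVec (z l) (st J (z l)) else 1
variable (J M K) in
/-- all patterns -/
def AE : Prop := ∀ z : τ → κ → F, (∀ l, z l ≠ 0) → ∀ s : F, U1 M (s • pe J K z)
theorem ae_of (H : HS J M) (hK : K.Nonempty) (h : PE J K A) (e : U1 M (pt A)) : AE J M K := fun z hz s => by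
  obtain ⟨o, ho⟩ := hK
  have : ∀ l, ∃ (d : GL κ F) (c : F), Is J d ∧ c ≠ 0 ∧ cj d (A l) = c • if l ∈ K then vecMulVec (z l) (st J (z l)) else 1 := fun l => by
    by_cases m : l ∈ K
    · obtain ⟨u, c, u0, c0, e⟩ := h.1 l m
      obtain ⟨d, d1, d3⟩ := tr_s H.al u0 (hz l)
      exact ⟨d, c, d1, c0, by simp [e, m, d1.cj_vv, d3]⟩
    · exact ⟨1, 1, is_one, one_ne_zero, by simp [h.2 l m, m]⟩
  choose d c d1 c0 d2 using this
  have e1 := e.cj (H.ptU d1)
  simp only [cj_ptU', d2, pt_smul, ← pe.eq_1] at e1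
  have c1 : ∏ l, c l ≠ 0 := Finset.prod_ne_zero_iff.2 fun l _ => c0 l
  generalize ∏ l, c l = c at e1 c1
  have k : ∀ r : F, U1 M ((r * r * c) • pe J K z) := fun r => by
    by_cases r0 : r = 0
    · exact ⟨1, one_mem _, by simp [r0]⟩
    obtain ⟨d, d1, d3⟩ := tr_s H.al (hz o) (smul_ne_zero r0 (hz o))
    convert e1.cj (H.h0 o d d1) using 1
    rw [pe, pt_split o, map_smul, map_mul, cj_piU, (cm_pt (by simp)).cj_piU, if_pos ho, d1.cj_vv, d3]
    simp [smul_smul, mul_comm c]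
  have p : pe J K z * pe J K z = 0 := by rw [pe, ← map_mul]; exact pt_zero (l := o) (by simp [ho, vecMulVec_mul_vecMulVec, H.al (z o)])
  convert (k ((s / c + 1) / 2)).sub (k ((s / c - 1) / 2)) (by simp [p]) (by simp [p]) using 1
  have := H.h2
  match_scalars; field_simp; ring
theorem extrs [Nonempty κ] (H : HS J M) {x y : τ → κ → F} (hx : ∀ l, x l ≠ 0) (hy : ∀ l, y l ≠ 0) (S : Finset τ) : ∀ {K A} {α α' : F}, K.Nonempty → PE J K A →
    Disjoint S K → α + (-1) ^ S.card * α' ≠ 0 → U1 M (pt A * (α • pt (fun l => if l ∈ S then vecMulVec (x l) (st J (y l)) else 1) +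
      α' • ad (JW J) (pt fun l => if l ∈ S then vecMulVec (x l) (st J (y l)) else 1))) → AE J M (S ∪ K) := by
  induction S using Finset.induction_on with
  | empty =>
    rintro K A α α' ⟨o, ho⟩ h - n e
    refine ae_of H ⟨o, by simpa⟩ (A := fun l => (Pi.mulSingle o (α + α') : τ → F) l • A l) ⟨fun l m => ?_, fun l m => ?_⟩ ?_
    · obtain ⟨u, c, u0, c0, e⟩ := h.1 l (by simpa using m)
      exact ⟨u, (Pi.mulSingle o (α + α') : τ → F) l * c, u0, mul_ne_zero (by by_cases c : l = o <;> simp_all) c0, by simp only [e, smul_smul]⟩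
    · simp [Pi.mulSingle_eq_of_ne (show l ≠ o by rintro rfl; simp [ho] at m), h.2 l (by simpa using m)]
    · simpa [pt_smul, add_smul, ← Pi.one_def, mul_add] using e
  | insert l S hl ih =>
    rintro K A α α' ⟨o, ho⟩ h d n e
    obtain ⟨z, z1, z2⟩ := ex_two ((st_eq_zero (J := J)).not.2 (hx l)) ((st_eq_zero (J := J)).not.2 (hy l))
    have z0 : z ≠ 0 := by rintro rfl; simp at z1
    obtain ⟨d1, d2⟩ := Finset.disjoint_insert_left.1 d
    have e1 : (pt fun j => if j ∈ insert l S then vecMulVec (x j) (st J (y j)) else 1) =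
        (pt fun j => if j ∈ S then vecMulVec (x j) (st J (y j)) else 1) * VV l (x l) (st J (y l)) := by
      rw [VV, pt_mul_pi1 _ (by simp [hl])]; congr 1; funext j; by_cases c : j = l <;> simp [c]
    have e2 : ∀ j ∈ K, Cm j (pt fun j => if j ∈ insert l S then vecMulVec (x j) (st J (y j)) else 1) := fun j m => cm_pt (if_neg (Finset.disjoint_right.1 d m))
    have e3 : Cm l (pt fun j => if j ∈ S then vecMulVec (x j) (st J (y j)) else 1) := cm_pt (if_neg hl)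
    obtain ⟨-, e5⟩ := la1s H.al (L := LS h.2 (RT.sq H.al (.inl (h.1 o ho))) M) (fun d e => LS_cj d1 (H.h0 l d e))
      ⟨fun j m => ((e2 j m).smul α).add (((e2 j m).ad H.al).smul α'), e⟩ z
    rw [Finset.insert_union, ← Finset.union_insert]
    refine ih (α := -(st J (x l) ⬝ᵥ z * st J (y l) ⬝ᵥ z) * α) (α' := (st J (x l) ⬝ᵥ z * st J (y l) ⬝ᵥ z) * α') (A := Function.update A l ((2 : F) • vecMulVec z (st J z)))
      (by simp) ⟨fun j m => by
        by_cases c : j = l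
        · simpa [c] using ⟨z, 2, z0, H.h2, rfl⟩
        · simpa [c] using h.1 j (by simpa [c] using m), fun j m => by by_cases c : j = l <;> simp_all [h.2]⟩ (by simp [hl, d2]) (fun e => n (by
        rw [Finset.card_insert_of_notMem hl]; exact mul_left_cancel₀ (mul_ne_zero z1 z2) (by linear_combination -e))) ?_
    convert e5 using 1
    have e7 := e3.ad H.al
    rw [← pt_mul_pi1 _ (h.2 l d1), mul_assoc, smul_mul_assoc (2 : F), VV_ent, e1, map_smul, ← VV, ad_mul, H.al.ad_VV]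
    generalize (pt fun j => if j ∈ S then vecMulVec (x j) (st J (y j)) else 1) = P at e3 e7
    simp only [mul_add, add_mul, mul_assoc, e3.vv, e7.vv, e3.vv', VV_mul, VV_mul', smul_mul_assoc, mul_smul_comm, neg_mul, mul_neg, H.al.anti z]
    module
theorem uns [Nonempty κ] (H : HS J M) (h : PT J K A) (e : U1 M (pt A)) {π : Equiv.Perm τ} (hπ : fp κ F π ∈ M) (h1 : ∀ l ∉ S, π.symm l = l)
    (h2 : ∀ l ∈ S, RE J (A l) ∧ π.symm l ∉ K ∨ l ∉ K ∧ RE J (A (π.symm l))) (h3 : (∃ l ∈ K, l ∉ S ∧ RD J (A l)) ∨ ∃ b ∈ S, ∃ c ∈ S, b ∈ K ∧ c ∉ K)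
    (h4 : Odd (K ∪ S).card) : AE J M (K ∪ S) := by
  classical
  obtain ⟨o⟩ : Nonempty κ := inferInstance
  have : ∀ l, ∃ (d : GL κ F) (a : Matrix κ κ F) (x y : κ → F), Is J d ∧ x ≠ 0 ∧ y ≠ 0 ∧ (l ∈ S ∪ (K \ S).filter (fun l => RD J (A l)) → RE J a) ∧
      (l ∉ S ∪ (K \ S).filter (fun l => RD J (A l)) → a = 1) ∧
      A l * cj d (A (π.symm l)) = a * (if l ∈ (K \ S).filter (fun l => ¬ RD J (A l)) then vecMulVec x (st J y) else 1) ∧
      (l ∉ S → RD J (A l) → A l * (cj d (A l) * A l) = 0 ∧ cj d (A l) * (A l * cj d (A l)) = 0) := fun l => by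
    have o1 : (Pi.single o 1 : κ → F) ≠ 0 := by simp
    by_cases c : l ∈ S
    · refine ⟨1, A l * A (π.symm l), _, _, is_one, o1, o1, fun _ => ?_, by simp [c], by simp [c], by simp [c]⟩
      rcases h2 l c with ⟨a, b⟩ | ⟨a, b⟩
      exacts [by rwa [h.2 _ b, mul_one], by rwa [h.2 _ a, one_mul]]
    rw [h1 l c]
    by_cases c2 : RD J (A l)
    · have m : l ∈ K := by_contra fun m => RT.ne H.al (.inr c2) (by simpa [h.2 l m] using RT.sq H.al (.inr c2))
      obtain ⟨u, w, u0, n, e, e'⟩ := id c2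
      obtain ⟨z, z1, z2⟩ := H.al.ex2 n
      obtain ⟨d, d1, d2, -⟩ := H.al.tv z 1
      have a1 : d.1 *ᵥ u = u := by simp [d2, add_mulVec, vecMulVec_mulVec, H.al.z z2]
      have a2 : d.1 *ᵥ w = w - z := by simp [d2, add_mulVec, vecMulVec_mulVec, H.al.anti z w, z1, sub_eq_add_neg]
      refine ⟨d, vecMulVec u (st J u), _, _, d1, o1, o1, fun _ => ⟨u, 1, u0, one_ne_zero, by simp⟩, by simp [m, c, c2], (?_ : _ = vecMulVec u (st J u)).trans (by simp only [Finset.mem_filter, c2, not_true, and_false, if_false, mul_one]), fun _ _ => ?_⟩ <;>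
      simp [e', d1.cj_vv, a1, a2, mul_sub, sub_mul, vecMulVec_mul_vecMulVec, vecMulVec_sub, sub_vecMulVec, H.al u, H.al w, H.al z, e, H.al.z e, z1, z2,
        H.al.z z2, H.al.anti z w]
    by_cases m : l ∈ K
    · obtain ⟨u, s, u0, s0, e'⟩ := (h.1 l m).resolve_right c2
      obtain ⟨v, hv⟩ := ex_st (J := J) u0
      have v0 : v ≠ 0 := by rintro rfl; simp at hv
      obtain ⟨d, d1, d2⟩ := tr_s H.al u0 v0
      exact ⟨d, 1, (s * s) • u, v, d1, by simp [s0, u0], v0, by simp [c, c2], by simp, by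
        simp [m, c, c2]; simp [e', d1.cj_vv, d2, vecMulVec_mul_vecMulVec, hv, smul_smul], by simp [c2]⟩
    · exact ⟨1, 1, _, _, is_one, o1, o1, by simp [c, m], by simp, by simp [m, h.2 l m], by simp [c2]⟩
  choose d a x y d1 x0 y0 a1 a2 a3 a4 using this
  obtain ⟨o', ho⟩ : K.Nonempty := h3.elim (fun ⟨l, m, _⟩ => ⟨l, m⟩) fun ⟨b, _, _, _, m, _⟩ => ⟨b, m⟩
  have s1 : pt A * pt A = 0 := by rw [← map_mul]; exact pt_zero (l := o') ((h.1 o' ho).sq H.al)
  have e' := (e.cj hπ).cj (H.ptU d1)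
  have s2 : cj (ptU d) (cj (fp κ F π) (pt A)) * cj (ptU d) (cj (fp κ F π) (pt A)) = 0 := by simp only [← map_mul, s1, map_zero]
  have e2 := e.cm2 e' s1 s2 ?_ ?_
  · rw [← neg_mul_neg (cj _ _), ← H.skew e s1, ← H.skew e' s2, ← ad_mul, cj_fp, cj_ptU', ← map_mul,
      show (A * fun l => cj (d l) ((A ∘ π.symm) l)) = a * fun l => if l ∈ (K \ S).filter (fun l => ¬ RD J (A l)) then vecMulVec (x l) (st J (y l)) else 1 from funext a3,
      map_mul, ad_mul, PE.ad H.al ⟨a1, a2⟩] at e2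
    have dj : Disjoint ((K \ S).filter (fun l => ¬ RD J (A l))) (S ∪ (K \ S).filter (fun l => RD J (A l))) := by simp +contextual [Finset.disjoint_left]
    have un : (K \ S).filter (fun l => ¬ RD J (A l)) ∪ (S ∪ (K \ S).filter (fun l => RD J (A l))) = K ∪ S := by ext l; simp; tauto
    rw [← un, Finset.card_union_of_disjoint dj] at h4
    rw [← un]
    refine extrs H x0 y0 _ (α := 1) (α' := -(-1) ^ (S ∪ (K \ S).filter (fun l => RD J (A l))).card)
      (h3.elim (fun ⟨l, m⟩ => ⟨l, by simp [m]⟩) fun ⟨b, m, _⟩ => ⟨b, by simp [m]⟩) ⟨a1, a2⟩ dj (by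
        rw [mul_neg, ← pow_add, h4.neg_one_pow, neg_neg, one_add_one_eq_two]; exact H.h2) ?_
    convert e2 using 1
    rw [mul_add, one_smul, mul_smul_comm, mul_smul_comm, (comm_pt a2 fun l m => (cm_pt (by exact if_neg (Finset.disjoint_right.1 dj m))).ad H.al).eq, neg_smul, sub_eq_add_neg]
  all_goals
    rw [cj_fp, cj_ptU', ← map_mul, ← map_mul]
    rcases h3 with ⟨l, -, n, r⟩ | ⟨b, b1, c, c1, b2, c2⟩
  · exact pt_zero (l := l) (by simpa [h1 l n] using (a4 l n r).1)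
  · exact pt_zero (l := b) (by simpa [h.2 _ ((h2 b b1).resolve_right fun e => e.1 b2).2] using (h.1 b b2).sq H.al)
  · exact pt_zero (l := l) (by simpa [h1 l n] using (a4 l n r).2)
  · exact pt_zero (l := c) (by
      simpa [h.2 _ c2, ← map_mul] using RT.sq H.al (.inl ((h2 c c1).resolve_left fun e => RT.ne H.al (.inl e.1) (by
        simpa [h.2 c c2] using RT.sq H.al (.inl e.1))).2))
end H09.Wr
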