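import Mathlib
import Cfsg.Agent.H09.WsD
import Cfsg.Agent.H10.Dec
import Cfsg.Agent.H10.AsSp
/-! Symplectic tensor-wreath subgroups are maximal. -/
namespace H09.Wr
open Matrix H10 H10.As Module Cfsg.Geo Cfsg
variable {τ κ ι : Type} [Fintype τ] [DecidableEq τ] [Fintype κ] [DecidableEq κ] [Fintype ι] [DecidableEq ι] {F : Type*} [Field F]
variable {J : GL κ F} {M : Subgroup (GL (τ → κ) F)} {K : Finset τ} {A : τ → Matrix κ κ F}
open Classical in
theorem PT.odd [Nonempty κ] (H : HS J M) (hK : K.Nonempty) (h : PT J K A) (e : U1 M (pt A)) : Odd (K.filter fun l => ¬ RD J (A l)).card := by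
  obtain ⟨o, ho⟩ := hK
  have : ad (JW J) (pt A) = (-1 : F) ^ (K.filter fun l => ¬ RD J (A l)).card • pt A := by
    rw [ad_pt, ← Finset.prod_const, ← Fintype.prod_ite_mem, ← pt_smul]; congr 1; funext l
    by_cases c : l ∈ K
    · by_cases c' : RD J (A l)
      exacts [by simp [c', c'.ad H.al], by simp [c, c', ((h.1 l c).resolve_right c').ad H.al]]
    · simp [c, h.2 l c]
  rw [H.skew e (by rw [← map_mul]; exact pt_zero (l := o) ((h.1 o ho).sq H.al))] at this
  by_contra n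
  rw [(Nat.not_odd_iff_even.1 n).neg_one_pow, one_smul, neg_eq_iff_add_eq_zero, ← two_smul F, smul_eq_zero_iff_right H.h2] at this
  exact pt_ne (fun l => by by_cases c : l ∈ K <;> simp [(h.1 l · |>.ne H.al), h.2, c]) this
theorem AE.pt [Nonempty κ] (h : AE J M K) : ∃ A, PE J K A ∧ U1 M (pt A) := by
  obtain ⟨o⟩ : Nonempty κ := inferInstance
  exact ⟨fun l => if l ∈ K then vecMulVec (Pi.single o 1) (st J (Pi.single o 1)) else 1, ⟨fun l m => ⟨Pi.single o 1, 1, by simp, one_ne_zero, by simp [m]⟩,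
    fun l m => if_neg m⟩, by simpa [pe] using h (fun _ => Pi.single o 1) (by simp) 1⟩
theorem ae_grow [Nonempty κ] (H : HS J M) (hf : ∀ a b c d, fp κ F (Equiv.swap a b * Equiv.swap c d) ∈ M) (h : AE J M K) (h1 : Odd K.card) (h2 : 2 ≤ K.card) {c c'}
    (n : c ≠ c') (m : c ∉ K) (m' : c' ∉ K) : AE J M (insert c (insert c' K)) := by
  obtain ⟨b, hb, b', hb', n'⟩ := Finset.one_lt_card.1 h2
  obtain ⟨A, a, e⟩ := h.pt
  have u : K ∪ {b, b', c, c'} = insert c (insert c' K) := by ext; simp; grind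
  rw [← u]
  refine uns H ⟨fun l m => .inl (a.1 l m), a.2⟩ e (hf b c b' c') (fun l => ?_) (fun l => ?_) (.inr ⟨b, by simp, c, by simp, hb, m⟩) (by
    rw [u, Finset.card_insert_of_notMem (by simp [*]), Finset.card_insert_of_notMem m']; grind)
  · simp +contextual [Equiv.symm_apply_eq, Equiv.swap_apply_of_ne_of_ne]
  · have := a.1 b hb; have := a.1 b' hb'
    change _ → _ ∧ Equiv.swap b' c' (Equiv.swap b c l) ∉ K ∨ _ ∧ RE J (A (Equiv.swap b' c' (Equiv.swap b c l)))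
    grind
theorem ae_univ [Nonempty κ] (H : HS J M) (hf : ∀ π, fp κ F π ∈ M) (ht : Odd (Fintype.card τ)) (hp : PatS J M) : AE J M .univ := by
  classical
  have k : ∀ n K, Fintype.card τ - K.card = n → Odd K.card → 2 ≤ K.card → AE J M K → AE J M .univ := fun n => by
    induction n using Nat.strong_induction_on with
    | _ n ih =>
    rintro K rfl h1 h2 h
    by_cases c : K = .univ
    · exact c ▸ h
    have := Finset.card_lt_card (Finset.ssubset_univ_iff.2 c)
    obtain ⟨c, m, c', m', n⟩ := Finset.one_lt_card.1 (show 1 < Kᶜ.card by rw [Finset.card_compl]; simp at this; grind)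
    rw [Finset.mem_compl] at m m'
    have e : (insert c (insert c' K)).card = K.card + 2 := by rw [Finset.card_insert_of_notMem (by simp [*]), Finset.card_insert_of_notMem m']
    have := Finset.card_le_univ (insert c (insert c' K))
    exact ih _ (by omega) _ rfl (by grind) (by omega) (ae_grow H (fun _ _ _ _ => hf _) h h1 h2 n m m')
  obtain ⟨K, A, h2, h, e⟩ := hp
  have hK : K.Nonempty := Finset.card_pos.1 (by omega)
  by_cases o : Odd K.card
  · refine k _ K rfl o h2 ?_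
    by_cases c : ∃ l ∈ K, RD J (A l)
    · simpa using uns H h e (hf 1) (S := ∅) (fun _ _ => rfl) (by simp) (.inl (by simpa)) (by simpa)
    · exact ae_of H hK ⟨fun l m => (h.1 l m).resolve_right fun e => c ⟨l, m, e⟩, h.2⟩ e
  obtain ⟨b, hb⟩ := Finset.card_pos.1 (h.odd H hK e).pos
  rw [Finset.mem_filter] at hb
  obtain ⟨c, hc⟩ : ∃ c, c ∉ K := by by_contra! n; exact o (by rwa [Finset.eq_univ_of_forall n])
  have u : K ∪ {b, c} = insert c K := by ext; simp; grind
  have := Finset.card_insert_of_notMem hc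
  have o' : Odd (K ∪ {b, c}).card := by rw [u]; grind
  exact k _ _ rfl o' (by rw [u]; omega) (uns H h e (hf (Equiv.swap b c)) (by simp +contextual [Equiv.swap_apply_of_ne_of_ne])
    (by simp [hc, (h.1 b hb.1).resolve_right hb.2]) (.inr ⟨b, by simp, c, by simp, hb.1, hc⟩) o')
theorem pv_two {φ ψ : (τ → κ) → F} (h : φ ≠ 0) (h' : ψ ≠ 0) : ∃ z : τ → κ → F, φ ⬝ᵥ pv z ≠ 0 ∧ ψ ⬝ᵥ pv z ≠ 0 := by
  have k : ∀ φ : (τ → κ) → F, φ ≠ 0 → ∃ z : τ → κ → F, φ ⬝ᵥ pv z ≠ 0 := fun φ h => by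
    by_contra! n
    obtain ⟨a, ha⟩ := ex1 h
    simpa [dotProduct_comm φ, ha] using pv_top (L := LinearMap.ker (dotProductBilin F F φ)) n a
  suffices ∀ S : Finset τ, ∃ z z' : τ → κ → F, (∀ l ∈ S, z l = z' l) ∧ φ ⬝ᵥ pv z ≠ 0 ∧ ψ ⬝ᵥ pv z' ≠ 0 from
    let ⟨z, _, e, a⟩ := this .univ; ⟨z, by rwa [← funext fun l => e l (Finset.mem_univ l)] at a⟩
  intro S
  induction S using Finset.induction_on with
  | empty => exact let ⟨z, a⟩ := k φ h; let ⟨z', a'⟩ := k ψ h'; ⟨z, z', by simp, a, a'⟩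
  | insert l S _ ih =>
  obtain ⟨z, z', e, a, a'⟩ := ih
  obtain ⟨y, b⟩ : ∃ y, φ ⬝ᵥ pv (Function.update z l y) ≠ 0 ∧ ψ ⬝ᵥ pv (Function.update z' l y) ≠ 0 := by
    by_cases c : ψ ⬝ᵥ pv (Function.update z' l (z l)) = 0
    · by_cases c' : φ ⬝ᵥ pv (Function.update z l (z' l)) = 0
      exacts [⟨z l + z' l, by simp [*], by simp [*]⟩, ⟨z' l, c', by simpa⟩]
    · exact ⟨z l, by simpa, c⟩
  exact ⟨_, _, fun j m => by by_cases c : j = l <;> simp_all, b⟩
theorem st_pv (z : τ → κ → F) : st (JW J) (pv z) = pv fun l => st J (z l) := by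
  ext x; simp [st_apply, vecMul, dotProduct, pv_apply, JW, ptU_val, pt_apply, Finset.prod_univ_sum, Finset.prod_mul_distrib]
theorem vv_pv (a b : τ → κ → F) : vecMulVec (pv a) (pv b) = pt fun l => vecMulVec (a l) (b l) := by
  ext; simp [vecMulVec_apply, pv_apply, pt_apply, Finset.prod_mul_distrib]
section
variable {J g : GL ι F}
theorem is_iff : Is J g ↔ ∀ x y, st J (g.1 *ᵥ x) ⬝ᵥ g.1 *ᵥ y = st J x ⬝ᵥ y :=
  ⟨fun h x y => by rw [h.st, dotProduct_mulVec, vecMul_vecMul]; simp, fun h => by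
    rw [Is, ad_apply, mul_assoc, mul_assoc, Units.inv_mul_eq_iff_eq_mul, mul_one]
    ext i j
    have := h (Pi.single i 1) (Pi.single j 1)
    rw [st_apply, st_apply, ← vecMul_transpose, dotProduct_mulVec, vecMul_vecMul, vecMul_vecMul] at this
    simpa [mul_assoc] using this⟩
theorem al_of (h2 : (2 : F) ≠ 0) (h : J.1ᵀ = (-1 : F) • J.1) : Al J := fun u => mul_left_cancel₀ h2 (by
  have : st J u ⬝ᵥ u = -(st J u ⬝ᵥ u) := by
    conv_lhs => rw [st_apply, ← mulVec_transpose, h, dotProduct_comm]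
    simp [smul_mulVec, dotProduct_mulVec, st_apply, vecMul_neg]
  linear_combination this)
variable (J) in
/-- the isometry group -/
def SPg : Subgroup (GL ι F) where
  carrier := {g | Is J g}
  one_mem' := is_one
  mul_mem' := Is.mul
  inv_mem' := Is.inv
/-- the alternating form -/
def af (h : Al J) : Form F (ι → F) := .ofAlt (LinearMap.mk₂ F (fun x y => st J x ⬝ᵥ y) (by simp) (by simp) (by simp) (by simp)) h
instance (h : Al J) : (af h).Nondeg := ⟨fun x e => by_contra fun n => let ⟨v, a⟩ := ex_st (J := J) n; one_ne_zero (a.symm.trans (e v))⟩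
end
theorem al_JW (H : HS J M) (ht : Odd (Fintype.card τ)) : Al (JW J : GL (τ → κ) F) :=
  al_of H.h2 (by rw [← ht.neg_one_pow, ← Finset.card_univ, ← Finset.prod_const, JW, ptU_val, ← pt_smul, ← H.al.tr]; rfl)
theorem sp_le (H : HS J M) (ht : Odd (Fintype.card τ)) (h : AE J M .univ) : SPg (JW J) ≤ M := fun g m => by
  have a := al_JW H ht
  have hA : IsAltF (af a) := isAltF_ofAlt _ _
  let T := Form.SFull (M.comap (af a).toGL)
  have k0 : ∀ z, T (pv z) := fun z c => by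
    by_cases z0 : ∀ l, z l ≠ 0
    · obtain ⟨y, m, e⟩ := h z z0 c
      refine Subgroup.mem_comap.2 ((Units.ext (e.trans (ext_of_mulVec_single fun i => ?_)) : y = _) ▸ m :)
      rw [toGL_mulVec, Form.quasi_apply_alt hA]
      simp only [pe, Finset.mem_univ, if_true, ← vv_pv, ← st_pv, add_mulVec, smul_mulVec, vecMulVec_mulVec, one_mulVec, op_smul_eq_smul, smul_smul]; rfl
    · obtain ⟨l, e⟩ := not_forall_not.1 z0
      exact pv.map_coord_zero l e ▸ Form.sFull_zero hA c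
  have k1 : ∀ u v w, T u → T v → T w → (af a).B w u ≠ 0 → (af a).B w v ≠ 0 → (af a).B w (u + v) ≠ 0 → T (u + v) := fun u v w a1 a2 a3 b1 b2 b3 => by
    by_cases c : (af a).B u v = 0
    · convert ((((a3.add_smul hA a1 b1 1).add_smul hA a2 (by simpa [c]) 1).add_smul hA a3 (fun e => b3 (by
        simpa [add_assoc, Form.B_self_of_isAltF hA] using (af a).B_symm_zero e)) (-1))) using 1
      module
    · simpa using a1.add_smul hA a2 c 1
  have k2 : ∀ u v, T u → T v → u ≠ 0 → u + v ≠ 0 → ∃ w, T w ∧ (af a).B w u ≠ 0 ∧ (af a).B w (u + v) ≠ 0 := fun u v a1 a2 b1 b2 =>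
    let ⟨z, c1, c2⟩ := pv_two ((st_eq_zero (J := JW J)).not.2 b1) ((st_eq_zero (J := JW J)).not.2 b2); ⟨_, k0 z, mt a.z c1, mt a.z c2⟩
  have k3 : ∀ u v, T u → T v → T (u + v) := fun u v a1 a2 => by
    by_cases u0 : u = 0
    · simpa [u0]
    by_cases v0 : v = 0
    · simpa [v0]
    by_cases s0 : u + v = 0
    · exact s0 ▸ Form.sFull_zero hA
    obtain ⟨w, c1, c2, c3⟩ := k2 u v a1 a2 u0 s0
    by_cases c4 : (af a).B w v = 0
    swap; · exact k1 u v w a1 a2 c1 c2 c4 c3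
    obtain ⟨z, d1, d2⟩ := pv_two ((st_eq_zero (J := JW J)).not.2 u0) ((st_eq_zero (J := JW J)).not.2 v0)
    replace d1 : (af a).B (pv z) u ≠ 0 := mt a.z d1
    replace d2 : (af a).B (pv z) v ≠ 0 := mt a.z d2
    by_cases d3 : (af a).B (pv z) (u + v) = 0
    swap; · exact k1 u v _ a1 a2 (k0 z) d1 d2 d3
    have h2 := H.h2
    have := k1 _ v _ (a1.smul hA (-1)) a2 (k0 z) (by simpa) d2 fun e => d2 (mul_left_cancel₀ h2 (by simp at e d3; linear_combination e + d3))
    convert k1 _ _ w (a1.smul hA 2) this c1 (by simp [*]) (by simpa [c4]) (by rwa [show (2 : F) • u + ((-1 : F) • u + v) = u + v by module]) using 1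
    module
  have := Form.eq_top_of_sFull hA (pv_top (L := ⟨⟨⟨setOf T, k3 _ _⟩, Form.sFull_zero hA⟩, fun c _ m => m.smul hA c⟩) k0)
  exact glEquiv.symm_apply_apply g ▸ this.ge (Subgroup.mem_top (⟨glEquiv g, is_iff.1 m, fun _ => rfl⟩ : (af a).Isom))
theorem is_fp (π : Equiv.Perm τ) : Is (JW J) (fp κ F π) := by
  have : (fp κ F π).1ᵀ = ((fp κ F π)⁻¹).1 := by ext x y; simp [fp, eq_comm (a := y), Equiv.eq_comp_symm, Equiv.Perm.inv_def, eq_comm (a := x)]
  rw [Is, ad_apply, this, mul_assoc, ← cj_eq_iff.1 (show cj (fp κ F π) (JW J).1 = (JW J).1 from cj_fp π fun _ => J.1)]; simp [mul_assoc]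
theorem nl_pt [Nontrivial κ] (hJ : Al J) (h2 : (2 : F) ≠ 0) (h : PT J K A) (hK : 2 ≤ K.card) {g : GL (τ → κ) F} (e : g.1 = 1 + pt A) : g ∉ HH τ κ F := fun m => by
  have k : ∀ l ∈ K, ¬ Cm l (pt A) := fun l m c => by
    obtain ⟨u, u0, e⟩ : ∃ u, u ≠ 0 ∧ vecMulVec u (st J u) * A l = 0 := by
      obtain ⟨u, c, u0, -, e⟩ | ⟨u, w, u0, -, e', e⟩ := h.1 l m <;> exact ⟨u, u0, by simp [*, mul_sub, vecMulVec_mul_vecMulVec, hJ u]⟩
    exact pt_ne (fun l => by by_cases c : l ∈ K <;> simp [(h.1 l · |>.ne hJ), h.2, c])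
      (c.of_VV u0 (by simpa : st J u ≠ 0) (by rw [VV, pi1_apply, ← map_mul]; exact pt_zero (l := l) (by simpa)))
  obtain ⟨p, hp, q, hq, n⟩ := Finset.one_lt_card.1 hK
  have s : pt A * pt A = 0 := by rw [← map_mul]; exact pt_zero (l := p) ((h.1 p hp).sq hJ)
  obtain ⟨a, e⟩ := (rmulo h2 s e (odd2 h2 s e m p)).resolve_left (k p hp)
  exact k q hq (e ▸ cm_pi1 n a)
theorem wreath_max_s [Fintype F] {m : ℕ} (hodd : Odd (Fintype.card F)) {k t : ℕ} (ht : Odd t) (ht3 : 3 ≤ t) (hm : 1 ≤ m) (hex : ¬ (Fintype.card F = 3 ∧ k = 2))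
    {e : (Fin m ⊕ Fin m) ≃ (Fin t → Fin k)} {P : GL (Fin m ⊕ Fin m) F} {f₁} (hf₁ : IsSymplecticForm f₁) (hT : IsTensorPowerFormStructure id (sympForm m F) f₁ e P) :
    IsMaximalIn (spGL m F) (tensorWreathSubgroup k t e P ⊓ spGL m F) := by
  have : NeZero t := ⟨by omega⟩
  have k0 : k ≠ 0 := by rintro rfl; exact (e (.inl ⟨0, hm⟩) 0).elim0
  have ek : Even k := by simpa using even_of_symp hf₁
  have : Nontrivial (Fin k) := Fin.nontrivial_iff_two_le.2 (by grind)
  have h2 : (2 : F) ≠ 0 := Ring.two_ne_zero fun h => by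
    have := FiniteField.even_card_of_char_two h
    grind
  obtain ⟨J, hJ⟩ := (sf_of_symp hf₁).isUnit_gram
  have a : Al J := al_of h2 (by rw [hJ, (sf_of_symp hf₁).gram_symm]; simp)
  have hc : 4 ≤ Fintype.card (Fin k) ∨ 5 ≤ Fintype.card F := by have := Fintype.one_lt_card (α := F); simp; grind
  have hq : 3 ≤ Fintype.card (Fin k) ∨ Fintype.card (Fin k) = 2 ∧ ∃ l : F, l ≠ 0 ∧ l * l ≠ 1 := by
    classical
    refine or_iff_not_imp_left.2 fun h => ⟨by simp at h ⊢; grind, by_contra fun n => ?_⟩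
    have := Finset.card_le_card (show Finset.univ ⊆ ({0, 1, -1} : Finset F) from fun l _ => by
      simpa [or_iff_not_imp_left (a := l = 0), ← mul_self_eq_one_iff] using fun e => by_contra fun e' => n ⟨l, e, e'⟩)
    have := Finset.card_le_three (a := (0 : F)) (b := 1) (c := -1)
    simp at *; omega
  obtain ⟨c, c0, hT⟩ := hT
  have k1 : ∀ x y, pf e P (sympForm m F) x y = c * (st (JW J) x ⬝ᵥ y) := fun x y =>
    (hT _ _).trans (congrArg _ ((formOfGram_eq (σ := .id F) (pt fun _ => gramMatrix f₁) x y).trans (by rw [← hJ, st_apply, dotProduct_mulVec]; rfl)))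
  obtain ⟨o⟩ : Nonempty (Fin k) := inferInstance
  have p : PE J .univ fun _ : Fin t => vecMulVec (Pi.single o 1) (st J (Pi.single o 1)) := ⟨fun _ _ => ⟨Pi.single o 1, 1, by simp, one_ne_zero, by simp⟩, by simp⟩
  refine max_of (pl e P) (S' := SPg (JW J)) (T' := HH _ _ F) (fun g => ?_) (fun g => mem_iff) (fun h => nl_pt a h2 ⟨fun l m => .inl (p.1 l m), p.2⟩ (by simp; omega) rfl
    (h (is_tv (by rw [← map_mul]; exact pt_zero (l := 0) (RT.sq a (.inl (p.1 0 (by simp))))) (by simp [p.ad a, ht.neg_one_pow])))) fun M h1 h3 => ?_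
  · refine Iff.trans (b := Sim (sympForm m F) g 1) (by simp [Sim]; rfl) ((sim_pl e P).symm.trans ?_)
    simp only [Sim, k1, one_mul, mul_right_inj' c0]
    exact is_iff.symm
  have H : HS J M := ⟨a, h2, h3, fun i d b => h1 ⟨fun j => ⟨j, mp_piU d j⟩, b.piU i⟩⟩
  by_cases hp : PatS J M
  · exact .inl (sp_le H (by simpa) (ae_univ H (fun π => h1 ⟨fun j => ⟨π j, fun a => ⟨a, cj_fp_pi1 π j a⟩⟩, is_fp π⟩) (by simpa) hp))
  · exact .inr (le_HHs H hp hq hc)
end H09.Wr
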