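import Mathlib
import Cfsg.Agent.H09.WsE
/-! Orthogonal tensor-wreath subgroups: geometry of a factor. -/
namespace H09.Wr
open Matrix H10 H10.As Module
variable {ι : Type} [Fintype ι] [DecidableEq ι] {F : Type*} [Field F] {J g d : GL ι F} {u u' v w x y a b : ι → F} {c : F}
set_option hygiene false in
local notation "⟪" a ", " b "⟫" => Wr.st J a ⬝ᵥ b
variable (J) in
/-- symmetric forms in odd characteristic -/
structure S2 : Prop where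
  c : ∀ u v, ⟪u, v⟫ = ⟪v, u⟫
  h2 : (2 : F) ≠ 0
variable (J) in
/-- elementary skew matrices -/
def dw (a b : ι → F) : Matrix ι ι F := vecMulVec a (st J b) - vecMulVec b (st J a)
theorem dw_mv (a b x) : dw J a b *ᵥ x = ⟪b, x⟫ • a - ⟪a, x⟫ • b := by simp [dw, sub_mulVec, vecMulVec_mulVec]
theorem dw_add (a b b') : dw J a (b + b') = dw J a b + dw J a b' := by simp only [dw, map_add, vecMulVec_add, add_vecMulVec]; abel
theorem dw_smul (c : F) (a b) : dw J a (c • b) = c • dw J a b := by simp [dw, smul_sub]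
theorem dw_smul' (c : F) (a b) : dw J (c • a) b = c • dw J a b := by simp [dw, smul_sub]
theorem dw_self (a) : dw J a a = 0 := sub_self _
theorem Is.cj_dw (h : Is J g) (a b) : cj g (dw J a b) = dw J (g.1 *ᵥ a) (g.1 *ᵥ b) := by simp [dw, h.cj_vv]
theorem Is.dot (h : Is J g) (a b) : ⟪g.1 *ᵥ a, g.1 *ᵥ b⟫ = ⟪a, b⟫ := is_iff.1 h a b
variable (J) in
/-- the commutator subgroup of the isometry group -/
def Om : Subgroup (GL ι F) := ⁅SPg J, SPg J⁆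
theorem Om.is (h : g ∈ Om J) : Is J g := (Subgroup.commutator_le.2 fun _ a _ b => mul_mem (mul_mem (mul_mem a b) (inv_mem a)) (inv_mem b) : Om J ≤ SPg J) h
theorem om_comm (h : Is J g) (h' : Is J d) : g * (d * g⁻¹ * d⁻¹) ∈ Om J := by
  simpa [Om, commutatorElement_def, mul_assoc] using Subgroup.commutator_mem_commutator (H₁ := SPg J) (H₂ := SPg J) h h'
/-- reflections -/
def rf (n : ⟪x, x⟫ ≠ 0) : GL ι F :=
  have e : (1 - (2 / ⟪x, x⟫) • vecMulVec x (st J x)) * (1 - (2 / ⟪x, x⟫) • vecMulVec x (st J x)) = 1 := by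
    simp only [mul_sub, sub_mul, mul_one, one_mul, smul_mul_smul, vecMulVec_mul_vecMulVec, vecMulVec_smul, smul_smul]
    match_scalars <;> field_simp <;> ring
  ⟨_, _, e, e⟩
theorem rf_val (n : ⟪x, x⟫ ≠ 0) : (rf n).1 = 1 - (2 / ⟪x, x⟫) • vecMulVec x (st J x) := rfl
theorem rf_inv (n : ⟪x, x⟫ ≠ 0) : (rf n)⁻¹ = rf n := rfl
theorem rf_mv (n : ⟪x, x⟫ ≠ 0) (y) : (rf n).1 *ᵥ y = y - (2 / ⟪x, x⟫ * ⟪x, y⟫) • x := by simp [rf_val, sub_mulVec, smul_mulVec, vecMulVec_mulVec, smul_smul]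
namespace S2
variable (h : S2 J)
include h
theorem z (e : ⟪u, v⟫ = 0) : ⟪v, u⟫ = 0 := by rw [h.c, e]
theorem tr : J.1ᵀ = (1 : F) • J.1 := by ext i j; simpa [st_apply] using h.c (Pi.single j 1) (Pi.single i 1)
theorem adad (a) : ad J (ad J a) = a := ad_ad one_ne_zero h.tr a
theorem ad_vv (u v) : ad J (vecMulVec u (st J v)) = vecMulVec v (st J u) := by
  rw [ad_apply, transpose_vecMulVec, mul_vecMulVec, vecMulVec_mul, st_apply, ← mulVec_transpose, h.tr]; simp [st_apply]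
theorem ad_dw (a b) : ad J (dw J a b) = -dw J a b := by simp [dw, h.ad_vv]
theorem dot_ad (A : Matrix ι ι F) (a b) : ⟪A *ᵥ a, b⟫ = ⟪a, ad J A *ᵥ b⟫ := by
  rw [ad_apply, st_apply, st_apply, ← vecMul_transpose, dotProduct_mulVec, vecMul_vecMul, vecMul_vecMul]; simp [mul_assoc]
theorem ex2 (e : u ∉ F ∙ v) : ∃ w, ⟪u, w⟫ = 1 ∧ ⟪v, w⟫ = 0 := by
  obtain ⟨φ, a, b⟩ := Wr.ex2 e
  obtain ⟨w, rfl⟩ := st_surj (J := J) φ
  exact ⟨w, by rwa [h.c], h.z b⟩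
theorem pa (u0 : u ≠ 0) (hu : ⟪u, u⟫ = 0) : ∃ u', ⟪u, u'⟫ = 1 ∧ ⟪u', u⟫ = 1 ∧ ⟪u', u'⟫ = 0 := by
  obtain ⟨v, e⟩ := ex_st (J := J) u0
  have := h.h2
  exact ⟨v - (⟪v, v⟫ / 2) • u, by simp [*], by simp [h.c v u, *], by simp [h.c v u, e, hu]; field_simp; ring⟩
theorem exn (e : ⟪a, b⟫ ≠ 0) : ⟪a, a⟫ ≠ 0 ∨ ⟪b, b⟫ ≠ 0 ∨ ⟪a + b, a + b⟫ ≠ 0 := by
  by_contra! k
  exact e (mul_left_cancel₀ h.h2 (by simpa [k.1, k.2.1, h.c b a, two_mul] using k.2.2))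
theorem exns {P : Matrix ι ι F} (h1 : P * P = P) (h2 : ad J P = P) (n0 : x ≠ 0) (e : P *ᵥ x = 0) : ∃ n, P *ᵥ n = 0 ∧ ⟪n, n⟫ ≠ 0 := by
  obtain ⟨y, hy⟩ := ex_st (J := J) n0
  have k : P *ᵥ (y - P *ᵥ y) = 0 := by simp [mulVec_sub, h1]
  rcases h.exn (a := x) (b := y - P *ᵥ y) (by rw [dotProduct_sub, ← h2, ← h.dot_ad, e]; simp [hy]) with n | n | n
  exacts [⟨_, e, n⟩, ⟨_, k, n⟩, ⟨_, by rw [mulVec_add, e, k, add_zero], n⟩]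
theorem ns2 (hk : 3 ≤ Fintype.card ι) (hu : ⟪u, u⟫ = 0) (h1 : ⟪u, u'⟫ = 1) (h2 : ⟪u', u'⟫ = 0) : ∃ n, ⟪u, n⟫ = 0 ∧ ⟪u', n⟫ = 0 ∧ ⟪n, n⟫ ≠ 0 := by
  obtain ⟨x, x0, a, b⟩ := ex3 hk (st J u) (st J u')
  rw [dotProduct_comm] at a b
  obtain ⟨n, e, n0⟩ := h.exns (P := vecMulVec u (st J u') + vecMulVec u' (st J u)) (by simp [mul_add, add_mul, vecMulVec_mul_vecMulVec, h.c u' u, *])
    (by simp [h.ad_vv, add_comm]) x0 (by simp [add_mulVec, vecMulVec_mulVec, *])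
  exact ⟨n, by simpa [add_mulVec, vecMulVec_mulVec, hu, h1] using congrArg (⟪u, ·⟫) e,
    by simpa [add_mulVec, vecMulVec_mulVec, h.c u' u, h1, h2] using congrArg (⟪u', ·⟫) e, n0⟩
theorem ind {P : (ι → F) → Prop} {n} (e : ⟪u, n⟫ = 0) (n0 : ⟪n, n⟫ ≠ 0) (h1 : ∀ x, ⟪u, x⟫ = 0 → ⟪x, x⟫ ≠ 0 → P x) (h2 : ∀ x y, P x → P y → P (x + y))
    (hx : ⟪u, x⟫ = 0) : P x := by
  by_cases c : ⟪x + n, x + n⟫ = 0
  · by_cases c' : ⟪x - n, x - n⟫ = 0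
    · refine h1 x hx fun k => n0 (mul_left_cancel₀ h.h2 ?_)
      simp only [map_add, map_sub, add_dotProduct, dotProduct_add, sub_dotProduct, dotProduct_sub, k] at c c'
      linear_combination c + c'
    · simpa using h2 _ _ (h1 _ (by simp [*]) c') (h1 n e n0)
  · simpa using h2 _ _ (h1 _ (by simp [*]) c) (h1 (-n) (by simp [*]) (by simpa))
theorem is_rf (n : ⟪x, x⟫ ≠ 0) : Is J (rf n) := by rw [Is, ← (rf n).inv_mul]; simp [rf_val, rf_inv, h.ad_vv]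
theorem cj_rf (n : ⟪x, x⟫ ≠ 0) (e : Is J d) (n' : ⟪y, y⟫ ≠ 0) (c0 : c ≠ 0) (e' : d.1 *ᵥ x = c • y) : d * rf n * d⁻¹ = rf n' := Units.ext (by
  have := e.dot x x
  simp only [e', map_smul, smul_dotProduct, dotProduct_smul, smul_eq_mul] at this
  rw [← cj_val, rf_val, rf_val, map_sub, map_one, map_smul, e.cj_vv, e', ← this]
  simp only [map_smul, smul_vecMulVec, vecMulVec_smul, smul_smul]; congr 2; field_simp)
theorem rr (n : ⟪x, x⟫ ≠ 0) (n' : ⟪y, y⟫ ≠ 0) (c0 : c ≠ 0) (e : ⟪x, x⟫ = c * c * ⟪y, y⟫) : rf n * rf n' ∈ Om J := by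
  have k : ∀ c : F, c ≠ 0 → ⟪x, x⟫ = c * c * ⟪y, y⟫ → ⟪x - c • y, x - c • y⟫ ≠ 0 → rf n * rf n' ∈ Om J := fun c c0 e m => by
    rw [← h.cj_rf n (h.is_rf m) n' c0 (by
      rw [rf_mv]
      have : ⟪x - c • y, x - c • y⟫ = 2 * ⟪x - c • y, x⟫ := by simp [h.c y x, e]; ring
      rw [div_mul_eq_mul_div, ← this, div_self m]; simp)]
    exact om_comm (h.is_rf n) (h.is_rf m)
  by_cases m : ⟪x - c • y, x - c • y⟫ = 0
  · refine k (-c) (by simpa) (by simpa) fun m' => n (mul_left_cancel₀ (mul_ne_zero h.h2 h.h2) ?_)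
    simp only [map_sub, map_smul, sub_dotProduct, dotProduct_sub, smul_dotProduct, dotProduct_smul, smul_eq_mul] at m m'
    linear_combination m + m' + 2 * e
  · exact k c c0 e m
theorem dw_mul (hu : ⟪u, u⟫ = 0) (ha : ⟪u, a⟫ = 0) (hb : ⟪u, b⟫ = 0) : dw J u a * dw J u b = -⟪a, b⟫ • vecMulVec u (st J u) := by
  simp [dw, mul_sub, sub_mul, vecMulVec_mul_vecMulVec, h.z ha, *]
theorem dw_E (hu : ⟪u, u⟫ = 0) (ha : ⟪u, a⟫ = 0) (φ : ι → F) : dw J u a * vecMulVec u φ = 0 := by simp [dw, sub_mul, vecMulVec_mul_vecMulVec, h.z ha, *]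
theorem E_dw (hu : ⟪u, u⟫ = 0) (ha : ⟪u, a⟫ = 0) (b : ι → F) : vecMulVec b (st J u) * dw J u a = 0 := by simp [dw, mul_sub, vecMulVec_mul_vecMulVec, *]
/-- Siegel matrices -/
def _root_.H09.Wr.sm (J : GL ι F) (u w : ι → F) : Matrix ι ι F := 1 + dw J u w - (⟪w, w⟫ / 2) • vecMulVec u (st J u)
theorem sm_mul (hu : ⟪u, u⟫ = 0) (ha : ⟪u, a⟫ = 0) (hb : ⟪u, b⟫ = 0) : sm J u a * sm J u b = sm J u (a + b) := by
  have := h.h2
  simp only [sm, mul_add, add_mul, mul_sub, sub_mul, mul_one, one_mul, mul_smul_comm, smul_mul_assoc, h.dw_mul hu ha hb, h.dw_E hu ha, h.E_dw hu hb, dw_add,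
    vecMulVec_mul_vecMulVec, hu, zero_smul, vecMulVec_zero, map_add, add_dotProduct, dotProduct_add, h.c b a]
  match_scalars <;> field_simp <;> ring
omit h in
theorem _root_.H09.Wr.sm_zero : sm J u 0 = 1 := by simp [sm, dw]
/-- Siegel elements -/
def sg (hu : ⟪u, u⟫ = 0) (hw : ⟪u, w⟫ = 0) : GL ι F :=
  ⟨sm J u w, sm J u (-w), by rw [h.sm_mul hu hw (by simp [hw])]; simp [sm_zero], by rw [h.sm_mul hu (by simp [hw]) hw]; simp [sm_zero]⟩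
theorem sg_val (hu : ⟪u, u⟫ = 0) (hw : ⟪u, w⟫ = 0) : (h.sg hu hw).1 = sm J u w := rfl
theorem sg_inv (hu : ⟪u, u⟫ = 0) (hw : ⟪u, w⟫ = 0) : ((h.sg hu hw)⁻¹).1 = sm J u (-w) := rfl
theorem is_sg (hu : ⟪u, u⟫ = 0) (hw : ⟪u, w⟫ = 0) : Is J (h.sg hu hw) := by
  rw [Is, ← (h.sg hu hw).inv_mul, sg_inv, sg_val]; congr 1; simp [sm, h.ad_vv, dw]; abel
theorem sm_mv (u w x) : sm J u w *ᵥ x = x + ⟪w, x⟫ • u - ⟪u, x⟫ • w - (⟪w, w⟫ / 2 * ⟪u, x⟫) • u := by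
  simp [sm, add_mulVec, sub_mulVec, smul_mulVec, dw_mv, vecMulVec_mulVec, smul_smul, add_sub_assoc]
theorem sg_om (hk : 3 ≤ Fintype.card ι) (u0 : u ≠ 0) (hu : ⟪u, u⟫ = 0) (hw : ⟪u, w⟫ = 0) : h.sg hu hw ∈ Om J := by
  obtain ⟨u', h1, -, h2⟩ := h.pa u0 hu
  obtain ⟨n, e, -, n0⟩ := h.ns2 hk hu h1 h2
  refine h.ind (P := fun w => ⟪u, w⟫ = 0 ∧ ∀ hw : ⟪u, w⟫ = 0, h.sg hu hw ∈ Om J) e n0 (fun w hw n => ⟨hw, fun _ => ?_⟩) (fun x y a b => ⟨by simp [a.1, b.1], fun e =>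
    (Units.ext (h.sm_mul hu a.1 b.1) : h.sg hu a.1 * h.sg hu b.1 = h.sg hu e) ▸ mul_mem (a.2 a.1) (b.2 b.1)⟩) hw |>.2 hw
  have e : ⟪u, (2 : F)⁻¹ • w⟫ = 0 := by simp [hw]
  convert om_comm (h.is_sg hu e) (h.is_rf n) using 1
  refine Units.ext ?_
  have e1 : (rf n).1 *ᵥ w = -w := by rw [rf_mv, div_mul_cancel₀ _ n]; module
  rw [Units.val_mul, ← cj_val, sg_inv, sg_val, sg_val, show cj (rf n) (sm J u (-((2 : F)⁻¹ • w))) = sm J u ((2 : F)⁻¹ • w) by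
    simp [sm, (h.is_rf n).cj_dw, (h.is_rf n).cj_vv, mulVec_neg, mulVec_smul, e1, rf_mv n u, h.z hw], h.sm_mul hu e e, ← add_smul, ← two_mul,
    mul_inv_cancel₀ h.h2, one_smul]
theorem tor (hu : ⟪u, u⟫ = 0) (h1 : ⟪u, u'⟫ = 1) (h2 : ⟪u', u'⟫ = 0) (c0 : c ≠ 0) :
    ∃ d ∈ Om J, d.1 = 1 + (c * c - 1) • vecMulVec u (st J u') + ((c * c)⁻¹ - 1) • vecMulVec u' (st J u) := by
  have := h.h2
  have k : ∀ c : F, ⟪u - c • u', u - c • u'⟫ = -2 * c := fun c => by simp [h.c u' u, *]; ring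
  refine ⟨_, h.rr (x := u - (1 : F) • u') (y := u - (c * c) • u') (c := c⁻¹) (by rw [k]; simpa) (by rw [k]; simp [*]) (by simpa) (by rw [k, k]; field_simp), ?_⟩
  simp only [Units.val_mul, rf_val, k]
  simp only [map_sub, map_smul, mul_sub, sub_mul, mul_one, one_mul, smul_mul_assoc, mul_smul_comm, sub_vecMulVec, vecMulVec_sub, smul_vecMulVec,
    vecMulVec_smul, vecMulVec_mul_vecMulVec, hu, h1, h2, h.c u' u, zero_smul, one_smul, vecMulVec_zero]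
  match_scalars <;> field_simp <;> ring
theorem trs (hk : 3 ≤ Fintype.card ι) (u0 : u ≠ 0) (hu : ⟪u, u⟫ = 0) (v0 : v ≠ 0) (hv : ⟪v, v⟫ = 0) : ∃ d ∈ Om J, ∃ c : F, c ≠ 0 ∧ d.1 *ᵥ u = c • v := by
  have k : ∀ u v, ⟪u, u⟫ = 0 → ⟪v, v⟫ = 0 → ⟪v, u⟫ ≠ 0 → ∃ d ∈ Om J, ∃ c : F, c ≠ 0 ∧ d.1 *ᵥ u = c • v := fun u v hu hv n => by
    obtain ⟨v', h1, -, h2⟩ := h.pa (u := v) (by rintro rfl; simp at n) hv
    obtain ⟨x, e, -, x0⟩ := h.ns2 hk hv h1 h2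
    have := h.h2
    have k : ⟪u - (-⟪x, x⟫ / (2 * ⟪v, u⟫)) • v, u - (-⟪x, x⟫ / (2 * ⟪v, u⟫)) • v⟫ = ⟪x, x⟫ := by simp [h.c u v, hu, hv]; field_simp; ring
    refine ⟨_, h.rr x0 (k ▸ x0) one_ne_zero (by rw [k]; simp), -⟪x, x⟫ / (2 * ⟪v, u⟫), by simp [*], ?_⟩
    rw [Units.val_mul, ← mulVec_mulVec, rf_mv _ u, k, show 2 / ⟪x, x⟫ * ⟪u - (-⟪x, x⟫ / (2 * ⟪v, u⟫)) • v, u⟫ = 1 by simp [hu]; field_simp]
    simp [mulVec_smul, rf_mv, h.z e]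
  by_cases n : ⟪v, u⟫ = 0
  · obtain ⟨y, a, b⟩ := ex_two ((st_eq_zero (J := J)).not.2 u0) ((st_eq_zero (J := J)).not.2 v0)
    have := h.h2
    have e : ⟪y - (⟪y, y⟫ / (2 * ⟪u, y⟫)) • u, y - (⟪y, y⟫ / (2 * ⟪u, y⟫)) • u⟫ = 0 := by simp [h.c y u, hu]; field_simp; ring
    obtain ⟨d, m, c, c0, e1⟩ := k u _ hu e (by simpa [hu, h.c y u])
    obtain ⟨d', m', c', c0', e2⟩ := k _ v e hv (by simpa [n])
    exact ⟨d' * d, mul_mem m' m, c * c', mul_ne_zero c0 c0', by rw [Units.val_mul, ← mulVec_mulVec, e1, mulVec_smul, e2, smul_smul]⟩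
  · exact k u v hu hv n
theorem span (hk : 3 ≤ Fintype.card ι) (u0 : u ≠ 0) (hu : ⟪u, u⟫ = 0) (x) : x ∈ Submodule.span F {b | ⟪b, b⟫ = 0 ∧ ⟪b, u⟫ ≠ 0} := by
  obtain ⟨u', h1, h1', h2⟩ := h.pa u0 hu
  obtain ⟨n, e, e', n0⟩ := h.ns2 hk hu h1 h2
  have := h.h2
  have k : ∀ y, ⟪u, y⟫ = 1 → y - (⟪y, y⟫ / 2) • u ∈ Submodule.span F {b | ⟪b, b⟫ = 0 ∧ ⟪b, u⟫ ≠ 0} := fun y a =>
    Submodule.subset_span ⟨by simp [h.c y u, *]; field_simp; ring, by simp [h.c y u, *]⟩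
  have k1 := k u' h1
  have k2 := sub_mem (add_mem (k (u' + n) (by simp [*])) (k (u' - n) (by simp [*]))) (Submodule.smul_mem _ 2 k1)
  simp only [map_add, map_sub, add_dotProduct, dotProduct_add, sub_dotProduct, dotProduct_sub, h2, e', h.z e', zero_div, zero_smul, sub_zero] at k1 k2
  rw [show u' + n - ((0 + 0 + (0 + ⟪n, n⟫)) / 2) • u + (u' - n - ((0 - (0 - ⟪n, n⟫)) / 2) • u) - (2 : F) • u' = -⟪n, n⟫ • u by match_scalars <;> field_simp <;> ring,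
    Submodule.smul_mem_iff _ (by simpa)] at k2
  have k3 := k (x + (1 - ⟪u, x⟫) • u') (by simp [*])
  rw [Submodule.sub_mem_iff_left _ (Submodule.smul_mem _ _ k2)] at k3
  simpa using sub_mem k3 (Submodule.smul_mem _ (1 - ⟪u, x⟫) k1)
theorem gen (hk : 3 ≤ Fintype.card ι) {S : Subalgebra F (Matrix ι ι F)} (hu : ⟪u, u⟫ = 0) (h1 : ⟪u, u'⟫ = 1) (h2 : ⟪u', u'⟫ = 0)
    (k1 : ∀ x, ⟪u, x⟫ = 0 → dw J u x ∈ S) (k2 : vecMulVec u' (st J u') ∈ S) (A) : A ∈ S := by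
  obtain ⟨n, e, -, n0⟩ := h.ns2 hk hu h1 h2
  have k3 : vecMulVec u (st J u) ∈ S := by simpa [h.dw_mul hu e e, smul_smul, n0] using S.smul_mem (mul_mem (k1 n e) (k1 n e)) (-⟪n, n⟫⁻¹)
  have h1' := h.c u' u ▸ h1
  have k4 : vecMulVec u (st J u') ∈ S := by simpa [vecMulVec_mul_vecMulVec, h1] using mul_mem k3 k2
  have k5 : vecMulVec u' (st J u) ∈ S := by simpa [vecMulVec_mul_vecMulVec, h1'] using mul_mem k2 k3
  have k6 : ∀ b, vecMulVec b (st J u) ∈ S ∧ vecMulVec u (st J b) ∈ S := fun b => by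
    have := k1 (b - ⟪u, b⟫ • u') (by simp [h1])
    constructor
    · convert add_mem (sub_mem (S.smul_mem k3 ⟪b, u'⟫) (mul_mem this k5)) (S.smul_mem k5 ⟪u, b⟫) using 1
      simp [dw, sub_mul, vecMulVec_mul_vecMulVec, h1, h2, sub_vecMulVec, vecMulVec_sub]
    · convert add_mem (add_mem (S.smul_mem k3 ⟪u', b⟫) (mul_mem k4 this)) (S.smul_mem k4 ⟪u, b⟫) using 1
      simp [dw, mul_sub, vecMulVec_mul_vecMulVec, h1', h2, sub_vecMulVec, vecMulVec_sub]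
  rw [matrix_eq_sum_single A]
  refine sum_mem fun r _ => sum_mem fun s _ => ?_
  obtain ⟨c, e⟩ := st_surj (J := J) (Pi.single s 1)
  rw [show single r s (A r s) = A r s • single r s (1 : F) by simp, single_eq_single_vecMulVec_single, ← e]
  exact S.smul_mem (by simpa [vecMulVec_mul_vecMulVec, h1, h1'] using mul_mem (mul_mem (k6 _).1 k2) (k6 c).2) _
theorem dw_sm (u w) : dw J u w = (2 : F)⁻¹ • (sm J u w - sm J u (-w)) := by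
  have := h.h2
  simp only [sm, dw, map_neg, vecMulVec_neg, neg_vecMulVec, neg_dotProduct_neg]; match_scalars <;> field_simp <;> ring
end S2
variable (J) in
/-- the geometric hypotheses on a factor -/
structure GO : Prop extends S2 J where
  hk : 3 ≤ Fintype.card ι
  sing : ∃ u, u ≠ 0 ∧ ⟪u, u⟫ = 0
  hq : (∃ c : F, c ≠ 0 ∧ c * c ≠ 1) ∨ (∀ c : F, c ≠ 0 → c * c = 1) ∧ 4 ≤ Fintype.card ι ∧
    ∀ u x, u ≠ 0 → ⟪u, u⟫ = 0 → ⟪u, x⟫ = 0 → ⟪x, x⟫ ≠ 0 → ∃ y, ⟪u, y⟫ = 0 ∧ ⟪x, y⟫ = 0 ∧ ⟪y, y⟫ = ⟪x, x⟫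
  h4 : Fintype.card ι ≤ 4 → ∀ u y, u ≠ 0 → ⟪u, u⟫ = 0 → ⟪y, y⟫ = 0 → ⟪u, y⟫ = 0 → y ∈ F ∙ u
namespace GO
variable (h : GO J)
include h
theorem ns (u0 : u ≠ 0) (hu : ⟪u, u⟫ = 0) : ∃ n, ⟪u, n⟫ = 0 ∧ ⟪n, n⟫ ≠ 0 :=
  let ⟨_, h1, _, h2⟩ := h.pa u0 hu; let ⟨n, a, _, b⟩ := h.ns2 h.hk hu h1 h2; ⟨n, a, b⟩
theorem ind' {P : (ι → F) → Prop} (u0 : u ≠ 0) (hu : ⟪u, u⟫ = 0) (h1 : ∀ x, ⟪u, x⟫ = 0 → ⟪x, x⟫ ≠ 0 → P x) (h2 : ∀ x y, P x → P y → P (x + y))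
    (hx : ⟪u, x⟫ = 0) : P x := let ⟨_, a, b⟩ := h.ns u0 hu; h.ind a b h1 h2 hx
theorem hq' (hu : ⟪u, u⟫ = 0) (h1 : ⟪u, u'⟫ = 1) (hx : ⟪u, x⟫ = 0) (n : ⟪x, x⟫ ≠ 0) : (∃ c : F, c ≠ 0 ∧ c * c ≠ 1) ∨ (∀ c : F, c ≠ 0 → c * c = 1) ∧ 4 ≤ Fintype.card ι ∧
    ∃ y, ⟪u, y⟫ = 0 ∧ ⟪u', y⟫ = 0 ∧ ⟪x, y⟫ = 0 ∧ ⟪y, y⟫ = ⟪x, x⟫ := h.hq.imp_right fun ⟨a, b, c⟩ =>
  let ⟨y, e1, e2, e3⟩ := c u x (by rintro rfl; simp at h1) hu hx n
  ⟨a, b, y - ⟪u', y⟫ • u, by simp [*], by simp [h.c u' u, *], by simp [h.z hx, *], by simp [h.z e1, *]⟩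
theorem ns4 (u0 : u ≠ 0) (hu : ⟪u, u⟫ = 0) (hy : ⟪y, y⟫ = 0) (e : ⟪u, y⟫ = 0) (m : y ∉ F ∙ u) : ∃ n, ⟪u, n⟫ = 0 ∧ ⟪y, n⟫ = 0 ∧ ⟪n, n⟫ ≠ 0 := by
  obtain ⟨y', a1, a2⟩ := h.ex2 m
  obtain ⟨u', b1, b2⟩ := h.ex2 (nsym m u0)
  let _ : StarRing F := starRingOfComm
  obtain ⟨n, n0, k⟩ := exk ![st J u, st J y, st J u', st J y'] (by by_contra! c; exact m (h.h4 c u y u0 hu hy e))
  obtain ⟨z, hz⟩ := ex_st (J := J) n0
  have k0 : ⟪u, n⟫ = 0 := k 0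
  have k1 : ⟪y, n⟫ = 0 := k 1
  rcases h.exn (a := n) (b := z - ⟪u, z⟫ • u' - ⟪y, z⟫ • y') (by simp [hz, h.z (k 2), h.z (k 3)]) with c | c | c <;> exact ⟨_, by simp [*], by simp [*], c⟩
theorem om_top {L : Submodule F (Matrix ι ι F)} (e : ∀ d ∈ Om J, d.1 ∈ L) (A) : A ∈ L := by
  obtain ⟨u, u0, hu⟩ := h.sing
  obtain ⟨u', h1, h1', h2⟩ := h.pa u0 hu
  let S := Algebra.adjoin F ((Om J).toSubmonoid.map (Units.coeHom _) : Set (Matrix ι ι F))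
  have k : ∀ u w, u ≠ 0 → ⟪u, u⟫ = 0 → ⟪u, w⟫ = 0 → dw J u w ∈ S := fun u w u0 hu hw => h.dw_sm u w ▸ S.smul_mem (sub_mem
    (Algebra.subset_adjoin ⟨_, h.sg_om h.hk u0 hu hw, rfl⟩) (Algebra.subset_adjoin ⟨_, (Om J).inv_mem (h.sg_om h.hk u0 hu hw), rfl⟩)) _
  have u0' : u' ≠ 0 := by rintro rfl; simp at h1
  obtain ⟨n, e', n0⟩ := h.ns u0' h2
  have : A ∈ S.toSubmodule := h.gen h.hk hu h1 h2 (fun x => k u x u0 hu) (by
    simpa [h.dw_mul h2 e' e', smul_smul, n0] using S.smul_mem (mul_mem (k u' n u0' h2 e') (k u' n u0' h2 e')) (-⟪n, n⟫⁻¹)) A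
  rw [Algebra.adjoin_eq_span, Submonoid.closure_eq] at this
  exact Submodule.span_le.2 (by rintro _ ⟨d, m, rfl⟩; exact e d m) this
theorem irr {S : Submodule F (ι → F)} (u0 : u ≠ 0) (hu : ⟪u, u⟫ = 0) (hw : ⟪u, w⟫ = 0) (n : ⟪w, w⟫ ≠ 0) (m : w ∈ S)
    (k : ∀ x, ⟪u, x⟫ = 0 → ⟪x, x⟫ ≠ 0 → ∀ y ∈ S, ⟪x, y⟫ ≠ 0 → x ∈ S) (hx : ⟪u, x⟫ = 0) : x ∈ S := by
  have k1 : ∀ x (c : F), ⟪u, x⟫ = 0 → ⟪w, x⟫ = 0 → c ≠ 0 → ⟪w, w⟫ + c * c * ⟪x, x⟫ ≠ 0 → x ∈ S := fun x c a b c0 e => by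
    simpa [S.smul_mem_iff c0] using sub_mem (k (w + c • x) (by simp [*]) (by simpa [b, h.z b, mul_assoc] using e) w m (by simp [h.z b, n])) m
  refine h.ind hw n (fun x a b => ?_) (fun _ _ => add_mem) hx
  by_cases c : ⟪w, x⟫ = 0
  swap; · exact k x a b w m (mt h.z c)
  by_cases c1 : ⟪w, w⟫ + 1 * 1 * ⟪x, x⟫ = 0
  swap; · exact k1 x 1 a c one_ne_zero c1
  rcases h.hq with ⟨s, s0, s1⟩ | ⟨-, -, q⟩
  · exact k1 x s a c s0 fun e => s1 (mul_right_cancel₀ b (by linear_combination e - c1))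
  obtain ⟨y, e1, e2, e3⟩ := q u w u0 hu hw n
  have my := k1 y 1 e1 e2 one_ne_zero (by rw [e3, one_mul, one_mul, ← two_mul]; exact mul_ne_zero h.h2 n)
  by_cases c2 : ⟪x, y⟫ = 0
  · simpa using sub_mem (k1 (y + x) 1 (by simp [*]) (by simp [*]) one_ne_zero fun e => n (by
      simp [e3, c2, h.z c2] at e; linear_combination e - c1)) my
  · exact k x a b y my c2
variable {R : Type*} [AddCommGroup R] [Module F R] (B : (ι → F) →ₗ[F] (ι → F) →ₗ[F] R)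
theorem bs (k : ∀ u, u ≠ 0 → ⟪u, u⟫ = 0 → B u u = 0) (u0 : u ≠ 0) (hu : ⟪u, u⟫ = 0) (hx : ⟪u, x⟫ = 0) : B u x + B x u = 0 := by
  obtain ⟨u', h1, h1', h2⟩ := h.pa u0 hu
  have t := h.h2
  have u0' : u' ≠ 0 := by rintro rfl; simp at h1
  have k0 : ∀ x, ⟪u, x⟫ = 0 → ⟪u', x⟫ = 0 → B u' x + B x u' + B x x - (⟪x, x⟫ / 2) • (B u u' + B u' u + (B u x + B x u)) = 0 := fun x a b => by
    have := k (u' + x - (⟪x, x⟫ / 2) • u) (fun e => by simpa [h1, a, hu] using congrArg (⟪u, ·⟫) e) (by simp [h.z a, h.z b, *]; field_simp; ring)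
    simp only [map_add, map_sub, map_smul, LinearMap.add_apply, LinearMap.sub_apply, LinearMap.smul_apply, k u u0 hu, k u' u0' h2] at this
    linear_combination (norm := module) this
  have k1 : ∀ x, ⟪u, x⟫ = 0 → ⟪u', x⟫ = 0 → (2 : F) • (B u' x + B x u') = ⟪x, x⟫ • (B u x + B x u) := fun x a b => by
    have e1 := k0 x a b
    have e2 := k0 (-x) (by simp [a]) (by simp [b])
    simp only [map_neg, LinearMap.neg_apply, neg_dotProduct_neg] at e2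
    rw [← mul_div_cancel₀ ⟪x, x⟫ t]
    linear_combination (norm := module) e1 - e2
  have k2 : ∀ x, ⟪u, x⟫ = 0 → ⟪u', x⟫ = 0 → ⟪x, x⟫ ≠ 0 → B u x + B x u = 0 := fun x a b n => by
    rcases h.hq' hu h1 a n with ⟨c, c0, c1⟩ | ⟨-, -, y, e1, e2, e3, e4⟩
    · have e := k1 (c • x) (by simp [a]) (by simp [b])
      simp only [map_smul, LinearMap.smul_apply, smul_dotProduct, dotProduct_smul, smul_eq_mul] at e
      exact (smul_eq_zero_iff_right (mul_ne_zero (mul_ne_zero c0 (sub_ne_zero.2 c1)) n)).1 (by linear_combination (norm := module) c • k1 x a b - e)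
    · have e5 := k1 (x + y) (by simp [*]) (by simp [*])
      have e6 := k1 (x - y) (by simp [*]) (by simp [*])
      simp only [map_add, map_sub, LinearMap.add_apply, LinearMap.sub_apply, add_dotProduct, dotProduct_add, sub_dotProduct, dotProduct_sub, e3, h.z e3, e4] at e5 e6
      exact (smul_eq_zero_iff_right (mul_ne_zero t n)).1 (by linear_combination (norm := module) (2 : F) • k1 x a b - e5 - e6)
  refine h.ind' (P := fun x => B u x + B x u = 0) u0 hu (fun x a n => ?_) (fun x y a b => by simp only [map_add, LinearMap.add_apply]; linear_combination (norm := module) a + b) hx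
  simpa [k u u0 hu] using k2 (x - ⟪u', x⟫ • u) (by simp [*]) (by simp [*]) (by simpa [h.z a, a, hu])
theorem bl (k : ∀ u x, u ≠ 0 → ⟪u, u⟫ = 0 → ⟪u, x⟫ = 0 → B u x = 0 ∧ B x u = 0) (e : ⟪a, b⟫ = 0) : B a b = 0 := by
  have t := h.h2
  have k1 : ∀ u u', ⟪u, u⟫ = 0 → ⟪u, u'⟫ = 1 → ⟪u', u'⟫ = 0 → B u u' = B u' u := fun u u' hu h1 h2 => by
    have h1' := h.c u' u ▸ h1
    obtain ⟨x, a1, a2, n⟩ := h.ns2 h.hk hu h1 h2
    have u0 : u ≠ 0 := by rintro rfl; simp at h1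
    obtain ⟨e1, e2⟩ := k (u' + x - (⟪x, x⟫ / 2) • u) (x - ⟪x, x⟫ • u) (fun e => by simpa [h1, a1, hu] using congrArg (⟪u, ·⟫) e)
      (by simp [h.z a1, h.z a2, *]; field_simp; ring) (by simp [h.z a1, *])
    simp only [map_add, map_sub, map_smul, LinearMap.add_apply, LinearMap.sub_apply, LinearMap.smul_apply, k u u u0 hu hu, k u x u0 hu a1,
      k u' x (by rintro rfl; simp at h1) h2 a2] at e1 e2
    exact smul_right_injective _ n (by linear_combination (norm := module) e1 - e2)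
  obtain ⟨u, u0, hu⟩ := h.sing
  obtain ⟨u', h1, h1', h2⟩ := h.pa u0 hu
  have k2 : ∀ v v', v ≠ 0 → ⟪v, v⟫ = 0 → ⟪v, v'⟫ = 1 → ∀ y, B v y = ⟪v, y⟫ • B v v' := fun v v' v0 hv h1 y => by
    simpa [sub_eq_zero] using (k v (y - ⟪v, y⟫ • v') v0 hv (by simp [h1])).1
  have k3 : ∀ a ∈ Submodule.span F {b | ⟪b, b⟫ = 0 ∧ ⟪b, u⟫ ≠ 0}, B a b = ⟪a, b⟫ • B u u' := fun a m => by
    induction m using Submodule.span_induction with
    | mem v m =>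
      have e1 : ⟪v, ⟪v, u⟫⁻¹ • u⟫ = 1 := by simp [m.2]
      rw [k2 v _ (by rintro rfl; simp at e1) m.1 e1, k1 v _ m.1 e1 (by simp [hu]), map_smul, LinearMap.smul_apply, k2 u u' u0 hu h1, h.c u v,
        inv_smul_smul₀ m.2]
    | zero => simp
    | add x y _ _ a b => simp [a, b, add_smul]
    | smul c x _ a => simp [a, smul_smul]
  rw [k3 a (h.span h.hk u0 hu a), e, zero_smul]
end GO
end H09.Wr
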