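import Mathlib
import Cfsg.Agent.H09.WoA
/-! Orthogonal tensor-wreath subgroups: patterns. -/
namespace H09.Wr
open Matrix H10.As Module
variable {τ κ : Type} [Fintype τ] [DecidableEq τ] [Fintype κ] [DecidableEq κ] {F : Type*} [Field F]
local notation "𝒜" => Matrix (τ → κ) (τ → κ) F
variable {i j l o : τ} {β γ X Y : Matrix (τ → κ) (τ → κ) F} {g : GL (τ → κ) F} {u u' v w x y φ ψ : κ → F} {a b : Matrix κ κ F} {J d : GL κ F}
  {M : Subgroup (GL (τ → κ) F)} {L : AddSubgroup (Matrix (τ → κ) (τ → κ) F)} {K : Finset τ} {A : τ → Matrix κ κ F} {c : F}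
set_option hygiene false in
local notation "⟪" a ", " b "⟫" => Wr.st J a ⬝ᵥ b
theorem S2.ad_VV (h : S2 J) (u v : κ → F) : ad (JW J) (VV i u (st J v)) = VV i v (st J u) := by simp [VV, ad_pi1, h.ad_vv]
theorem S2.adW (h : S2 J) (X : 𝒜) : ad (JW J) (ad (JW J) X) = X := ad_ad (c := ∏ _ : τ, 1) (by simp) (by rw [JW, ptU_val, ← pt_smul, ← h.tr]; rfl) X
theorem Cm.ado (hJ : S2 J) (h : Cm i β) : Cm i (Wr.ad (JW J) β) := fun a => show _ = _ by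
  simpa [ad_mul, ad_pi1, hJ.adad] using congrArg (Wr.ad (JW J)) (h (Wr.ad J a)).eq.symm
theorem pi1_dw (a b : κ → F) : (pi1 i (dw J a b) : 𝒜) = VV i a (st J b) - VV i b (st J a) := map_sub ..
variable (J l β) in
/-- entries as a bilinear map -/
def eb : (κ → F) →ₗ[F] (κ → F) →ₗ[F] 𝒜 := LinearMap.mk₂ F (fun a b => ent l (st J a) b β) (by simp [en_add']) (by simp [en_smul']) (by simp [en_add]) (by simp [en_smul])
theorem eb_apply (a b) : eb l β J a b = ent l (st J a) b β := rfl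
variable (J M) in
/-- overgroups inside the isometry group -/
structure HO : Prop extends GO J where
  iso : ∀ g ∈ M, Is (JW J) g
  h0 : ∀ i, ∀ d ∈ Om J, piU i d ∈ M
  h1 : ∀ i j d, Is J d → piU i d * (piU j d)⁻¹ ∈ M
theorem HO.ne (H : HO J M) : Nontrivial κ := Fintype.one_lt_card_iff_nontrivial.1 (by have := H.hk; omega)
theorem HO.rr2 (H : HO J M) (i j) (n : ⟪x, x⟫ ≠ 0) (n' : ⟪y, y⟫ ≠ 0) (e : ⟪x, x⟫ = ⟪y, y⟫) : piU i (rf n) * piU j (rf n') ∈ M := by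
  simpa [mul_assoc] using mul_mem (H.h1 i j _ (H.is_rf n)) (H.h0 j _ (H.rr n n' one_ne_zero (by simpa)))
theorem HO.ptU (H : HO J M) {d : τ → GL κ F} (e : ∀ i, d i ∈ Om J) : ptU d ∈ M := by
  obtain ⟨g, m, e'⟩ := pt_mem (S := M.toSubmonoid.map (Units.coeHom _)) (a := fun i => (d i).1) fun i => ⟨_, H.h0 i _ (e i), rfl⟩
  exact (Units.ext e' : g = H10.As.ptU d) ▸ m
theorem GO.cp (h : GO J) (u0 : u ≠ 0) (hu : ⟪u, u⟫ = 0) (v0 : v ≠ 0) (hv : ⟪v, v⟫ = 0) (hw : ⟪u, w⟫ = 0) : ∃ x, ⟪v, x⟫ = 0 ∧ ⟪w, w⟫ = ⟪x, x⟫ := by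
  obtain ⟨d, m, c, c0, e⟩ := h.trs h.hk u0 hu v0 hv
  exact ⟨d.1 *ᵥ w, by simpa [e, c0, hw] using (Om.is m).dot u w, ((Om.is m).dot w w).symm⟩
variable (J l β u) in
/-- the even part of the action of a Siegel element -/
def Gw (w : κ → F) : 𝒜 := (-2 : F) • (pi1 l (dw J u w) * β * pi1 l (dw J u w)) - ⟪w, w⟫ • (VV l u (st J u) * β + β * VV l u (st J u)) +
  (⟪w, w⟫ * ⟪w, w⟫ / 2) • (VV l u (st J u) * β * VV l u (st J u))
/-- rank one type -/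
def OE (J : GL κ F) (a : Matrix κ κ F) : Prop := ∃ (u : κ → F) (c : F), u ≠ 0 ∧ ⟪u, u⟫ = 0 ∧ c ≠ 0 ∧ a = c • vecMulVec u (st J u)
/-- skew type -/
def OD (J : GL κ F) (a : Matrix κ κ F) : Prop := ∃ u w, u ≠ 0 ∧ ⟪u, u⟫ = 0 ∧ ⟪u, w⟫ = 0 ∧ ⟪w, w⟫ ≠ 0 ∧ a = dw J u w
theorem OE.sq (h : OE J a) : a * a = 0 := by obtain ⟨u, c, -, e, -, rfl⟩ := h; simp [vecMulVec_mul_vecMulVec, e]
theorem ot_smul (h : OE J a ∨ OD J a) (c0 : c ≠ 0) : OE J (c • a) ∨ OD J (c • a) :=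
  h.imp (fun ⟨u, d, a1, a2, a3, e⟩ => ⟨u, c * d, a1, a2, mul_ne_zero c0 a3, by rw [e, smul_smul]⟩)
    fun ⟨u, w, a1, a2, a3, a4, e⟩ => ⟨u, c • w, a1, a2, by simp [a3], by simp [*], by rw [e, dw_smul]⟩
section A
variable (h : GO J) (hL : ∀ d ∈ Om J, ∀ β ∈ L, cj (piU l d) β ∈ L) (hβ : β ∈ L)
include h hL hβ
theorem la0o (u0 : u ≠ 0) (hu : ⟪u, u⟫ = 0) (hw : ⟪u, w⟫ = 0) : Gw l β u J w ∈ L := by
  convert sub_mem (sub_mem (add_mem (hL _ (h.sg_om h.hk u0 hu hw) β hβ) (hL _ (inv_mem (h.sg_om h.hk u0 hu hw)) β hβ)) hβ) hβ using 1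
  have := h.h2
  simp only [Gw, cj_apply, ← map_inv, piU_val, inv_inv, S2.sg_val, S2.sg_inv, sm, map_add, map_sub, map_one, map_smul, ← VV.eq_1, ← neg_one_smul F w, dw_smul,
    mul_sub, mul_add, add_mul, sub_mul, mul_one, one_mul, smul_mul_assoc, mul_smul_comm, smul_dotProduct, dotProduct_smul, smul_eq_mul]
  match_scalars <;> field_simp <;> ring
theorem la1o (u0 : u ≠ 0) (hu : ⟪u, u⟫ = 0) : ∃ c : F, c ≠ 0 ∧ c • VV l u (st J u) * ent l (st J u) u β ∈ L := by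
  obtain ⟨u', h1, -, h2⟩ := h.pa u0 hu
  obtain ⟨w, hw, -, n⟩ := h.ns2 h.hk hu h1 h2
  have t := h.h2
  simp only [smul_mul_assoc, VV_ent]
  rcases h.hq' hu h1 hw n with ⟨c, c0, c1⟩ | ⟨-, -, y, e1, -, e3, e4⟩
  · have k := fun s : F => la0o h hL hβ u0 hu (w := s • w) (by simp [hw])
    refine ⟨-(c * c * (c * c - 1) ^ 2 * (⟪w, w⟫ * ⟪w, w⟫)) / 4, by simp [c0, sub_eq_zero, c1, n, show (4 : F) = 2 * 2 by norm_num, t], ?_⟩
    convert add_mem (sub_mem (k c) (k ((c * c + 1) / 2))) (k ((c * c - 1) / 2)) using 1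
    simp only [Gw, dw_smul, map_smul, smul_mul_assoc, mul_smul_comm, smul_dotProduct, dotProduct_smul, smul_eq_mul, show (4 : F) = 2 * 2 by norm_num]
    match_scalars <;> field_simp <;> ring
  · have k := fun w hw => la0o h hL hβ u0 hu (w := w) hw
    refine ⟨2 * (⟪w, w⟫ * ⟪w, w⟫), by simp [t, n], ?_⟩
    convert sub_mem (sub_mem (add_mem (k (w + y) (by simp [*])) (k (w + (-1 : F) • y) (by simp [*]))) (add_mem (k w hw) (k w hw))) (add_mem (k y e1) (k y e1)) using 1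
    simp only [Gw, dw_smul, dw_add, map_add, map_smul, smul_mul_assoc, mul_smul_comm, smul_dotProduct, dotProduct_smul, smul_eq_mul, add_dotProduct, dotProduct_add,
      e3, h.z e3, e4, mul_add, add_mul]
    match_scalars <;> field_simp <;> ring
theorem la2o (u0 : u ≠ 0) (hu : ⟪u, u⟫ = 0) (hw : ⟪u, w⟫ = 0) (n : ⟪w, w⟫ ≠ 0) (hr : ∀ β ∈ L, cj (piU l (rf n)) β ∈ L)
    (e : ent l (st J w) u β = -ent l (st J u) w β) : pi1 l (dw J u ((2 : F) • w)) * ent l (st J u) w β ∈ L := by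
  convert sub_mem (la0o h hL hβ u0 hu hw) (hr _ (la0o h hL hβ u0 hu hw)) using 1
  have t := h.h2
  have k : ∀ a b, VV l a (st J w) * (β * VV l u b) = -(VV l a (st J u) * (β * VV l w b)) := fun a b => by
    rw [← mul_assoc, ← mul_assoc, ← VV_ent, ← VV_ent, e, mul_neg]
  simp only [Gw, cj_apply, ← map_inv, rf_inv, piU_val, rf_val, pi1_dw, map_sub, map_one, map_smul, ← VV.eq_1, dw_smul, mul_sub, mul_add, add_mul, sub_mul, mul_one,
    one_mul, smul_mul_assoc, mul_smul_comm, mul_assoc, VV_mul, VV_mul', hu, hw, h.z hw, zero_smul, VV_ent, mul_neg, smul_sub, smul_add, mul_zero, zero_mul,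
    smul_zero, neg_mul, sub_zero, k]
  match_scalars <;> field_simp <;> ring
theorem la3o (hr : ∀ u w, u ≠ 0 → ⟪u, u⟫ = 0 → ⟪u, w⟫ = 0 → ∀ n : ⟪w, w⟫ ≠ 0, ∀ β ∈ L, cj (piU l (rf n)) β ∈ L) (n : ¬ Cm l β) :
    ∃ a γ, (OE J a ∨ OD J a) ∧ γ ≠ 0 ∧ Cm l γ ∧ (∀ j, l ≠ j → Cm j β → Cm j γ) ∧ pi1 l a * γ ∈ L := by
  by_contra! H
  have h0 : ∀ u, u ≠ 0 → ⟪u, u⟫ = 0 → eb l β J u u = 0 := fun u u0 hu => by_contra fun n =>
    let ⟨c, c0, m⟩ := la1o h hL hβ u0 hu; H _ _ (.inl ⟨u, c, u0, hu, c0, rfl⟩) n (cm_ent _ _ _) (fun j e c => c.ent e _ _) (by rwa [map_smul])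
  refine n (cm_of_ent fun φ w e => ?_)
  obtain ⟨a, rfl⟩ := st_surj (J := J) φ
  refine h.bl (eb l β J) (fun u x u0 hu hx => ?_) e
  have k := h.bs _ h0 u0 hu hx
  have : eb l β J u x = 0 := h.ind' (P := fun x => eb l β J u x = 0) u0 hu (fun w hw n => by_contra fun m =>
    H _ _ (.inr ⟨u, (2 : F) • w, u0, hu, by simp [hw], by simp [n, h.h2], rfl⟩) m (cm_ent _ _ _) (fun j e c => c.ent e _ _)
      (la2o h hL hβ u0 hu hw n (hr u w u0 hu hw n) (eq_neg_of_add_eq_zero_right (h.bs _ h0 u0 hu hw)))) (fun x y a b => by simp [a, b]) hx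
  exact ⟨this, by simpa [this] using k⟩
end A
variable (J K A o) in
/-- patterns -/
def PO : Prop := o ∈ K ∧ OE J (A o) ∧ (∀ l ∈ K, OE J (A l) ∨ OD J (A l)) ∧ ∀ l ∉ K, A l = 1
variable (J M) in
/-- existence of a proper pattern -/
def PatO : Prop := ∃ K A o, 2 ≤ K.card ∧ PO o J K A ∧ U1 M (pt A)
theorem LS_rf (H : HO J M) {h : ∀ l ∉ K, A l = 1} {ho : A o * A o = 0} (m : o ∈ K) (e : OE J (A o)) (hl : l ∉ K) (u w) (u0 : u ≠ 0) (hu : ⟪u, u⟫ = 0) (hw : ⟪u, w⟫ = 0)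
    (n : ⟪w, w⟫ ≠ 0) : ∀ β ∈ LS h ho M, cj (piU l (rf n)) β ∈ LS h ho M := fun β e' => by
  have := H.ne
  obtain ⟨v, c, v0, hv, -, e⟩ := e
  obtain ⟨x, hx, e1⟩ := H.cp u0 hu v0 hv hw
  refine ⟨fun j m' => (mp_piU _ j).cm (e'.1 j m'), ?_⟩
  have := e'.2.cj (H.rr2 l o n (e1 ▸ n) e1)
  rwa [cj_mul, map_mul (cj _), (e'.1 o m).cj_piU, pt_split o, map_mul (cj (piU o _)), (cm_pt (by simp)).cj_piU, cj_piU, e, map_smul, (H.is_rf _).cj_vv, rf_mv, H.z hx, mul_zero,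
    zero_smul, sub_zero, ← e, ← pt_split, map_mul, (cm_pt (h l hl)).cj_piU] at this
theorem PO.insert (h : PO o J K A) (hl : l ∉ K) (e : OE J a ∨ OD J a) : PO o J (insert l K) (Function.update A l a) :=
  ⟨by simp [h.1], by rw [Function.update_of_ne (by rintro rfl; exact hl h.1)]; exact h.2.1, fun j m => by by_cases c : j = l <;> simp_all [h.2.2.1],
    fun j m => by by_cases c : j = l <;> simp_all [h.2.2.2]⟩
theorem growo (H : HO J M) (n : ℕ) : ∀ {K : Finset τ} {A γ}, Fintype.card τ - K.card = n → PO o J K A → (∀ l ∈ K, Cm l γ) →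
    U1 M (pt A * γ) → Sc γ ∨ PatO J M := by
  have := H.ne
  induction n using Nat.strong_induction_on with
  | _ n ih =>
  rintro K A γ rfl h1 h2 h3
  refine or_iff_not_imp_left.2 fun h => ?_
  obtain ⟨l, h⟩ : ∃ l, ¬ Cm l γ := not_forall.1 (mt sc_of_cm h)
  have hl : l ∉ K := fun m => h (h2 l m)
  obtain ⟨a, δ, a1, a2, a3, a4, -, a5⟩ := la3o H.toGO (l := l) (L := LS h1.2.2.2 h1.2.1.sq M) (fun d e => LS_cj hl (H.h0 l d e)) ⟨h2, h3⟩ (LS_rf H h1.1 h1.2.1 hl) h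
  rw [← mul_assoc, pt_mul_pi1 _ (h1.2.2.2 l hl)] at a5
  have := Finset.card_le_univ (insert l K)
  have := Finset.card_pos.2 ⟨o, h1.1⟩
  refine (ih _ (by simp [hl] at *; omega) rfl (h1.insert hl a1) (fun j m => ?_) a5).elim ?_ id
  · rcases Finset.mem_insert.1 m with rfl | m
    exacts [a3, a4 j (by rintro rfl; exact hl m) (h2 j m)]
  rintro ⟨c, rfl⟩
  refine ⟨_, _, o, by rw [Finset.card_insert_of_notMem hl]; omega, h1.insert hl (ot_smul a1 (c := c) (by rintro rfl; simp at a2)), ?_⟩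
  rwa [← pt_mul_pi1 _ (h1.2.2.2 l hl), map_smul, mul_smul_comm, pt_mul_pi1 _ (h1.2.2.2 l hl), ← mul_one (pt _), ← mul_smul_comm]
theorem HO.skew (H : HO J M) (h : U1 M X) (e : X * X = 0) : Wr.ad (JW J) X = -X := by
  obtain ⟨x, m, e'⟩ := h
  have := (H.iso x m).inv_val
  rw [(Units.ext e' : x = tv X e)] at this
  simpa [tv, sub_eq_add_neg] using this.symm
theorem z0 (H : HO J M) (hp : ¬ PatO J M) (v0 : v ≠ 0) (hv : ⟪v, v⟫ = 0) (h : Cm i γ) (h' : U1 M (VV i v (st J v) * γ)) : γ = 0 := by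
  obtain ⟨c, rfl⟩ := (growo H _ (o := i) (K := {i}) (A := Pi.mulSingle i (vecMulVec v (st J v))) rfl ⟨by simp, ⟨v, 1, v0, hv, by simp⟩,
    by simpa using .inl ⟨v, 1, v0, hv, by simp⟩, fun l m => by simp_all⟩ (by simpa) h').resolve_right hp
  have := H.skew h' (by simp [VV_mul, hv])
  simp only [mul_smul_comm, mul_one, map_smul, H.ad_VV, eq_neg_iff_add_eq_zero, ← two_smul F, smul_eq_zero, H.h2, VV_ne v0 (st_eq_zero.not.2 v0)] at this
  simp_all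
end H09.Wr
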