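import Mathlib
import Cfsg.Agent.H09.WoB
/-! Orthogonal tensor-wreath subgroups: the unipotent radical of a slice. -/
namespace H09.Wr
open Matrix H10.As Module
variable {τ κ ι : Type} [Fintype τ] [DecidableEq τ] [Fintype κ] [DecidableEq κ] [Fintype ι] [DecidableEq ι] {F : Type*} [Field F]
local notation "𝒜" => Matrix (τ → κ) (τ → κ) F
variable {i j l o : τ} {β γ δ η Ξ Ξ' X Y : Matrix (τ → κ) (τ → κ) F} {g y ρ : GL (τ → κ) F} {u u' v v' w x φ ψ : κ → F} {a b : Matrix κ κ F} {J d : GL κ F}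
  {M : Subgroup (GL (τ → κ) F)} {K : Finset τ} {A : τ → Matrix κ κ F} {c : F}
set_option hygiene false in
local notation "⟪" a ", " b "⟫" => Wr.st J a ⬝ᵥ b
/-- linear parts of the radical -/
def RL (N : Subgroup (GL ι F)) (A P : Matrix ι ι F) : AddSubgroup (Matrix ι ι F) where
  carrier := {Ξ | ∃ y ∈ N, y.1 * A = A ∧ (y.1 - 1) * P = Ξ ∧ A * Ξ = Ξ}
  zero_mem' := ⟨1, one_mem _, by simp⟩
  add_mem' := fun {Ξ Ξ'} ⟨y, m, a, b, c⟩ ⟨y', m', a', b', c'⟩ => ⟨y' * y, mul_mem m' m, by rw [Units.val_mul, mul_assoc, a, a'], by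
    rw [Units.val_mul, show (y'.1 * y.1 - 1) * P = y'.1 * ((y.1 - 1) * P) + (y'.1 - 1) * P by noncomm_ring, b, b', ← c, ← mul_assoc, a'], by rw [mul_add, c, c']⟩
  neg_mem' := fun {Ξ} ⟨y, m, a, b, c⟩ =>
    have a' : (y⁻¹).1 * A = A := by nth_rw 1 [← a]; simp
    ⟨y⁻¹, inv_mem m, a', by rw [← c, ← a', mul_assoc, c, ← b]; simp [mul_sub, sub_mul], by rw [mul_neg, c]⟩
theorem RL.cj {N : Subgroup (GL ι F)} {A P Ξ : Matrix ι ι F} {ρ} (h : Ξ ∈ RL N A P) (m : ρ ∈ N) (e : cj ρ A = A) (e' : cj ρ P = P) : cj ρ Ξ ∈ RL N A P :=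
  let ⟨y, m', a, b, c⟩ := h
  ⟨ρ * y * ρ⁻¹, mul_mem (mul_mem m m') (inv_mem m), by rw [← cj_val, ← e, ← map_mul, a], by rw [← cj_val, ← e', ← b]; simp, by rw [← e, ← map_mul, c]⟩
theorem om_span (h : GO J) {L : Submodule F 𝒜} (k : ∀ d : τ → GL κ F, (∀ l, d l ∈ Om J) → (∀ l ∈ K, d l = 1) → (ptU d).1 ∈ L) (hA : ∀ l ∈ K, A l = 1) : pt A ∈ L := by
  suffices ∀ S : Finset τ, ∀ A : τ → Matrix κ κ F, (∀ l ∈ K, A l = 1) → (∀ l ∉ S, ∃ d ∈ Om J, d.1 = A l) → pt A ∈ L from this .univ A hA (by simp)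
  intro S
  induction S using Finset.induction_on with
  | empty =>
    intro A a b
    choose d d1 d2 using fun l => b l (by simp)
    exact funext d2 ▸ k d d1 fun l m => Units.ext ((d2 l).trans (a l m))
  | insert l S _ ih =>
  intro A a b
  by_cases c : l ∈ K
  · exact ih A a fun j m => by by_cases e : j = l; exacts [⟨1, one_mem _, by simp [e, a l c]⟩, b j (by simp [*])]
  rw [pt_split l]
  refine h.om_top (L := L.comap (LinearMap.mulLeft F _ ∘ₗ (pi1 l).toLinearMap)) (fun d m => ?_) _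
  change pt _ * pi1 l d.1 ∈ L
  rw [pt_mul_pi1 _ (by simp)]
  exact ih _ (fun j m => by simp [show j ≠ l by rintro rfl; exact c m, a j m]) fun j m' => by by_cases e : j = l; exacts [⟨d, m, by simp [e]⟩, by simpa [e] using b j (by simp [*])]
theorem prime_pt (h : ∀ l ∈ K, Cm l β) (k : ∀ A : τ → Matrix κ κ F, (∀ l ∈ K, A l = 1) → β * pt A * γ = 0) : β = 0 ∨ γ = 0 := by
  have k1 : ∀ A : τ → Matrix κ κ F, β * pt A * γ = 0 := fun A => by
    have : pt A = pt (fun l => if l ∈ K then A l else 1) * pt fun l => if l ∈ K then 1 else A l := by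
      rw [← map_mul]; congr 1; funext l; by_cases c : l ∈ K <;> simp [c]
    rw [this, ← mul_assoc, (comm_pt (K := K) (fun l m => if_neg m) h).eq, mul_assoc, mul_assoc, ← mul_assoc β, k _ fun l m => if_pos m, mul_zero]
  by_contra! n
  obtain ⟨r, x, e⟩ : ∃ r x, β r x ≠ 0 := by by_contra! e; exact n.1 (ext e)
  obtain ⟨y, s, e'⟩ : ∃ r x, γ r x ≠ 0 := by by_contra! e; exact n.2 (ext e)
  have := congrFun₂ (k1 fun l => single (x l) (y l) 1) r s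
  rw [pt_single] at this
  simp [mul_apply, single_apply, ite_and, e, e'] at this
theorem ent_left (h : Cm l γ) (φ u : κ → F) (β : 𝒜) : ent l φ u (γ * β) = γ * ent l φ u β := by simp only [ent, Finset.mul_sum, ← mul_assoc, h.vv]
theorem ent_right (h : Cm l γ) (φ u : κ → F) (β : 𝒜) : ent l φ u (β * γ) = ent l φ u β * γ := by simp only [ent, Finset.sum_mul, mul_assoc, h.vv]
theorem S2.ad_ent (h : S2 J) (a b : κ → F) (β : 𝒜) : ad (JW J) (ent l (st J a) b β) = ent l (st J b) a (ad (JW J) β) := by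
  by_cases a0 : a = 0
  · simp [a0, ent, VV]
  refine sub_eq_zero.1 ((((cm_ent _ _ _).ado h).sub (cm_ent _ _ _)).of_VV (i := l) a0 (st_eq_zero.not.2 a0 : st J a ≠ 0) ?_)
  rw [mul_sub, VV_ent, ← h.ad_VV a a, ← ad_mul, ent_VV]; simp [ad_mul, h.ad_VV, mul_assoc]
theorem slot_of_cm (h : ∀ l ≠ i, Cm l β) : ∃ a, β = pi1 i a := by
  refine ((pi1 i).mem_range.1 ?_).imp fun _ => Eq.symm
  rw [eq_sum_ent i β]
  refine sum_mem fun r _ => sum_mem fun s _ => mul_mem ((pi1 i).mem_range_self _) (Sc.mem (sc_of_cm fun l => ?_) _)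
  by_cases c : l = i
  exacts [c ▸ cm_ent _ _ _, (h l c).ent (Ne.symm c) _ _]
theorem pi1_rf (n : ⟪x, x⟫ ≠ 0) : (pi1 i (rf n).1 : 𝒜) = 1 - (2 / ⟪x, x⟫) • VV i x (st J x) := by simp [rf_val, VV]
theorem cj_rf_VV (h : S2 J) (n : ⟪x, x⟫ ≠ 0) (e : ⟪u, x⟫ = 0) (e' : ⟪v, x⟫ = 0) : cj (piU i (rf n)) (VV i u (st J v)) = VV i u (st J v) := by
  simp [VV, cj_piU, (h.is_rf n).cj_vv, rf_mv, h.z e, h.z e']
variable (H : HO J M) (hv : ⟪v, v⟫ = 0) (h1 : ⟪v, v'⟫ = 1) (h2 : ⟪v', v'⟫ = 0)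
include H hv h1 h2
theorem fin0 (e1 : δ * VV i v (st J v') = 0) (e2 : δ * VV i v' (st J v) = 0) (e : ∀ x, ⟪v, x⟫ = 0 → ⟪v', x⟫ = 0 → ⟪x, x⟫ ≠ 0 → δ * VV i x (st J v) = 0) : δ = 0 := by
  have h1' := H.c v' v ▸ h1
  have k0 : δ * VV i v (st J v) = 0 := by simpa [mul_assoc, VV_mul, h1'] using congrArg (· * VV i v (st J v)) e1
  have k : ∀ x, ⟪v, x⟫ = 0 → δ * VV i x (st J v) = 0 := fun x hx => H.ind' (P := fun x => δ * VV i x (st J v) = 0) (by rintro rfl; simp at h1) hv (fun x a n => by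
    simpa [-neg_smul, vv_add, vv_smul, mul_add, k0] using e (x + -⟪v', x⟫ • v) (by simp [*]) (by simp [*]) (by simpa [H.z a, a, hv])) (fun x y a b => by simp [vv_add, mul_add, a, b]) hx
  have k' : ∀ x, δ * VV i x (st J v) = 0 := fun x => by simpa [-neg_smul, vv_add, vv_smul, mul_add, e2] using k (x + -⟪v, x⟫ • v') (by simp [h1])
  rw [← mul_one δ, ← sum_VV i, Finset.mul_sum]
  exact Finset.sum_eq_zero fun r _ => by simpa [mul_assoc, VV_mul, h1] using congrArg (· * VV i v' (Pi.single r 1)) (k' (Pi.single r 1))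
theorem key0 (c : Cm l δ) (n : l ≠ i) (e0 : VV i v (st J v') * δ = δ) (e1 : δ * VV i v (st J v') = 0) (e2 : δ * VV i v' (st J v) = 0)
    (e : ∀ x, ⟪v, x⟫ = 0 → ⟪v', x⟫ = 0 → ⟪x, x⟫ ≠ 0 → ∀ A : τ → Matrix κ κ F, (∀ j ∈ ({i, l} : Finset τ), A j = 1) → δ * VV i x (st J x) * pt A * ad (JW J) δ = 0) : δ = 0 :=
  fin0 H hv h1 h2 e1 e2 fun x a b n' => by
    have v0 : v ≠ 0 := by rintro rfl; simp at h1
    have k : ∀ ξ, δ * VV i x ξ = VV i v ξ * ent i (st J v') x δ := fun ξ => by rw [VV_ent, e0]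
    have c1 : Cm i (ent i (st J v') x δ) := cm_ent _ _ _
    have c2 : Cm l (ent i (st J v') x δ) := c.ent n.symm _ _
    generalize ent i (st J v') x δ = ε at k c1 c2
    have k' : VV i v (st J x) * ad (JW J) δ = VV i v (st J v) * ad (JW J) ε := by
      simpa [ad_mul, H.ad_VV, (c1.ado H.toS2).vv] using congrArg (ad (JW J)) (k (st J v))
    rcases prime_pt (K := {i, l}) (β := ε) (γ := ad (JW J) ε) (by simp [*]) fun A hA => ((c1.mul (cm_pt (hA i (by simp)))).mul (c1.ado H.toS2)).of_VV v0 (st_eq_zero.not.2 v0) (by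
      have := e x a b n' A hA
      rwa [k, ← c1.vv, mul_assoc ε, ← (cm_pt (hA i (by simp))).vv, ← mul_assoc, mul_assoc, k', ← mul_assoc, (c1.mul (cm_pt (hA i (by simp)))).vv, mul_assoc] at this) with z | z
    · simp [k, z]
    · simpa [k, H.adW] using congrArg (VV i v (st J v) * ad (JW J) ·) z
local notation "ℒ" => RL M (VV i v (st J v')) (1 - VV i v' (st J v))
omit hv h1 h2 in
theorem rl1 (m : y ∈ M) (e1 : y.1 * VV i v (st J v') = VV i v (st J v')) (e2 : (y.1 - 1) * (1 - VV i v' (st J v)) = Ξ) (e3 : VV i v (st J v') * Ξ = Ξ) :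
    VV i v' (st J v) * (y.1 - 1) = 0 ∧ (1 - VV i v (st J v')) * (y.1 - 1) = -ad (JW J) Ξ := by
  have a' : (y⁻¹).1 * VV i v (st J v') = VV i v (st J v') := by nth_rw 1 [← e1]; simp
  have b' : ((y⁻¹).1 - 1) * (1 - VV i v' (st J v)) = -Ξ := by rw [← e3, ← a', mul_assoc, e3, ← e2]; simp [mul_sub, sub_mul]; abel
  rw [(H.iso y m).inv_val] at a' b'
  exact ⟨by simpa [ad_mul, H.adW, H.ad_VV, mul_sub, sub_eq_zero] using congrArg (ad (JW J)) a', by simpa [ad_mul, H.adW, H.ad_VV] using congrArg (ad (JW J)) b'⟩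
omit h2 in
theorem rlA (h : Ξ ∈ ℒ) : Ξ * VV i v (st J v') = 0 ∧ Ξ * VV i v' (st J v) = 0 := by
  obtain ⟨y, -, a, rfl, -⟩ := h
  exact ⟨by simp [mul_assoc, sub_mul, VV_mul, hv, a], by simp [mul_assoc, sub_mul (1 : 𝒜), VV_mul, h1]⟩
variable (hp : ¬ PatO J M)
include hp
omit h2
theorem rlU {y'} (m : y ∈ M) (m' : y' ∈ M) (a : y.1 * VV i v (st J v') = VV i v (st J v')) (a' : y'.1 * VV i v (st J v') = VV i v (st J v'))
    (e : y.1 * (1 - VV i v' (st J v)) = y'.1 * (1 - VV i v' (st J v))) : y = y' := by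
  have v0 : v ≠ 0 := by rintro rfl; simp at h1
  have m1 := mul_mem (inv_mem m) m'
  have e1 : (y⁻¹ * y').1 * VV i v (st J v') = VV i v (st J v') := by rw [Units.val_mul, mul_assoc, Units.inv_mul_eq_iff_eq_mul, a, a']
  have e2 : ((y⁻¹ * y').1 - 1) * (1 - VV i v' (st J v)) = 0 := by rw [sub_mul, Units.val_mul, mul_assoc, ← e]; simp
  have k := (rl1 H m1 e1 e2 (by simp)).2
  rw [← inv_mul_eq_one]
  generalize y⁻¹ * y' = z at *
  rw [mul_sub, mul_one, sub_eq_zero] at e2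
  rw [map_zero, neg_zero, sub_mul, one_mul, sub_eq_zero] at k
  have : z.1 - 1 = VV i v (st J v) * ent i (st J v') v' (z.1 - 1) := by rw [VV_ent, ← k, ← e2]
  refine Units.ext (sub_eq_zero.1 (this.trans ?_))
  rw [z0 H hp v0 hv (cm_ent _ _ _) ⟨z, m1, by rw [← this]; simp⟩, mul_zero]
theorem rlC (h : Ξ ∈ ℒ) (h' : Ξ' ∈ ℒ) : Ξ * ad (JW J) Ξ' = Ξ' * ad (JW J) Ξ := by
  have k : ∀ {Ξ Ξ' : 𝒜} {y y' : GL (τ → κ) F}, Ξ ∈ ℒ → y.1 * VV i v (st J v') = VV i v (st J v') → (y.1 - 1) * (1 - VV i v' (st J v)) = Ξ → y' ∈ M →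
      y'.1 * VV i v (st J v') = VV i v (st J v') → (y'.1 - 1) * (1 - VV i v' (st J v)) = Ξ' → VV i v (st J v') * Ξ' = Ξ' →
      (y.1 - 1) * (y'.1 - 1) = -(Ξ * ad (JW J) Ξ') ∧ (y * y').1 * (1 - VV i v' (st J v)) = Ξ + Ξ' + (1 - VV i v' (st J v)) := fun {Ξ Ξ' y y'} h a b m' a' b' c' => by
    obtain ⟨k1, k2⟩ := rl1 H m' a' b' c'
    constructor
    · rw [← mul_neg, ← k2, ← mul_assoc, mul_sub Ξ, (rlA H hv h1 h).1, ← b, mul_one, sub_zero, mul_assoc, sub_mul 1, k1]; simp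
    · rw [sub_mul, one_mul, sub_eq_iff_eq_add] at b b'
      rw [Units.val_mul, mul_assoc, b', mul_add, ← c', ← mul_assoc, a, b]; abel
  obtain ⟨y, m, a, b, c⟩ := id h
  obtain ⟨y', m', a', b', c'⟩ := id h'
  obtain ⟨k1, k2⟩ := k h a b m' a' b' c'
  obtain ⟨k3, k4⟩ := k h' a' b' m a b c
  have e := congrArg Units.val (rlU H hv h1 hp (i := i) (mul_mem m m') (mul_mem m' m) (by simp [mul_assoc, a, a']) (by simp [mul_assoc, a, a']) (by rw [k2, k4, add_comm Ξ]))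
  simp only [Units.val_mul] at e
  exact neg_injective (by rw [← k1, ← k3]; simp only [mul_sub, sub_mul, e, mul_one, one_mul]; abel)
theorem rlT (h : η ∈ ℒ) (h' : Ξ ∈ ℒ) (e : ad (JW J) η * X = 0) (m : ρ ∈ M) (c : cj ρ (VV i v (st J v')) = VV i v (st J v')) (c' : cj ρ X = X) :
    η * ρ.1 * (ad (JW J) Ξ * X) = 0 := by
  have := rlC H hv h1 hp h (RL.cj h' m c (by simpa [H.ad_VV, (H.iso ρ m).cj_ad] using congrArg (ad (JW J)) c))
  rw [(H.iso ρ m).cj_ad] at this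
  rw [mul_assoc, ← cj_mul_self, map_mul, c', ← mul_assoc, ← mul_assoc, this, mul_assoc _ (ad _ η), e]; simp
theorem rlS (n : l ≠ i) (h : η ∈ ℒ) (h' : Ξ ∈ ℒ) (e : ad (JW J) η * pi1 l a = 0) (m : ρ ∈ M) (c : cj ρ (VV i v (st J v')) = VV i v (st J v')) (c' : cj ρ (pi1 l a) = pi1 l a)
    (hA : ∀ j ∈ ({i, l} : Finset τ), A j = 1) : η * ρ.1 * pt A * (ad (JW J) Ξ * pi1 l a) = 0 := by
  refine om_span H.toGO (L := LinearMap.ker (LinearMap.mulRight F (ad (JW J) Ξ * pi1 l a) ∘ₗ LinearMap.mulLeft F (η * ρ.1))) (fun d d1 d2 => ?_) hA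
  have k : ∀ j ∈ ({i, l} : Finset τ), ∀ a, cj (ptU d) (pi1 j a) = pi1 j a := fun j m a => by rw [cj_ptU, d2 j m, cj_one]
  simpa [mul_assoc] using rlT H hv h1 hp h h' e (mul_mem m (H.ptU d1)) (by rw [cj_mul, VV, k i (by simp), ← VV, c]) (by rw [cj_mul, k l (by simp), c'])
include h2
theorem rlK (n : l ≠ i) (h' : Ξ ∈ ℒ) (a b : κ → F) (e : ∀ x, ⟪v, x⟫ = 0 → ⟪v', x⟫ = 0 → ⟪x, x⟫ ≠ 0 → ∀ A : τ → Matrix κ κ F, (∀ j ∈ ({i, l} : Finset τ), A j = 1) →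
    ent l a b Ξ * VV i x (st J x) * pt A * ad (JW J) (ent l a b Ξ) = 0) : ent l a b Ξ = 0 :=
  have k := fun a => cm_pi1 (F := F) (κ := κ) n.symm a
  key0 H hv h1 h2 (cm_ent _ _ _) n (by rw [VV, ← ent_left (k _), ← VV, h'.choose_spec.2.2.2]) (by rw [VV, ← ent_right (k _), ← VV, (rlA H hv h1 h').1]; simp [ent])
    (by rw [VV, ← ent_right (k _), ← VV, (rlA H hv h1 h').2]; simp [ent]) e
omit hv h1 h2 hp in
theorem rlL (n : l ≠ i) : ∀ d ∈ Om J, ∀ β ∈ ℒ, cj (piU l d) β ∈ ℒ := fun d m _ h =>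
  RL.cj h (H.h0 l d m) ((cm_pi1 n.symm _).cj_piU d) (by rw [map_sub, map_one, VV, (cm_pi1 n.symm _).cj_piU d])
theorem rlE (n : l ≠ i) (h' : Ξ ∈ ℒ) (u0 : u ≠ 0) (hu : ⟪u, u⟫ = 0) : ent l (st J u) u Ξ = 0 := rlK H hv h1 h2 hp n h' _ _ fun x a b n' A hA => by
  obtain ⟨u', e1, e1', e2⟩ := H.pa u0 hu
  obtain ⟨c, c0, m⟩ := la1o H.toGO (rlL H n) h' u0 hu
  obtain ⟨w, w1, w2⟩ := H.cp (by rintro rfl; simp at h1) hv u0 hu a
  have w3 : ⟪w - ⟪u', w⟫ • u, w - ⟪u', w⟫ • u⟫ = ⟪x, x⟫ := by simp [w1, H.z w1, hu, w2]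
  have c1 : Cm l (ent l (st J u) u Ξ) := cm_ent _ _ _
  have e : ad (JW J) (c • VV l u (st J u) * ent l (st J u) u Ξ) * pi1 l (vecMulVec u (st J u')) = 0 := by simp [ad_mul, H.ad_VV, mul_assoc, ← VV.eq_1, VV_mul, hu]
  have k1 := rlS H hv h1 hp n m h' e (one_mem _) (cj_one _) (cj_one _) hA
  have k2 := rlS H hv h1 hp n m h' e (H.rr2 i l n' (w3 ▸ n') w3.symm) (by rw [cj_mul, VV, (cm_pi1 n.symm _).cj_piU, ← VV, cj_rf_VV H.toS2 _ a b])
    (by rw [cj_mul, ← VV, cj_rf_VV H.toS2 _ (by simp [*]) (by simp [*]), VV, (cm_pi1 n _).cj_piU]) hA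
  have k3 : ∀ Y Z, Cm l Y → VV l u (st J u) * Z = VV l u (st J u) → c • VV l u (st J u) * ent l (st J u) u Ξ * (Y * Z) * pt A * (ad (JW J) Ξ * pi1 l (vecMulVec u (st J u'))) = 0 →
      ent l (st J u) u Ξ * Y * pt A * ad (JW J) (ent l (st J u) u Ξ) = 0 := fun Y Z c2 e k => by
    have c4 := cm_pt (hA l (by simp))
    have c3 := (c1.mul c2).mul c4
    refine (c3.mul (c1.ado H.toS2)).of_VV u0 (st_eq_zero.not.2 (by rintro rfl; simp at e1) : st J u' ≠ 0) ?_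
    have e' : VV l u (st J u) * ent l (st J u) u Ξ * (Y * Z) * pt A = ent l (st J u) u Ξ * Y * pt A * VV l u (st J u) := by
      simp only [mul_assoc, ← c1.vv', ← c2.vv']; rw [← mul_assoc (VV _ _ _) Z, e, c4.vv]
    rw [smul_mul_assoc, smul_mul_assoc, smul_mul_assoc, smul_mul_assoc, smul_eq_zero_iff_right c0, e', mul_assoc, ← VV, ← mul_assoc (VV _ _ _), ← VV_ent, ← H.ad_ent] at k
    rwa [← c3.vv']
  have k4 := k3 _ _ (cm_sc ⟨1, (one_smul _ _).symm⟩ l) (mul_one _) (by simpa using k1)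
  have k5 := k3 _ _ (cm_pi1 n.symm _) (by simp [piU_val, pi1_rf, mul_sub, VV_mul, w1, hu]) k2
  rw [mul_one] at k4
  simpa [pi1_rf, mul_sub, sub_mul, k4, n', H.h2] using k5
omit H hv h1 h2 hp in
theorem sandw (c : Cm l Y) (a φ b ψ u χ : κ → F) : VV l a φ * (η * (VV l b ψ * Y) * (β * VV l u χ)) = VV l a χ * (ent l φ b η * Y * ent l ψ u β) := by
  rw [← ((cm_ent _ _ _).mul c).vv', VV_ent, mul_assoc (ent _ _ _ _), mul_assoc (VV _ _ _), c.vv', ← mul_assoc (ent _ _ _ _), ent_VV]; simp only [mul_assoc]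
omit H hv h1 h2 hp in
theorem gw_ent (H : S2 J) (e1 : ⟪u, u'⟫ = 1) (w1 : ⟪u, w⟫ = 0) (w2 : ⟪u', w⟫ = 0) (k0 : ent l (st J w) u Ξ = -ent l (st J u) w Ξ) :
    ent l (st J u') w (Gw l Ξ u J w) = ⟪w, w⟫ • ent l (st J u) w Ξ := by
  have u0 : u ≠ 0 := by rintro rfl; simp at e1
  have e1' := H.c u' u ▸ e1
  refine sub_eq_zero.1 (((cm_ent _ _ _).sub ((cm_ent _ _ _).smul _)).of_VV u0 (st_eq_zero.not.2 u0 : st J u ≠ 0) ?_)
  have := VV_ent (i := l) u (st J u) (st J w) u Ξ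
  rw [k0, mul_neg, VV_ent, mul_assoc, mul_assoc, eq_comm] at this
  simp only [Gw, pi1_dw, mul_sub, sub_mul, mul_add, add_mul, smul_mul_assoc, mul_smul_comm, mul_assoc, VV_mul, VV_mul', w1, w2, e1', zero_smul, one_smul, VV_ent, mul_zero, this]
  module
theorem rlD2 (n : l ≠ i) (h' : Ξ ∈ ℒ) (k0 : ent l (st J w) u Ξ = -ent l (st J u) w Ξ) (t : ∀ j, j = i ∨ j = l) : ent l (st J u) w Ξ = 0 := by
  have v0 : v ≠ 0 := by rintro rfl; simp at h1
  have kc := fun a => cm_pi1 (F := F) (κ := κ) n.symm a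
  refine fin0 H hv h1 h2 (by rw [VV, ← ent_right (kc _), ← VV, (rlA H hv h1 h').1]; simp [ent]) (by rw [VV, ← ent_right (kc _), ← VV, (rlA H hv h1 h').2]; simp [ent])
    fun x a b n' => ?_
  have m : VV i v (st J x) ∈ ℒ := ⟨_, H.h0 i _ (H.sg_om H.hk v0 hv a), by simp [piU_val, pi1_VV, S2.sg_val, H.sm_mv, hv, H.z a], by
    simp [piU_val, S2.sg_val, sm, pi1_dw, ← VV.eq_1, mul_sub, sub_mul, add_mul, VV_mul, h1, H.z b]; abel, by simp [VV_mul, H.c v' v, h1]⟩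
  have k1 := rlC H hv h1 hp h' m
  have k2 : Ξ * VV i x (st J v) = VV i v (st J v) * ent i (st J v') x Ξ := by rw [VV_ent, h'.choose_spec.2.2.2]
  have c1 : Cm i (ent i (st J v') x Ξ) := cm_ent _ _ _
  generalize ent i (st J v') x Ξ = ε at k2 c1
  have k3 : ad (JW J) ε = ε := sub_eq_zero.1 (((c1.ado H.toS2).sub c1).of_VV v0 (st_eq_zero.not.2 v0) (by
    rw [mul_sub, ← k2, ← (c1.ado H.toS2).vv, ← H.ad_VV v v, ← ad_mul, ← k2, ad_mul, H.ad_VV, ← k1, H.ad_VV, sub_self]))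
  have k4 : ∀ a b, ent l a b Ξ * VV i x (st J v) = VV i v (st J v) * ent l a b ε := fun a b => by rw [VV, ← ent_right (kc _), ← VV, k2, VV, ent_left (kc _)]
  obtain ⟨s, hs⟩ : Sc (ent l (st J u) w ε) := sc_of_cm fun j => by rcases t j with rfl | rfl; exacts [c1.ent n _ _, cm_ent _ _ _]
  have k5 : ent l (st J w) u ε = s • 1 := by rw [← k3, ← H.ad_ent, hs]; simp
  have k6 := k4 (st J w) u
  rw [k0, neg_mul, k4, hs, k5, neg_eq_iff_add_eq_zero, ← two_smul F, smul_eq_zero_iff_right H.h2] at k6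
  rw [k4, hs, k6]
theorem rlD (n : l ≠ i) (h' : Ξ ∈ ℒ) (hu : ⟪u, u⟫ = 0) (e1 : ⟪u, u'⟫ = 1) (e2 : ⟪u', u'⟫ = 0) (w1 : ⟪u, w⟫ = 0) (w2 : ⟪u', w⟫ = 0) (w3 : ⟪w, w⟫ ≠ 0) :
    ent l (st J u) w Ξ = 0 := by
  have u0 : u ≠ 0 := by rintro rfl; simp at e1
  have e1' := H.c u' u ▸ e1
  have k0 : ent l (st J w) u Ξ = -ent l (st J u) w Ξ := eq_neg_of_add_eq_zero_right (H.bs (eb l Ξ J) (fun u => rlE H hv h1 h2 hp n h') u0 hu w1)
  have kc := fun a => cm_pi1 (F := F) (κ := κ) n.symm a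
  by_cases t : ∀ j, j = i ∨ j = l
  · exact rlD2 H hv h1 h2 hp n h' k0 t
  obtain ⟨j, j1, j2⟩ : ∃ j, j ≠ i ∧ j ≠ l := by simpa using t
  refine rlK H hv h1 h2 hp n h' _ _ fun x a b n' A hA => ?_
  have m := la0o H.toGO (rlL H n) h' u0 hu w1
  have k1 : VV l u (st J u) * (ad (JW J) Ξ * VV l u (st J u')) = 0 := by rw [← mul_assoc, ← VV_ent, ← H.ad_ent, rlE H hv h1 h2 hp n h' u0 hu]; simp
  have e : ad (JW J) (Gw l Ξ u J w) * pi1 l (vecMulVec u (st J u')) = 0 := by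
    simp [Gw, ad_mul, H.ad_VV, ← VV.eq_1, pi1_dw, sub_mul, add_mul, mul_assoc, VV_mul, hu, H.z w1, k1]
  have k6 := gw_ent H.toS2 e1 w1 w2 k0
  generalize Gw l Ξ u J w = η at m e k6
  have k2 : ∀ (ρ : GL (τ → κ) F) (d : GL κ F), ρ * piU j d ∈ M → cj ρ (VV i v (st J v')) = VV i v (st J v') → cj ρ (VV l u (st J u')) = VV l u (st J u') →
      η * (ρ.1 * pt A) * (ad (JW J) Ξ * VV l u (st J u')) = 0 := fun ρ d m' c c' => by
    have := rlS H hv h1 hp n m h' e m' (by rw [cj_mul, VV, (cm_pi1 j1.symm _).cj_piU, ← VV, c]) (by rw [cj_mul, (cm_pi1 j2.symm _).cj_piU, ← VV, c'])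
      (A := Pi.mulSingle j (d⁻¹).1 * A) (by simp [hA, j1.symm, j2.symm])
    rw [map_mul, ← pi1_apply, ← piU_val, map_inv] at this
    simpa [mul_assoc, VV] using this
  have c1 := cj_rf_VV (i := i) H.toS2 n' a b
  have c2 := cj_rf_VV (i := l) H.toS2 w3 w1 w2
  have c3 : cj (piU i (rf n')) (VV l u (st J u')) = VV l u (st J u') := (cm_pi1 n _).cj_piU _
  have c4 : cj (piU l (rf w3)) (VV i v (st J v')) = VV i v (st J v') := (kc _).cj_piU _
  have a1 := k2 1 1 (by simp) (cj_one _) (cj_one _)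
  have a2 := k2 (piU i (rf n')) (rf n')⁻¹ (by rw [map_inv]; exact H.h1 i j _ (H.is_rf n')) c1 c3
  have a3 := k2 (piU l (rf w3)) (rf w3)⁻¹ (by rw [map_inv]; exact H.h1 l j _ (H.is_rf w3)) c4 c2
  have a4 := k2 (piU l (rf w3) * piU i (rf n')) (rf w3 * rf n') (by
    convert mul_mem (H.h1 l j _ (H.is_rf w3)) (H.h1 i j _ (H.is_rf n')) using 1
    simp only [← map_inv, rf_inv, map_mul, mul_assoc]
    refine Units.ext ?_
    simp only [Units.val_mul, piU_val]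
    rw [← mul_assoc (pi1 j _), (cm_pi1 j1 _ _).eq, mul_assoc]) (by rw [cj_mul, c1, c4]) (by rw [cj_mul, c3, c2])
  have k4 : η * (VV l w (st J w) * (VV i x (st J x) * pt A)) * (ad (JW J) Ξ * VV l u (st J u')) = 0 := by
    refine (smul_eq_zero_iff_right (r := 2 / ⟪x, x⟫ * (2 / ⟪w, w⟫)) (by simp [H.h2, n', w3])).1 ?_
    simp only [Units.val_mul, Units.val_one, piU_val, pi1_rf, mul_sub, sub_mul, mul_one, one_mul, smul_mul_assoc, mul_smul_comm, mul_assoc] at a1 a2 a3 a4 ⊢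
    linear_combination (norm := module) a1 - a2 - a3 + a4
  have c6 := (kc (vecMulVec x (st J x))).mul (cm_pt (hA l (by simp)))
  have k5 := sandw (η := η) (β := ad (JW J) Ξ) c6 u (st J u') w (st J w) u (st J u')
  rw [← VV, k4, mul_zero, k6, ← H.ad_ent, smul_mul_assoc, smul_mul_assoc, mul_smul_comm, eq_comm, smul_eq_zero_iff_right w3] at k5
  rw [mul_assoc _ _ (pt A)]
  exact (((cm_ent _ _ _).mul c6).mul ((cm_ent _ _ _).ado H.toS2)).of_VV u0 (st_eq_zero.not.2 (by rintro rfl; simp at e1) : st J u' ≠ 0) k5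
theorem rlR (m : y ∈ M) (e1 : y.1 * VV i v (st J v') = VV i v (st J v')) (e2 : VV i v (st J v') * ((y.1 - 1) * (1 - VV i v' (st J v))) = (y.1 - 1) * (1 - VV i v' (st J v))) :
    ∃ x, ∃ hx : ⟪v, x⟫ = 0, y = piU i (H.sg hv hx) := by
  have h' : _ ∈ ℒ := ⟨y, m, e1, rfl, e2⟩
  have v0 : v ≠ 0 := by rintro rfl; simp at h1
  obtain ⟨a, ha⟩ := slot_of_cm (i := i) (β := (y.1 - 1) * (1 - VV i v' (st J v))) fun l n => cm_of_ent fun φ w e => by
    obtain ⟨a, rfl⟩ := st_surj (J := J) φ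
    refine H.bl (eb l _ J) (fun u x u0 hu hx => ?_) e
    obtain ⟨u', f1, f1', f2⟩ := H.pa u0 hu
    have k := H.bs (eb l _ J) (fun u => rlE H hv h1 h2 hp n h') u0 hu hx
    have : eb l ((y.1 - 1) * (1 - VV i v' (st J v))) J u x = 0 := H.ind' (P := fun x => eb l ((y.1 - 1) * (1 - VV i v' (st J v))) J u x = 0) u0 hu (fun w hw n' => by
      simpa [-neg_smul, eb_apply, en_add, en_smul, rlE H hv h1 h2 hp n h' u0 hu] using rlD H hv h1 h2 hp n h' hu f1 f2 (w := w + -⟪u', w⟫ • u) (by simp [*]) (by simp [*])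
        (by simpa [H.z hw, hw, hu])) (fun x y a b => by simp [a, b]) hx
    exact ⟨this, by simpa [this] using k⟩
  obtain ⟨x, hx⟩ := st_surj (J := J) (st J v' ᵥ* a)
  obtain ⟨k1, k2⟩ := rlA H hv h1 h'
  rw [ha] at k1 k2
  rw [ha, VV_pi1, ← hx] at e2
  rw [← e2, VV_mul, smul_eq_zero_iff_left (VV_ne v0 (by simp; rintro rfl; simp at h1))] at k1
  rw [← e2, VV_mul, smul_eq_zero_iff_left (VV_ne v0 (by simpa))] at k2
  refine ⟨x, H.z k1, rlU H hv h1 hp m (H.h0 i _ (H.sg_om H.hk v0 hv (H.z k1))) e1 (by simp [piU_val, pi1_VV, S2.sg_val, H.sm_mv, hv, k1]) ?_⟩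
  rw [sub_mul, one_mul, sub_eq_iff_eq_add, ← e2] at ha
  rw [ha]
  simp [piU_val, S2.sg_val, sm, pi1_dw, ← VV.eq_1, mul_sub, sub_mul, add_mul, VV_mul, h1, k2]; abel
end H09.Wr
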