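import Mathlib
import Cfsg.Agent.H09.WoC
/-! Orthogonal tensor-wreath subgroups: elements carrying a slice to a slice. -/
namespace H09.Wr
open Matrix H10.As Module
variable {τ κ ι : Type} [Fintype τ] [DecidableEq τ] [Fintype κ] [DecidableEq κ] [Fintype ι] [DecidableEq ι] {F : Type*} [Field F]
local notation "𝒜" => Matrix (τ → κ) (τ → κ) F
variable {i j l o : τ} {β γ Z X Y : Matrix (τ → κ) (τ → κ) F} {g y z : GL (τ → κ) F} {u u' v v' w x φ ψ χ : κ → F} {a b : Matrix κ κ F} {J d d' : GL κ F}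
  {M : Subgroup (GL (τ → κ) F)} {c : F}
set_option hygiene false in
local notation "⟪" a ", " b "⟫" => Wr.st J a ⬝ᵥ b
theorem kr0 (h1 : ⟪v, v'⟫ = 1) (h : ∀ y, ⟪v, y⟫ = 0 → ∀ ξ, X * VV i y ξ = 0) : X * (1 - VV i v' (st J v)) = 0 := by
  have : ∀ Y : 𝒜, Y = ∑ r, Y * VV i (Pi.single r 1) (Pi.single r 1) := fun Y => by rw [← Finset.mul_sum, sum_VV, mul_one]
  rw [this (X * _)]
  refine Finset.sum_eq_zero fun r _ => ?_
  rw [← h (Pi.single r 1 + -⟪v, Pi.single r 1⟫ • v') (by simp [h1]) (Pi.single r 1), vv_add, vv_smul, mul_assoc, sub_mul, VV_mul, one_mul, neg_smul, sub_eq_add_neg]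
variable (J i v Z) in
/-- centralising the radical -/
def CZ : Prop := ∀ y, ⟪v, y⟫ = 0 → Commute Z (pi1 i (dw J v y))
section
variable (h : GO J) (hv : ⟪v, v⟫ = 0) (h1 : ⟪v, v'⟫ = 1) (k : CZ i Z v J)
include h hv h1 k
theorem cz1 (b) : VV i b (st J v) * Z = VV i b (st J v) * ent i (st J v') v Z := by
  obtain ⟨n, e, n0⟩ := h.ns (by rintro rfl; simp at h1) hv
  have := ((k n e).mul_right (k n e)).eq
  rw [← map_mul, h.dw_mul hv e e, map_smul, mul_smul_comm, smul_mul_assoc, smul_right_inj (by simpa), ← VV] at this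
  simpa [VV_ent, mul_assoc, VV_mul', h.c v' v, h1] using congrArg (VV i b (st J v') * ·) this.symm
theorem cz2 (ξ) : Z * VV i v ξ = VV i v ξ * ent i (st J v') v Z := by
  obtain ⟨n, e, n0⟩ := h.ns (by rintro rfl; simp at h1) hv
  have := ((k n e).mul_right (k n e)).eq
  rw [← map_mul, h.dw_mul hv e e, map_smul, mul_smul_comm, smul_mul_assoc, smul_right_inj (by simpa), ← VV, cz1 h hv h1 k, ← (cm_ent _ _ _).vv] at this
  simpa [mul_assoc, VV_mul, VV_mul', h1, (cm_ent _ _ _).vv] using congrArg (· * VV i v' ξ) this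
theorem cz3 (e : ⟪v, x⟫ = 0) (ξ) : Z * VV i x ξ = VV i x ξ * ent i (st J v') v Z + VV i v ξ * (⟪x, v'⟫ • ent i (st J v') v Z - ent i (st J x) v' Z) := by
  have := congrArg (· * VV i v' ξ) (k x e).eq
  simp only [pi1_dw, mul_sub, sub_mul, mul_assoc, VV_mul, h1, one_smul, mul_smul_comm, cz2 h hv h1 k] at this
  rw [← mul_assoc (VV i x _), cz1 h hv h1 k, mul_assoc, (cm_ent _ _ _).vv, VV_mul' x, h1, one_smul, ← mul_assoc _ Z, ← VV_ent] at this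
  simp only [mul_sub, mul_smul_comm, VV_mul'] at this ⊢; linear_combination (norm := module) -this
end
variable (J g l i u v c) in
/-- slices correspond -/
structure WR : Prop where
  u0 : u ≠ 0
  hu : ⟪u, u⟫ = 0
  v0 : v ≠ 0
  hv : ⟪v, v⟫ = 0
  c0 : c ≠ 0
  e : cj g (VV l u (st J u)) = c • VV i v (st J v)
theorem WR.inv (h : WR i l g u v J c) : WR l i g⁻¹ v u J c⁻¹ := ⟨h.v0, h.hv, h.u0, h.hu, inv_ne_zero h.c0, by rw [eq_inv_smul_iff₀ h.c0, ← map_smul, ← h.e, cj_inv_cj]⟩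
theorem WR.dot (H : S2 J) (h : WR i l g u v J c) {x x' y y'} (a : ⟪u, x⟫ = 0) (b : ⟪u, y⟫ = 0) (a' : ⟪v, x'⟫ = 0) (b' : ⟪v, y'⟫ = 0)
    (e : cj g (pi1 l (dw J u x)) = pi1 i (dw J v x')) (e' : cj g (pi1 l (dw J u y)) = pi1 i (dw J v y')) : ⟪x', y'⟫ = c * ⟪x, y⟫ := by
  have := congrArg₂ (· * ·) e e'
  simp only [← map_mul, H.dw_mul h.hu a b, H.dw_mul h.hv a' b', map_smul, ← VV.eq_1, h.e, smul_smul] at this
  linear_combination smul_left_injective F (VV_ne h.v0 (st_eq_zero.not.2 h.v0)) this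
theorem WR.fix (h : WR i l g u v J c) {s : F} (e : X * VV l u (st J u) = s • VV l u (st J u)) (ξ) : cj g X * VV i v ξ = s • VV i v ξ := by
  obtain ⟨v', h1⟩ := ex_st (J := J) h.v0
  have := congrArg (fun Y => cj g Y * VV i v' ξ) e
  simpa [h.e, mul_assoc, VV_mul, h1, smul_comm s c, h.c0] using this
variable (H : HO J M) (m : g ∈ M)
include H m
theorem wr0 (u0 : u ≠ 0) (hu : ⟪u, u⟫ = 0) (e : cj g (VV l u (st J u)) = VV i v χ) : ∃ c, WR i l g u v J c := by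
  have := H.ne
  obtain ⟨v0, χ0⟩ := ne_of_cj u0 (st_eq_zero.not.2 u0) e
  obtain ⟨z, rfl⟩ := st_surj (J := J) χ
  obtain ⟨ψ, hψ⟩ := ex1 v0
  have k := congrArg (ad (JW J)) e
  rw [(H.iso g m).cj_ad, H.ad_VV, H.ad_VV, e] at k
  have k1 : VV i v (st J z) = (ψ ⬝ᵥ z) • VV i v (st J v) := by simpa [VV_mul, hψ] using congrArg (VV i v ψ * ·) k
  have c0 : ψ ⬝ᵥ z ≠ 0 := fun c => VV_ne v0 χ0 (by simpa [c] using k1)
  refine ⟨_, u0, hu, v0, ?_, c0, e.trans k1⟩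
  have := congrArg₂ (· * ·) (e.trans k1) (e.trans k1)
  simp only [← map_mul, VV_mul, hu, zero_smul, map_zero, smul_mul_smul] at this
  simpa [c0, VV_ne, v0] using this.symm
theorem SS_ad (h : a ∈ SS l i g) : ad J a ∈ SS l i g := let ⟨b, e⟩ := h; ⟨ad J b, by rw [← ad_pi1 (J := J), e, (H.iso g m).cj_ad, ad_pi1]⟩
variable (hp : ¬ PatO J M) (h : WR i l g u v J c)
include hp h
theorem wrW (hw : ⟪u, w⟫ = 0) : ∃ x, ⟪v, x⟫ = 0 ∧ cj g (pi1 l (dw J u w)) = pi1 i (dw J v x) := by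
  obtain ⟨u', a1, a1', -⟩ := H.pa h.u0 h.hu
  obtain ⟨v', b1, b1', b2⟩ := H.pa h.v0 h.hv
  have e : (g * piU l (H.sg h.hu hw) * g⁻¹).1 - 1 = c • VV i v (st J v) * cj g (VV l u' (st J w)) - cj g (VV l w (st J u') + (⟪w, w⟫ / 2) • 1) * c • VV i v (st J v) := by
    rw [← h.e, ← map_mul, ← map_mul, ← map_sub, ← cj_val, ← map_one (cj g), ← map_sub]
    simp [piU_val, S2.sg_val, sm, pi1_dw, ← VV.eq_1, add_mul, VV_mul, a1, a1']; abel
  obtain ⟨x, hx, k⟩ := rlR H h.hv b1 b2 hp (i := i) (mul_mem (mul_mem m (H.h0 l _ (H.sg_om H.hk h.u0 h.hu hw))) (inv_mem m))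
    (by rw [← cj_val, h.fix (s := 1) (by simp [piU_val, pi1_VV, S2.sg_val, H.sm_mv, h.hu, H.z hw]), one_smul])
    (by rw [e]; simp [sub_mul, mul_assoc, mul_sub (VV i v _), VV_mul, VV_mul', b1, b1'])
  have k1 := congrArg Units.val k
  have k2 := congrArg (fun y : GL _ F => (y⁻¹).1) k
  simp only [_root_.mul_inv_rev, inv_inv, ← mul_assoc, ← map_inv, ← cj_val, piU_val, S2.sg_val, S2.sg_inv] at k1 k2
  exact ⟨x, hx, by simp only [H.dw_sm, map_smul, map_sub, k1, k2]⟩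
theorem wrS (hx : ⟪v, x⟫ = 0) : ∃ w, ⟪u, w⟫ = 0 ∧ cj g (pi1 l (dw J u w)) = pi1 i (dw J v x) :=
  let ⟨w, a, e⟩ := wrW H (inv_mem m) hp h.inv hx; ⟨w, a, by rw [← e, cj_cj_inv]⟩
theorem n1c {s : F} (s0 : s ≠ 0) (m1 : d ∈ Om J) (m2 : d' ∈ Om J) (e1 : d.1 *ᵥ u = s • u) (e2 : d'.1 *ᵥ v = s • v) (e : ∀ y y', ⟪u, y⟫ = 0 → ⟪v, y'⟫ = 0 →
    cj g (pi1 l (dw J u y)) = pi1 i (dw J v y') → cj g (pi1 l (dw J u (d.1 *ᵥ y))) = pi1 i (dw J v (d'.1 *ᵥ y'))) : d.1 ∈ SS l i g := by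
  obtain ⟨v', b1, b1', b2⟩ := H.pa h.v0 h.hv
  have k : CZ i ((piU i d')⁻¹ * (g * piU l d * g⁻¹)).1 v J := fun y' hy => by
    obtain ⟨y, a, e'⟩ := wrS H m hp h hy
    refine cj_eq_iff.1 ?_
    rw [cj_mul, cj_mul, cj_mul, ← e', cj_inv_cj, cj_piU, (Om.is m1).cj_dw, e1, dw_smul', map_smul, map_smul, e y y' a hy e', ← map_smul, ← dw_smul', ← e2, ← (Om.is m2).cj_dw,
      ← cj_piU, cj_inv_cj, e']
  have k1 : ∀ ξ, ((piU i d')⁻¹ * (g * piU l d * g⁻¹)).1 * VV i v ξ = VV i v ξ := fun ξ => by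
    rw [Units.val_mul, mul_assoc, Units.inv_mul_eq_iff_eq_mul, ← cj_val, h.fix (s := s) (by simp [piU_val, pi1_VV, e1, vv_smul]), piU_val, pi1_VV, e2, vv_smul]
  have mz := mul_mem (inv_mem (H.h0 i _ m2)) (mul_mem (mul_mem m (H.h0 l _ m1)) (inv_mem m))
  have k2 : ent i (st J v') v ((piU i d')⁻¹ * (g * piU l d * g⁻¹)).1 = 1 := sub_eq_zero.1 (((cm_ent _ _ _).sub (cm_sc ⟨1, (one_smul _ _).symm⟩ i)).of_VV h.v0
    (st_eq_zero.not.2 h.v0 : st J v ≠ 0) (by rw [mul_sub, ← cz2 H.toGO h.hv b1 k, k1, mul_one, sub_self]))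
  obtain ⟨x, hx, e⟩ := rlR H h.hv b1 b2 hp mz (k1 _) (by
    rw [← mul_assoc, ← sub_eq_zero, ← sub_mul]
    exact kr0 b1 fun y a ξ => by rw [sub_mul, mul_assoc, sub_mul, cz3 H.toGO h.hv b1 k a]; simp only [k2, mul_one, one_mul, add_sub_cancel_left, VV_mul', b1', one_smul, sub_self])
  exact ⟨(d' * H.sg h.hv hx).1, by rw [← piU_val d, cj_val, inv_mul_eq_iff_eq_mul.1 e, ← map_mul, piU_val]⟩
theorem n1a (hx : ⟪u, x⟫ = 0) : vecMulVec u (st J x) ∈ SS l i g := by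
  obtain ⟨u', a1, a1', a2⟩ := H.pa h.u0 h.hu
  obtain ⟨v', b1, b1', b2⟩ := H.pa h.v0 h.hv
  have k0 : vecMulVec u (st J u) ∈ SS l i g := ⟨c • vecMulVec v (st J v), by rw [map_smul, ← VV, ← h.e, VV]⟩
  refine H.ind' (P := fun x => vecMulVec u (st J x) ∈ SS l i g) h.u0 h.hu (fun x a n => ?_) (fun x y a b => by simpa [vecMulVec_add] using add_mem a b) hx
  suffices ∀ x, ⟪u, x⟫ = 0 → ⟪u', x⟫ = 0 → ⟪x, x⟫ ≠ 0 → vecMulVec u (st J x) ∈ SS l i g by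
    simpa [vecMulVec_sub] using add_mem (this (x - ⟪u', x⟫ • u) (by simp [a, h.hu]) (by simp [a1']) (by simpa [H.z a, a, h.hu])) (Subalgebra.smul_mem _ k0 ⟪u', x⟫)
  intro x a b n
  obtain ⟨x', a', e⟩ := wrW H m hp h a
  have k : ∀ (d : GL κ F) (s t : F), s ≠ t → d.1 *ᵥ u = s • u → d.1 *ᵥ x = t • x → d.1 ∈ SS l i g → vecMulVec u (st J x) ∈ SS l i g := fun d s t n e1 e2 k => by
    have k1 : dw J u x ∈ SS l i g := ⟨_, e.symm⟩
    have := Subalgebra.smul_mem _ (sub_mem (mul_mem k k1) (Subalgebra.smul_mem _ k1 t)) (s - t)⁻¹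
    simp only [dw, mul_sub, mul_vecMulVec, e1, e2, smul_vecMulVec, smul_sub, sub_sub_sub_cancel_right] at this
    rwa [← smul_sub, ← sub_smul, inv_smul_smul₀ (sub_ne_zero.2 n)] at this
  rcases H.hq' h.hu a1 a n with ⟨s, s0, s1⟩ | ⟨-, -, y, y1, y2, y3, y4⟩
  · obtain ⟨d, d1, d2⟩ := H.tor h.hu a1 a2 s0
    obtain ⟨d', d1', d2'⟩ := H.tor h.hv b1 b2 s0
    have e1 : d.1 *ᵥ u = (s * s) • u := by simp [d2, add_mulVec, smul_mulVec, vecMulVec_mulVec, a1', h.hu]; module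
    exact k d _ 1 s1 e1 (by simp [d2, add_mulVec, smul_mulVec, vecMulVec_mulVec, a, b]) (n1c H m hp h (mul_ne_zero s0 s0) d1 d1' e1
      (by simp [d2', add_mulVec, smul_mulVec, vecMulVec_mulVec, b1', h.hv]; module) fun y y' p p' e => by
        simpa [d2, d2', add_mulVec, smul_mulVec, vecMulVec_mulVec, p, p', dw_add, dw_smul, dw_self] using e)
  obtain ⟨y', y1', e'⟩ := wrW H m hp h y1
  have kk : ∀ {x x'} (n : ⟪x, x⟫ ≠ 0) (n' : ⟪x', x'⟫ ≠ 0), ⟪u, x⟫ = 0 → ⟪v, x'⟫ = 0 → cj g (pi1 l (dw J u x)) = pi1 i (dw J v x') → ∀ y y', ⟪u, y⟫ = 0 → ⟪v, y'⟫ = 0 →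
      cj g (pi1 l (dw J u y)) = pi1 i (dw J v y') → cj g (pi1 l (dw J u ((rf n).1 *ᵥ y))) = pi1 i (dw J v ((rf n').1 *ᵥ y')) := fun n n' a a' e y y' b b' e' => by
    have := h.c0
    simp only [rf_mv, sub_eq_add_neg, ← neg_smul, dw_add, dw_smul, map_add, map_smul, e, e', h.dot H.toS2 a a a' a' e e, h.dot H.toS2 a b a' b' e e']
    congr 2; field_simp
  have n1 : ⟪x', x'⟫ ≠ 0 := by rw [h.dot H.toS2 a a a' a' e e]; exact mul_ne_zero h.c0 n
  have n2 : ⟪x', x'⟫ = 1 * 1 * ⟪y', y'⟫ := by rw [h.dot H.toS2 a a a' a' e e, h.dot H.toS2 y1 y1 y1' y1' e' e', y4]; simp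
  have n3 : ⟪y', y'⟫ ≠ 0 := by simpa [n2] using n1
  have e1 : (rf n * rf (y4 ▸ n)).1 *ᵥ u = (1 : F) • u := by simp [← mulVec_mulVec, rf_mv, H.z a, H.z y1]
  refine k (rf n * rf (y4 ▸ n)) 1 (-1) (fun e => H.h2 (by linear_combination e)) e1 (by simp [← mulVec_mulVec, rf_mv, H.z y3, n]; module)
    (n1c H m hp h one_ne_zero (H.rr n _ one_ne_zero (by simp [y4])) (H.rr n1 n3 one_ne_zero n2) e1 (by simp [← mulVec_mulVec, rf_mv, H.z a', H.z y1']) fun z z' p p' q => ?_)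
  simp only [Units.val_mul, ← mulVec_mulVec]
  exact kk n n1 a a' e _ _ (by simp [rf_mv, p, y1]) (by simp [rf_mv, p', y1']) (kk _ n3 y1 y1' e' z z' p p' q)
theorem c1E (h1 : ⟪v, v'⟫ = 1) (k : ∀ a b, pi1 i b = cj g (pi1 l a) → Commute Z (pi1 i b)) :
    Z = ent i (st J v') v Z + VV i v (st J v) * ent i (st J v') v' (Z - ent i (st J v') v Z) := by
  obtain ⟨u', a1, a1', a2⟩ := H.pa h.u0 h.hu
  have h1' := H.c v' v ▸ h1
  have kz : CZ i Z v J := fun y hy => let ⟨w, _, e⟩ := wrS H m hp h hy; k _ _ e.symm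
  have k1 := cz1 H.toGO h.hv h1 kz
  have k2 := cz2 H.toGO h.hv h1 kz
  have c1 : Cm i (ent i (st J v') v Z) := cm_ent _ _ _
  generalize ent i (st J v') v Z = ε at k1 k2 c1
  have k3 : ∀ y, ⟪v, y⟫ = 0 → pi1 i (dw J v y) * (Z - ε) = 0 := fun y hy => by
    obtain ⟨w, a, e⟩ := wrS H m hp h hy
    obtain ⟨s, hs⟩ := n1a H m hp h a
    have e1 : pi1 i s = VV i v (st J v' ᵥ* s) := by rw [← VV_pi1, hs, ← VV]; exact kl (st_eq_zero.not.2 h.u0) (h.e.trans (vv_smul' ..).symm) h1' _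
    have e2 : VV l w (st J u) = VV l w (st J u') * VV l u (st J u) := by simp [VV_mul, a1']
    rw [← e, pi1_dw, map_sub, e2, map_mul, h.e, VV, ← hs, sub_mul, mul_sub, ← (k _ _ hs).eq, e1, k2]; simp [mul_assoc, mul_sub, k1]
  have k4 := kr0 (X := Z - ε) (i := i) h1 fun y hy ξ => by
    have := congrArg (· * VV i v' ξ) ((((kz y hy).sub_left (c1 _)).eq.trans (k3 y hy)))
    simpa [pi1_dw, mul_sub, sub_mul, mul_assoc, VV_mul, VV_mul', h1, k2, c1.vv, sub_eq_zero, eq_comm] using this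
  have k5 := kr0 (X := ad (JW J) (Z - ε)) (i := i) h1 fun y hy ξ => by
    obtain ⟨b, rfl⟩ := st_surj (J := J) ξ
    have := congrArg (fun X => ad (JW J) (VV i b (st J v') * X)) (k3 y hy)
    simp only [pi1_dw, sub_mul, mul_sub (VV i y _), k1, sub_self, sub_zero, VV_mul', h1', one_smul] at this
    simpa [-map_sub, ad_mul, H.ad_VV] using this
  replace k5 := congrArg (ad (JW J)) k5
  rw [ad_mul, H.adW, map_sub, H.ad_VV, ad_one, map_zero, sub_mul, one_mul, sub_eq_zero] at k5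
  rw [mul_sub, mul_one, sub_eq_zero] at k4
  rw [VV_ent, ← k5, ← k4]; abel
omit H m hp h in
theorem com_ent (k : Commute Z (pi1 j b)) (n : i ≠ j) (φ u : κ → F) : Commute (ent i φ u Z) (pi1 j b) :=
  Commute.sum_left _ _ _ fun _ _ => ((cm_pi1 n _ _).mul_left k).mul_left (cm_pi1 n _ _)
omit h in
theorem fixP [Nontrivial κ] {u : τ → κ → F} (h : ∀ l, ∃ i v c, WR i l g (u l) v J c) : g ∈ HH τ κ F := fun l => by
  choose π v c h using h
  have inj : Function.Injective π := fun l j e => by_contra fun n => by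
    have k := congrArg (cj g) (cm_pi1 n (vecMulVec (u l) (st J (u l))) (vecMulVec (u j) (st J (u j)))).eq
    have k0 : cj g (VV l (u l) (st J (u l)) * VV j (u j) (st J (u j))) ≠ 0 := by
      simpa [-map_mul, VV] using mt ((cm_pi1 (Ne.symm n) _).of_VV (h l).u0 (st_eq_zero.not.2 (h l).u0 : st J _ ≠ 0)) (VV_ne (h j).u0 (st_eq_zero.not.2 (h j).u0 : st J _ ≠ 0))
    simp only [← VV.eq_1, map_mul, (h l).e, (h j).e, e, smul_mul_smul, VV_mul] at k k0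
    simpa [VV_mul', VV_mul, (h l).hv, H.c (v j) (v l), (h l).c0, (h j).c0, VV_ne, (h l).v0, show ⟪v l, v j⟫ ≠ 0 from fun e => by simp [e] at k0]
      using congrArg (· * VV (π j) (v l) (st J (v l))) k
  have sy : ∀ S : Finset τ, ∀ σ : 𝒜, (∀ j ∈ S, ∀ a b, pi1 (π j) b = cj g (pi1 j a) → Commute σ (pi1 (π j) b)) → (∀ j ∉ S, Cm (π j) σ) → ad (JW J) σ = σ := fun S => by
    induction S using Finset.induction_on with
    | empty =>
      intro σ _ k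
      obtain ⟨s, rfl⟩ := sc_of_cm fun i => let ⟨j, e⟩ := Finite.injective_iff_surjective.1 inj i; e ▸ k j (by simp)
      simp
    | insert j S hj ih =>
    intro σ k1 k2
    obtain ⟨v', b1⟩ := ex_st (J := J) (h j).v0
    have k : ∀ σ : 𝒜, (∀ j' ∈ S, ∀ a b, pi1 (π j') b = cj g (pi1 j' a) → Commute σ (pi1 (π j') b)) → (∀ j' ∉ insert j S, Cm (π j') σ) → ∀ φ w,
        (∀ j' ∈ S, ∀ a b, pi1 (π j') b = cj g (pi1 j' a) → Commute (ent (π j) φ w σ) (pi1 (π j') b)) ∧ ∀ j' ∉ S, Cm (π j') (ent (π j) φ w σ) := fun σ a b φ w =>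
      ⟨fun j' m' _ _ e => com_ent (a j' m' _ _ e) (inj.ne (by rintro rfl; exact hj m')) _ _, fun j' m' => by
        by_cases c : j' = j
        exacts [c ▸ cm_ent _ _ _, (b j' (by simp [*])).ent (inj.ne (Ne.symm c)) _ _]⟩
    have k3 := k σ (fun j m => k1 j (by simp [m])) k2 (st J v') (v j)
    have k4 := k (σ - ent (π j) (st J v') (v j) σ) (fun j' m' a b e => (k1 j' (by simp [m']) a b e).sub_left (k3.1 j' m' a b e))
      (fun j' m' => (k2 j' m').sub (k3.2 j' (by simp_all))) (st J v') v'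
    rw [c1E H m hp (h j) b1 (k1 j (by simp)), map_add, ad_mul, ih _ k3.1 k3.2, ih _ k4.1 k4.2, H.ad_VV, (cm_ent _ _ _).vv]
  have sy' : ∀ a φ w, ad (JW J) (ent (π l) φ w (cj g (pi1 l a))) = ent (π l) φ w (cj g (pi1 l a)) := fun a φ w => sy (.erase .univ l) _
    (fun j m a' b e => have n : l ≠ j := by rintro rfl; simp at m
      com_ent (by rw [e]; exact (cm_pi1 n a a').map (cj g)) (inj.ne n) _ _) fun j m => by
        obtain rfl : j = l := by simpa using m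
        exact cm_ent _ _ _
  have W := h l
  generalize π l = i, v l = v, c l = c, u l = u at W sy' ⊢
  refine ⟨i, ?_⟩
  obtain ⟨u', a1, a1', a2⟩ := H.pa W.u0 W.hu
  obtain ⟨v', b1, b1', b2⟩ := H.pa W.v0 W.hv
  have k0 : vecMulVec u (st J u) ∈ SS l i g := ⟨c • vecMulVec v (st J v), by rw [map_smul, ← VV, ← W.e, VV]⟩
  have e1 := kl (st_eq_zero.not.2 W.u0) (W.e.trans (vv_smul' ..).symm) b1' (st J u')
  have e2 := W.fix (s := 1) (X := VV l u (st J u')) (by simp [VV_mul, a1'])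
  have e3 : cj g (VV l u (st J u')) * ad (JW J) (cj g (VV l u (st J u'))) = 0 := by rw [(H.iso g m).cj_ad, ← map_mul]; simp [H.ad_VV, VV_mul, a2]
  have s1 := sy' (vecMulVec u (st J u')) (st J v') v'
  obtain ⟨ρ, hρ⟩ := dec (X := cj g (VV l u (st J u'))) (i := i) (v := v) b1 fun y hy => by
    obtain ⟨w, a, e⟩ := wrS H m hp W hy
    obtain ⟨s, hs⟩ : vecMulVec u (st J u') * dw J u w ∈ SS l i g := by
      simpa [dw, mul_sub, vecMulVec_mul_vecMulVec, a1'] using sub_mem (n1a H m hp W a) (Subalgebra.smul_mem _ k0 ⟪u', w⟫)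
    rw [map_mul, map_mul, e, ← VV, pi1_dw, mul_sub, e2, one_smul, e1, mul_assoc, ← mul_assoc, ← VV_ent, eq_comm, sub_eq_iff_eq_add, ← sub_eq_iff_eq_add', eq_comm, VV.eq_1 i v (st J y), ← map_sub] at hs
    obtain ⟨r, hr⟩ := (cm_ent _ _ _).sc_of (by simp [W.v0]) hs
    exact ⟨r, fun ξ => by rw [e1, ← VV_ent, hr]; simp⟩
  rw [← VV] at s1
  obtain ⟨ψ, rfl⟩ := st_surj (J := J) ρ
  have e4 : cj g (VV l u (st J u')) * VV i v' (st J v) = VV i v (st J v) * ent i (st J v') v' (cj g (VV l u (st J u'))) := by rw [VV_ent, ← e1]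
  have c1 : Cm i (ent i (st J v') v' (cj g (VV l u (st J u')))) := cm_ent _ _ _
  generalize ent i (st J v') v' (cj g (VV l u (st J u'))) = σ at s1 e4 c1
  rw [e4] at hρ
  have e5 : ⟪ψ, v⟫ = 1 := smul_left_injective F (VV_ne W.v0 (st_eq_zero.not.2 W.v0)) (by
    simpa [hρ, add_mul, mul_assoc, c1.vv, VV_mul, VV_mul', W.hv] using e2 (st J v))
  have e6 : σ = (-⟪ψ, ψ⟫ / 2) • 1 := sub_eq_zero.1 ((c1.sub (cm_sc ⟨_, rfl⟩ i)).of_VV W.v0 (st_eq_zero.not.2 W.v0 : st J v ≠ 0) (smul_right_injective _ H.h2 (by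
    simp only [hρ, map_add, ad_mul, s1, H.ad_VV, mul_add, add_mul, mul_assoc, c1.vv, c1.vv', VV_mul, VV_mul', W.hv, e5, H.c v ψ, zero_smul, one_smul] at e3
    have := H.h2
    simp only [mul_sub, mul_smul_comm, mul_one, smul_zero]
    rw [← e3]; match_scalars <;> field_simp <;> ring)))
  obtain ⟨z, e7⟩ : ∃ z, cj g (VV l u (st J u')) = VV i v (st J z) := ⟨ψ + (-⟪ψ, ψ⟫ / 2) • v, by simp [hρ, e6, vv_add', vv_smul']⟩
  have e8 : cj g (VV l u' (st J u')) = VV i z (st J z) * ent i (st J v) v (cj g (VV l u' (st J u'))) := by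
    rw [VV_ent, ← e7, ← H.ad_VV v z, ← e7, (H.iso g m).cj_ad, ← map_mul, ← map_mul]; simp [H.ad_VV, VV_mul, a1, a1']
  have e9 : ent i (st J v) v (cj g (VV l u' (st J u'))) = c⁻¹ • 1 := sub_eq_zero.1 (((cm_ent _ _ _).sub (cm_sc ⟨_, rfl⟩ i)).of_VV W.v0 (st_eq_zero.not.2 W.v0 : st J v ≠ 0) (by
    rw [mul_sub, VV_ent, mul_smul_comm, mul_one, (eq_inv_smul_iff₀ W.c0).2 W.e.symm]
    simp [← map_mul, VV_mul, a1, a1']))
  exact fun a => (mem_SS.1 (H.gen H.hk (S := SS l i g) W.hu a1 a2 (fun x hx => let ⟨_, _, e⟩ := wrW H m hp W hx; ⟨_, e.symm⟩)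
    ⟨c⁻¹ • vecMulVec z (st J z), by rw [← VV.eq_1 l, e8, e9]; simp [VV]⟩ a)).imp fun _ => Eq.symm
end H09.Wr
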