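import Mathlib
import Cfsg.Agent.H09.WoD
/-! Orthogonal tensor-wreath subgroups: root subgroups inside the wreath product. -/
namespace H09.Wr
open Matrix H10.As Module
variable {τ κ ι : Type} [Fintype τ] [DecidableEq τ] [Fintype κ] [DecidableEq κ] [Fintype ι] [DecidableEq ι] {F : Type*} [Field F]
local notation "𝒜" => Matrix (τ → κ) (τ → κ) F
variable {i j l p : τ} {β γ Z X Y P N : Matrix (τ → κ) (τ → κ) F} {g y z : GL (τ → κ) F} {u u' v v' w x φ ψ χ : κ → F} {a b A : Matrix κ κ F} {J d d' : GL κ F}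
  {M : Subgroup (GL (τ → κ) F)} {c : F}
set_option hygiene false in
local notation "⟪" a ", " b "⟫" => Wr.st J a ⬝ᵥ b
theorem qlin {V W : Type*} [AddCommGroup V] [Module F V] [AddCommGroup W] [Module F W] {e d1 d2 d3 : V} {f c1 c2 c3 : W} {α β γ : F} (β0 : β ≠ 0) (α0 : α ≠ 0) (γ0 : γ ≠ 0)
    (h : ∀ ψ : Dual F W, (α * ψ f) • e + (β * ψ c1) • d1 + (γ * ψ c2) • d2 = ψ c3 • d3) (e0 : e ≠ 0) (f0 : f ≠ 0) (c0 : c3 ≠ 0) (hd : d1 ∉ F ∙ e) (hc : c1 ∉ F ∙ f) :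
    (∃ s t : F, d2 = s • e + t • d1) ∧ (∃ s t : F, d3 = s • e + t • d1) ∧ ∀ s : F, s ≠ 0 → d2 = s • e → d3 = s • d1 → c2 ∈ F ∙ f := by
  have k : ∀ {x y : W}, x ∉ F ∙ y → ∃ ψ : Dual F W, ψ x ≠ 0 ∧ ψ y = 0 := fun {x y} m =>
    let ⟨ψ, a, b⟩ := Submodule.exists_dual_map_eq_bot_of_notMem m inferInstance; ⟨ψ, a, by simpa [Submodule.map_span] using b⟩
  have i : ∀ s t : F, s • e + t • d1 = 0 → s = 0 ∧ t = 0 := fun s t h => by
    by_cases t0 : t = 0
    · simpa [t0, e0] using h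
    · exact (hd (Submodule.mem_span_singleton.2 ⟨-s / t, smul_right_injective _ t0 (by
        simp only [smul_smul, mul_div_cancel₀ _ t0]; linear_combination (norm := module) -h)⟩)).elim
  have k1 : ∃ s t : F, d2 = s • e + t • d1 := by
    obtain ⟨ψ, a, b⟩ : ∃ ψ : Dual F W, (ψ f ≠ 0 ∨ ψ c1 ≠ 0) ∧ ψ c3 = 0 := by
      by_cases m : f ∈ F ∙ c3
      · obtain ⟨t, rfl⟩ := Submodule.mem_span_singleton.1 m
        obtain ⟨ψ, a, b⟩ := k (x := c1) (y := c3) (by rwa [Submodule.span_singleton_smul_eq (by simp_all)] at hc)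
        exact ⟨ψ, .inr a, b⟩
      · exact let ⟨ψ, a, b⟩ := k m; ⟨ψ, .inl a, b⟩
    have := h ψ
    by_cases n : ψ c2 = 0
    · simp only [b, n, mul_zero, zero_smul, add_zero] at this
      exact absurd (i _ _ this) (by simpa [α0, β0, imp_iff_not_or] using a)
    exact ⟨-(α * ψ f) / (γ * ψ c2), -(β * ψ c1) / (γ * ψ c2), smul_right_injective _ (mul_ne_zero γ0 n) (by
      simp only [smul_add, smul_smul, mul_div_cancel₀ _ (mul_ne_zero γ0 n)]; rw [b] at this; linear_combination (norm := module) this)⟩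
  refine ⟨k1, ?_, fun s s0 a b => by_contra fun m => ?_⟩
  · obtain ⟨s, t, rfl⟩ := k1
    obtain ⟨ψ, a, -⟩ := k (x := c3) (y := 0) (by simpa)
    exact ⟨(α * ψ f + γ * ψ c2 * s) / ψ c3, (β * ψ c1 + γ * ψ c2 * t) / ψ c3, smul_right_injective _ a (by
      simp only [smul_add, smul_smul, mul_div_cancel₀ _ a]; linear_combination (norm := module) -h ψ)⟩
  obtain ⟨ψ, a', b'⟩ := k m
  have := h ψ
  rw [a, b, b'] at this
  simpa [γ0, a', s0] using (i (γ * ψ c2 * s) (β * ψ c1 - ψ c3 * s) (by linear_combination (norm := module) this)).1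
theorem sc_iff {a : Matrix ι ι F} : a ∈ F ∙ (1 : Matrix ι ι F) ↔ Sc a := Submodule.mem_span_singleton.trans (exists_congr fun _ => eq_comm)
theorem cm_one : Cm p (1 : 𝒜) := fun _ => .one_left _
theorem ent_pi1 (h : Cm p β) (φ u : κ → F) (a) : ent p φ u (pi1 p a * β) = (φ ⬝ᵥ a *ᵥ u) • β := by
  rw [ent_right h]; simp only [ent, VV_pi1, VV_mul, ← Finset.smul_sum, sum_VV, dotProduct_mulVec, smul_mul_assoc, one_mul]
theorem ent_ad (φ u : κ → F) (β γ : 𝒜) : ent p φ u (β + γ) = ent p φ u β + ent p φ u γ := by simp [ent, mul_add, add_mul, Finset.sum_add_distrib]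
theorem ent_sm (φ u : κ → F) (c : F) (β : 𝒜) : ent p φ u (c • β) = c • ent p φ u β := by simp [ent, Finset.smul_sum]
theorem qten [Nonempty κ] {d1 d2 d3 : GL κ F} {c1 c2 c3 : GL (τ → κ) F} {α β γ : F} (β0 : β ≠ 0) (α0 : α ≠ 0) (γ0 : γ ≠ 0) (h1 : Cm p c1.1) (h2 : Cm p c2.1) (h3 : Cm p c3.1)
    (h : α • 1 + β • (piU p d1 * c1).1 + γ • (piU p d2 * c2).1 = (piU p d3 * c3).1) (hd : ¬ Sc d1.1) (hc : ¬ Sc c1.1)
    (e : d2 = d1⁻¹ ∧ c2 = c1⁻¹ ∨ d3 = d1 * d2 ∧ c3 = c1 * c2 ∧ ¬ (Sc d2.1 ∧ Sc c2.1)) : (∃ s r : F, d1.1 * d1.1 = s • d1.1 + r • 1) ∧ ∃ s r : F, c1.1 * c1.1 = s • c1.1 + r • 1 := by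
  have k1 : ∀ r s, (α * (1 : Matrix κ κ F) r s) • (1 : 𝒜) + (β * d1.1 r s) • c1.1 + (γ * d2.1 r s) • c2.1 = d3.1 r s • c3.1 := fun r s => by
    have := congrArg (ent p (Pi.single r 1) (Pi.single s 1)) h
    simpa [ent_ad, ent_sm, piU_val, ent_pi1, h1, h2, h3, cm_one.ent_eq, smul_smul, one_apply, Pi.single_apply, eq_comm (a := s)] using this
  have k2 : ∀ ψ : Dual F 𝒜, (α * ψ 1) • (1 : Matrix κ κ F) + (β * ψ c1.1) • d1.1 + (γ * ψ c2.1) • d2.1 = ψ c3.1 • d3.1 := fun ψ => by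
    ext r s; simpa [mul_right_comm, mul_comm (ψ c3.1)] using congrArg ψ (k1 r s)
  have k3 : ∀ ψ : Dual F (Matrix κ κ F), (α * ψ 1) • (1 : 𝒜) + (β * ψ d1.1) • c1.1 + (γ * ψ d2.1) • c2.1 = ψ d3.1 • c3.1 := fun ψ => by
    ext r s; simpa [mul_right_comm, mul_comm (ψ d3.1)] using congrArg ψ (k2 (entryLinearMap F F r s))
  have a := qlin β0 α0 γ0 k2 one_ne_zero one_ne_zero c3.ne_zero (sc_iff.not.2 hd) (sc_iff.not.2 hc)
  have b := qlin β0 α0 γ0 k3 one_ne_zero one_ne_zero d3.ne_zero (sc_iff.not.2 hc) (sc_iff.not.2 hd)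
  have q : ∀ {ι : Type} [Fintype ι] [DecidableEq ι] [Nonempty ι] {d1 d2 d3 : GL ι F}, ¬ Sc d1.1 → (∃ s t : F, d2.1 = s • 1 + t • d1.1) → (∃ s t : F, d3.1 = s • 1 + t • d1.1) →
      (d2 = d1⁻¹ ∨ d3 = d1 * d2 ∧ ∀ s : F, s ≠ 0 → d2.1 = s • 1 → d3.1 = s • d1.1 → False) → ∃ s r : F, d1.1 * d1.1 = s • d1.1 + r • 1 := by
    rintro ι _ _ _ d1 d2 d3 n ⟨s, t, a⟩ ⟨s', t', b⟩ (rfl | ⟨rfl, e⟩)
    · have := congrArg (d1.1 * ·) a
      simp only [Units.mul_inv, mul_add, mul_smul_comm, mul_one] at this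
      have t0 : t ≠ 0 := by rintro rfl; exact n ⟨s⁻¹, by rw [this]; simp [show s ≠ 0 by rintro rfl; simp at this]⟩
      exact ⟨-s / t, 1 / t, smul_right_injective _ t0 (by simp only [smul_add, smul_smul, mul_div_cancel₀ _ t0]; linear_combination (norm := module) -this)⟩
    · have t0 : t ≠ 0 := by rintro rfl; exact e s (by rintro rfl; exact d2.ne_zero (by simpa using a)) (by simpa using a) (by simp [a])
      rw [Units.val_mul, a, mul_add, mul_smul_comm, mul_smul_comm, mul_one] at b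
      exact ⟨(t' - s) / t, s' / t, smul_right_injective _ t0 (by simp only [smul_add, smul_smul, mul_div_cancel₀ _ t0]; linear_combination (norm := module) b)⟩
  exact ⟨q hd a.1 a.2.1 (e.imp And.left fun e => ⟨e.1, fun s s0 x y => e.2.2 ⟨⟨s, x⟩, sc_iff.1 (a.2.2 s s0 x y)⟩⟩),
    q hc b.1 b.2.1 (e.imp And.right fun e => ⟨e.2.1, fun s s0 x y => e.2.2 ⟨sc_iff.1 (b.2.2 s s0 x y), s, x⟩⟩)⟩
theorem ind4 [Nonempty κ] (h : Cm p β) (n : ¬ Sc a) (n' : ¬ Sc β) {p0 p1 p2 p3 : F} (e : p0 • 1 + p1 • pi1 p a + p2 • β + p3 • (pi1 p a * β) = 0) :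
    p0 = 0 ∧ p1 = 0 ∧ p2 = 0 ∧ p3 = 0 := by
  have k : ∀ s t : F, s • (1 : 𝒜) + t • β = 0 → s = 0 ∧ t = 0 := fun s t h => by
    by_cases t0 : t = 0
    · simpa [t0] using h
    · exact (n' ⟨-s / t, smul_right_injective _ t0 (by simp only [smul_smul, mul_div_cancel₀ _ t0]; linear_combination (norm := module) h)⟩).elim
  obtain ⟨u, hu⟩ := not_forall.1 (mt sc_of_span n)
  obtain ⟨φ, c1, c2⟩ := ex2 hu
  have c := cm_one (κ := κ) (F := F) (p := p)
  have := congrArg (ent p φ u) e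
  rw [← mul_one (pi1 p a), ent_ad, ent_ad, ent_ad, ent_sm, ent_sm, ent_sm, ent_sm, ent_pi1 c, mul_one, ent_pi1 h, c.ent_eq, h.ent_eq, c1, c2] at this
  obtain ⟨rfl, rfl⟩ := k p1 p3 (by simpa [ent] using this)
  simpa using k p0 p2 (by simpa using e)
theorem rk_add (a b : Matrix ι ι F) : (a + b).rank ≤ a.rank + b.rank := by
  refine le_trans (Submodule.finrank_mono ?_) (Submodule.finrank_add_le_finrank_add_finrank _ _)
  rintro _ ⟨x, rfl⟩
  simpa [add_mulVec] using Submodule.add_mem_sup (LinearMap.mem_range_self a.mulVecLin x) (LinearMap.mem_range_self b.mulVecLin x)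
theorem rk_VV (u φ : κ → F) : Fintype.card κ * (VV l u φ : 𝒜).rank ≤ Fintype.card (τ → κ) := by
  classical
  rw [← Fintype.card_congr (Equiv.sigmaFiberEquiv fun x : τ → κ => x l), Fintype.card_sigma, ← Finset.card_univ, ← smul_eq_mul]
  refine Finset.card_nsmul_le_sum _ _ _ fun r _ => (rank_VV (i := l) u φ (v := Pi.single r 1) (ψ := Pi.single r 1) (by simp) (by simp)).trans_eq ?_
  rw [show (VV l (Pi.single r 1) (Pi.single r 1) : 𝒜) = diagonal fun x => if x l = r then 1 else 0 by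
    ext x y
    by_cases c : x = y
    · subst c; simp [VV, pi1_ent, vecMulVec_apply, Pi.single_apply]
    obtain ⟨j, e⟩ := Function.ne_iff.1 c
    rw [diagonal_apply_ne _ c, VV, pi1_ent]
    by_cases c' : j = l
    · simp [vecMulVec_apply, Pi.single_apply]; grind
    · rw [Finset.prod_eq_zero (i := j) (by simp [c']) (by simp [e]), mul_zero], rank_diagonal]
  simp
theorem qcon (h : GO J) (hA : A * A = 0) (hP : P * P = 0) (c : Cm p P) (P0 : P ≠ 0) (A0 : ¬ Sc A) (hN : ad (JW J) (pi1 p A + P) = -(pi1 p A + P)) {G1 G2}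
    (e : pi1 p A + P = pi1 p A * P * G1 + G2 * (pi1 p A * P)) (r : Fintype.card κ * (pi1 p A * P).rank ≤ Fintype.card (τ → κ)) : False := by
  have : Nontrivial κ := Fintype.one_lt_card_iff_nontrivial.1 (by have := h.hk; omega)
  have k : ∀ ξ, A *ᵥ ξ = 0 → ξ ∈ LinearMap.range A.mulVecLin := fun ξ a => by_contra fun m => by
    obtain ⟨φ, c1, c2⟩ := exists_dot_eq_one m
    have c3 : φ ᵥ* A = 0 := by ext r; simpa [-mulVec_single, dotProduct_mulVec] using c2 _ ⟨Pi.single r 1, rfl⟩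
    have := congrArg (fun X => VV p ξ φ * (X * VV p ξ φ)) e
    simp only [add_mul, mul_add, mul_assoc, c.vv, pi1_VV, ← mul_assoc (VV _ _ _) (pi1 _ _), ← mul_assoc (pi1 _ _) (VV _ _ _), VV_pi1, a, c3, VV_mul', c1, one_smul] at this
    exact P0 (c.of_VV (u := ξ) (φ := φ) (by rintro rfl; simp at c1) (by rintro rfl; simp at c1) (by simpa [VV] using this))
  by_cases hk : Fintype.card κ ≤ 4
  · obtain ⟨s, hs⟩ : Sc (ad J A + A) := Cm.sc (i := p) (by
      rw [map_add, ← ad_pi1, show ad (JW J) (pi1 p A) + pi1 p A = (-1 : F) • (ad (JW J) P + P) by rw [map_add] at hN; linear_combination (norm := module) hN]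
      exact ((c.ado h.toS2).add c).smul _)
    have s0 : s = 0 := by_contra fun s0 => A0 ⟨s / 2, smul_right_injective _ (mul_ne_zero h.h2 s0) (by
      have := congrArg (ad J) hA
      rw [ad_mul, eq_sub_of_add_eq hs] at this
      simp only [mul_sub, sub_mul, hA, smul_mul_smul, smul_mul_assoc, mul_smul_comm, one_mul, mul_one, map_zero, smul_smul] at this ⊢
      rw [mul_right_comm, mul_div_cancel₀ _ h.h2]
      linear_combination (norm := module) -this)⟩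
    obtain ⟨z, hz⟩ : ∃ z, A *ᵥ z ≠ 0 := by by_contra! n; exact A0 ⟨0, ext_of_mulVec_single fun i => by rw [n, zero_smul, zero_mulVec]⟩
    have k1 : ∀ x y, ⟪A *ᵥ x, A *ᵥ y⟫ = 0 := fun x y => by rw [h.dot_ad, mulVec_mulVec, eq_sub_of_add_eq hs, s0]; simp [hA]
    obtain ⟨χ, c1⟩ := ex1 hz
    obtain ⟨ξ, c2, c3⟩ := ex4 h.hk (χ ᵥ* A) hz
    obtain ⟨t, ht⟩ := Submodule.mem_span_singleton.1 (h.h4 hk _ _ hz (k1 z z) (k1 ξ ξ) (k1 z ξ))
    rw [← dotProduct_mulVec, ← ht, dotProduct_smul, c1, smul_eq_mul, mul_one] at c2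
    obtain ⟨y, rfl⟩ := k ξ (by simp [← ht, c2])
    exact c3 (h.h4 hk _ _ hz (k1 z z) (k1 y y) (k1 z y))
  obtain ⟨s, hs⟩ := A.mulVecLin.rangeRestrict.exists_rightInverse_of_surjective A.mulVecLin.range_rangeRestrict
  obtain ⟨G, hG⟩ := s.exists_extend
  obtain ⟨G, rfl⟩ := toLin'.surjective G
  have k1 : ∀ x, A *ᵥ G *ᵥ A *ᵥ x = A *ᵥ x := fun x => by
    simpa [-mulVec_mulVec, ← hG] using congrArg Subtype.val (LinearMap.congr_fun hs ⟨A *ᵥ x, x, rfl⟩)
  obtain ⟨T, hT⟩ : IsUnit (A * G + G * A) := mulVec_injective_iff_isUnit.1 ((injective_iff_map_eq_zero (A * G + G * A).mulVecLin).2 fun x e => by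
    simp only [mulVecLin_apply, add_mulVec, ← mulVec_mulVec] at e
    obtain ⟨z, rfl⟩ := k x (by simpa [mulVec_add, ← mulVec_mulVec, k1, mulVec_mulVec _ A A, hA] using congrArg (A *ᵥ ·) e)
    simpa [← mulVec_mulVec, k1, mulVec_mulVec _ A A, hA] using e)
  have k2 : (pi1 p A + P) * pi1 p G + pi1 p G * (pi1 p A + P) = (piU p T * tv ((2 : F) • (P * pi1 p ((T⁻¹).1 * G))) (by
      simp only [smul_mul_smul, mul_assoc, ← mul_assoc (pi1 p _) P, ← (c _).eq, ← mul_assoc P P, hP, zero_mul, smul_zero])).1 := by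
    simp only [Units.val_mul, piU_val, tv, mul_add, add_mul, mul_one, mul_smul_comm, ← mul_assoc (pi1 p _) P, ← (c _).eq, mul_assoc, ← map_mul, Units.mul_inv_cancel_left]
    rw [hT, map_add]; module
  have k3 := rk_add ((pi1 p A + P) * pi1 p G) (pi1 p G * (pi1 p A + P))
  have k4 := rk_add (pi1 p A * P * G1) (G2 * (pi1 p A * P))
  rw [k2, rank_unit] at k3
  rw [← e] at k4
  have := rank_mul_le_left (pi1 p A + P) (pi1 p G)
  have := rank_mul_le_right (pi1 p G) (pi1 p A + P)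
  have := rank_mul_le_left (pi1 p A * P) G1
  have := rank_mul_le_right G2 (pi1 p A * P)
  have := Fintype.card_pos (α := τ → κ)
  nlinarith
theorem qcon2 (h : GO J) (hg : Is (JW J) g) (hu : ⟪u, u⟫ = 0) (u0 : u ≠ 0) (hw : ⟪u, w⟫ = 0) (n : ⟪w, w⟫ ≠ 0) (c : Cm p z.1) (e : g * piU l (h.sg hu hw) * g⁻¹ = piU p d * z)
    (hd : ¬ Sc d.1) (hz : ¬ Sc z.1) {s r s' r' : F} (e1 : d.1 * d.1 = s • d.1 + r • 1) (e2 : z.1 * z.1 = s' • z.1 + r' • 1) : False := by
  have : Nontrivial κ := Fintype.one_lt_card_iff_nontrivial.1 (by have := h.hk; omega)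
  have t := h.h2
  obtain ⟨u', a1, a1', -⟩ := h.pa u0 hu
  have e3 := congrArg Units.val e
  rw [← cj_val, piU_val, S2.sg_val, Units.val_mul, piU_val] at e3
  have k0 : ∀ Y, z.1 * (pi1 p d.1 * Y) = pi1 p d.1 * (z.1 * Y) := fun Y => by rw [← mul_assoc, (c _).eq, mul_assoc]
  have k1 : ∀ Y, pi1 p d.1 * (pi1 p d.1 * Y) = s • (pi1 p d.1 * Y) + r • Y := fun Y => by rw [← mul_assoc, ← map_mul, e1]; simp [add_mul]
  have k2 : ∀ Y, z.1 * (z.1 * Y) = s' • (z.1 * Y) + r' • Y := fun Y => by rw [← mul_assoc, e2]; simp [add_mul]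
  have k3 : (pi1 p d.1 * z.1 - 1) * ((pi1 p d.1 * z.1 - 1) * (pi1 p d.1 * z.1 - 1)) = 0 := by
    rw [← e3, ← map_one (cj g), ← map_one (pi1 l), ← map_sub, ← map_sub, ← map_mul, ← map_mul, ← map_mul, ← map_mul]
    simp [sm, add_sub_assoc, mul_sub, sub_mul, h.dw_mul hu hw hw, h.dw_E hu hw, h.E_dw hu hw, vecMulVec_mul_vecMulVec, hu]
  obtain ⟨q0, q1, q2, q3⟩ := ind4 c hd hz (p0 := s * r * (s' * r') - 3 * r * r' - 1) (p1 := (s * s + r) * (s' * r') - 3 * s * r') (p2 := s * r * (s' * s' + r') - 3 * r * s')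
    (p3 := (s * s + r) * (s' * s' + r') - 3 * s * s' + 3) (by
      rw [← k3]; simp only [mul_sub, sub_mul, mul_assoc, k0, k1, k2, e2, mul_add, mul_smul_comm, mul_one, one_mul, ← map_mul, e1, map_add, map_smul, map_one, (c _).eq]; module)
  have r0 : r ≠ 0 := by rintro rfl; simp at q0
  have r0' : r' ≠ 0 := by rintro rfl; simp at q0
  replace q1 : (s * s + r) * s' = 3 * s := mul_right_cancel₀ r0' (by linear_combination q1)
  replace q2 : (s' * s' + r') * s = 3 * s' := mul_right_cancel₀ r0 (by linear_combination q2)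
  have s0 : s ≠ 0 := by
    rintro rfl
    obtain rfl : s' = 0 := by simpa [r0] using q1
    exact pow_ne_zero 3 t (by linear_combination 3 * q3 + q0)
  have s0' : s' ≠ 0 := by
    rintro rfl
    obtain rfl : s = 0 := by simpa [r0'] using q2
    exact s0 rfl
  have m : s * s' = 4 := by
    have a : 3 * (s * s' - 4) = 0 := mul_left_cancel₀ (mul_ne_zero s0 s0') (by linear_combination (s' * s' + r') * s * q1 + 3 * s * q2 - s * s' * q3)
    have b : (s * s' - 3) ^ 3 = 1 := mul_left_cancel₀ (mul_ne_zero s0 s0') (by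
      linear_combination s * s' * q0 - (s * s' - 3) * (r' * s * q1 - s * (s * s' - 3) * q2))
    exact sub_eq_zero.1 (pow_eq_zero_iff three_ne_zero |>.1 (by linear_combination b - (s * s' - 3) * a))
  have m1 : r = -(s * s) / (2 * 2) := by field_simp; linear_combination s * q1 - (s * s + r) * m
  have m2 : r' = -(s' * s') / (2 * 2) := by field_simp; linear_combination s' * q2 - (s' * s' + r') * m
  obtain ⟨A, hA⟩ : ∃ A, A = (2 / s) • d.1 - 1 := ⟨_, rfl⟩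
  obtain ⟨P, hP⟩ : ∃ P, P = (2 / s') • z.1 - 1 := ⟨_, rfl⟩
  have A2 : A * A = 0 := by simp only [hA, mul_sub, sub_mul, smul_mul_smul, e1, m1, mul_one, one_mul]; match_scalars <;> field_simp <;> ring
  have P2 : P * P = 0 := by simp only [hP, mul_sub, sub_mul, smul_mul_smul, e2, m2, mul_one, one_mul]; match_scalars <;> field_simp <;> ring
  have cP : Cm p P := hP ▸ (c.smul _).sub cm_one
  have e4 : cj g (pi1 l (sm J u w)) = (1 + pi1 p A) * (1 + P) := by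
    simp only [e3, hA, hP, map_sub, map_smul, map_one, add_sub_cancel, smul_mul_smul]
    rw [div_mul_div_comm, m, show (4 : F) = 2 * 2 by norm_num, div_self (mul_ne_zero t t), one_smul]
  have k4 : ∀ Y, P * (pi1 p A * Y) = pi1 p A * (P * Y) := fun Y => by rw [← mul_assoc, (cP _).eq, mul_assoc]
  have k5 : ∀ Y, pi1 p A * (pi1 p A * Y) = 0 := fun Y => by rw [← mul_assoc, ← map_mul, A2]; simp
  have e5 : cj g (pi1 l (sm J u (-w))) = (1 - pi1 p A) * (1 - P) := left_inv_eq_right_inv (a := cj g (pi1 l (sm J u w)))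
    (by rw [← map_mul, ← map_mul, h.sm_mul hu (by simp [hw]) hw]; simp [sm_zero]) (by
      rw [e4]; simp only [mul_add, add_mul, mul_sub, sub_mul, mul_assoc, k4, k5, P2, (cP _).eq, ← map_mul, A2, map_zero, mul_one, one_mul, mul_zero]; abel)
  have e6 : cj g (pi1 l (dw J u w)) = pi1 p A + P := by
    simp only [h.dw_sm, map_smul, map_sub, e4, e5, mul_add, add_mul, mul_sub, sub_mul, mul_one, one_mul]; match_scalars <;> field_simp <;> ring
  have e7 : pi1 p A * P = cj g (VV l u ((-⟪w, w⟫ / 2) • st J u)) := smul_right_injective _ t (by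
    have := congrArg₂ (· * ·) e6 e6
    simp only [← map_mul, h.dw_mul hu hw hw, mul_add, add_mul, A2, P2, (cP _).eq, map_zero, map_smul, ← VV.eq_1] at this
    simp only [vv_smul', map_smul, smul_smul, mul_div_cancel₀ _ t]; linear_combination (norm := module) -this)
  refine qcon h A2 P2 cP (fun e => hz ⟨s' / 2, ?_⟩) (fun ⟨t, e⟩ => hd ⟨s / 2 * (t + 1), ?_⟩) (by rw [← e6, hg.cj_ad, ad_pi1, h.ad_dw, map_neg, map_neg])
    (G1 := cj g (VV l u' ((-⟪w, w⟫ / 2)⁻¹ • st J w))) (G2 := cj g (VV l w (-(-⟪w, w⟫ / 2)⁻¹ • st J u'))) (by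
      rw [← e6, e7, ← map_mul, ← map_mul, ← map_add]; congr 1
      simp only [pi1_dw, vv_smul', smul_mul_smul, VV_mul, a1, a1', one_smul]; match_scalars <;> field_simp)
    (by rw [e7]; exact (Nat.mul_le_mul_left _ (rank_cj _ _)).trans (rk_VV _ _))
  · rw [hP, sub_eq_zero] at e; rw [← e, smul_smul]; field_simp; simp
  · rw [mul_smul, add_smul, ← e, hA, one_smul, sub_add_cancel, smul_smul]; field_simp; simp
variable {Λ : Type*} [AddCommGroup Λ] [Module F Λ] {θ : Λ →ₗ[F] κ → F}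
variable (J u θ) in
/-- anisotropic families of Siegel elements -/
structure LM [Fintype Λ] : Prop where
  u0 : u ≠ 0
  hu : ⟪u, u⟫ = 0
  o : ∀ a, ⟪u, θ a⟫ = 0
  an : ∀ a ≠ 0, ⟪θ a, θ a⟫ ≠ 0
  rel : (∃ a : Λ, a ≠ 0 ∧ ∃ s : F, s ≠ 0 ∧ s * s ≠ 1) ∨ ∃ a ≠ 0, ∃ b ≠ 0, ⟪θ a, θ b⟫ = 0
  sum : ∀ B : Λ →ₗ[F] Λ →ₗ[F] F, ∑ a, B a a = 0
  odd : ∃ m : ℕ, (2 * m + 1 : F) = 0
variable [Fintype Λ]
/-- the root subgroup -/
def LM.th (k : LM u J θ) (h : S2 J) : Multiplicative Λ →* GL κ F := .mk' (fun a => h.sg k.hu (k.o a.toAdd)) fun a b => Units.ext (by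
  simp [S2.sg_val, h.sm_mul k.hu (k.o _) (k.o _)])
theorem se1 [Nontrivial κ] (h : GO J) (k : LM u J θ) (hy : ∀ a, g * piU l (k.th h.toS2 a) * g⁻¹ ∈ HH τ κ F) (a : Λ) : Mp (g * piU l (k.th h.toS2 (.ofAdd a)) * g⁻¹) p p := by
  obtain ⟨y, ey⟩ : ∃ y : Multiplicative Λ →* GL (τ → κ) F, ∀ a, g * piU l (k.th h.toS2 a) * g⁻¹ = y a := ⟨(MulAut.conj g).toMonoidHom.comp ((piU l).comp (k.th h.toS2)), fun _ => rfl⟩
  have yv : ∀ a, (y (.ofAdd a)).1 = cj g (pi1 l (sm J u (θ a))) := fun a => ey _ ▸ (cj_val ..).symm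
  obtain ⟨S, hS⟩ : ∃ S : AddSubgroup Λ, ∀ a, a ∈ S ↔ Mp (y (.ofAdd a)) p p :=
    ⟨⟨⟨⟨{a | Mp (y (.ofAdd a)) p p}, fun a b => by simpa using a.mul b⟩, fun a => ⟨a, by simp⟩⟩, fun a => by simpa using a.inv⟩, fun _ => .rfl⟩
  simp only [ey] at hy ⊢
  by_contra n
  rw [← hS] at n
  obtain ⟨a, b, a1, b1, n⟩ : ∃ a b, a ∉ S ∧ b ∉ S ∧ ⟪θ a, θ a⟫ ≠ ⟪θ b, θ b⟫ := by
    by_contra! H
    have : ∀ s ∈ S, s = 0 := fun s m => by_contra fun s0 => k.an s s0 (mul_left_cancel₀ h.h2 (by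
      have e1 := H _ _ n ((S.add_mem_cancel_right m).not.2 n)
      have e2 := H _ _ n ((S.add_mem_cancel_right (neg_mem m)).not.2 n)
      simp only [map_add, map_neg, add_dotProduct, dotProduct_add, neg_dotProduct, dotProduct_neg] at e1 e2
      linear_combination -e1 - e2))
    rcases k.rel with ⟨a, a0, s, s0, s1⟩ | ⟨a, a0, b, b0, e⟩
    · exact s1 (mul_right_cancel₀ (k.an a a0) (by simpa [mul_assoc] using H _ _ (mt (this _) (smul_ne_zero s0 a0)) (mt (this _) a0)))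
    · exact k.an b b0 (by simpa [e, h.z e] using H (a + b) a (mt (this _) fun c => k.an a a0 (by simpa [eq_neg_of_add_eq_zero_right c] using e)) (mt (this _) a0))
  obtain ⟨r, s, rs⟩ := exists_pair_ne κ
  have : ∀ a, ∃ q v φ, Mp (y (.ofAdd a)) p q ∧ cj (y (.ofAdd a)) (pi1 p (single r s 1)) = VV q v φ := fun a =>
    let ⟨q, m⟩ := hy (.ofAdd a) p; let ⟨d, e⟩ := m.sn; let ⟨v, φ, _, _, _, e'⟩ := (rk_single (F := F) rs).cj d; ⟨q, v, φ, m, by rw [VV, ← e']; exact e _⟩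
  choose q v φ q1 q2 using this
  have q3 : ∀ a ∉ S, q (-a) ≠ q a := fun a m e => m (by
    obtain ⟨n, hn⟩ := k.odd
    have : a + a ∈ S := by
      have := (q1 (-a)).inv.mul (by rw [e]; exact q1 a)
      rwa [← map_inv, ← map_mul, ← ofAdd_neg, neg_neg, ← ofAdd_add, ← hS] at this
    convert S.nsmul_mem this (n + 1) using 1
    rw [← Nat.cast_smul_eq_nsmul F]; push_cast; linear_combination (norm := module) -hn • a)
  choose ψ ψ0 ψ1 ψ2 using fun j => ex3 h.hk (if q a = j then v a else v (-a)) (if q b = j then v b else v (-b))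
  have k1 : ∀ x ∉ S, ψ (q x) ⬝ᵥ v x = 0 → pt (Function.update (fun j => vecMulVec (ψ j) (ψ j)) p 1) * ((y (.ofAdd x)).1 * pi1 p (single r s 1)) = 0 := fun x m e => by
    have : q x ≠ p := fun e => m (by have := q1 x; rwa [e, ← hS] at this)
    rw [← cj_mul_self, q2, ← mul_assoc, VV, pi1_apply, ← map_mul, pt_zero (l := q x) (by simp [this, vecMulVec_mul_vecMulVec, e]), zero_mul]
  have c1 := k1 a a1 (by simpa using ψ1 (q a))
  have c2 := k1 (-a) (by simpa) (by simpa [(q3 a a1).symm] using ψ1 (q (-a)))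
  have c3 := k1 b b1 (by simpa using ψ2 (q b))
  have c4 := k1 (-b) (by simpa) (by simpa [(q3 b b1).symm] using ψ2 (q (-b)))
  have c5 := cm_pt (A := Function.update (fun j => vecMulVec (ψ j) (ψ j)) p 1) (i := p) (by simp)
  refine pt_ne (fun j => by by_cases c : j = p <;> simp [c, ψ0]) (c5.eq_zero (rk_single rs).ne ((c5 _).eq.symm.trans ((smul_eq_zero_iff_right (mul_ne_zero h.h2 (sub_ne_zero.2 n))).1 ?_)))
  have t := h.h2
  simp only [yv, sm, ← neg_one_smul F a, ← neg_one_smul F b, map_smul, dw_smul, map_add, map_sub, map_one, add_mul, sub_mul, mul_add, mul_sub, one_mul, smul_mul_assoc, mul_smul_comm,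
    smul_dotProduct, dotProduct_smul, smul_eq_mul] at c1 c2 c3 c4
  linear_combination (norm := skip) ⟪θ a, θ a⟫ • (c3 + c4) - ⟪θ b, θ b⟫ • (c1 + c2)
  match_scalars <;> field_simp <;> ring
theorem se0 (H : HO J M) [Nontrivial κ] (m : g ∈ M) (k : LM u J θ) (hy : ∀ a, g * piU l (k.th H.toS2 a) * g⁻¹ ∈ HH τ κ F) : ∃ i v c, WR i l g u v J c := by
  have t := H.h2
  have yv : ∀ a, (g * piU l (k.th H.toS2 (.ofAdd a)) * g⁻¹).1 = cj g (pi1 l (sm J u (θ a))) := fun a => (cj_val ..).symm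
  have E : ∀ a ≠ 0, cj g (VV l u (st J u)) = ⟪θ a, θ a⟫⁻¹ • ((2 : F) • 1 - (g * piU l (k.th H.toS2 (.ofAdd a)) * g⁻¹).1 - (g * piU l (k.th H.toS2 (.ofAdd a)) * g⁻¹)⁻¹.1) :=
    fun a a0 => by
      have := k.an a a0
      rw [show (g * piU l (k.th H.toS2 (.ofAdd a)) * g⁻¹)⁻¹ = g * piU l (k.th H.toS2 (.ofAdd (-a))) * g⁻¹ by simp [mul_assoc], yv, yv]
      simp only [sm, ← neg_one_smul F a, map_smul, dw_smul, map_add, map_sub, map_one, smul_dotProduct, dotProduct_smul, smul_eq_mul, VV]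
      match_scalars <;> field_simp <;> ring
  have R := (RK.rb ⟨u, st J u, k.u0, st_eq_zero.not.2 k.u0, k.hu, rfl⟩ l).cj g
  have si : ∀ {ι : Type} [Fintype ι] [DecidableEq ι] {z : GL ι F}, Sc z.1 → Sc (z⁻¹).1 := fun {ι} _ _ z ⟨c, e⟩ => by
    by_cases c0 : c = 0
    · exact ⟨0, by rw [← one_mul (z⁻¹).1, ← z.mul_inv, e, c0]; simp⟩
    · exact ⟨c⁻¹, by rw [eq_inv_smul_iff₀ c0, ← z.mul_inv, e]; simp⟩
  suffices ∀ p, Cm p (cj g (VV l u (st J u))) ∨ ∃ b, cj g (VV l u (st J u)) = pi1 p b by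
    obtain ⟨p, n⟩ := not_forall.1 (mt sc_of_cm R.not_sc)
    obtain ⟨b, e⟩ := (this p).resolve_left n
    obtain ⟨v, χ, e⟩ := rk1 e
    exact ⟨p, v, wr0 H m k.u0 k.hu e⟩
  intro p
  have fac : ∀ a, ∃ (d : GL κ F) (z : GL (τ → κ) F), Cm p z.1 ∧ g * piU l (k.th H.toS2 (.ofAdd a)) * g⁻¹ = piU p d * z := fun a =>
    let ⟨d, hd⟩ := (se1 H.toGO k hy a (p := p)).sn
    ⟨d, (piU p d)⁻¹ * _, fun a => cj_eq_iff.1 (by rw [cj_mul, hd, ← map_inv, cj_piU, cj_inv_cj]), (mul_inv_cancel_left _ _).symm⟩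
  choose d z c e using fac
  have ci : ∀ a, Cm p ((z a)⁻¹).1 := fun a b => (c a b).units_inv_left
  have cc : ∀ a d, z a * piU p d = piU p d * z a := fun a d => Units.ext (c a _).eq
  have fin : ∀ a ≠ 0, Sc (d a).1 ∨ Sc (z a).1 → Cm p (cj g (VV l u (st J u))) ∨ ∃ b, cj g (VV l u (st J u)) = pi1 p b := fun a a0 h => by
    rw [E a a0, e, _root_.mul_inv_rev, ← map_inv]
    refine h.imp (fun h => ?_) fun h => ((pi1 p).mem_range.1 ?_).imp fun _ => Eq.symm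
    · have k : ∀ d : GL κ F, Sc d.1 → Cm p (piU p d).1 := fun d ⟨s, e⟩ => cm_sc ⟨s, by simp [piU_val, e]⟩ p
      exact (((cm_one.smul _).sub ((k _ h).mul (c a))).sub ((ci a).mul (k _ (si h)))).smul _
    · exact Subalgebra.smul_mem _ (sub_mem (sub_mem (Subalgebra.smul_mem _ (one_mem _) _) (mul_mem ((pi1 p).mem_range_self _) (h.mem _)))
        (mul_mem ((si h).mem _) ((pi1 p).mem_range_self _))) _
  have fin2 : ∀ a ≠ 0, ¬ Sc (d a).1 → ¬ Sc (z a).1 → ¬ ((∃ s r : F, (d a).1 * (d a).1 = s • (d a).1 + r • 1) ∧ ∃ s r : F, (z a).1 * (z a).1 = s • (z a).1 + r • 1) :=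
    fun a a0 n n' ⟨⟨_, _, e1⟩, _, _, e2⟩ => qcon2 H.toGO (H.iso g m) k.hu k.u0 (k.o a) (k.an a a0) (c a) (e a) n n' e1 e2
  rcases k.rel with ⟨a, a0, s, s0, s1⟩ | ⟨a, a0, b, b0, q⟩ <;> refine fin a a0 (by_contra fun n => fin2 a a0 (fun e => n (.inl e)) (fun e => n (.inr e)) ?_) <;> rw [not_or] at n
  · have s2 : s + 1 ≠ 0 := fun e => s1 (by linear_combination (s - 1) * e)
    have s3 : s - 1 ≠ 0 := fun e => s1 (by linear_combination (s + 1) * e)
    refine qten (d3 := d (s • a)) (α := 1 - s * s) (β := s * (s + 1) / 2) (γ := s * (s - 1) / 2) (by simp [*]) (sub_ne_zero.2 s1.symm) (by simp [*]) (c a) (ci a) (c (s • a)) ?_ n.1 n.2 (.inl ⟨rfl, rfl⟩)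
    rw [map_inv, ← _root_.mul_inv_rev, cc, ← e, ← e, show (g * piU l (k.th H.toS2 (.ofAdd a)) * g⁻¹)⁻¹ = g * piU l (k.th H.toS2 (.ofAdd (-a))) * g⁻¹ by simp [mul_assoc], yv, yv, yv]
    simp only [sm, ← neg_one_smul F a, map_smul, dw_smul, map_add, map_sub, map_one, smul_dotProduct, dotProduct_smul, smul_eq_mul]
    match_scalars <;> field_simp <;> ring
  refine qten (d2 := d b) (α := -1) (β := 1) (γ := 1) one_ne_zero (by simp) one_ne_zero (c a) (c b) ((c a).mul (c b)) ?_ n.1 n.2 (.inr ⟨rfl, rfl, fun ⟨⟨s, e1⟩, s', e2⟩ => R.not_sc ?_⟩)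
  · rw [map_mul, mul_assoc (piU p (d a)), ← mul_assoc (piU p (d b)), ← cc a (d b), mul_assoc (z a), ← mul_assoc (piU p (d a)), ← e, ← e, Units.val_mul _ (g * _ * _), yv, yv, ← map_mul, ← map_mul,
      H.sm_mul k.hu (k.o a) (k.o b)]
    simp only [sm, dw_add, map_smul, map_add, map_sub, map_one, add_dotProduct, dotProduct_add, q, H.z q]
    match_scalars <;> field_simp <;> ring
  have : Sc (piU p (d b) * z b).1 := ⟨s * s', by simp [piU_val, e1, e2, smul_smul, mul_comm]⟩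
  obtain ⟨r, hr⟩ := si this
  obtain ⟨r', hr'⟩ := this
  exact ⟨⟪θ b, θ b⟫⁻¹ * (2 - r' - r), by rw [VV.eq_1] at E; rw [E b b0, e, hr, hr']; module⟩
end H09.Wr
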