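import Mathlib
import Cfsg.Agent.H09.WoE
/-! Orthogonal tensor-wreath subgroups: averaging. -/
namespace H09.Wr
open Matrix H10.As Module
variable {τ κ ι : Type} [Fintype τ] [DecidableEq τ] [Fintype κ] [DecidableEq κ] [Fintype ι] [DecidableEq ι] {F : Type*} [Field F]
local notation "𝒜" => Matrix (τ → κ) (τ → κ) F
variable {i j l p : τ} {β γ ε Z X Y : Matrix (τ → κ) (τ → κ) F} {g y z : GL (τ → κ) F} {u u' v v' w x φ ψ χ : κ → F} {a b : Matrix κ κ F} {J d d' : GL κ F}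
  {M : Subgroup (GL (τ → κ) F)} {c : F}
set_option hygiene false in
local notation "⟪" a ", " b "⟫" => Wr.st J a ⬝ᵥ b
theorem free_sum2 {A G X R : Type*} [Group A] [Fintype A] [Group G] [MulAction G X] [AddCommMonoid R] (θ : A →* G) (s : Finset X) (f : X → R)
    (h1 : ∀ a, ∀ x ∈ s, θ a • x ∈ s) (h2 : ∀ a ≠ 1, ∀ x ∈ s, θ a • x ≠ x) (h3 : ∀ x ∈ s, ∑ a, f (θ a • x) = 0) : ∑ x ∈ s, f x = 0 := by
  classical
  rw [Finset.sum_congr rfl fun x m => (if_pos m).symm]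
  exact free_sum θ s (fun x => if x ∈ s then f x else 0) h1 h2 fun x => by
    by_cases c : x ∈ s
    · simpa [h1 _ x c] using h3 x c
    · exact Finset.sum_eq_zero fun a _ => if_neg fun m => c (by simpa [smul_smul, ← map_mul] using h1 a⁻¹ _ m)
theorem orb_sum {A G X R : Type*} [CommGroup A] [Fintype A] [Group G] [MulAction G X] [AddCommGroup R] [Module F R] {p : ℕ} [Fact p.Prime] (hp : (p : F) = 0) (h2 : (2 : F) ≠ 0)
    (hA : ∀ a : A, a ^ p = 1) (θ : A →* G) (s : Finset X) (f : X → R) (h1 : ∀ a, ∀ x ∈ s, θ a • x ∈ s) (h3 : ∀ x ∈ s, (∀ a, θ a • x = x) → f x = 0)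
    (h4 : ∀ x ∈ s, ∃ Q : A → R, (∀ a, f (θ a • x) + f (θ a⁻¹ • x) = f x + f x + Q a) ∧ ∑ a, Q a = 0 ∧ ((∃ a ≠ 1, θ a • x = x) → ∀ a, Q a = 0)) : ∑ x ∈ s, f x = 0 := by
  classical
  have e : ∀ a b (x : X), θ a • θ b • x = θ b • x ↔ θ a • x = x := fun a b x => by rw [smul_smul, ← map_mul, mul_comm, map_mul, mul_smul, smul_left_cancel_iff]
  have k : ∀ (B : Subgroup A) (x : X) (Q : A → R), p ∣ Nat.card B → (∀ a, f (θ a • x) + f (θ a⁻¹ • x) = f x + f x + Q a) → ∑ a : B, Q a = 0 → ∑ a : B, f (θ a • x) = 0 :=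
    fun B x Q ⟨n, hn⟩ a b => smul_right_injective _ h2 (by
      simp only [two_smul, add_zero]
      nth_rw 2 [← Equiv.sum_comp (Equiv.inv B)]
      simp only [← Finset.sum_add_distrib, Equiv.inv_apply, InvMemClass.coe_inv, a]
      rw [Finset.sum_add_distrib, b, Finset.sum_const, Finset.card_univ, ← Nat.card_eq_fintype_card, hn, ← Nat.cast_smul_eq_nsmul F]; simp [hp])
  refine Finset.sum_cancels_of_partition_cancels ⟨fun x y => ∃ a, θ a • y = x, fun x => ⟨1, by simp⟩, fun ⟨a, h⟩ => ⟨a⁻¹, by simp [← h]⟩,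
    fun ⟨a, h⟩ ⟨b, h'⟩ => ⟨a * b, by simp [mul_smul, h, h']⟩⟩ fun x hx => ?_
  by_cases c : ∀ a, θ a • x = x
  · exact Finset.sum_eq_zero fun y m => let ⟨a, h⟩ := (Finset.mem_filter.1 m).2; h ▸ (c a).symm ▸ h3 x hx c
  obtain ⟨a0, n0⟩ := not_forall.1 c
  have o : orderOf a0 = p := orderOf_eq_prime (hA a0) (by rintro rfl; simp at n0)
  have i : ∀ a y, y ∈ s ∧ (∃ a, θ a • x = y) → θ a • y ∈ s ∧ ∃ b, θ b • x = θ a • y := fun a y ⟨m, b, h⟩ => ⟨h1 a y m, a * b, by simp [mul_smul, h]⟩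
  by_cases c' : ∃ a ≠ 1, θ a • x = x
  · refine free_sum2 (θ.comp (Subgroup.zpowers a0).subtype) _ f (fun a y m => Finset.mem_filter.2 (i a y (Finset.mem_filter.1 m))) (fun a n y m h => n0 ?_) fun y m => ?_
    · obtain ⟨-, b, rfl⟩ := Finset.mem_filter.1 m
      obtain ⟨r, hr⟩ := mem_zpowers_of_prime_card (g' := ⟨a0, Subgroup.mem_zpowers a0⟩) ((Nat.card_zpowers a0).trans o) n
      have := ((MulAction.stabilizer G x).comap θ).zpow_mem (x := a.1) ((e _ _ _).1 h) r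
      rwa [show a.1 ^ r = a0 from congrArg Subtype.val hr] at this
    obtain ⟨m, b, rfl⟩ := Finset.mem_filter.1 m
    obtain ⟨Q, q1, -, q3⟩ := h4 _ m
    exact k _ _ Q (by rw [Nat.card_zpowers, o]) q1 (by simp [q3 (c'.imp fun a h => ⟨h.1, (e _ _ _).2 h.2⟩)])
  refine free_sum2 (θ.comp (⊤ : Subgroup A).subtype) _ f (fun a y m => Finset.mem_filter.2 (i a y (Finset.mem_filter.1 m))) (fun a n y m h => c' ⟨a, by simpa using n, ?_⟩) fun y m => ?_
  · obtain ⟨-, b, rfl⟩ := Finset.mem_filter.1 m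
    exact (e _ _ _).1 h
  obtain ⟨Q, q1, q2, -⟩ := h4 _ (Finset.mem_filter.1 m).1
  exact k _ _ Q (by rw [Subgroup.card_top, ← o]; exact orderOf_dvd_natCard _) q1 ((Equiv.sum_comp Subgroup.topEquiv.toEquiv Q).trans q2)
theorem trC (h : Cm i ε) (e : ψ ⬝ᵥ v = 1) (b) : trace (ε * pi1 i b) = trace b * trace (ε * VV i v ψ) := by
  induction b using Matrix.induction_on' with
  | h_zero => simp
  | h_add a b h h' => simp [mul_add, add_mul, h, h']
  | h_std_basis r s c =>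
    rw [show single r s c = c • single r s (1 : F) by simp, map_smul, single_eq_single_vecMulVec_single, ← VV,
      show VV i (Pi.single r 1) (Pi.single s 1) = VV i (Pi.single r 1) ψ * VV i v (Pi.single s 1) by simp [VV_mul, e], mul_smul_comm, ← mul_assoc, trace_smul, trace_mul_cycle, ← h.vv,
      mul_assoc, VV_mul]
    simp [trace_vecMulVec, dotProduct_comm, mul_assoc]
theorem phiC (h : Cm i ε) (e : ψ ⬝ᵥ v = 1) (t : trace a = 0) : Phi (pi1 i a * ε) = trace (ε * VV i v ψ) • pi1 i a := by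
  simp only [Phi, LinearMap.sum_apply]
  rw [Finset.sum_eq_single i (fun j _ n => ?_) (by simp), ← map_smul]
  · refine congrArg (pi1 i) (sub_eq_zero.1 (eq_zero_of_trace fun b => ?_))
    rw [sub_mul, trace_sub, tr_ptr, mul_assoc, trace_mul_comm, mul_assoc, ← map_mul, trC h e, trace_mul_comm b]; simp [mul_comm]
  · refine (congrArg (pi1 j) (eq_zero_of_trace fun b => ?_)).trans (map_zero _)
    rw [tr_ptr, mul_assoc, trace_mul_comm, trC (h.mul (cm_pi1 n b)) e, t, zero_mul]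
theorem ent_cj (h : Is J d) (a b : κ → F) (Z : 𝒜) : ent l (st J a) b (cj (piU l d) Z) = ent l (st J ((d⁻¹).1 *ᵥ a)) ((d⁻¹).1 *ᵥ b) Z := by
  simp only [ent, cj_apply, ← map_inv, piU_val, ← mul_assoc, VV_pi1, h.inv.st, inv_inv]; simp only [mul_assoc, pi1_VV]
theorem GO.rho (h : GO J) (hu : ⟪u, u⟫ = 0) (h1 : ⟪u, u'⟫ = 1) (h2 : ⟪u', u'⟫ = 0) (a : ⟪u, x⟫ = 0) (b : ⟪u', x⟫ = 0) (n : ⟪x, x⟫ ≠ 0) :
    ∃ d ∈ Om J, ∃ s t : F, s ≠ 0 ∧ s ≠ t ∧ s * t ≠ 1 ∧ d.1 *ᵥ u = s • u ∧ d.1 *ᵥ x = t • x ∧ d.1 *ᵥ u' = s⁻¹ • u' := by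
  have h1' := h.c u' u ▸ h1
  rcases h.hq' hu h1 a n with ⟨s, s0, s1⟩ | ⟨-, -, y, y1, y2, y3, y4⟩
  · obtain ⟨d, d1, d2⟩ := h.tor hu h1 h2 s0
    exact ⟨d, d1, s * s, 1, mul_ne_zero s0 s0, s1, by simpa, by simp [d2, add_mulVec, smul_mulVec, vecMulVec_mulVec, h1', hu]; module,
      by simp [d2, add_mulVec, smul_mulVec, vecMulVec_mulVec, a, b], by simp [d2, add_mulVec, smul_mulVec, vecMulVec_mulVec, h1, h2]; module⟩
  exact ⟨_, h.rr n (y4 ▸ n) one_ne_zero (by simp [y4]), 1, -1, one_ne_zero, fun e => h.h2 (by linear_combination e), fun e => h.h2 (by linear_combination -e),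
    by simp [← mulVec_mulVec, rf_mv, h.z a, h.z y1], by simp [← mulVec_mulVec, rf_mv, h.z y3, n]; module, by simp [← mulVec_mulVec, rf_mv, h.z b, h.z y2]⟩
theorem zzero (h : GO J) (hu : ⟪u, u⟫ = 0) (h1 : ⟪u, u'⟫ = 1) (k : CZ l Z u J) (hd : Is J d) {s t : F} (s0 : s ≠ 0) (st' : s ≠ t) (st1 : s * t ≠ 1) (e1 : d.1 *ᵥ u = s • u)
    (e2 : d.1 *ᵥ u' = s⁻¹ • u') (e : cj (piU l d) Z = (s * t) • Z) (f : ∀ b, ⟪u, b⟫ = 0 → ⟪u', b⟫ = 0 → ent l (st J b) u' Z = ent l (st J u') b Z) (h2 : ⟪u', u'⟫ = 0) : Z = 0 := by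
  have h1' := h.c u' u ▸ h1
  have k0 : ∀ a b, ent l (st J a) b Z = (s * t) • ent l (st J (d.1 *ᵥ a)) (d.1 *ᵥ b) Z := fun a b => by
    have := ent_cj (l := l) hd (d.1 *ᵥ a) (d.1 *ᵥ b) Z
    rw [e, ent_sm] at this; simp [this]
  have k1 : ent l (st J u') u Z = 0 := (smul_eq_zero_iff_right (sub_ne_zero.2 st1)).1 (by
    have := k0 u' u
    rw [e1, e2, map_smul, en_smul, en_smul', smul_inv_smul₀ s0] at this; linear_combination (norm := module) -this)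
  have k2 : ent l (st J u') u' Z = 0 := (smul_eq_zero_iff_right (sub_ne_zero.2 st')).1 (by
    have := congrArg (s • ·) (k0 u' u')
    simp only [e2, map_smul, en_smul, en_smul', smul_smul] at this
    rw [sub_smul, this]; match_scalars; field_simp; ring)
  have u0 : u ≠ 0 := by rintro rfl; simp at h1
  have k3 : ∀ b, ⟪u, b⟫ = 0 → ⟪u', b⟫ = 0 → ent l (st J b) u' Z = 0 := fun b p q => (cm_ent _ _ _).of_VV u0 (st_eq_zero.not.2 u0 : st J u ≠ 0) (smul_right_injective _ h.h2 (by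
    have := congrArg (VV l u (st J u') * ·) (cz3 h hu h1 k p (st J u))
    simp only [k1, mul_zero, smul_zero, zero_add, zero_sub, ← mul_assoc, ← VV_ent, ← f b p q, VV_mul, h1', one_smul, mul_neg] at this
    simpa [two_smul] using eq_neg_iff_add_eq_zero.1 this))
  have k4 : ent l (st J u) u' Z = 0 := (cm_ent _ _ _).of_VV u0 (st_eq_zero.not.2 u0 : st J u ≠ 0) (by rw [VV_ent, cz1 h hu h1 k, k1]; simp)
  have k5 : ∀ a, ent l (st J a) u' Z = 0 := fun a => by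
    simpa [-neg_smul, en_add', en_smul', k2, k4] using k3 (a + -⟪u, a⟫ • u' + -⟪u', a⟫ • u) (by simp [*]) (by simp [*])
  have k6 := kr0 (X := Z) (i := l) h1 fun y hy ξ => by simp [cz3 h hu h1 k hy, k1, k5]
  rw [mul_sub, mul_one, sub_eq_zero] at k6
  rw [k6, ← one_mul Z, ← sum_VV l, Finset.sum_mul, Finset.sum_mul]
  exact Finset.sum_eq_zero fun r _ => by obtain ⟨a, e⟩ := st_surj (J := J) (Pi.single r 1); rw [← VV_ent]; nth_rw 2 [← e]; rw [k5, mul_zero]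
theorem GO.ideal (h : GO J) {S : Subalgebra F (Matrix κ κ F)} (k : ∀ u w, ∀ a ∈ S, dw J u w * a - a * dw J u w ∈ S) (m : a ∈ S) (e : ad J a = -a) (a0 : a ≠ 0) (b) : b ∈ S := by
  have k1 : ∀ a ∈ S, ad J a = -a → ∀ u w w', ⟪u, u⟫ = 0 → ⟪u, w⟫ = 0 → ⟪u, w'⟫ = 0 → dw J u (⟪w, w'⟫ • a *ᵥ u + -⟪w, a *ᵥ u⟫ • w' + -⟪w', a *ᵥ u⟫ • w) ∈ S :=
    fun a m e u w w' hu p q => by
      have e1 : ∀ x y, ⟪x, a *ᵥ y⟫ = -⟪y, a *ᵥ x⟫ := fun x y => by rw [h.c y, h.dot_ad, e]; simp [neg_mulVec]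
      have e2 : ∀ x, st J x ᵥ* a = -st J (a *ᵥ x) := fun x => by ext r; simpa [dotProduct_mulVec, -mulVec_single, h.c (Pi.single r 1)] using e1 x (Pi.single r 1)
      have e3 : ⟪a *ᵥ u, u⟫ = 0 := mul_left_cancel₀ h.h2 (by rw [h.c]; linear_combination e1 u u)
      convert k u w _ (k u w' a m) using 1
      simp only [dw_add, dw_smul]
      simp only [dw, mul_sub, sub_mul, mul_vecMulVec, vecMulVec_mul, e2, vecMulVec_neg, vecMulVec_mul_vecMulVec, sub_mulVec, vecMul_sub, vecMulVec_mulVec, vecMul_vecMulVec,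
        op_smul_eq_smul, hu, p, q, h.z p, h.z q, e3, h.z e3, neg_dotProduct, h.c (a *ᵥ _), e1 u, e1 w w', h.c w' w, sub_vecMulVec, vecMulVec_sub, smul_vecMulVec, vecMulVec_smul, vecMul_neg, neg_mulVec, neg_vecMulVec]
      module
  have k2 : ∀ a ∈ S, ad J a = -a → ∀ u, ⟪u, u⟫ = 0 → ⟪a *ᵥ u, a *ᵥ u⟫ ≠ 0 → ∀ w, ⟪u, w⟫ = 0 → dw J u w ∈ S := fun a m e u hu n w p => by
    have e3 : ⟪u, a *ᵥ u⟫ = 0 := mul_left_cancel₀ h.h2 (by have := h.dot_ad a u u; rw [e, h.c] at this; simp [neg_mulVec] at this; linear_combination this)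
    have := k1 a m e u w _ hu p e3
    rw [neg_smul, add_neg_cancel, zero_add, dw_smul] at this
    simpa [smul_smul, n] using S.smul_mem this (-⟪a *ᵥ u, a *ᵥ u⟫)⁻¹
  obtain ⟨u, n, u0, hu, p, n0, m⟩ : ∃ u n, u ≠ 0 ∧ ⟪u, u⟫ = 0 ∧ ⟪u, n⟫ = 0 ∧ ⟪n, n⟫ ≠ 0 ∧ dw J u n ∈ S := by
    have e1 : ∀ x y, ⟪x, a *ᵥ y⟫ = -⟪y, a *ᵥ x⟫ := fun x y => by rw [h.c y, h.dot_ad, e]; simp [neg_mulVec]
    obtain ⟨u, u0, hu, n⟩ : ∃ u, u ≠ 0 ∧ ⟪u, u⟫ = 0 ∧ a *ᵥ u ∉ F ∙ u := by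
      by_contra! H
      obtain ⟨s, rfl⟩ := sc_of_span (α := a) fun y => by_contra fun m => by
        obtain ⟨x, c1, c2⟩ := h.ex2 m
        simpa [h.c x, c1] using h.bl (R := F) (((dotProductBilin F F).comp (st J)).compl₂ a.mulVecLin) (fun u x u0 hu p => by
          obtain ⟨t, ht⟩ := Submodule.mem_span_singleton.1 (H u u0 hu)
          simp [e1 u, ← ht, h.z p]) (h.z c2)
      exact a0 (smul_right_injective _ h.h2 (by simpa [two_smul] using eq_neg_iff_add_eq_zero.1 e))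
    have e3 : ⟪u, a *ᵥ u⟫ = 0 := mul_left_cancel₀ h.h2 (by linear_combination e1 u u)
    by_cases c : ⟪a *ᵥ u, a *ᵥ u⟫ = 0
    · obtain ⟨z, z1, z2, z3⟩ := h.ns4 u0 hu c e3 n
      obtain ⟨y, y1, y2⟩ := h.ex2 n
      have q1 := k1 a m e u z z hu z1 z1
      have q2 := k1 a m e u z y hu z1 y2
      simp only [h.z z2, h.c y, y1, neg_zero, zero_smul, add_zero, dw_add, dw_smul] at q1 q2
      exact ⟨u, z, u0, hu, z1, z3, by simpa [smul_smul, z3] using sub_mem (S.smul_mem q1 (⟪z, y⟫ / ⟪z, z⟫)) q2⟩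
    · exact let ⟨n, p, q⟩ := h.ns u0 hu; ⟨u, n, u0, hu, p, q, k2 a m e u hu c n p⟩
  obtain ⟨u', h1, h1', h2⟩ := h.pa u0 hu
  have k3 := k2 _ m (h.ad_dw _ _) u' h2 (by simpa [dw_mv, h1, hu, p, h.z p])
  obtain ⟨n', p', q'⟩ := h.ns (u := u') (by rintro rfl; simp at h1) h2
  exact h.gen h.hk hu h1 h2 (k2 _ (k3 n' p') (h.ad_dw _ _) u hu (by simpa [dw_mv, h1', h2, p', h.z p']))
    (by simpa [h.dw_mul h2 p' p', smul_smul, q'] using S.smul_mem (mul_mem (k3 n' p') (k3 n' p')) (-⟪n', n'⟫⁻¹)) b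
theorem hh_of_nn (H : HO J M) [Nontrivial κ] (h : ∀ g ∈ M, ∀ j u w, NN (cj g (pi1 j (dw J u w)))) : M ≤ HH τ κ F := fun g m j => by
  obtain ⟨u, u0, hu⟩ := H.sing
  obtain ⟨w, p, q⟩ := H.ns u0 hu
  have z : ∀ a, ad J a = -a → Sc a → a = 0 := fun a e ⟨s, hs⟩ => smul_right_injective _ H.h2 (by subst hs; simpa [two_smul] using eq_neg_iff_add_eq_zero.1 e)
  have sk : ∀ g ∈ M, ∀ j a, ad J a = -a → ad (JW J) (cj g (pi1 j a)) = -cj g (pi1 j a) := fun g m j a e => by rw [(H.iso g m).cj_ad, ad_pi1, e, map_neg, map_neg]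
  obtain ⟨i, n⟩ : ∃ i, ¬ Cm i (cj g (pi1 j (dw J u w))) := not_forall.1 fun c => by
    obtain ⟨s, hs⟩ := sc_of_cm c
    have := congrArg (· *ᵥ w) (z _ (H.ad_dw u w) ⟨s, pi1_inj j ((cj g).injective (by simpa using hs))⟩)
    simp [dw_mv, p, q, u0] at this
  have br : ∀ {X : 𝒜} {i b c}, Cm i (X - pi1 i b) → X * pi1 i c - pi1 i c * X = pi1 i (b * c - c * b) := fun {X i b c} h => by
    have := (h c).eq
    simp only [map_sub, map_mul, mul_sub, sub_mul] at this ⊢; linear_combination (norm := abel) this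
  obtain ⟨b, hb⟩ := h g m j u w i
  obtain ⟨x, y, n1⟩ : ∃ x y, b * dw J x y - dw J x y * b ≠ 0 := by
    by_contra! K
    have K' : ∀ x y, dw J x y ∈ Subalgebra.centralizer F {b} := fun x y => by simpa [Subalgebra.mem_centralizer_iff, sub_eq_zero] using K x y
    obtain ⟨u', h1, -, h2⟩ := H.pa u0 hu
    obtain ⟨n', p', q'⟩ := H.ns (u := u') (by rintro rfl; simp at h1) h2
    obtain ⟨s, rfl⟩ := sc_of_comm (a := b) fun c => by simpa [Subalgebra.mem_centralizer_iff] using (H.gen H.hk hu h1 h2 (fun x _ => K' u x)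
      (by simpa [H.dw_mul h2 p' p', smul_smul, q'] using Subalgebra.smul_mem _ (mul_mem (K' u' n') (K' u' n')) (-⟪n', n'⟫⁻¹)) c)
    exact n (by simpa using hb.add (cm_one.smul s))
  obtain ⟨b', hb'⟩ := h _ (inv_mem m) i x y j
  have e1 : cj g (pi1 j (b' * dw J u w - dw J u w * b')) = -pi1 i (b * dw J x y - dw J x y * b) := by rw [← br hb', ← br hb]; simp
  refine ⟨i, fun a => (mem_SS.1 (H.ideal (S := SS j i g) (fun x y a ⟨c, hc⟩ => ?_) (a := b' * dw J u w - dw J u w * b') ⟨_, by rw [e1, map_neg]⟩ (pi1_inj j ?_) (fun e => n1 (pi1_inj i ?_)) a)).imp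
    fun _ => Eq.symm⟩
  · obtain ⟨b, hb⟩ := h g m j x y i
    exact ⟨_, by rw [← br hb, hc]; simp⟩
  · rw [← ad_pi1, map_neg, ← br hb']; simp [ad_mul, sk _ (inv_mem m), ad_pi1, H.ad_dw]
  · simpa [e, -neg_sub] using e1.symm
variable {Λ : Type*} [AddCommGroup Λ] [Module F Λ] [Fintype Λ] {θ : Λ →ₗ[F] κ → F}
theorem LM.sum2 (k : LM u J θ) (f : Λ →ₗ[F] F) (L : Λ →ₗ[F] 𝒜) : ∑ a, f a • L a = 0 := by
  ext x y; simpa [Matrix.sum_apply] using k.sum ((LinearMap.mul F F).compl₁₂ f (entryLinearMap F F x y ∘ₗ L))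
theorem const (H : HO J M) (hp : ¬ PatO J M) (m : g ∈ M) (h : WR i l g u v J c) (hx : ⟪u, x⟫ = 0) (cγ : Cm l γ) :
    ∃ s : F, cj g⁻¹ (Phi (cj g (pi1 l (dw J u x) * γ))) = Phi (pi1 l (dw J u x) * γ) + s • VV l u (st J u) := by
  obtain ⟨u', a1, a1', -⟩ := H.pa h.u0 h.hu
  obtain ⟨v', b1, b1', -⟩ := H.pa h.v0 h.hv
  obtain ⟨x', hx', e⟩ := wrW H m hp h hx
  have k : CZ i (cj g γ) v J := fun y hy => let ⟨w, _, e⟩ := wrS H m hp h hy; e ▸ (cγ _).map (cj g)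
  have k2 := cz2 H.toGO h.hv b1 k
  have k3 := cz3 H.toGO h.hv b1 k hx' (st J v)
  have c1 : Cm i (ent i (st J v') v (cj g γ)) := cm_ent _ _ _
  have c2 : Cm i (⟪x', v'⟫ • ent i (st J v') v (cj g γ) - ent i (st J x') v' (cj g γ)) := (c1.smul _).sub (cm_ent _ _ _)
  generalize ⟪x', v'⟫ • ent i (st J v') v (cj g γ) - ent i (st J x') v' (cj g γ) = η at k3 c2
  generalize ent i (st J v') v (cj g γ) = ε at k2 k3 c1
  have t : ∀ a b, trace (dw J a b) = 0 := fun a b => by simp [dw, trace_vecMulVec, dotProduct_comm a, dotProduct_comm b, H.c a b]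
  have e1 : cj g (pi1 l (dw J u x) * γ) = pi1 i (dw J v x') * ε - pi1 i (vecMulVec v (st J v)) * η := by
    rw [map_mul, e, ← (k x' hx').eq, pi1_dw, mul_sub, k2, k3, ← VV, sub_mul]; abel
  have e2 : trace (ε * VV i v (st J v')) = trace (γ * VV l u (st J u')) := by
    rw [← trace_cj g (γ * _), map_mul, kl (st_eq_zero.not.2 h.u0) (h.e.trans (vv_smul' ..).symm) b1', ← mul_assoc, k2, trace_mul_comm _ (cj g _), ← mul_assoc,
      h.fix (s := 1) (by simp [VV_mul, a1']), one_smul, trace_mul_comm]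
  refine ⟨-(trace (η * VV i v (st J v')) * c⁻¹), ?_⟩
  rw [e1, map_sub, phiC c1 b1' (t _ _), phiC c2 b1' (by simp [trace_vecMulVec, dotProduct_comm v, h.hv]), phiC cγ a1' (t _ _), e2, map_sub, map_smul, map_smul, ← e, cj_inv_cj, ← VV,
    h.inv.e, smul_smul, neg_smul, sub_eq_add_neg]
theorem le_HHo [Fintype F] [Nontrivial κ] [Nonempty τ] (H : HO J M) (hp : ¬ PatO J M) (hΛ : ∀ u, u ≠ 0 → ⟪u, u⟫ = 0 → ∃ θ : Λ →ₗ[F] κ → F, LM u J θ) : M ≤ HH τ κ F := by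
  classical
  have := Fintype.ofFinite (GL (τ → κ) F ⧸ HH τ κ F)
  obtain ⟨p, hc⟩ := CharP.exists F
  have : Fact p.Prime := ⟨CharP.char_is_prime F p⟩
  have p0 : (p : F) = 0 := CharP.cast_eq_zero F p
  have pΛ : ∀ a : Multiplicative Λ, a ^ p = 1 := fun a => by rw [← ofAdd_toAdd a, ← ofAdd_nsmul, ← Nat.cast_smul_eq_nsmul F, p0, zero_smul, ofAdd_zero]
  obtain ⟨val, v1⟩ : ∃ val : GL (τ → κ) F ⧸ HH τ κ F → 𝒜 →ₗ[F] 𝒜, ∀ g : GL (τ → κ) F, val g = rh g Phi := ⟨Quotient.lift (fun g => rh g Phi) fun a b h => by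
    ext1 Y; rw [rh_apply, rh_apply, ← phi_cj (QuotientGroup.leftRel_apply.1 h)]; simp [cj_mul], fun _ => rfl⟩
  have ev : ∀ (g : GL (τ → κ) F) ω Y, val (g • ω) (cj g Y) = cj g (val ω Y) := fun g ω Y => by
    induction ω using QuotientGroup.induction_on with | H k => simp [v1, rh_apply, cj_mul]
  obtain ⟨s, hs⟩ : ∃ s : Finset (GL (τ → κ) F ⧸ HH τ κ F), ∀ ω, ω ∈ s ↔ ∃ g ∈ M, ω = g := ⟨.filter (fun ω => ∃ g ∈ M, ω = g) .univ, by simp⟩
  have sv : ∀ t ∈ M, ∀ ω ∈ s, t • ω ∈ s := fun t m ω h => let ⟨g, m', e⟩ := (hs ω).1 h; (hs _).2 ⟨t * g, mul_mem m m', e ▸ rfl⟩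
  have iv : ∀ g ∈ M, ∀ Y, ∑ ω ∈ s, val ω (cj g Y) = cj g (∑ ω ∈ s, val ω Y) := fun g m Y =>
    ((map_sum ..).trans (Finset.sum_nbij' (g • ·) (g⁻¹ • ·) (sv g m) (sv _ (inv_mem m)) (by simp) (by simp) fun ω _ => (ev g ω Y).symm)).symm
  have om : ∀ {u θ} (k : LM u J θ) a, k.th (Λ := Λ) H.toS2 a ∈ Om J := fun k a => H.sg_om H.hk k.u0 k.hu (k.o _)
  have fx : ∀ {u θ} (k : LM u J θ) l, ∀ g ∈ M, (∀ a, piU l (k.th (Λ := Λ) H.toS2 a) • (g : GL (τ → κ) F ⧸ HH τ κ F) = g) → ∃ i v c, WR i l g⁻¹ u v J c := fun k l g m e =>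
    se0 H (inv_mem m) k fun a => by simpa [mul_assoc] using inv_mem (QuotientGroup.eq.1 (e a))
  have n1 : (s.card : F) = 1 := by
    obtain ⟨u, u0, hu⟩ := H.sing
    obtain ⟨θ, k⟩ := hΛ u u0 hu
    let φ : (τ → Multiplicative Λ) →* GL (τ → κ) F := ((Units.map pt).comp MulEquiv.piUnits.symm.toMonoidHom).comp ((k.th H.toS2).compLeft τ)
    have e1 : ∀ a (ω : GL (τ → κ) F ⧸ HH τ κ F), φ a • ω = (1 : GL (τ → κ) F) ↔ ω = (1 : GL (τ → κ) F) := fun a ω => by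
      rw [smul_eq_iff_eq_inv_smul, show (φ a)⁻¹ • ((1 : GL (τ → κ) F) : _ ⧸ HH τ κ F) = (1 : GL (τ → κ) F) from QuotientGroup.eq.2 (by simp only [smul_eq_mul, mul_one, inv_inv]; exact ptU_HH _)]
    have := orb_sum p0 H.h2 (fun a => funext fun l => pΛ (a l)) φ s (fun ω => if ω = (1 : GL (τ → κ) F) then (0 : F) else 1) (fun a => sv _ (H.ptU fun l => om k _))
      (fun ω m e => if_pos ?_) fun ω _ => ⟨0, fun a => by simp only [e1, Pi.zero_apply, add_zero], by simp, by simp⟩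
    · rw [← Finset.add_sum_erase _ _ ((hs _).2 ⟨1, one_mem _, rfl⟩), if_pos rfl, Finset.sum_congr rfl fun ω m => if_neg (Finset.mem_erase.1 m).1] at this
      rw [← Finset.card_erase_add_one ((hs _).2 ⟨1, one_mem _, rfl⟩)]; simpa using this
    obtain ⟨g, m', rfl⟩ := (hs ω).1 m
    refine QuotientGroup.eq.2 ?_
    rw [mul_one]
    refine fixP H (inv_mem m') hp (u := fun _ => u) fun l => fx k l g m' fun a => ?_
    convert e (Pi.mulSingle l a) using 2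
    exact Units.ext (congrArg pt (funext fun j => by by_cases c : j = l <;> simp [c]))
  obtain ⟨Ψ, hΨ⟩ : ∃ Ψ : 𝒜 →ₗ[F] 𝒜, ∀ Y, Ψ Y = ∑ ω ∈ s, val ω Y - Phi Y := ⟨∑ ω ∈ s, val ω - Phi, by simp⟩
  have q1 : ∀ l, ∀ d ∈ Om J, ∀ Y, Ψ (cj (piU l d) Y) = cj (piU l d) (Ψ Y) := fun l d m Y => by
    rw [hΨ, hΨ, iv _ (H.h0 l d m), map_sub, ← phi_cj (g := piU l d) fun j => ⟨j, mp_piU d j⟩, cj_inv_cj]
  have q2 : ∀ l γ, Cm l γ → ∀ u x, u ≠ 0 → ⟪u, u⟫ = 0 → ⟪u, x⟫ = 0 → Ψ (pi1 l (dw J u x) * γ) = 0 := fun l γ cγ u x u0 hu hx => by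
    obtain ⟨u', a1, a1', a2⟩ := H.pa u0 hu
    refine H.ind' (P := fun x => Ψ (pi1 l (dw J u x) * γ) = 0) u0 hu (fun x a n => ?_) (fun x y a b => by simp [dw_add, add_mul, a, b]) hx
    suffices ∀ x, ⟪u, x⟫ = 0 → ⟪u', x⟫ = 0 → ⟪x, x⟫ ≠ 0 → Ψ (pi1 l (dw J u x) * γ) = 0 by
      simpa [-neg_smul, dw_add, dw_smul, dw_self] using this (x + -⟪u', x⟫ • u) (by simp [a, hu]) (by simp [a1']) (by simpa [H.z a, a, hu])
    intro x a b n
    obtain ⟨d, d1, r, t, r0, rt, rt1, d2, d3, d4⟩ := H.rho hu a1 a2 a b n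
    have fy : ∀ w (hw : ⟪u, w⟫ = 0), cj (piU l (H.sg hu hw)) (pi1 l (dw J u x) * γ) = pi1 l (dw J u x) * γ := fun w hw => by
      simp [cj_piU, cγ.cj_piU, (H.is_sg hu hw).cj_dw, S2.sg_val, H.sm_mv, hu, a, H.z hw, dw_add, dw_smul, dw_self]
    refine zzero H.toGO hu a1 (fun w hw => ?_) (Om.is d1) r0 rt rt1 d2 d4 (by
      rw [← q1 l d d1, map_mul, cγ.cj_piU, cj_piU, (Om.is d1).cj_dw, d2, d3, dw_smul, dw_smul', smul_smul, map_smul, smul_mul_assoc, map_smul, mul_comm]) (fun b b1 b2 => ?_) a2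
    · have k : ∀ w (hw : ⟪u, w⟫ = 0), Commute (Ψ (pi1 l (dw J u x) * γ)) (pi1 l (sm J u w)) := fun w hw =>
        (cj_eq_iff.1 ((q1 l _ (H.sg_om H.hk u0 hu hw) _).symm.trans (congrArg Ψ (fy w hw)))).symm
      rw [H.dw_sm u w, map_smul, map_sub]
      exact ((k w hw).sub_right (k (-w) (by simp [hw]))).smul_right _
    obtain ⟨θ, k⟩ := hΛ u u0 hu
    obtain ⟨f, hf⟩ : ∃ f : 𝒜 →ₗ[F] 𝒜, ∀ Z, f Z = eb l Z J b u' - eb l Z J u' b :=
      ⟨⟨⟨fun Z => eb l Z J b u' - eb l Z J u' b, fun _ _ => by simp only [eb_apply, ent_ad]; abel⟩, fun _ _ => by simp [eb_apply, ent_sm, smul_sub]⟩, fun _ => rfl⟩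
    have := orb_sum p0 H.h2 pΛ ((piU l).comp (k.th H.toS2)) s (fun ω => f (val ω (pi1 l (dw J u x) * γ)) - f (Phi (pi1 l (dw J u x) * γ))) (fun a => sv _ (H.h0 l _ (om k a)))
      (fun ω m e => ?_) fun ω _ => ?_
    · rw [← sub_eq_zero, ← eb_apply, ← eb_apply, ← hf, hΨ, map_sub, map_sum, ← this, Finset.sum_sub_distrib, Finset.sum_const, ← Nat.cast_smul_eq_nsmul F, n1, one_smul]
    · obtain ⟨g, m', rfl⟩ := (hs ω).1 m
      obtain ⟨i, v, c, W⟩ := fx k l g m' e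
      obtain ⟨r, hr⟩ := const H hp (inv_mem m') W a cγ
      rw [inv_inv] at hr
      rw [v1, rh_apply, hr, map_add, add_sub_cancel_left, map_smul, hf, eb_apply, eb_apply, ← mul_one (VV _ _ _), VV, ent_pi1 cm_one, ent_pi1 cm_one]
      simp [vecMulVec_mulVec, H.z b1, b1]
    have e1 : ∀ a, val (piU l (k.th H.toS2 a) • ω) (pi1 l (dw J u x) * γ) = cj (piU l (k.th H.toS2 a)) (val ω (pi1 l (dw J u x) * γ)) := fun a => by rw [← ev]; exact congrArg _ (fy _ (k.o _)).symm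
    generalize hV : val ω (pi1 l (dw J u x) * γ) = V at e1
    have e2 : ∀ a, f (cj (piU l (k.th H.toS2 a)) V) = eb l V J (sm J u (-θ a.toAdd) *ᵥ b) (sm J u (-θ a.toAdd) *ᵥ u') - eb l V J (sm J u (-θ a.toAdd) *ᵥ u') (sm J u (-θ a.toAdd) *ᵥ b) :=
      fun a => by rw [hf, eb_apply, eb_apply, ent_cj (Om.is (om k a)), ent_cj (Om.is (om k a))]; rfl
    refine ⟨fun a => -⟪θ a.toAdd, θ a.toAdd⟫ • (eb l V J b u - eb l V J u b) - (2 * ⟪θ a.toAdd, b⟫) • (eb l V J u (θ a.toAdd) - eb l V J (θ a.toAdd) u), fun a => ?_, ?_, ?_⟩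
    · have t := H.h2
      rw [MonoidHom.comp_apply, MonoidHom.comp_apply, e1, e1, e2, e2]
      simp only [hf, toAdd_inv, map_neg, neg_neg, H.sm_mv, b1, a1, map_add, map_sub, map_smul, LinearMap.add_apply, LinearMap.sub_apply,
        LinearMap.smul_apply, LinearMap.neg_apply, neg_dotProduct, dotProduct_neg, smul_neg, zero_smul, mul_zero, sub_zero, one_smul, mul_one, neg_zero]
      match_scalars <;> field_simp <;> ring
    · rw [Fintype.sum_equiv Multiplicative.toAdd _ (fun a => -⟪θ a, θ a⟫ • (eb l V J b u - eb l V J u b) - (2 * ⟪θ a, b⟫) • (eb l V J u (θ a) - eb l V J (θ a) u)) fun _ => rfl,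
        Finset.sum_sub_distrib, ← Finset.sum_smul, Finset.sum_neg_distrib]
      have c1 := k.sum (((dotProductBilin F F).comp (st J)).compl₁₂ θ θ)
      have c2 := k.sum2 ((2 : F) • (dotProductBilin F F).flip b ∘ₗ st J ∘ₗ θ) ((eb l V J u - (eb l V J).flip u) ∘ₗ θ)
      simp only [LinearMap.compl₁₂_apply, LinearMap.comp_apply, dotProductBilin_apply_apply, LinearMap.smul_apply, LinearMap.flip_apply, LinearMap.sub_apply, smul_eq_mul] at c1 c2
      simp [c1, c2]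
    rintro ⟨a0, n0, e⟩ a
    have k1 : ∀ a, piU l (k.th H.toS2 a) • ω = ω → Commute V (pi1 l (sm J u (θ a.toAdd))) := fun a e => (cj_eq_iff.1 ((e1 a).symm.trans (by rw [e, hV]))).symm
    have k2 : V * VV l u (st J u) = VV l u (st J u) * V := by
      have c := ((k1 a0 e).add_right (k1 a0⁻¹ (by rw [map_inv, map_inv, inv_smul_eq_iff]; exact e.symm))).eq
      refine smul_right_injective _ (k.an a0.toAdd (by simpa using n0)) ?_
      have t := H.h2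
      simp only [sm, toAdd_inv, ← neg_one_smul F a0.toAdd, map_smul, dw_smul, map_add, map_sub, map_one, add_mul, sub_mul, mul_add, mul_sub, one_mul, mul_one, smul_mul_assoc,
        mul_smul_comm, smul_dotProduct, dotProduct_smul, smul_eq_mul, ← VV.eq_1] at c
      linear_combination (norm := skip) -c
      match_scalars <;> field_simp <;> ring
    have k3 : ∀ y, ⟪u, y⟫ = 0 → eb l V J u y = 0 ∧ eb l V J y u = 0 := fun y e =>
      ⟨(cm_ent _ _ _).of_VV u0 (st_eq_zero.not.2 u0 : st J u ≠ 0) (by rw [VV_ent, ← k2, mul_assoc, VV_mul, e]; simp),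
        (cm_ent _ _ _).of_VV u0 (st_eq_zero.not.2 u0 : st J u ≠ 0) (by rw [VV_ent, mul_assoc, k2, VV_mul', H.z e]; simp)⟩
    simp [k3 b b1, k3 _ (k.o _)]
  have q3 : ∀ l γ, Cm l γ → ∀ a b, Ψ (pi1 l (dw J a b) * γ) = 0 := fun l γ cγ a b => by
    have an : ∀ a b, dw J a b = -dw J b a := fun a b => (neg_sub ..).symm
    have k : ∀ a b, ⟪a, b⟫ = 0 → Ψ (pi1 l (dw J a b) * γ) = 0 := fun a b => H.bl (LinearMap.mk₂ F (fun a b => Ψ (pi1 l (dw J a b) * γ))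
      (fun _ _ _ => by simp [dw, add_vecMulVec, vecMulVec_add, add_mul, sub_mul]; abel) (by simp [dw_smul']) (by simp [dw_add, add_mul]) (by simp [dw_smul]))
      fun u x u0 hu hx => ⟨q2 l γ cγ u x u0 hu hx, by simp [an x u, q2 l γ cγ u x u0 hu hx]⟩
    have k' : ∀ a b, ⟪a, a⟫ ≠ 0 → Ψ (pi1 l (dw J a b) * γ) = 0 := fun a b n => by
      simpa [-neg_smul, dw_add, dw_smul, dw_self] using k a (b + -(⟪a, b⟫ / ⟪a, a⟫) • a) (by simp [n])
    by_cases c : ⟪a, b⟫ = 0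
    · exact k a b c
    rcases H.exn c with n | n | n
    exacts [k' a b n, by simp [an a b, k' b a n], by simpa [an (a + b) b, dw_add, dw_self, an a b] using k' (a + b) b n]
  have q4 : ∀ l γ, Cm l γ → ∀ a, Ψ (pi1 l (a - ad J a) * γ) = 0 := fun l γ cγ a => by
    induction a using Matrix.induction_on' with
    | h_zero => simp
    | h_add a b h h' => rw [map_add, add_sub_add_comm, map_add, add_mul, map_add, h, h', add_zero]
    | h_std_basis r s c =>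
      obtain ⟨b, e⟩ := st_surj (J := J) (Pi.single s c)
      rw [show single r s c = vecMulVec (Pi.single r 1) (st J b) by ext; simp [e, vecMulVec_apply, Pi.single_apply, single_apply]; grind, H.ad_vv]
      exact q3 l γ cγ _ _
  have q5 : ∀ S : Finset τ, ∀ A : τ → Matrix κ κ F, Ψ (pt A) = Ψ (pt fun l => if l ∈ S then ad J (A l) else A l) := fun S A => by
    induction S using Finset.induction_on with
    | empty => simp
    | insert l S hl ih =>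
      have := q4 l _ (cm_pt (A := Function.update (fun l => if l ∈ S then ad J (A l) else A l) l 1) (by simp)) (A l)
      rw [← (cm_pt (by simp) _).eq, map_sub, mul_sub, map_sub, sub_eq_zero, pt_mul_pi1 _ (by simp), pt_mul_pi1 _ (by simp)] at this
      convert ih.trans (.trans ?_ this) using 3
      · funext j; by_cases c : j = l <;> simp [c]
      · congr 2; funext j; by_cases c : j = l <;> simp [c, hl]
  have q6 : ∀ X, Ψ (ad (JW J) X) = Ψ X := fun X => by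
    induction X using Matrix.induction_on' with
    | h_zero => simp
    | h_add a b h h' => simp [h, h']
    | h_std_basis r s c => rw [show single r s c = c • single r s (1 : F) by simp, map_smul, map_smul, map_smul, ← pt_single, ad_pt, q5 .univ fun l => single _ _ _]; simp
  refine hh_of_nn H fun g m j u w => ?_
  obtain ⟨v, v0, hv⟩ := H.sing
  obtain ⟨n, -, n0⟩ := H.ns v0 hv
  have c1 := cm_pt (A := Function.update (fun _ => vecMulVec n (st J n)) j 1) (i := j) (by simp)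
  have c2 : trace (pt (Function.update (fun _ => vecMulVec n (st J n)) j 1) * VV j n (⟪n, n⟫⁻¹ • st J n)) ≠ 0 := by
    rw [VV, pt_mul_pi1 _ (by simp), show ∀ A : τ → Matrix κ κ F, trace (pt A) = ∏ l, trace (A l) from fun A => by simp [trace, pt_apply, Finset.prod_univ_sum]]
    exact Finset.prod_ne_zero_iff.2 fun l _ => by by_cases c : l = j <;> simp [c, trace_vecMulVec, dotProduct_comm n, n0]
  have c3 : ad (JW J) (pt (Function.update (fun _ => vecMulVec n (st J n)) j 1)) = pt (Function.update (fun _ => vecMulVec n (st J n)) j 1) := by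
    rw [ad_pt]; congr 1; funext l; by_cases c : l = j <;> simp [c, H.ad_vv]
  generalize pt (Function.update (fun _ => vecMulVec n (st J n)) j 1) = γ at c1 c2 c3
  have c4 := phiC c1 (v := n) (ψ := ⟪n, n⟫⁻¹ • st J n) (by simp [n0]) (a := dw J u w) (by simp [dw, trace_vecMulVec, dotProduct_comm u, dotProduct_comm w, H.c u w])
  have c5 := q3 j γ c1 u w
  rw [hΨ, sub_eq_zero] at c5
  have c6 := q6 (cj g (pi1 j (dw J u w) * γ))
  rw [(H.iso g m).cj_ad, ad_mul, c3, ad_pi1, H.ad_dw, (c1 _).eq, map_neg, neg_mul, map_neg, map_neg, neg_eq_iff_add_eq_zero, ← two_smul F, smul_eq_zero_iff_right H.h2, hΨ,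
    iv g m, c5, c4, sub_eq_zero, map_smul, ← eq_inv_smul_iff₀ c2, ← map_smul] at c6
  exact c6 ▸ nn_phi _
end H09.Wr
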