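import Mathlib
import Cfsg.Agent.H09.WoF
/-! Orthogonal tensor-wreath subgroups: from a pattern to all patterns. -/
namespace H09.Wr
open Matrix H10 H10.As Module
variable {τ κ : Type} [Fintype τ] [DecidableEq τ] [Fintype κ] [DecidableEq κ] {F : Type*} [Field F]
local notation "𝒜" => Matrix (τ → κ) (τ → κ) F
variable {l o : τ} {u v w x y : κ → F} {a : Matrix κ κ F} {J : GL κ F} {M : Subgroup (GL (τ → κ) F)} {K S : Finset τ} {A A' B : τ → Matrix κ κ F} {c : F}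
set_option hygiene false in
local notation "⟪" a ", " b "⟫" => Wr.st J a ⬝ᵥ b
variable (J) in
/-- families of singular vectors -/
def Sgo (z : τ → κ → F) : Prop := ∀ l, z l ≠ 0 ∧ ⟪z l, z l⟫ = 0
variable (J M K o) in
/-- all patterns with one skew slot -/
def BO : Prop := ∀ z, Sgo J z → ∀ w, ⟪z o, w⟫ = 0 → U1 M (pe J K z * pi1 o (dw J (z o) w))
variable (J K A) in
/-- symmetric patterns -/
def PEo : Prop := (∀ l ∈ K, OE J (A l)) ∧ ∀ l ∉ K, A l = 1
theorem OE.ad (h : S2 J) (e : OE J a) : ad J a = a := by obtain ⟨u, c, -, -, -, rfl⟩ := e; simp [h.ad_vv]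
theorem OE.ne (e : OE J a) : a ≠ 0 := by obtain ⟨u, c, u0, -, c0, rfl⟩ := e; simp [u0, c0]
theorem oe_vv (u0 : u ≠ 0) (hu : ⟪u, u⟫ = 0) : OE J (vecMulVec u (st J u)) := ⟨u, 1, u0, hu, one_ne_zero, by simp⟩
theorem PEo.ad (h : S2 J) (e : PEo J K A) : ad (JW J) (pt A) = pt A := by
  rw [ad_pt]; congr 1; funext l
  by_cases c : l ∈ K
  exacts [(e.1 l c).ad h, by simp [e.2 l c]]
theorem PEo.no (H : HO J M) (e : PEo J K A) (hK : K.Nonempty) (c0 : c ≠ 0) : ¬ U1 M (c • pt A) := fun h => by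
  have := H.ne
  obtain ⟨p, hp⟩ := hK
  have := H.skew h (by rw [smul_mul_smul, ← map_mul, pt_zero (l := p) (e.1 p hp).sq, smul_zero])
  rw [map_smul, e.ad H.toS2, eq_neg_iff_add_eq_zero, ← two_smul F, smul_eq_zero_iff_right H.h2, smul_eq_zero_iff_right c0] at this
  exact pt_ne (fun l => by by_cases c : l ∈ K <;> simp [(e.1 l · |>.ne), e.2, c]) this
theorem PEo.insert (h : PEo J K A) (e : OE J a) : PEo J (insert l K) (Function.update A l a) :=
  ⟨fun j m => by by_cases c : j = l <;> simp_all [h.1], fun j m => by by_cases c : j = l <;> simp_all [h.2]⟩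
theorem bo_of (H : HO J M) (h : PEo J K A) (hK : K.Nonempty) (ho : o ∉ K) (a0 : a ≠ 0) (e : U1 M (pt A * pi1 o a)) : BO o J M K := by
  have := H.ne
  have t := H.h2
  obtain ⟨p, hp⟩ := id hK
  obtain ⟨L, hL⟩ : ∃ L, L = LS h.2 (h.1 p hp).sq M := ⟨_, rfl⟩
  have l1 : ∀ d ∈ Om J, ∀ β ∈ L, cj (piU o d) β ∈ L := fun d e => by rw [hL]; exact LS_cj ho (H.h0 o d e)
  have l2 : ∀ u w, u ≠ 0 → ⟪u, u⟫ = 0 → ⟪u, w⟫ = 0 → ∀ n : ⟪w, w⟫ ≠ 0, ∀ β ∈ L, cj (piU o (rf n)) β ∈ L := by rw [hL]; exact LS_rf H hp (h.1 p hp) ho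
  have l0 : ∀ a, pi1 o a ∈ L ↔ U1 M (pt A * pi1 o a) := fun a => by
    rw [hL]; exact ⟨(·.2), fun e => ⟨fun j m => cm_pi1 (by rintro rfl; exact ho m) _, e⟩⟩
  obtain ⟨b, γ, b1, γ0, c1, c2, m⟩ := la3o H.toGO l1 ((l0 a).2 e) l2 fun c => by
    obtain ⟨s, rfl⟩ := c.sc
    exact h.no H hK (c := s) (by rintro rfl; simp at a0) (by simpa using e)
  obtain ⟨c, rfl⟩ := sc_of_cm (β := γ) fun j => by
    by_cases e : j = o
    exacts [e ▸ c1, c2 j (Ne.symm e) (cm_pi1 (Ne.symm e) _)]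
  have m' : pi1 o (c • b) ∈ L := by simpa using m
  obtain ⟨u, w, u0, hu, hw, n, e⟩ := (ot_smul b1 (c := c) (by rintro rfl; simp at γ0)).resolve_left fun k =>
    (h.insert (l := o) k).no H (by simp) one_ne_zero (by rw [one_smul, ← pt_mul_pi1 _ (h.2 o ho)]; exact (l0 _).1 m')
  rw [e] at m'
  obtain ⟨u', h1, h1', h2⟩ := H.pa u0 hu
  have k1 : ∀ x, ⟪u, x⟫ = 0 → pi1 o (dw J u x) ∈ L → ∀ s : F, pi1 o (dw J u (s • x)) ∈ L := fun x hx m s => by
    have k : ∀ r : F, (r * r) • (pi1 o (dw J u x) : 𝒜) ∈ L := fun r => by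
      by_cases r0 : r = 0
      · simp [r0]
      obtain ⟨d, d1, d2⟩ := H.tor hu h1 h2 r0
      have := l1 d d1 _ m
      rw [cj_piU, (Om.is d1).cj_dw] at this
      convert this using 1
      simp [d2, add_mulVec, smul_mulVec, vecMulVec_mulVec, hu, hx, h1', dw_add, dw_smul, dw_smul', dw_self, show u + (r * r - 1) • u = (r * r) • u by module]
    convert sub_mem (k ((s + 1) / 2)) (k ((s - 1) / 2)) using 1
    rw [dw_smul, map_smul]; match_scalars; field_simp; ring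
  let S : Submodule F (κ → F) := ⟨⟨⟨{x | ⟪u, x⟫ = 0 ∧ pi1 o (dw J u x) ∈ L}, fun a b => ⟨by simp [a.1, b.1], by simpa [dw_add] using add_mem a.2 b.2⟩⟩,
    by simp [dw]⟩, fun s x m => ⟨by simp [m.1], k1 x m.1 m.2 s⟩⟩
  have k2 : ∀ x, ⟪u, x⟫ = 0 → x ∈ S := fun x hx => H.irr u0 hu hw n ⟨hw, m'⟩ (fun x hx n y m e => by
    have := l2 u x u0 hu hx n _ m.2
    rw [cj_piU, (H.is_rf n).cj_dw, rf_mv, rf_mv, H.z hx, mul_zero, zero_smul, sub_zero] at this
    have := sub_mem m (show _ ∈ S from ⟨by simp [m.1, hx], this⟩)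
    rwa [sub_sub_cancel, S.smul_mem_iff (by simp [*])] at this) hx
  have k3 : ∀ v x, v ≠ 0 → ⟪v, v⟫ = 0 → ⟪v, x⟫ = 0 → pi1 o (dw J v x) ∈ L := fun v x v0 hv hx => by
    obtain ⟨d, d1, c, c0, d2⟩ := H.trs H.hk u0 hu v0 hv
    have := l1 d d1 _ (k2 (c⁻¹ • (d⁻¹).1 *ᵥ x) (by rw [← (Om.is d1).dot]; simp [d2, mulVec_smul, hx])).2
    rw [cj_piU, (Om.is d1).cj_dw] at this
    simpa [d2, mulVec_smul, dw_smul, dw_smul', smul_smul, c0] using this
  intro z hz w hw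
  have : ∀ l, ∃ d ∈ Om J, ∃ c : F, c ≠ 0 ∧ (l = o → d = 1) ∧ cj d (A l) = c • if l ∈ K then vecMulVec (z l) (st J (z l)) else 1 := fun l => by
    by_cases m : l ∈ K
    · obtain ⟨u, c, u0, hu, c0, e⟩ := h.1 l m
      obtain ⟨d, d1, c', c1, d3⟩ := H.trs H.hk u0 hu (hz l).1 (hz l).2
      exact ⟨d, d1, c * (c' * c'), by simp [*], fun e => absurd (e ▸ m) ho, by simp [e, m, (Om.is d1).cj_vv, d3, smul_smul]⟩
    · exact ⟨1, one_mem _, 1, one_ne_zero, fun _ => rfl, by simp [h.2 l m, m]⟩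
  choose d d1 c c0 d0 d2 using this
  have c1 : ∏ l, c l ≠ 0 := Finset.prod_ne_zero_iff.2 fun l _ => c0 l
  have e1 := ((l0 _).1 (k3 (z o) ((∏ l, c l)⁻¹ • w) (hz o).1 (hz o).2 (by simp [hw]))).cj (H.ptU d1)
  rw [map_mul, pi1_apply, cj_ptU', cj_ptU', show (fun i => cj (d i) (Pi.mulSingle (M := fun _ => Matrix κ κ F) o (dw J (z o) ((∏ l, c l)⁻¹ • w)) i)) =
    Pi.mulSingle o (dw J (z o) ((∏ l, c l)⁻¹ • w)) from funext fun i => by by_cases c : i = o <;> simp [c, d0], ← pi1_apply] at e1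
  simpa only [d2, pt_smul, ← pe.eq_1, dw_smul, map_smul, smul_mul_smul, mul_inv_cancel₀ c1, one_smul] using e1
theorem extro (H : HO J M) {x y : τ → κ → F} (hx : ∀ l, x l ≠ 0) (hy : Sgo J y) (S : Finset τ) : ∀ {K A} {Γ Γ' : 𝒜}, K.Nonempty → PEo J K A →
    Disjoint S K → (∀ j ∈ S ∪ K, Cm j Γ ∧ Cm j Γ') → U1 M (pt A * (Γ * pt (fun l => if l ∈ S then vecMulVec (x l) (st J (y l)) else 1) +
      Γ' * ad (JW J) (pt fun l => if l ∈ S then vecMulVec (x l) (st J (y l)) else 1))) → ∃ A', PEo J (S ∪ K) A' ∧ U1 M (pt A' * (Γ + Γ')) := by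
  have := H.ne
  induction S using Finset.induction_on with
  | empty => exact fun _ h _ _ e => ⟨_, by simpa using h, by simpa [← Pi.one_def] using e⟩
  | insert l S hl ih =>
    rintro K A Γ Γ' ⟨o, ho⟩ h d n e
    obtain ⟨z, hz, z2, z1⟩ : ∃ z, ⟪z, z⟫ = 0 ∧ ⟪z, y l⟫ ≠ 0 ∧ ⟪x l, z⟫ ≠ 0 := by
      by_contra! k
      obtain ⟨v, hv⟩ := ex_st (J := J) (hx l)
      simpa [hv] using Submodule.span_le (p := LinearMap.ker (dotProductBilin F F (st J (x l)))).2 (fun b m => k b m.1 m.2) (H.span H.hk (hy l).1 (hy l).2 v)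
    have z0 : z ≠ 0 := by rintro rfl; simp at z1
    obtain ⟨d1, d2⟩ := Finset.disjoint_insert_left.1 d
    have e1 : (pt fun j => if j ∈ insert l S then vecMulVec (x j) (st J (y j)) else 1) =
        (pt fun j => if j ∈ S then vecMulVec (x j) (st J (y j)) else 1) * VV l (x l) (st J (y l)) := by
      rw [VV, pt_mul_pi1 _ (by simp [hl])]; congr 1; funext j; by_cases c : j = l <;> simp [c]
    have e2 : ∀ j ∈ K, Cm j (pt fun j => if j ∈ insert l S then vecMulVec (x j) (st J (y j)) else 1) := fun j m => cm_pt (if_neg (Finset.disjoint_right.1 d m))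
    have e3 : Cm l (pt fun j => if j ∈ S then vecMulVec (x j) (st J (y j)) else 1) := cm_pt (if_neg hl)
    obtain ⟨c, c0, -, e5⟩ := la1o H.toGO (L := LS h.2 (h.1 o ho).sq M) (fun d e => LS_cj d1 (H.h0 l d e))
      ⟨fun j m => ((n j (by simp [m])).1.mul (e2 j m)).add ((n j (by simp [m])).2.mul ((e2 j m).ado H.toS2)), e⟩ z0 hz
    rw [Finset.insert_union, ← Finset.union_insert]
    refine ih (A := Function.update A l ((c * (⟪x l, z⟫ * ⟪z, y l⟫)) • vecMulVec z (st J z))) (by simp) (h.insert ⟨z, _, z0, hz, by simp [*], rfl⟩)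
      (by simp [hl, d2]) (fun j m => n j (by simpa [or_left_comm] using m)) ?_
    convert e5 using 1
    have e7 := e3.ado H.toS2
    obtain ⟨n1, n2⟩ := n l (by simp)
    rw [← pt_mul_pi1 _ (h.2 l d1), mul_assoc, smul_mul_assoc c, VV_ent, e1, map_smul, ← VV, ad_mul, H.ad_VV]
    generalize (pt fun j => if j ∈ S then vecMulVec (x j) (st J (y j)) else 1) = P at e3 e7
    simp only [mul_add, add_mul, mul_assoc, e3.vv, e7.vv, e3.vv', n1.vv', n2.vv', VV_mul, VV_mul', smul_mul_assoc, mul_smul_comm, H.c z]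
    module
theorem keyo (H : HO J M) {x y : τ → κ → F} (hx : ∀ l, x l ≠ 0) (hy : Sgo J y) (hK : K.Nonempty) (h : PEo J K B) (d : Disjoint S K) (ho : o ∉ S ∪ K)
    (e : U1 M (pt A)) (e' : U1 M (pt A')) (s1 : ∃ l, A l * A l = 0) (s2 : ∃ l, A' l * A' l = 0) (s3 : ∃ l, A l * (A' l * A l) = 0) (s4 : ∃ l, A' l * (A l * A' l) = 0)
    (k : ∀ l, A l * A' l = B l * (Pi.mulSingle (M := fun _ => Matrix κ κ F) o a l * if l ∈ S then vecMulVec (x l) (st J (y l)) else 1)) (n : a - ad J a ≠ 0) :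
    BO o J M (S ∪ K) := by
  have s1 : pt A * pt A = 0 := by rw [← map_mul]; exact pt_zero s1.choose_spec
  have s2 : pt A' * pt A' = 0 := by rw [← map_mul]; exact pt_zero s2.choose_spec
  have e2 := e.cm2 e' s1 s2 (by rw [← map_mul, ← map_mul]; exact pt_zero s3.choose_spec) (by rw [← map_mul, ← map_mul]; exact pt_zero s4.choose_spec)
  rw [← neg_mul_neg (pt A'), ← H.skew e s1, ← H.skew e' s2, ← ad_mul, ← map_mul, show A * A' = B * (Pi.mulSingle o a *
    fun l => if l ∈ S then vecMulVec (x l) (st J (y l)) else 1) from funext k, map_mul, map_mul, ← pi1_apply, ad_mul, ad_mul, h.ad H.toS2, ad_pi1] at e2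
  have c : ∀ j ∈ S ∪ K, ∀ b, Cm j (pi1 o b : 𝒜) := fun j m b => cm_pi1 (by rintro rfl; exact ho m) b
  obtain ⟨A'', a1, a2⟩ := extro H hx hy S (Γ := pi1 o a) (Γ' := pi1 o (-ad J a)) hK h d (fun j m => ⟨c j m _, c j m _⟩) (by
    convert e2 using 1
    rw [(comm_pt h.2 fun l m => ((cm_pt (i := l) (by exact if_neg (Finset.disjoint_right.1 d m))).ado H.toS2).mul (c l (by simp [m]) _)).eq,
      ((cm_pt (i := o) (by exact if_neg fun m => ho (by simp [m]))).ado H.toS2 _).eq, map_neg, neg_mul, ← sub_eq_add_neg, mul_sub])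
  exact bo_of H a1 (hK.mono Finset.subset_union_right) ho n (by rwa [map_sub, sub_eq_add_neg, ← map_neg])
theorem step1 (H : HO J M) (h : PO o J K A) (e : U1 M (pt A)) : BO o J M (K.erase o) := by
  classical
  obtain ⟨u1, u10, hu1⟩ := H.sing
  have : ∀ l, ∃ d ∈ Om J, ∃ (b : Matrix κ κ F) (x y : κ → F), x ≠ 0 ∧ (y ≠ 0 ∧ ⟪y, y⟫ = 0) ∧ (l ∈ K.filter (fun l => ¬ OE J (A l)) → OE J b ∧ cj d (A l) = A l ∧
      A l * (A l * A l) = 0) ∧ (l ∉ K.filter (fun l => ¬ OE J (A l)) → b = 1) ∧ (OE J (A l) → dw J x y ≠ 0) ∧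
      A l * cj d (A l) = b * (if l ∈ K.filter (fun l => OE J (A l)) then vecMulVec x (st J y) else 1) := fun l => by
    by_cases c : OE J (A l)
    · obtain ⟨u, s, u0, hu, s0, e'⟩ := id c
      have m : l ∈ K := by_contra fun m => c.ne (by simpa [h.2.2.2 l m] using c.sq)
      obtain ⟨v, h1, h1', h2⟩ := H.pa u0 hu
      have v0 : v ≠ 0 := by rintro rfl; simp at h1
      obtain ⟨d, d1, r, r0, d2⟩ := H.trs H.hk u0 hu v0 h2
      exact ⟨d, d1, 1, (s * s * (r * r)) • u, v, by simp [*], ⟨v0, h2⟩, by simp [c], by simp, fun _ e => by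
        simpa [dw_mv, s0, r0, u0, hu, h1'] using congrArg (· *ᵥ u) e, by
        simp [m, c]; simp [e', (Om.is d1).cj_vv, d2, vecMulVec_mul_vecMulVec, h1, smul_smul]; congr 1; ring⟩
    by_cases m : l ∈ K
    · obtain ⟨u, w, u0, hu, hw, n, e'⟩ := (h.2.2.1 l m).resolve_left c
      exact ⟨1, one_mem _, A l * A l, u1, u1, u10, ⟨u10, hu1⟩, fun _ => ⟨⟨u, _, u0, hu, neg_ne_zero.2 n, by rw [e', H.dw_mul hu hw hw]⟩, by simp,
        by rw [e', H.dw_mul hu hw hw, mul_smul_comm, H.dw_E hu hw, smul_zero]⟩, by simp [m, c], by simp [c], by simp [c]⟩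
    · exact ⟨1, one_mem _, 1, u1, u1, u10, ⟨u10, hu1⟩, by simp [m], by simp, by simp [c], by simp [m, h.2.2.2 l m]⟩
  choose d d1 b x y x0 y0 a1 a2 a3 a4 using this
  obtain ⟨p, hp⟩ : (K.filter fun l => ¬ OE J (A l)).Nonempty := by_contra fun n =>
    PEo.no H (K := K) ⟨fun l m => by_contra fun c => n ⟨l, by simp [m, c]⟩, h.2.2.2⟩ ⟨o, h.1⟩ one_ne_zero (by rwa [one_smul])
  have o1 := h.2.1
  convert keyo H x0 y0 ⟨p, hp⟩ ⟨fun l m => (a1 l m).1, a2⟩ (S := (K.filter fun l => OE J (A l)).erase o) (o := o) (a := vecMulVec (x o) (st J (y o)))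
    (by simp +contextual [Finset.disjoint_left]) (by simp [o1]) e (by simpa only [cj_ptU'] using e.cj (H.ptU d1)) ⟨o, o1.sq⟩ ⟨o, by rw [← map_mul, o1.sq, map_zero]⟩
    ⟨p, by simp only [(a1 p hp).2]⟩ ⟨p, by simp only [(a1 p hp).2]⟩ (fun l => by rw [a4]; by_cases c : l = o <;> simp [c, o1, h.1]) (by rw [H.ad_vv]; exact a3 o o1) using 1
  ext l; by_cases c : l = o <;> simp [c, o1]; tauto
theorem BO.pt (h : BO o J M K) (ho : o ∉ K) (u0 : u ≠ 0) (hu : ⟪u, u⟫ = 0) (hw : ⟪u, w⟫ = 0) :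
    U1 M (pt (Function.update (fun l => if l ∈ K then vecMulVec u (st J u) else 1) o (dw J u w))) := by
  rw [← pt_mul_pi1 _ (by exact if_neg ho)]; exact h (fun _ => u) (fun _ => ⟨u0, hu⟩) w hw
theorem growB (H : HO J M) (hf : ∀ π, fp κ F π ∈ Om (JW J) → fp κ F π ∈ M) (h : BO o J M K) (ho : o ∉ K) {a b} (ha : a ∈ K) (hb : b ∉ insert o K) :
    BO b J M (insert o K) := by
  obtain ⟨u, u0, hu⟩ := H.sing
  obtain ⟨v, h1, h1', h2⟩ := H.pa u0 hu
  have v0 : v ≠ 0 := by rintro rfl; simp at h1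
  obtain ⟨w, w1, w2, n⟩ := H.ns2 H.hk hu h1 h2
  have n1 : a ≠ o := by rintro rfl; exact ho ha
  have n2 : b ≠ o := by rintro rfl; simp at hb
  have n3 : b ∉ K := fun m => hb (by simp [m])
  have n4 : a ≠ b := by rintro rfl; exact n3 ha
  have m := om_comm (is_fp (J := J) (Equiv.swap o b)) (is_fp (Equiv.swap o a))
  have f : ∀ a b : τ, (fp κ F (Equiv.swap a b))⁻¹ = fp κ F (Equiv.swap a b) := fun a b => inv_eq_of_mul_eq_one_right (by
    rw [← fp_mul, Equiv.swap_mul_self]; exact mul_eq_left.1 ((fp_mul 1 1).symm.trans (by rw [mul_one])))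
  simp only [f, ← fp_mul] at m
  have e := (h.pt ho v0 h2 w2).cj (hf _ m)
  rw [cj_fp] at e
  generalize hπ : Equiv.swap o b * (Equiv.swap o a * Equiv.swap o b * Equiv.swap o a) = π at e
  have p : ∀ l, π.symm l = if l = a then b else if l = o then a else if l = b then o else l := fun l => by
    rw [Equiv.symm_apply_eq, ← hπ]; simp only [Equiv.Perm.mul_apply, Equiv.swap_apply_def]; grind
  convert keyo H (x := Function.update (fun _ => u) o (-w)) (y := fun _ => v) (fun l => by by_cases c : l = o <;> simp [c, u0]; rintro rfl; simp at n)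
    (fun _ => ⟨v0, h2⟩) (K := {a}) (B := Pi.mulSingle a (vecMulVec u (st J u))) (by simp) ⟨by simpa using oe_vv u0 hu, fun l m => by simp_all⟩
    (S := (insert o K).erase a) (o := b) (a := dw J v w) (by simp) (by simp [n2, n3, n4.symm]) (h.pt ho u0 hu w1) e
    ⟨a, by simp [n1, ha, vecMulVec_mul_vecMulVec, hu]⟩ ⟨o, by simp [p, n1, n1.symm, ha, vecMulVec_mul_vecMulVec, h2]⟩
    ⟨a, by simp [p, n1, n2, n3, ha, vecMulVec_mul_vecMulVec, hu]⟩ ⟨o, by simp [p, n1, n1.symm, ha, dw, sub_mul, vecMulVec_mul_vecMulVec, h1, w2, H.z w2]⟩ (fun l => ?_)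
    (fun e => by simpa [H.ad_dw, ← two_smul F, smul_mulVec, dw_mv, n, w2, v0, H.h2] using congrArg (· *ᵥ w) e) using 1
  · ext l; by_cases c : l = a <;> simp [c, ha]
  by_cases c1 : l = a
  · simp [p, c1, n1, n2, n3, n4, ha]
  by_cases c2 : l = o
  · simp [p, c2, n1, n1.symm, n2.symm, ha, dw, sub_mul, vecMulVec_mul_vecMulVec, h1, H.z w2]
  by_cases c3 : l = b
  · simp [p, c3, n2, n3, n4.symm]
  by_cases c4 : l ∈ K <;> simp [p, c1, c2, c3, c4, vecMulVec_mul_vecMulVec, h1]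
theorem bo_univ (H : HO J M) (hf : ∀ π, fp κ F π ∈ Om (JW J) → fp κ F π ∈ M) (hp : PatO J M) (o) : BO o J M (Finset.univ.erase o) := by
  have k : ∀ n K o, Fintype.card τ - K.card = n → K.Nonempty → o ∉ K → BO o J M K → ∃ o, BO o J M (Finset.univ.erase o) := fun n => by
    induction n using Nat.strong_induction_on with
    | _ n ih =>
    rintro K o rfl ⟨a, ha⟩ ho h
    by_cases c : ∀ b, b ∈ insert o K
    · exact ⟨o, by rwa [← Finset.eq_univ_of_forall c, Finset.erase_insert ho]⟩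
    obtain ⟨b, hb⟩ := not_forall.1 c
    have := Finset.card_le_univ (insert o K)
    exact ih _ (by simp [ho] at *; omega) _ b rfl (by simp) hb (growB H hf h ho ha hb)
  obtain ⟨K, A, o', h2, h, e⟩ := hp
  obtain ⟨p, b⟩ := k _ _ o' rfl (Finset.card_pos.1 (by rw [Finset.card_erase_of_mem h.1]; omega)) (by simp) (step1 H h e)
  by_cases c : o = p
  · exact c ▸ b
  obtain ⟨u, u0, hu⟩ := H.sing
  obtain ⟨w, hw, n⟩ := H.ns u0 hu
  exact step1 H ⟨by simp, by simpa [c] using oe_vv u0 hu, fun l _ => by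
    by_cases c : l = p
    exacts [.inr ⟨u, w, u0, hu, hw, n, by simp [c]⟩, .inl (by simpa [c] using oe_vv u0 hu)], by simp⟩ (b.pt (by simp) u0 hu hw)
end H09.Wr
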