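import Mathlib
import Cfsg.Agent.H09.WoG
/-! Orthogonal tensor-wreath subgroups: a pattern generates the commutator subgroup. -/
namespace H09.Wr
open Matrix H10 H10.As Module Cfsg Cfsg.Geo
variable {τ κ ι : Type} [Fintype τ] [DecidableEq τ] [Fintype κ] [DecidableEq κ] [Fintype ι] [DecidableEq ι] {F : Type*} [Field F]
set_option hygiene false in
local notation "⟪" a ", " b "⟫" => Wr.st J a ⬝ᵥ b
section
variable {J : GL ι F}
variable (J) in
/-- the quadratic form -/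
def qfo : QuadraticForm F (ι → F) := LinearMap.BilinMap.toQuadraticMap
  (LinearMap.mk₂ F (fun x y => (2 : F)⁻¹ * ⟪x, y⟫) (by simp [mul_add]) (by simp [mul_left_comm]) (by simp [mul_add]) (by simp [mul_left_comm]))
theorem qfo_apply (x) : qfo J x = (2 : F)⁻¹ * ⟪x, x⟫ := rfl
theorem S2.polar (h : S2 J) (x y) : QuadraticMap.polar (qfo J) x y = ⟪x, y⟫ := by
  have := h.h2
  simp only [QuadraticMap.polar, qfo_apply, map_add, add_dotProduct, dotProduct_add, h.c y x]; field_simp; ring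
theorem S2.nd (h : S2 J) : (Form.ofQuad (qfo J)).Nondeg :=
  ⟨fun x e => by_contra fun n => let ⟨v, a⟩ := ex_st (J := J) n; one_ne_zero (a.symm.trans ((h.polar x v).symm.trans (e v)))⟩
theorem iso_iff {Q : (ι → F) → F} (h2 : (2 : F) ≠ 0) (h : ∀ x, QuadraticMap.polar Q x x = 2 * Q x) {g : GL ι F} : g ∈ isometryGroup F Q ↔ Sim (QuadraticMap.polar Q) g 1 :=
  ⟨fun e u v => by
    have k : ∀ u, Q (g.1 *ᵥ u) = Q u := fun u => e u u
    simp [QuadraticMap.polar, ← mulVec_add, k], fun e u _ => mul_left_cancel₀ h2 (by simpa [h] using e u u)⟩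
theorem om_eq' (Q : (ι → F) → F) : omegaGL Q = ⁅isometryGroup F Q, isometryGroup F Q⁆ := Subgroup.map_subtype_commutator _
theorem S2.om_eq (h : S2 J) : Om J = omegaGL (qfo J) := by
  rw [om_eq', show isometryGroup F (qfo J) = SPg J from Subgroup.ext fun g => (iso_iff h.h2 fun x => by rw [h.polar, qfo_apply, mul_inv_cancel_left₀ h.h2]).trans (by
    simp only [Sim, h.polar, one_mul]; exact is_iff.symm)]; rfl
theorem S2.sg_mem (h : S2 J) {N : Subgroup (GL ι F)} {p w : ι → F} (hp : ⟪p, p⟫ = 0) (hw : ⟪p, w⟫ = 0) (hs : ⟪w, w⟫ = 0) (e : U1 N (dw J p w)) :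
    (Form.ofQuad (qfo J)).siegel p w 0 ∈ N.comap (Form.ofQuad (qfo J)).toGL := by
  have := h.nd
  obtain ⟨g, m, e⟩ := e
  refine Subgroup.mem_comap.2 ((Units.ext (e.trans (ext_of_mulVec_single fun i => ?_)) : g = _) ▸ m :)
  rw [toGL_mulVec, Form.siegel_apply _ (by simp [qfo_apply, hp]) (by simp [h.polar, hw]) (by simp [qfo_apply, hs])]
  simp only [add_mulVec, one_mulVec, dw_mv, Form.ofQuad_B, h.polar, Form.ofQuad_ε]; module
end
variable {J : GL κ F} {M : Subgroup (GL (τ → κ) F)} {z : τ → κ → F}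
set_option hygiene false in
local notation "⟦" a ", " b "⟧" => Wr.st (JW J) a ⬝ᵥ b
theorem S2.jw (h : S2 J) : S2 (JW J : GL (τ → κ) F) := ⟨fun u v => by
  have : (JW J : GL (τ → κ) F).1ᵀ = (∏ _ : τ, (1 : F)) • (JW J).1 := by rw [JW, ptU_val, ← pt_smul, ← h.tr]; rfl
  rw [st_apply, ← mulVec_transpose, this, dotProduct_comm, st_apply, dotProduct_mulVec]; simp, h.h2⟩
theorem pvd (a b : τ → κ → F) : ⟦pv a, pv b⟧ = ∏ l, ⟪a l, b l⟫ := by
  rw [st_pv]; simp [dotProduct, pv_apply, Finset.prod_univ_sum, Finset.prod_mul_distrib]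
theorem pvd0 {a b : τ → κ → F} (l : τ) (h : ⟪a l, b l⟫ = 0) : ⟦pv a, pv b⟧ = 0 := (pvd a b).trans (Finset.prod_eq_zero (Finset.mem_univ l) h)
theorem pvd1 {a b : τ → κ → F} (h : ∀ l, ⟪a l, b l⟫ ≠ 0) : ⟦pv a, pv b⟧ ≠ 0 := pvd (J := J) a b ▸ Finset.prod_ne_zero_iff.2 fun l _ => h l
theorem dw_pv (l : τ) (w) : dw (JW J) (pv z) (pv (Function.update z l w)) = pe J (Finset.univ.erase l) z * pi1 l (dw J (z l) w) := by
  rw [dw, dw, map_sub, mul_sub, pe, pt_mul_pi1 _ (by simp), pt_mul_pi1 _ (by simp), st_pv, st_pv, vv_pv, vv_pv]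
  congr 2 <;> funext j <;> by_cases c : j = l <;> simp [c]
theorem fullo (H : HO J M) (h : ∀ o, BO o J M (Finset.univ.erase o)) [Nontrivial τ] (hz : Sgo J z) :
    (Form.ofQuad (qfo (JW J : GL (τ → κ) F))).Full (M.comap (Form.ofQuad (qfo (JW J : GL (τ → κ) F))).toGL) (pv z) := by
  obtain ⟨o⟩ : Nonempty τ := inferInstance
  have W : S2 (JW J : GL (τ → κ) F) := H.jw
  have := W.nd
  have hB : ∀ x y, (Form.ofQuad (qfo (JW J : GL (τ → κ) F))).B x y = ⟦x, y⟧ := W.polar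
  have hQ : ∀ x : (τ → κ) → F, ⟦x, x⟧ = 0 → (Form.ofQuad (qfo (JW J : GL (τ → κ) F))).Q x = 0 := fun x e => by simp [qfo_apply, e]
  have hp : ∀ z : τ → κ → F, Sgo J z → (Form.ofQuad (qfo (JW J : GL (τ → κ) F))).Q (pv z) = 0 := fun z hz => hQ _ (pvd0 o (hz o).2)
  have hX : ∀ z (hz : Sgo J z), ∀ t, (Form.ofQuad (qfo (JW J : GL (τ → κ) F))).T t = 0 → (Form.ofQuad (qfo (JW J : GL (τ → κ) F))).siegel (pv z) 0 t ∈ M.comap (Form.ofQuad (qfo (JW J : GL (τ → κ) F))).toGL :=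
    fun z hz t ht => by
    obtain rfl : t = 0 := ht
    exact W.sg_mem (pvd0 o (hz o).2) (by simp) (by simp) ⟨1, one_mem _, by simp [dw]⟩
  let L := fun z hz => Form.sgSub _ (hp z hz) (hX z hz)
  have k1 : ∀ z hz l w, ⟪z l, w⟫ = 0 → pv (Function.update z l w) ∈ L z hz := fun z hz l w hw => by
    obtain ⟨m, n⟩ := exists_ne l
    refine ⟨(hB _ _).trans (pvd0 l (by simpa)), fun c => ?_⟩
    rw [← pv.map_update_smul]
    have : ⟦pv (Function.update z l (c • w)), pv (Function.update z l (c • w))⟧ = 0 := pvd0 m (by simp [n, (hz m).2])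
    exact ⟨0, (hQ _ this).symm, W.sg_mem (pvd0 o (hz o).2) (pvd0 l (by simp [hw])) this (by rw [dw_pv]; exact h l z hz _ (by simp [hw]))⟩
  have k2 : ∀ b (hb : Sgo J b) l w, ⟪b l, w⟫ = 0 → ⟪b l, z l⟫ = 0 → ⟪w, z l⟫ = 0 → ∀ x ∈ L z hz,
      ⟦pv (Function.update b l w), x⟧ • pv b - ⟦pv b, x⟧ • pv (Function.update b l w) ∈ L z hz := fun b hb l w h1 h2 h3 x m => by
    obtain ⟨j, n⟩ := exists_ne l
    have a1 := k1 b hb l w h1
    have a2 : (Form.ofQuad (qfo (JW J : GL (τ → κ) F))).T 0 = (Form.ofQuad (qfo (JW J : GL (τ → κ) F))).Q (pv (Function.update b l w)) := (hQ _ (pvd0 j (by simp [n, (hb j).2]))).symm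
    have := sub_mem (Form.map_mem_sgSub (Form.siegel_mem_of_mem_sgSub a1 a2)
      (Form.siegel_apply_of_orth (hp b hb) a1.1 a2 ((hB _ _).trans (pvd0 l h2)) ((hB _ _).trans (pvd0 l (by simpa)))) m) m
    rw [Form.siegel_apply _ (hp b hb) a1.1 a2, hB, hB] at this
    simpa [add_sub_right_comm _ _ x, sub_right_comm _ _ x] using this
  have k0 : ∀ l (b : τ → κ → F) w, (∀ j, b j ∈ if j = l then {w} else {b | ⟪b, b⟫ = 0 ∧ ⟪b, z j⟫ ≠ 0}) →
      Sgo J (Function.update b l (z l)) ∧ b l = w ∧ ∀ j ≠ l, ⟪b j, z j⟫ ≠ 0 := fun l b w e => ⟨fun j => by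
    by_cases c : j = l
    · simp [c, hz l]
    · have := e j; rw [if_neg c] at this; exact ⟨by rintro e; simp_all, by simpa [c] using this.1⟩, by simpa using e l, fun j c => by
      have := e j; rw [if_neg c] at this; exact this.2⟩
  have sp : ∀ l (b : τ → κ → F) j, b j ∈ Submodule.span F (if j = l then {b l} else {b | ⟪b, b⟫ = 0 ∧ ⟪b, z j⟫ ≠ 0}) := fun l b j => by
    split_ifs with c
    exacts [c ▸ Submodule.mem_span_singleton_self _, H.span H.hk (hz j).1 (hz j).2 _]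
  choose u' h3 h3' h2 using fun l => H.pa (hz l).1 (hz l).2
  have k3 : ∀ l b, b l = z l → pv b ∈ L z hz := fun l b e => ml_span (fun b' e' => by
    obtain ⟨a1, a2, a3⟩ := k0 l b' _ e'
    rw [← e, ← a2, Function.update_eq_self] at a1
    obtain ⟨w, h4, -, h6⟩ := H.ns2 H.hk (hz l).2 (h3 l) (h2 l)
    have := k2 b' a1 l w (by rwa [a2, e]) (by rw [a2, e, (hz l).2]) (H.z h4) _ (k1 z hz l w h4)
    rwa [pvd0 l (a := b') (by simpa [a2, e]), zero_smul, sub_zero, Submodule.smul_mem_iff _ (pvd1 fun j => by by_cases c : j = l <;> simp [c, h6, a3])] at this)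
    (sp l b)
  have k4 : ∀ l b, ⟪z l, b l⟫ = 0 → pv b ∈ L z hz := fun l b e => ml_span (fun b' e' => by
    obtain ⟨a1, a2, a3⟩ := k0 l b' _ e'
    obtain ⟨j, n⟩ := exists_ne l
    have := k2 _ a1 l (b' l) (by simpa [a2]) (by simp [(hz l).2]) (H.z (a2 ▸ e)) _ (k3 j (Function.update z l (u' l)) (by simp [n]))
    rwa [Submodule.sub_mem_iff_right _ (Submodule.smul_mem _ _ (k3 l _ (Function.update_self ..))), Function.update_idem, Function.update_eq_self,
      Submodule.smul_mem_iff _ (pvd1 fun j => by by_cases c : j = l <;> simp [c, h3, a3])] at this) (sp l b)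
  refine Form.full_of_le_sgSub (hp := hp z hz) (hX := hX z hz) fun x m => ?_
  obtain ⟨y, a, _, a', rfl⟩ := Submodule.mem_sup.1 (pv_top (L := L z hz ⊔ F ∙ pv u') (fun b => ml_span (Z := fun l => {w | ⟪z l, w⟫ = 0 ∨ w = u' l})
    (fun b e => by
      by_cases c : ∃ l, ⟪z l, b l⟫ = 0
      · exact let ⟨l, c⟩ := c; Submodule.mem_sup_left (k4 l b c)
      · rw [show b = u' from funext fun l => (e l).resolve_left fun e => c ⟨l, e⟩]
        exact Submodule.mem_sup_right (Submodule.mem_span_singleton_self _)) fun l => by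
      simpa using add_mem (Submodule.subset_span (s := {w | ⟪z l, w⟫ = 0 ∨ w = u' l}) (.inl (by simp [h3] :
        ⟪z l, b l - ⟪z l, b l⟫ • u' l⟫ = 0))) (Submodule.smul_mem _ ⟪z l, b l⟫ (Submodule.subset_span (.inr rfl)))) x)
  obtain ⟨c, rfl⟩ := Submodule.mem_span_singleton.1 a'
  have := (Form.mem_perp_singleton _).1 m
  rw [map_add, a.1, map_smul, hB, pvd] at this
  obtain rfl : c = 0 := by simpa [h3] using this
  simpa using a
theorem om_le [Finite F] (H : HO J M) (hf : ∀ π, fp κ F π ∈ Om (JW J) → fp κ F π ∈ M) (hp : PatO J M) : Om (JW J) ≤ M := by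
  have h := bo_univ H hf hp
  obtain ⟨K, A, -, a1, -⟩ := hp
  have := Finset.card_le_univ K
  have : Nontrivial τ := Fintype.one_lt_card_iff_nontrivial.1 (by omega)
  obtain ⟨u, u0, b1⟩ := H.sing
  obtain ⟨u', b3, -, b2⟩ := H.pa u0 b1
  obtain ⟨o⟩ : Nonempty τ := inferInstance
  have W : S2 (JW J : GL (τ → κ) F) := H.jw
  have := W.nd
  have := Form.E_le_of_full (fullo H h (z := fun _ => u) fun _ => ⟨u0, b1⟩) (by simp [qfo_apply, pvd0 o (a := fun _ => u) (b := fun _ => u) b1])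
    (fullo H h (z := fun _ => u') fun _ => ⟨by rintro rfl; simp at b3, b2⟩) (by simp [qfo_apply, pvd0 o (a := fun _ => u') (b := fun _ => u') b2])
    (by rw [Form.ofQuad_B, W.polar]; exact pvd1 (by simp [b3]))
  rw [W.om_eq, omegaGL_eq_E _ (by
    have := Nat.pow_le_pow_left H.hk (Fintype.card τ)
    have := Nat.pow_le_pow_right (show 0 < 3 by omega) (show 2 ≤ Fintype.card τ by omega)
    simp; omega)]
  exact Subgroup.map_le_iff_le_comap.2 this
end H09.Wr
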