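import Mathlib
import Cfsg.Agent.H09.WoH
/-! Orthogonal tensor-wreath subgroups with orthogonal factors are maximal. -/
namespace H09.Wr
open Matrix H10 H10.As Module Cfsg Cfsg.Geo
variable {τ κ ι : Type} [Fintype τ] [DecidableEq τ] [Fintype κ] [DecidableEq κ] [Fintype ι] [DecidableEq ι] {F : Type*} [Field F]
set_option hygiene false in
local notation "⟪" a ", " b "⟫" => Wr.st J a ⬝ᵥ b
variable {J : GL κ F} {M : Subgroup (GL (τ → κ) F)} {K : Finset τ} {A : τ → Matrix κ κ F} {o : τ} {u u' x y : κ → F}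
theorem S2.nsP (h : S2 J) {m : ℕ} (s : Fin m → κ → F) (hm : m < Fintype.card κ) (p : (κ → F) → κ → F) (h1 : ∀ z i, ⟪s i, z - p z⟫ = 0)
    (h2 : ∀ n z, (∀ i, ⟪n, s i⟫ = 0) → ⟪n, p z⟫ = 0) : ∃ y, (∀ i, ⟪s i, y⟫ = 0) ∧ ⟪y, y⟫ ≠ 0 := by
  let _ : StarRing F := starRingOfComm
  obtain ⟨n, n0, k⟩ := exk (fun i => st J (s i)) hm
  obtain ⟨z, hz⟩ := ex_st (J := J) n0
  rcases h.exn (a := n) (b := z - p z) (by simp [hz, h2 n z fun i => h.z (k i)]) with c | c | c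
  exacts [⟨_, k, c⟩, ⟨_, h1 z, c⟩, ⟨_, fun i => by rw [dotProduct_add, k, h1, add_zero], c⟩]
theorem S2.h4 (h : S2 J) (hp : Fintype.card κ = 4 → ¬ IsPlusTypeOn (fun v => ⟪v, v⟫) ⊤) (hk : Fintype.card κ ≤ 4) (u y) (u0 : u ≠ 0) (hu : ⟪u, u⟫ = 0) (hy : ⟪y, y⟫ = 0)
    (e : ⟪u, y⟫ = 0) : y ∈ F ∙ u := by_contra fun m => by
  obtain ⟨y', a1, a2⟩ := h.ex2 m
  obtain ⟨u', b1, b2⟩ := h.ex2 (nsym m u0)
  have l : LinearIndependent F ![u, y, u', y'] := Fintype.linearIndependent_iff.2 fun g k => by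
    have k1 := congrArg (⟪u, ·⟫) k
    have k2 := congrArg (⟪y, ·⟫) k
    simp [Fin.sum_univ_four, hu, hy, e, h.z e, a1, a2, b1, b2] at k1 k2
    have k3 := congrArg (⟪u', ·⟫) k
    have k4 := congrArg (⟪y', ·⟫) k
    simp [Fin.sum_univ_four, h.c u', h.c y', a1, a2, b1, b2, k1, k2] at k3 k4
    intro i; fin_cases i <;> assumption
  have c : Fintype.card κ = 4 := hk.antisymm (by simpa using l.fintype_card_le_finrank)
  refine hp c ⟨Submodule.span F (Set.range ![u, y]), le_top, fun v m => ?_, ?_⟩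
  · obtain ⟨g, rfl⟩ := (Submodule.mem_span_range_iff_exists_fun F).1 m
    simp [hu, hy, e, h.z e]
  · rw [finrank_span_eq_card (by convert l.comp ![0, 1] (by decide) using 1; ext i : 1; fin_cases i <;> rfl : LinearIndependent F ![u, y])]; simp [c]
theorem S2.go [Fintype F] (h : S2 J) (hodd : Odd (Fintype.card F)) (hk : 3 ≤ Fintype.card κ) (hex : ¬ (Fintype.card F = 3 ∧ Fintype.card κ = 3))
    (hp : Fintype.card κ = 4 → ¬ IsPlusTypeOn (fun v => ⟪v, v⟫) ⊤) : GO J := by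
  have t := h.h2
  refine ⟨h, hk, ?_, or_iff_not_imp_left.2 fun q => ?_, h.h4 hp⟩
  · obtain ⟨v, -, v0, e⟩ := (Form.isQuad_ofQuad (qfo J)).exists_singular (W := ⊤) (by simpa)
    exact ⟨v, v0, by simpa [qfo_apply, t] using e⟩
  push Not at q
  have k4 : 4 ≤ Fintype.card κ := by_contra fun n => hex ⟨by
    classical
    have := Finset.card_le_card (show Finset.univ ⊆ ({0, 1, -1} : Finset F) from fun c _ => by by_cases c0 : c = 0 <;> simp [c0, ← mul_self_eq_one_iff, q])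
    have := Finset.card_le_three (a := (0 : F)) (b := 1) (c := -1)
    have := Fintype.one_lt_card (α := F)
    simp at *; grind, by omega⟩
  refine ⟨q, k4, fun u x u0 hu hx n => ?_⟩
  obtain ⟨v, h1, h1', h2⟩ := h.pa u0 hu
  obtain ⟨u', a1, a2, a3⟩ : ∃ u', ⟪u, u'⟫ = 1 ∧ ⟪u', u'⟫ = 0 ∧ ⟪x, u'⟫ = 0 := by
    refine ⟨v - (⟪x, v⟫ / ⟪x, x⟫) • x + (⟪x, v⟫ * ⟪x, v⟫ / (2 * ⟪x, x⟫)) • u, by simp [*], ?_, by simp [h.z hx, n]⟩
    simp [h.z hx, h.c v x, *]; field_simp; ring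
  have pm : ∀ y, ⟪y, y⟫ ≠ 0 → ⟪y, y⟫ ≠ ⟪x, x⟫ → ⟪y, y⟫ = -⟪x, x⟫ := fun y a b => (mul_self_eq_mul_self_iff.1 ((q _ a).trans (q _ n).symm)).resolve_left b
  obtain ⟨y, b, b0⟩ := h.nsP ![u, u', x] (by omega) (fun z => ⟪u, z⟫ • u' + ⟪u', z⟫ • u + (⟪x, z⟫ / ⟪x, x⟫) • x)
    (fun z i => by fin_cases i <;> simp [h.c u' u, h.z hx, h.z a3, *]) fun n z k => by simp [show ⟪n, u⟫ = 0 from k 0, show ⟪n, u'⟫ = 0 from k 1, show ⟪n, x⟫ = 0 from k 2]
  have b1 : ⟪u, y⟫ = 0 := b 0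
  have b2 : ⟪u', y⟫ = 0 := b 1
  have b3 : ⟪x, y⟫ = 0 := b 2
  by_cases c : ⟪y, y⟫ = ⟪x, x⟫
  · exact ⟨y, b1, b3, c⟩
  by_cases k5 : Fintype.card κ ≤ 4
  · obtain ⟨s, e⟩ := Submodule.mem_span_singleton.1 (h.h4 hp k5 u (x + y) u0 hu (by simp [b3, h.z b3, pm y b0 c]) (by simp [*]))
    exact absurd (by simpa [h.z hx, b3] using (congrArg (⟪x, ·⟫) e).symm) n
  obtain ⟨w, d, d0⟩ := h.nsP ![u, u', x, y] (by omega) (fun z => ⟪u, z⟫ • u' + ⟪u', z⟫ • u + (⟪x, z⟫ / ⟪x, x⟫) • x + (⟪y, z⟫ / ⟪y, y⟫) • y)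
    (fun z i => by fin_cases i <;> simp [h.c u' u, h.z hx, h.z a3, h.z b1, h.z b2, h.z b3, *]) fun n z k => by
      simp [show ⟪n, u⟫ = 0 from k 0, show ⟪n, u'⟫ = 0 from k 1, show ⟪n, x⟫ = 0 from k 2, show ⟪n, y⟫ = 0 from k 3]
  have d1 : ⟪u, w⟫ = 0 := d 0
  have d3 : ⟪x, w⟫ = 0 := d 2
  have d4 : ⟪y, w⟫ = 0 := d 3
  by_cases c' : ⟪w, w⟫ = ⟪x, x⟫
  · exact ⟨w, d1, d3, c'⟩
  · exact ⟨y + w, by simp [*], by simp [*], by simp [d4, h.z d4, pm y b0 c, pm w d0 c']; linear_combination -⟪x, x⟫ * q 2 t⟩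
theorem odd_cast [Fintype F] (hodd : Odd (Fintype.card F)) : ∃ m : ℕ, (2 * m + 1 : F) = 0 :=
  let ⟨m, e⟩ := hodd; ⟨m, by simpa [e] using FiniteField.cast_card_eq_zero F⟩
theorem GO.le [Fintype F] [Nontrivial κ] [Nonempty τ] (hodd : Odd (Fintype.card F)) (H : HO J M) (hp : ¬ PatO J M) : M ≤ HH τ κ F := by
  rcases H.hq with ⟨s, s0, s1⟩ | ⟨q, -, k⟩
  · refine le_HHo (Λ := F) H hp fun u u0 hu => ?_
    obtain ⟨x, hx, n⟩ := H.ns u0 hu
    refine ⟨LinearMap.toSpanSingleton F _ x, u0, hu, by simp [hx], by simp +contextual [n], .inl ⟨1, one_ne_zero, s, s0, s1⟩, fun B => ?_, odd_cast hodd⟩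
    have := Equiv.sum_comp (Equiv.mulLeft₀ s s0) fun a => B a a
    simp only [Equiv.mulLeft₀_apply, ← smul_eq_mul s, map_smul, LinearMap.smul_apply, ← Finset.smul_sum] at this
    exact (mul_eq_zero.1 (show (s * s - 1) * _ = 0 by simp only [smul_eq_mul] at this; linear_combination this)).resolve_left (sub_ne_zero.2 s1)
  · refine le_HHo (Λ := F × F) H hp fun u u0 hu => ?_
    obtain ⟨x, hx, n⟩ := H.ns u0 hu
    obtain ⟨y, e1, e2, e3⟩ := k u x u0 hu hx n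
    refine ⟨(LinearMap.toSpanSingleton F _ x).coprod (LinearMap.toSpanSingleton F _ y), u0, hu, by simp [*], fun ⟨a, b⟩ m e => ?_,
      .inr ⟨(1, 0), by simp, (0, 1), by simp, by simpa⟩, fun B => ?_, odd_cast hodd⟩
    · simp [e2, H.z e2, e3, ← mul_assoc, ← add_mul, n] at e
      by_cases a0 : a = 0 <;> by_cases b0 : b = 0 <;> simp_all [one_add_one_eq_two, H.h2]
    · have z : ∑ a : F, a = 0 := mul_left_cancel₀ H.h2 (by
        have : ∑ a : F, -a = ∑ a : F, a := Equiv.sum_comp (Equiv.neg F) fun a => a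
        rw [Finset.sum_neg_distrib] at this
        linear_combination -this)
      have : ∀ a b : F, B (a, b) (a, b) = a * a * B (1, 0) (1, 0) + a * (b * (B (1, 0) (0, 1) + B (0, 1) (1, 0))) + b * b * B (0, 1) (0, 1) := fun a b => by
        rw [show (a, b) = a • ((1 : F), (0 : F)) + b • (0, 1) by simp]
        simp only [map_add, map_smul, LinearMap.add_apply, LinearMap.smul_apply, smul_eq_mul]; ring
      rw [Fintype.sum_prod_type, Finset.sum_congr rfl fun a _ => Finset.sum_congr rfl fun b _ => this a b]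
      simp [Finset.sum_add_distrib, ← Finset.mul_sum, ← Finset.sum_mul, z]
theorem nl_pto [Nontrivial κ] (hJ : S2 J) (h : PO o J K A) (hK : 2 ≤ K.card) {g : GL (τ → κ) F} (e : g.1 = 1 + pt A) : g ∉ HH τ κ F := fun m => by
  have k : ∀ l ∈ K, ¬ Cm l (pt A) := fun l m c => by
    obtain ⟨u, u0, e⟩ : ∃ u, u ≠ 0 ∧ vecMulVec u (st J u) * A l = 0 := by
      obtain ⟨u, c, u0, hu, -, e⟩ | ⟨u, w, u0, hu, hw, -, e⟩ := h.2.2.1 l m <;> exact ⟨u, u0, by simp [*, dw, mul_sub, vecMulVec_mul_vecMulVec]⟩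
    refine pt_ne (fun l => ?_) (c.of_VV u0 (by simpa : st J u ≠ 0) (by rw [VV, pi1_apply, ← map_mul]; exact pt_zero (l := l) (by simpa)))
    by_cases c : l ∈ K
    · obtain e | ⟨u, w, u0, hu, hw, n, e⟩ := h.2.2.1 l c
      exacts [e.ne, fun z => by simpa [e, dw_mv, *] using congrArg (· *ᵥ w) (e.symm.trans z)]
    · simp [h.2.2.2 l c]
  obtain ⟨p, hp, q, hq, n⟩ := Finset.one_lt_card.1 hK
  have s : pt A * pt A = 0 := by rw [← map_mul]; exact pt_zero (l := o) h.2.1.sq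
  obtain ⟨a, e⟩ := (rmulo hJ.h2 s e (odd2 hJ.h2 s e m p)).resolve_left (k p hp)
  exact k q hq (e ▸ cm_pi1 n a)
theorem GO.prop [Nontrivial κ] [Nontrivial τ] (h : GO J) : ¬ Om (JW J) ≤ HH τ κ F := fun e => by
  obtain ⟨p, o, n⟩ := exists_pair_ne τ
  obtain ⟨u, u0, hu⟩ := h.sing
  obtain ⟨w, hw, w0⟩ := h.ns u0 hu
  obtain ⟨v, hv⟩ := ex_st (J := J) u0
  have W : S2 (JW J : GL (τ → κ) F) := h.jw
  refine nl_pto h.toS2 (o := o) (K := .univ) (A := Function.update (fun l => if l ∈ Finset.univ.erase p then vecMulVec u (st J u) else 1) p (dw J u w))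
    ⟨by simp, by simpa [n.symm] using oe_vv u0 hu, fun l _ => ?_, by simp⟩ Fintype.one_lt_card ?_ (e (W.sg_om (u := pv fun _ => u) (w := pv (Function.update (fun _ => u) p w))
      (h.hk.trans (by simpa using Nat.le_self_pow Fintype.card_ne_zero _)) (fun z => pvd1 (J := J) (a := fun _ : τ => u) (b := fun _ => v) (by simp [hv]) (by simp [z]))
      (pvd0 o hu) (pvd0 p (by simpa))))
  · by_cases c : l = p
    exacts [.inr ⟨u, w, u0, hu, hw, w0, by simp [c]⟩, .inl (by simpa [c] using oe_vv u0 hu)]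
  · rw [S2.sg_val, sm, pvd0 o (by simpa [n.symm]), dw_pv, pe, pt_mul_pi1 _ (by simp)]; simp
theorem wreath_max_o [Fintype F] (hodd : Odd (Fintype.card F)) {k t : ℕ} (hk : 3 ≤ k) (ht : 2 ≤ t) (hex : ¬ (Fintype.card F = 3 ∧ k = 3)) {Q : (ι → F) → F}
    (hQ : IsNondegenerateQuadraticForm Q) {e : ι ≃ (Fin t → Fin k)} {P : GL ι F} {f₁} (hf₁ : IsSymmetricForm f₁) (h4 : k = 4 → ¬ IsPlusTypeOn (fun v => f₁ v v) ⊤)
    (hT : IsTensorPowerFormStructure id (QuadraticMap.polar Q) f₁ e P) : IsMaximalIn (omegaGL Q) (tensorWreathSubgroup k t e P ⊓ omegaGL Q) := by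
  have : NeZero t := ⟨by omega⟩
  have : Nontrivial (Fin k) := Fin.nontrivial_iff_two_le.2 (by omega)
  have : Nontrivial (Fin t) := Fin.nontrivial_iff_two_le.2 ht
  have h2 : (2 : F) ≠ 0 := Ring.two_ne_zero fun h => by
    have := FiniteField.even_card_of_char_two h
    grind
  obtain ⟨J, hJ⟩ := (sf_of_symm hf₁).isUnit_gram
  have k0 : ∀ x y, f₁ x y = ⟪x, y⟫ := fun x y => by rw [(sf_of_symm hf₁).eq_gram, formOfGram_eq, ← hJ, st_apply, dotProduct_mulVec]; rfl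
  have a : GO J := S2.go ⟨fun u v => by rw [← k0, ← k0, hf₁.symm], h2⟩ hodd (by simpa) (by simpa using hex) (by simpa only [k0, Fintype.card_fin] using h4)
  obtain ⟨c, c0, hT⟩ := hT
  have k1 : ∀ x y, pf e P (QuadraticMap.polar Q) x y = c * (st (JW J) x ⬝ᵥ y) := fun x y =>
    (hT _ _).trans (congrArg _ ((formOfGram_eq (σ := .id F) (pt fun _ => gramMatrix f₁) x y).trans (by rw [← hJ, st_apply, dotProduct_mulVec]; rfl)))
  have k2 : (isometryGroup F Q).map (pl e P).toMonoidHom = SPg (JW J) := Subgroup.ext fun g => by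
    obtain ⟨g, rfl⟩ := (pl e P).surjective g
    refine (Subgroup.mem_map_iff_mem (f := (pl e P).toMonoidHom) (pl e P).injective).trans ((iso_iff h2 (polar_self hQ)).trans ((sim_pl e P).symm.trans ?_))
    simp only [Sim, k1, one_mul, mul_right_inj' c0]
    exact is_iff.symm
  refine max_of (pl e P) (S' := Om (JW J)) (T' := HH _ _ F) (fun g => ?_) (fun g => mem_iff) a.prop fun M h1 h3 => ?_
  · rw [Om, ← k2, ← Subgroup.map_commutator, ← om_eq']
    exact (Subgroup.mem_map_iff_mem (f := (pl e P).toMonoidHom) (pl e P).injective).symm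
  have hU : ∀ i d, (piU i d : GL (Fin t → Fin k) F) ∈ HH _ _ F := fun i d j => ⟨j, mp_piU d j⟩
  have H : HO J M := ⟨a, fun g m => Om.is (h3 m), fun i d b => h1 ⟨hU i d, (Subgroup.commutator_le.2 fun x a y b => by
    simpa [commutatorElement_def, mul_assoc] using om_comm (Is.piU a i) (Is.piU b i) : Om J ≤ (Om (JW J)).comap (piU i)) b⟩, fun i j d b =>
      h1 ⟨(HH _ _ F).mul_mem (hU i d) ((HH _ _ F).inv_mem (hU j d)), by
        rw [show (piU j d)⁻¹ = fp _ F (Equiv.swap i j) * (piU i d)⁻¹ * (fp _ F (Equiv.swap i j))⁻¹ from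
          Units.ext (by rw [← cj_val, ← map_inv, ← map_inv, piU_val, piU_val, cj_fp_pi1, Equiv.swap_apply_left])]
        exact om_comm (b.piU i) (is_fp _)⟩⟩
  by_cases hp : PatO J M
  · exact .inl (om_le H (fun π m => h1 ⟨fun j => ⟨π j, fun a => ⟨a, cj_fp_pi1 π j a⟩⟩, m⟩) hp)
  · exact .inr (GO.le hodd H hp)
end H09.Wr
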