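import Mathlib
import Cfsg.Agent.H09.WoI
/-! Symplectic tensor-wreath subgroups in characteristic two: overgroups without patterns. -/
namespace H09.Wr
open Matrix H10.As Module
variable {τ κ ι : Type} [Fintype τ] [DecidableEq τ] [Fintype κ] [DecidableEq κ] [Fintype ι] [DecidableEq ι] {F : Type*} [Field F]
local notation "𝒜" => Matrix (τ → κ) (τ → κ) F
variable {i j l p q : τ} {β γ ε X Y e₁ e₂ : Matrix (τ → κ) (τ → κ) F} {g y : GL (τ → κ) F} {u v w v0 φ ψ χ : κ → F} {J : GL κ F}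
  {M : Subgroup (GL (τ → κ) F)} {L : AddSubgroup (Matrix (τ → κ) (τ → κ) F)} {K : Finset τ} {A : τ → Matrix κ κ F} {c : F}
set_option hygiene false in
local notation "⟪" a ", " b "⟫" => Wr.st J a ⬝ᵥ b
variable (J M) in
/-- overgroups inside the isometry group, any characteristic -/
structure HB : Prop where
  al : Al J
  hc : (2 : F) ≠ 0 ∨ (2 : F) = 0 ∧ 6 ≤ Fintype.card κ
  iso : ∀ g ∈ M, Is (JW J) g
  h0 : ∀ i d, Is J d → piU i d ∈ M
section
variable {a : Matrix κ κ F}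
theorem HB.u1 (H : HB J M) (h : a * a = 0) (e : ad J a = -a) (i : τ) : U1 M (pi1 i a) := ⟨_, H.h0 i _ (is_tv h e), by simp [piU_val, tv]⟩
theorem HB.uE (H : HB J M) (i : τ) (u) (c : F) : U1 M (c • VV i u (st J u)) := by
  simpa [VV] using H.u1 (a := c • vecMulVec u (st J u)) (by simp [vecMulVec_mul_vecMulVec, H.al u]) (by simp [H.al.ad_vv]) i
theorem HB.uH (H : HB J M) (i : τ) (e : st J u ⬝ᵥ w = 0) (c : F) : U1 M (c • (VV i u (st J w) + VV i w (st J u))) := by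
  simpa [VV] using H.u1 (a := c • (vecMulVec u (st J w) + vecMulVec w (st J u)))
    (by simp [mul_add, add_mul, vecMulVec_mul_vecMulVec, H.al u, H.al w, e, H.al.z e]) (by simp [H.al.ad_vv, add_comm]) i
theorem HB.ad (H : HB J M) (h : U1 M X) : ad (JW J) X = -X - ad (JW J) X * X := by
  obtain ⟨x, m, e⟩ := h
  have := H.iso x m
  rw [Is, e] at this
  simp only [map_add, ad_one, mul_add, add_mul, mul_one, one_mul] at this
  rw [← sub_eq_zero, ← sub_eq_zero.2 this]; abel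
theorem HB.skew (H : HB J M) (h : U1 M X) (e : X * X = 0) : Wr.ad (JW J) X = -X := by
  have : Wr.ad (JW J) X * X = 0 := by rw [H.ad h, sub_mul, mul_assoc, neg_mul, e]; simp
  rw [H.ad h, this, sub_zero]
theorem Al.ex3 (h : Al J) (hk : 3 ≤ Fintype.card κ) (u0 : u ≠ 0) : ∃ w, ⟪u, w⟫ = 0 ∧ w ∉ F ∙ u := by
  obtain ⟨v, hv⟩ := ex_st (J := J) u0
  obtain ⟨w, w0, a, b⟩ := Wr.ex3 hk (st J u) (st J v)
  rw [dotProduct_comm] at a b
  refine ⟨w, a, fun m => ?_⟩
  obtain ⟨c, rfl⟩ := Submodule.mem_span_singleton.1 m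
  simp_all [h.anti v u]
section A
variable (hJ : Al J) (hL : ∀ d, Is J d → ∀ β ∈ L, cj (piU l d) β ∈ L) (hβ : β ∈ L)
include hJ hL hβ
theorem la2t (e : ⟪u, w⟫ = 0) : VV l w (st J w) * β * VV l u (st J u) + VV l u (st J u) * β * VV l w (st J w) ∈ L := by
  convert neg_mem (la0s hJ hL (la0s hJ hL hβ u 1) w 1) using 1
  simp only [sub_mul, mul_sub, mul_assoc, VV_mul, VV_mul', e, hJ.z e, one_smul, zero_smul, mul_zero, mul_one]
  abel
theorem la1t (c2 : (2 : F) = 0) (e : ⟪u, w⟫ = 0) :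
    pi1 l (dw J u w) * ent l (st J u) u β + VV l u (st J u) * (ent l (st J u) w β + ent l (st J w) u β) ∈ L := by
  convert sub_mem (la2t hJ hL hβ (u := u) (w := w + u) (by simp [e, hJ u])) (la2t hJ hL hβ e) using 1
  simp only [pi1_dw, sub_mul, mul_add, add_mul, VV_ent, map_add, vv_add, vv_add']
  linear_combination (norm := module) -c2 • (VV l w (st J u) * β * VV l u (st J u) + VV l u (st J u) * β * VV l u (st J u))
theorem la3t (hc : (2 : F) ≠ 0 ∨ (2 : F) = 0 ∧ 6 ≤ Fintype.card κ) (h : ¬ Cm l β) :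
    ∃ a γ, RT J a ∧ γ ≠ 0 ∧ Cm l γ ∧ (∀ j, l ≠ j → Cm j β → Cm j γ) ∧ pi1 l a * γ ∈ L := by
  rcases hc with h2 | ⟨c2, hk⟩
  · exact la3s hJ hL hβ h2 h
  by_contra! H
  have h0 : ∀ u, ent l (st J u) u β = 0 := fun u => by_contra fun n => by
    have u0 : u ≠ 0 := by rintro rfl; simp [ent, VV] at n
    obtain ⟨w, hw, m⟩ := hJ.ex3 (by omega) u0
    obtain ⟨z, z1, z2⟩ := hJ.ex2 m
    refine H _ _ (.inr ⟨u, z, u0, fun m => ?_, z2, rfl⟩) n (cm_ent _ _ _) (fun j e c => c.ent e _ _) ?_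
    · obtain ⟨c, rfl⟩ := Submodule.mem_span_singleton.1 m
      simp [hJ.z hw] at z1
    convert neg_mem (la0s hJ hL (la1t hJ hL hβ c2 hw) z 1) using 1
    have a1 : Cm l (ent l (st J u) u β) := cm_ent _ _ _
    have a2 : Cm l (ent l (st J u) w β + ent l (st J w) u β) := (cm_ent _ _ _).add (cm_ent _ _ _)
    generalize ent l (st J u) w β + ent l (st J w) u β = δ at a2
    generalize ent l (st J u) u β = ε at a1
    simp only [pi1_dw, map_sub, ← VV.eq_1, sub_mul, mul_sub, mul_add, add_mul, mul_assoc, a1.vv, a2.vv, VV_mul', z1, z2, hJ.z z2, hJ.anti z w, hJ z, one_smul, zero_smul,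
      smul_mul_assoc, mul_smul_comm, zero_mul, mul_zero]
    module
  refine h (cm_of_ent fun φ w e => by_contra fun n => ?_)
  obtain ⟨u, rfl⟩ := st_surj (J := J) φ
  refine H _ _ (.inr ⟨u, w, by rintro rfl; simp [ent, VV] at n, fun m => ?_, e, rfl⟩) n (cm_ent _ _ _) (fun j e c => c.ent e _ _) ?_
  · obtain ⟨c, rfl⟩ := Submodule.mem_span_singleton.1 m
    simp [en_smul, h0] at n
  have h1 : ent l (st J w) u β = -ent l (st J u) w β := by
    have := h0 (u + w)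
    simp only [map_add, en_add, en_add', h0] at this
    linear_combination (norm := module) this
  have h3 : ∀ a b, VV l a (st J u) * (β * VV l u b) = 0 := fun a b => by rw [← mul_assoc, ← VV_ent, h0, mul_zero]
  convert neg_mem (la0s hJ hL (la0s hJ hL hβ u 1) w 1) using 1
  have h4 := VV_ent (i := l) w (st J u) (st J w) u β
  rw [h1, mul_neg] at h4
  simp only [map_sub, ← VV.eq_1, sub_mul, mul_sub, VV_ent, neg_eq_iff_eq_neg.1 h4, mul_assoc, h3, VV_mul, VV_mul', e, hJ.z e, one_smul, zero_smul,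
    mul_zero, mul_one, zero_mul]
  abel
end A
theorem growt [Nonempty κ] (H : HB J M) (n : ℕ) : ∀ {K : Finset τ} {A γ}, Fintype.card τ - K.card = n → K.Nonempty → PT J K A → (∀ l ∈ K, Cm l γ) →
    U1 M (pt A * γ) → Sc γ ∨ PatS J M := by
  induction n using Nat.strong_induction_on with
  | _ n ih =>
  rintro K A γ rfl ⟨o, ho⟩ h1 h2 h3
  refine or_iff_not_imp_left.2 fun h => ?_
  obtain ⟨l, h⟩ : ∃ l, ¬ Cm l γ := not_forall.1 (mt sc_of_cm h)
  have hl : l ∉ K := fun m => h (h2 l m)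
  obtain ⟨a, δ, a1, a2, a3, a4, -, a5⟩ := la3t H.al (l := l) (L := LS h1.2 ((h1.1 o ho).sq H.al) M) (fun d e => LS_cj hl (H.h0 l d e)) ⟨h2, h3⟩ H.hc h
  rw [← mul_assoc, pt_mul_pi1 _ (h1.2 l hl)] at a5
  have := Finset.card_le_univ (insert l K)
  have := Finset.card_pos.2 ⟨o, ho⟩
  refine (ih _ (by simp [hl] at *; omega) rfl (by simp) (h1.insert a1) (fun j m => ?_) a5).elim ?_ id
  · rcases Finset.mem_insert.1 m with rfl | m
    exacts [a3, a4 j (by rintro rfl; exact hl m) (h2 j m)]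
  rintro ⟨c, rfl⟩
  refine ⟨_, _, by rw [Finset.card_insert_of_notMem hl]; omega, h1.insert (l := l) (a1.smul (c := c) (by rintro rfl; simp at a2)), ?_⟩
  rwa [← pt_mul_pi1 _ (h1.2 l hl), map_smul, mul_smul_comm, pt_mul_pi1 _ (h1.2 l hl), ← mul_one (pt _), ← mul_smul_comm]
theorem f1t [Nonempty κ] (H : HB J M) (hp : ¬ PatS J M) (e : RT J a) (h : Cm i γ) (h' : U1 M (pi1 i a * γ)) : Sc γ :=
  (growt H _ (K := {i}) (A := Pi.mulSingle i a) rfl (by simp) ⟨by simpa, fun l m => by simp_all⟩ (by simpa) h').resolve_right hp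
theorem rk_pt (T : τ → Finset κ) : (pt fun l => diagonal fun x => if x ∈ T l then (1 : F) else 0).rank = ∏ l, (T l).card := by
  classical
  rw [show (pt fun l => diagonal fun x => if x ∈ T l then (1 : F) else 0) = diagonal fun x => if x ∈ Fintype.piFinset T then 1 else 0 by
    ext x y
    by_cases e : x = y
    · simp [e, pt_apply, Finset.prod_ite_zero]
    · obtain ⟨l, n⟩ := Function.ne_iff.1 e
      rw [diagonal_apply_ne _ e]; exact Finset.prod_eq_zero (Finset.mem_univ l) (diagonal_apply_ne _ n), rank_diagonal, ← Fintype.card_piFinset]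
  simp [Fintype.card_subtype, -Fintype.mem_piFinset]
theorem swap2 (hk : 5 ≤ Fintype.card κ) (h : RB ε) (e : y.1 = 1 + ε) (m : Mp y p q) : q = p := by_contra fun n => by
  have : Nontrivial κ := Fintype.one_lt_card_iff_nontrivial.1 (by omega)
  obtain ⟨d, hd⟩ := m.sn
  obtain ⟨r, s, rs⟩ := exists_pair_ne κ
  obtain ⟨E, hE⟩ : ∃ E : Matrix κ κ F, E = diagonal fun x => if x ∈ ({r, s} : Finset κ) then 1 else 0 := ⟨_, rfl⟩
  have e1 : (1 - E) * E = 0 := by rw [sub_mul, hE, diagonal_mul_diagonal]; simp [← ite_and]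
  have e2 : pi1 q (cj d (1 - E)) * pi1 p E = -pi1 q (cj d (1 - E)) * ε * pi1 p E := by
    have : pi1 q (cj d (1 - E)) * (y.1 * pi1 p E) = 0 := by rw [← cj_mul_self, hd, ← mul_assoc, ← map_mul, ← map_mul, e1]; simp
    rw [e] at this
    linear_combination (norm := noncomm_ring) this
  have e3 : (pi1 q (cj d (1 - E)) * pi1 p E : 𝒜).rank ≤ ε.rank := by rw [e2]; exact (rank_mul_le_left _ _).trans (rank_mul_le_right _ _)
  have e4 := ((rank_cj (piU q d⁻¹) _).trans e3).trans (h.2.2 p (Pi.single r 1) (Pi.single r 1) (by simp) (by simp))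
  have e5 : (pi1 q (1 - E) * pi1 p E : 𝒜) = pt fun l => diagonal fun x =>
      if x ∈ (if l = q then {r, s}ᶜ else if l = p then {r, s} else Finset.univ : Finset κ) then 1 else 0 := by
    rw [pi1_apply, pi1_apply, ← map_mul]; congr 1; funext l
    by_cases c : l = q
    · ext x y; simp [c, n, hE, diagonal_apply, one_apply]; grind
    · by_cases c' : l = p <;> simp [c, c', Ne.symm n, hE]
  have e6 : (VV p (Pi.single r 1) (Pi.single r 1) : 𝒜) = pt fun l => diagonal fun x => if x ∈ (if l = p then {r} else Finset.univ : Finset κ) then 1 else 0 := by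
    rw [VV, pi1_apply]; congr 1; funext l
    by_cases c : l = p
    · ext x y; simp [c, vecMulVec_apply, diagonal_apply, Pi.single_apply]; grind
    · simp [c]
  rw [map_mul, cj_piU, cj_inv_cj, (cm_pi1 (Ne.symm n) _).cj_piU, e5, e6, rk_pt, rk_pt] at e4
  have e7 : ∀ f : τ → ℕ, (∀ l, l ≠ p → l ≠ q → f l = Fintype.card κ) → ∏ l, f l = f p * f q * ∏ _l ∈ (Finset.univ.erase p).erase q, Fintype.card κ := fun f k => by
    rw [← Finset.mul_prod_erase _ _ (Finset.mem_univ p), ← Finset.mul_prod_erase _ _ (show q ∈ Finset.univ.erase p by simp [n]), mul_assoc,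
      Finset.prod_congr rfl fun l m => k l (by simp_all) (by simp_all)]
  rw [e7 _ fun l a b => by simp [a, b], e7 _ fun l a b => by simp [a]] at e4
  simp only [n, Ne.symm n, if_true, if_false, Finset.card_compl, Finset.card_pair rs, Finset.card_singleton, Finset.card_univ] at e4
  have := Nat.le_of_mul_le_mul_right e4 (Finset.prod_pos fun _ _ => by omega)
  omega
end
variable {a : κ → F} [Nonempty κ] (H : HB J M) (hk : 5 ≤ Fintype.card κ) (hp : ¬ PatS J M)
include H hp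
theorem f0t (v0' : v ≠ 0) (e : st J v ⬝ᵥ v0 = 1) (hX : U1 M X) (h : X = X * VV i v0 (st J v)) : ∃ c : F, X = c • VV i v (st J v) := by
  have h1 : X * (1 - VV i v0 (st J v)) = 0 := by rw [mul_sub, ← h]; simp
  have h2 : ad (JW J) X * (1 - VV i v0 (st J v)) = 0 := by rw [H.ad hX, sub_mul, neg_mul, mul_assoc, h1]; simp
  have h3 : X = VV i v (-st J v0) * X := by
    simpa [ad_mul, H.al.adad, H.al.ad_VV, add_mul, vv_neg', add_eq_zero_iff_eq_neg] using congrArg (ad (JW J)) h2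
  have h4 : X = VV i v (st J v) * ent i (-st J v0) v0 X := by rw [VV_ent, ← h3, ← h]
  obtain ⟨c, hc⟩ := f1t H hp (re_vv v0') (cm_ent _ _ _) (h4 ▸ hX)
  exact ⟨c, by rw [h4, hc]; simp⟩
include hk
theorem zlt (v0' : v ≠ 0) (ha : st J v ⬝ᵥ a = 0) (n : a ∉ F ∙ v) (c1 : Cm i e₁) (c2 : Cm i e₂) (c3 : Cm i γ) (hs : Sc (e₁ + e₂))
    (h : U1 M (VV i a (st J v) * e₁ + VV i v (st J a) * e₂ + VV i v (st J v) * γ)) : Sc e₁ := by
  let _ : StarRing F := starRingOfComm
  obtain ⟨b, b1, b2⟩ := H.al.ex2 n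
  obtain ⟨v0, e0⟩ := ex_st (J := J) v0'
  obtain ⟨z, z0, hz⟩ := exk ![st J v, st J a, st J b, st J v0] hk
  have z1 : ⟪v, z⟫ = 0 := hz 0
  have z2 : ⟪a, z⟫ = 0 := hz 1
  have z3 : ⟪b, z⟫ = 0 := hz 2
  have z4 : z ∉ F ∙ v := fun m => by
    obtain ⟨c, rfl⟩ := Submodule.mem_span_singleton.1 m
    simpa [H.al.anti v0 v, e0, show c ≠ 0 by rintro rfl; simp at z0] using (hz 3 : ⟪v0, c • v⟫ = 0)
  have d1 : Is J (tv (vecMulVec z (st J b) + vecMulVec b (st J z)) (by simp [mul_add, add_mul, vecMulVec_mul_vecMulVec, H.al z, H.al b, z3, H.al.z z3])) :=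
    is_tv _ (by simp [H.al.ad_vv, add_comm])
  have h' := h.cj (H.h0 i _ d1)
  simp only [map_add, map_mul, VV, cj_piU, c1.cj_piU, c2.cj_piU, c3.cj_piU, d1.cj_vv] at h'
  simp only [tv, add_mulVec, one_mulVec, vecMulVec_mulVec, H.al.z b2, H.al.z z1, H.al.z z2, H.al.anti b a, b1, op_smul_eq_smul, zero_smul, add_zero, ← VV.eq_1,
    map_add, map_smul, vv_add, vv_add', vv_smul, vv_smul'] at h'
  obtain ⟨s, hs⟩ := hs
  have D : RT J (dw J v z) := .inr ⟨v, z, v0', z4, z1, rfl⟩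
  have sq : ∀ β β' (s s' : F), Cm i β → (pi1 i (dw J v z) * β + s • VV i v (st J z)) * (pi1 i (dw J v z) * β' + s' • VV i v (st J z)) = 0 := fun β β' s s' c => by
    simp [pi1_dw, mul_add, add_mul, mul_sub, sub_mul, mul_assoc, c.vv, c.vv', VV_mul, VV_mul', z1, H.al.z z1, H.al v, H.al z]
  let L : AddSubgroup 𝒜 := .ofSub {β | Cm i β ∧ ∃ s : F, U1 M (pi1 i (dw J v z) * β + s • VV i v (st J z))} ⟨0, fun _ => .zero_left _, 0, 1, one_mem _, by simp⟩
    fun x ⟨a, s, m⟩ y ⟨b, t, m'⟩ => ⟨by simpa [← sub_eq_add_neg] using a.sub b, s - t, by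
      convert m.sub m' (sq _ _ _ _ a) (sq _ _ _ _ b) using 1; simp only [mul_add, mul_neg]; module⟩
  have m : e₁ ∈ L := by
    refine (neg_mem_iff (H := L)).1 ⟨by simpa using c1.smul (-1), s, ?_⟩
    convert h.sub h' ?_ ?_ using 1
    · rw [eq_sub_of_add_eq' hs]; simp only [pi1_dw, mul_sub, sub_mul, add_mul, mul_neg, smul_mul_assoc, mul_smul_comm, mul_one]; module
    all_goals simp [mul_add, add_mul, mul_sub, sub_mul, mul_assoc, c1.vv', c2.vv', c3.vv', VV_mul', ha, H.al.z ha, z1, z2, H.al.z z1, H.al.z z2, H.al v, H.al a, H.al z]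
  refine sc_of_cm fun j => by_contra fun n => ?_
  have ji : i ≠ j := by rintro rfl; exact n c1
  obtain ⟨a', γ', a1, a2, a3, -, a4, s', a5⟩ := la3t H.al (l := j) (L := L) (fun d e β ⟨c, s, m⟩ => ⟨(mp_piU _ i).cm c, s, by
    simpa only [map_add, map_mul, map_smul, VV, (cm_pi1 ji _).cj_piU] using m.cj (H.h0 j d e)⟩) m H.hc n
  have k := H.skew a5 (sq _ _ _ _ a4)
  have k0 : ∀ Z, pi1 j a' * (pi1 j a' * Z) = 0 := fun Z => by rw [← mul_assoc, ← map_mul, a1.sq H.al]; simp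
  have k1 := (((a4.ad H.al).add a4).add (cm_sc ⟨s', rfl⟩ i)).eq_zero (D.ne H.al) (by
    rw [map_add, ad_mul, ad_pi1, RD.ad (a := dw J v z) H.al ⟨v, z, v0', z4, z1, rfl⟩, map_smul, H.al.ad_VV, ((a4.ad H.al) _).eq] at k
    simp only [mul_add, mul_smul_comm, mul_one]
    nth_rw 3 [pi1_dw]
    linear_combination (norm := module) k)
  have k2 := congrArg (pi1 j a' * ·) k1
  have k3 : pi1 j a' * ad (JW J) (pi1 j a' * γ') = 0 := by
    rw [ad_mul, ad_pi1, ((a3.ad H.al) _).eq]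
    rcases a1 with e | e <;> simp [e.ad H.al, k0]
  simp only [mul_add, k0, k3, mul_smul_comm, mul_one, mul_zero, zero_add] at k2
  obtain rfl : s' = 0 := (smul_eq_zero.1 k2).resolve_right fun e => a1.ne H.al (pi1_inj j (e.trans (map_zero _).symm))
  obtain ⟨r, hr⟩ := f1t H hp D a4 (by simpa using a5)
  have k4 := k0 γ'
  rw [hr, mul_smul_comm, mul_one] at k4
  obtain rfl : r = 0 := (smul_eq_zero.1 k4).resolve_right fun e => a1.ne H.al (pi1_inj j (e.trans (map_zero _).symm))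
  exact a2 (a3.eq_zero (a1.ne H.al) (by simpa using hr))
theorem f2t (v0' : v ≠ 0) (χ0 : χ ≠ 0) (hX : U1 M X) (hX2 : X * X = 0) {Y1 Y2} (h1 : X = VV i v χ * Y1 + Y2 * ad (JW J) (VV i v χ))
    (h2 : X * VV i v χ = 0) : ∃ r, ∃ c : F, st J v ⬝ᵥ r = 0 ∧ X = VV i v (st J r) + VV i r (st J v) + c • VV i v (st J v) := by
  obtain ⟨v0, e⟩ := ex_st (J := J) v0'
  obtain ⟨z, hz⟩ := ex1 χ0
  obtain ⟨χ, rfl⟩ := st_surj (J := J) χ
  have e' : -st J v0 ⬝ᵥ v = 1 := by rw [neg_dotProduct, ← H.al.anti, e]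
  have hX3 : ad (JW J) X = -X := by
    have : ad (JW J) X * X = 0 := by rw [H.ad hX, sub_mul, mul_assoc, neg_mul, hX2]; simp
    rw [H.ad hX, this, sub_zero]
  have k1 : ∀ ξ, X * VV i v ξ = 0 := fun ξ => by simpa [mul_assoc, VV_mul, dotProduct_comm _ z, hz] using congrArg (· * VV i z ξ) h2
  have k2 : ∀ b, VV i b (st J v) * X = 0 := fun b => by simpa [ad_mul, hX3, H.al.ad_VV] using congrArg (ad (JW J)) (k1 (st J b))
  have k3 : ∀ a ξ, st J v ⬝ᵥ a = 0 → X * VV i a ξ = VV i v ξ * ent i (-st J v0) a X := fun a ξ h => by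
    have : X * VV i a ξ = VV i v (st J χ) * (Y1 * VV i a ξ) := by rw [h1]; simp [add_mul, mul_assoc, H.al.ad_VV, VV_mul, h]
    rw [VV_ent, mul_assoc, this, VV_mul', e', one_smul]
  have k4 : ∀ a b, st J v ⬝ᵥ a = 0 → VV i b (st J a) * X = -(VV i b (st J v) * ad (JW J) (ent i (-st J v0) a X)) := fun a b h => by
    simpa [ad_mul, hX3, H.al.ad_VV, ((cm_ent _ _ _).ad H.al).vv] using congrArg (ad (JW J)) (k3 a (st J b) h)
  obtain ⟨ρ, hρ⟩ := dec (X := X) (i := i) (v := v) e fun a h => by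
    suffices Sc (ent i (-st J v0) a X) from let ⟨r, hr⟩ := this; ⟨r, fun ξ => by simp [k3 _ _ h, hr]⟩
    by_cases n : a ∈ F ∙ v
    · obtain ⟨c, rfl⟩ := Submodule.mem_span_singleton.1 n
      exact ⟨0, by simp [ent, vv_smul, mul_assoc, k1]⟩
    have c1 : Cm i (ent i (-st J v0) a X) := cm_ent _ _ _
    have c2 := c1.ad H.al
    have k3 := fun ξ => k3 a ξ h
    have k4 := fun b => k4 a b h
    generalize ent i (-st J v0) a X = ε at c1 c2 k3 k4
    have z := H.al.z h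
    have k5 : Sc (ε + ad (JW J) ε) := f1t H hp (re_vv v0') (c1.add c2) (by
      have a1 : X * (1 : F) • (VV i v (st J a) + VV i a (st J v)) = VV i v (st J v) * ε := by simp [mul_add, k1, k3]
      have a2 : (1 : F) • (VV i v (st J a) + VV i a (st J v)) * X = -(VV i v (st J v) * ad (JW J) ε) := by simp [add_mul, k2, k4]
      convert hX.cm2 (H.uH i h 1) hX2 (by simp [mul_add, add_mul, VV_mul, h, z, H.al v, H.al a]) (by rw [a2, mul_neg, ← mul_assoc, k1]; simp)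
        (by rw [a1]; simp [add_mul, VV_mul', z, H.al v]) using 1
      rw [a1, a2, ← VV, mul_add, sub_neg_eq_add])
    obtain ⟨d, d1, d2, d3⟩ := H.al.tv a 1
    obtain ⟨c, hc⟩ := zlt H hk hp v0' h n (c2.smul (-1)) (c1.smul (-1)) ((c1.mul c2).smul (-1)) (let ⟨s, hs⟩ := k5; ⟨-s, by rw [neg_smul s, ← hs]; module⟩) (by
      obtain ⟨x, m, ex⟩ := hX.cj (H.h0 i d d1)
      refine ⟨x * (tv X hX2)⁻¹, mul_mem m (inv_mem (hX.tv hX2)), ?_⟩
      have a1 : cj (piU i d) X = X - VV i a (st J v) * ad (JW J) ε - VV i v (st J a) * ε := by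
        simp only [cj_apply, ← map_inv, piU_val, d2, d3, map_add, map_sub, map_one, one_smul, ← VV.eq_1, mul_sub, add_mul, one_mul, mul_one, mul_assoc, k3, k4,
          VV_mul', z, zero_smul, neg_mul, c2.vv, h, neg_zero]
        abel
      have a2 : VV i a (st J v) * ad (JW J) ε * X = 0 := by rw [← c2.vv, mul_assoc, k2, mul_zero]
      have a3 : VV i v (st J a) * ε * X = -(VV i v (st J v) * (ε * ad (JW J) ε)) := by rw [← c1.vv, mul_assoc, k4, mul_neg, c1.vv']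
      simp only [Units.val_mul, ex, a1, tv, Units.inv_mk, mul_sub, add_mul, sub_mul, a2, a3, hX2, mul_one, one_mul, mul_smul_comm]
      module)
    exact let ⟨s, hs⟩ := k5; ⟨s + c, by rw [add_smul, ← hs, ← hc]; module⟩
  have k6 : ρ ⬝ᵥ v = 0 := by
    have := congrArg (· * VV i v (st J χ)) hρ
    simpa [k1, add_mul, mul_assoc, VV_mul, H.al v, VV_ne v0' χ0] using this.symm
  obtain ⟨r, rfl⟩ := st_surj (J := J) ρ
  obtain ⟨c', h4⟩ := f0t H hp v0' e (i := i) (hX.sub (H.uH i (H.al.z k6) 1) (by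
    rw [one_smul, mul_add, k1, hρ]; simp [add_mul, mul_assoc, VV_mul, H.al.z k6, H.al r]) (by
    simp [mul_add, add_mul, VV_mul, k6, H.al.z k6, H.al v, H.al r])) (by rw [hρ]; simp [sub_mul, add_mul, mul_assoc, VV_mul, e])
  exact ⟨r, c', H.al.z k6, by rw [← h4]; simp⟩
omit hp hk in
theorem krt (m : g ∈ M) (φ0 : φ ≠ 0) (e : cj g (VV j u φ) = VV i v χ) (h : st J v ⬝ᵥ v0 = 1) (b) :
    cj g (VV j b (st J u)) = cj g (VV j b (st J u)) * VV i v0 (st J v) := by
  have := congrArg (ad (JW J)) (kl φ0 e (ψ := st J (-v0)) (by simp [H.al.anti v0, h]) (st J b))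
  simpa [-map_neg, ad_mul, (H.iso g m).cj_ad, H.al.ad_VV, map_neg (cj g), VV, neg_vecMulVec, ad_pi1, H.al.ad_vv, map_neg (pi1 _)] using this
omit hk in
theorem step0t (m : g ∈ M) (u0 : u ≠ 0) (φ0 : φ ≠ 0) (e : cj g (VV j u φ) = VV i v χ) : ∃ c : F, c ≠ 0 ∧ cj g (VV j u (st J u)) = c • VV i v (st J v) := by
  obtain ⟨v0', -⟩ := ne_of_cj u0 φ0 e
  obtain ⟨v0, e0⟩ := ex_st (J := J) v0'
  obtain ⟨c, hc⟩ := f0t H hp v0' e0 (by simpa using (H.uE j u 1).cj m) (krt H m φ0 e e0 u)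
  exact ⟨c, by rintro rfl; simp [VV_ne, u0] at hc, hc⟩
theorem stepEt (m : g ∈ M) (u0 : u ≠ 0) (φ0 : φ ≠ 0) (e : cj g (VV j u φ) = VV i v χ) (hw : st J u ⬝ᵥ w = 0) : vecMulVec w (st J w) ∈ SS j i g := by
  obtain ⟨c, c0, hc⟩ := step0t H hp m u0 φ0 e
  by_cases n : w ∈ F ∙ u
  · obtain ⟨s, rfl⟩ := Submodule.mem_span_singleton.1 n
    exact ⟨(s * s * c) • vecMulVec v (st J v), by simp [← VV.eq_1, hc, smul_smul, mul_assoc]⟩
  obtain ⟨v0', χ0⟩ := ne_of_cj u0 φ0 e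
  obtain ⟨v0, e0⟩ := ex_st (J := J) v0'
  obtain ⟨u', h3⟩ := ex_st (J := J) u0
  obtain ⟨z, hz⟩ := ex1 φ0
  rw [dotProduct_comm] at hz
  have hg := H.iso g m
  have hw' := H.al.z hw
  obtain ⟨φ, rfl⟩ := st_surj (J := J) φ
  obtain ⟨r, s, h1, h2⟩ := f2t H hk hp v0' χ0 ((H.uH j hw 1).cj m) (by rw [← map_mul]; simp [mul_add, add_mul, VV_mul, hw, hw', H.al u, H.al w])
    (Y1 := cj g (VV j z (st J w))) (Y2 := cj g (VV j w (st J z))) (by
      rw [← e, hg.cj_ad, ← map_mul, ← map_mul, ← map_add]; simp [H.al.ad_VV, VV_mul, hz, H.al.anti z φ])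
    (by rw [← e, ← map_mul]; simp [add_mul, VV_mul, hw', H.al u])
  rw [one_smul, map_add] at h2
  have e0' : -st J v0 ⬝ᵥ v = 1 := by rw [neg_dotProduct, ← H.al.anti, e0]
  have k1 := kl φ0 e e0' (st J w)
  have k2 := krt H m φ0 e e0 w
  set X1 := cj g (VV j u (st J w))
  set X2 := cj g (VV j w (st J u))
  have n1 : r ∉ F ∙ v := fun m => by
    obtain ⟨t, rfl⟩ := Submodule.mem_span_singleton.1 m
    obtain ⟨w', a1, a2⟩ := H.al.ex2 n
    have : cj g (VV j u (st J w) + VV j w (st J u)) = cj g (((t + t + s) / c) • VV j u (st J u)) := by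
      rw [map_add, h2, map_smul (cj g), hc]; simp only [map_smul, vv_smul, vv_smul']; match_scalars; field_simp
    simpa [add_mul, VV_mul, a1, a2, VV_ne, u0] using congrArg (· * VV j w' (st J u)) ((cj g).injective this)
  obtain ⟨γ1, c1, k3⟩ : ∃ γ, Cm i γ ∧ X1 = VV i v (st J r) + VV i v (st J v) * γ := ⟨ent i (-st J v0) v0 X1 - (st J r ⬝ᵥ v0) • 1,
    (cm_ent _ _ _).sub (cm_sc ⟨_, rfl⟩ i), by
      have := congrArg (· * VV i v0 (st J v)) h2
      simp only [add_mul, ← k2, VV_mul, e0, smul_mul_assoc, one_smul] at this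
      rw [mul_sub, VV_ent, ← k1, mul_smul_comm, mul_one]
      linear_combination (norm := module) h2 - this⟩
  have k4 : X2 = VV i r (st J v) + VV i v (st J v) * (s • 1 - γ1) := by
    rw [mul_sub, mul_smul_comm, mul_one]; linear_combination (norm := module) h2 - k3
  have c2 : Cm i (s • 1 - γ1) := (cm_sc ⟨_, rfl⟩ i).sub c1
  have k5 : ∀ x y, VV i x (st J v) * (cj g (VV j u' (st J u')) * VV i v y) = -c⁻¹ • VV i x y := fun x y => by
    have : c • VV i v (st J v) * (cj g (VV j u' (st J u')) * c • VV i v (st J v)) = -(c • VV i v (st J v)) := by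
      rw [← hc, ← map_mul, ← map_mul]; simp [VV_mul, h3, H.al.anti u' u]
    have := congrArg (fun Z => (c⁻¹ * c⁻¹) • (VV i x (-st J v0) * (Z * VV i v0 y))) this
    simpa [mul_assoc, VV_mul, VV_mul', e0, e0', smul_smul, c0, -neg_dotProduct] using this
  have k6 : cj g (VV j w (st J w)) = c⁻¹ • VV i r (st J r) + (VV i r (st J v) * c⁻¹ • γ1 + VV i v (st J r) * c⁻¹ • (s • 1 - γ1) +
      VV i v (st J v) * c⁻¹ • ((s • 1 - γ1) * γ1)) := by
    have : VV j w (st J w) = -(VV j w (st J u) * (VV j u' (st J u') * VV j u (st J w))) := by simp [VV_mul, h3, H.al.anti u' u]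
    rw [this, map_neg, map_mul, map_mul]
    change -(X2 * (_ * X1)) = _
    rw [k3, k4, ← c2.vv]
    generalize s • 1 - γ1 = γ2 at c2
    have k7 : ∀ x y, VV i x (st J v) * (cj g (VV j u' (st J u')) * (VV i v y * γ1)) = -c⁻¹ • (VV i x y * γ1) := fun x y => by
      rw [← mul_assoc _ _ γ1, ← mul_assoc, k5, smul_mul_assoc]
    simp only [mul_add, add_mul, mul_assoc, k5, k7, smul_mul_assoc, mul_smul_comm]
    simp only [c2.vv, c2.vv']
    module
  have z1 := H.al.z h1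
  obtain ⟨t, ht⟩ := zlt H hk hp v0' h1 n1 (c1.smul c⁻¹) (c2.smul c⁻¹) ((c2.mul c1).smul c⁻¹) ⟨c⁻¹ * s, by module⟩ (by
    have := ((H.uE j w 1).cj m).sub (H.uE i r c⁻¹) (by
      rw [one_smul, k6]; simp [add_mul, mul_assoc, c1.vv, c2.vv, c2.vv', VV_mul, VV_mul', h1, H.al r]) (by simp [VV_mul, H.al r])
    rwa [one_smul, k6, add_sub_cancel_left] at this)
  rw [inv_smul_eq_iff₀ c0] at ht
  rw [mem_SS, ← VV, k6, ht]
  exact (pi1 i).mem_range.1 (add_mem (Subalgebra.smul_mem _ ((pi1 i).mem_range_self _) _) (by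
    refine add_mem (add_mem ?_ ?_) ?_ <;> refine mul_mem ((pi1 i).mem_range_self _) (Sc.mem ?_ _)
    exacts [⟨t, by simp [c0]⟩, ⟨c⁻¹ * (s - c * t), by module⟩, ⟨c⁻¹ * (s - c * t) * (c * t), by simp [sub_mul]; module⟩]))
theorem n1t [Nontrivial κ] (m : g ∈ M) (u0 : u ≠ 0) (φ0 : φ ≠ 0)
    (e : cj g (VV j u φ) = VV i v χ) : Mp g j i := by
  have P : ∀ {w φ}, vecMulVec w φ ∈ SS j i g → ∃ v χ, cj g (VV j w φ) = VV i v χ := fun ⟨_, h⟩ => rk1 h.symm
  have k1 : ∀ z, vecMulVec z (st J z) ∈ SS j i g := fun z => by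
    by_cases z0 : z = 0
    · simp [z0]
    · obtain ⟨y, y0, h1, h2⟩ := ex3 (by omega) (st J u) (st J z)
      rw [dotProduct_comm] at h1 h2
      obtain ⟨v, χ, h⟩ := P (stepEt H hk hp m u0 φ0 e h1)
      exact stepEt H hk hp m y0 (by simpa) h (H.al.z h2)
  have k2 : ∀ x y, st J x ⬝ᵥ y ≠ 0 → vecMulVec x (st J y) ∈ SS j i g := fun x y n => by
    simpa [vecMulVec_mul_vecMulVec, n] using Subalgebra.smul_mem _ (mul_mem (k1 x) (k1 y)) (st J x ⬝ᵥ y)⁻¹
  refine mp_of (g := g) (j := j) (i := i) fun r s _ => (mem_SS.1 ?_).imp fun _ => Eq.symm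
  rw [single_eq_single_vecMulVec_single]
  obtain ⟨y, hy⟩ := st_surj (J := J) (Pi.single s 1)
  obtain ⟨y0, e0⟩ := ex_st (J := J) (u := Pi.single r 1) (by simp)
  rw [← hy]
  by_cases c : st J (Pi.single r 1) ⬝ᵥ y = 0
  · have := sub_mem (k2 (Pi.single r 1) (y + y0) (by rw [dotProduct_add, c, e0]; simp)) (k2 _ y0 (e0 ▸ one_ne_zero))
    rwa [map_add, vecMulVec_add, add_sub_cancel_right] at this
  · exact k2 _ _ c
omit [Nonempty κ]
theorem finT [Nontrivial κ] (m : g ∈ M) (u0 : u ≠ 0) (φ0 : φ ≠ 0) (e : φ ⬝ᵥ u = 0) (h : ∀ i, Cm i (cj g (VV j u φ)) ∨ ∃ a, cj g (VV j u φ) = pi1 i a) : ∃ i, Mp g j i := by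
  by_contra! K
  exact ((RK.rb ⟨u, φ, u0, φ0, e, rfl⟩ j).cj g).not_sc (sc_of_cm fun i => (h i).resolve_right fun ⟨a, h⟩ =>
    let ⟨_, _, h⟩ := rk1 h; K i (n1t H hk hp m u0 φ0 h))
theorem le_HHt [Nontrivial κ] [Fintype F] : M ≤ HH τ κ F := fun g m => by
  have sq : ∀ (g : GL (τ → κ) F) (j : τ) {u φ : κ → F}, u ≠ 0 → φ ≠ 0 → φ ⬝ᵥ u = 0 → RB (cj g (VV j u φ)) := fun g j u φ a b e => (RK.rb ⟨u, φ, a, b, e, rfl⟩ j).cj g
  have := avgg (T := HH τ κ F) (Λ := Multiplicative F) (R := 𝒜) rh (fun g h w => by ext1; simp [rh_apply, cj_mul]) (δ := Phi)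
    (fun g h => LinearMap.ext (phi_cj h)) (fun g h => h) (fun g _ h => h) (fun l Θ n _ => ?_) m
  · intro j
    obtain ⟨r, s, rs⟩ := exists_pair_ne κ
    have N : NN (cj g (VV j (Pi.single r 1) (Pi.single s 1))) := by
      rw [VV, ← single_eq_single_vecMulVec_single, ← phi_single rs, ← cj_inv_cj g (single _ _ _), ← rh_apply, this]
      exact nn_phi _
    exact finT H hk hp m (by simp) (by simp) (by simp [rs.symm]) fun i => (N i).elim fun _ e => (radd (by omega) (sq _ _ (by simp) (by simp) (by simp [rs.symm])) e).imp_right fun ⟨a, _, e⟩ => ⟨a, e⟩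
  obtain ⟨Y, d, a, c, b, n⟩ := GG_ex n l
  have S : ∑ s : F, s ^ 0 = 0 := by simp
  obtain ⟨u, u0, h1, h2, h3, h4⟩ : ∃ u : κ → F, u ≠ 0 ∧ u d = 0 ∧ u c = 0 ∧ st J u a = 0 ∧ st J u b = 0 := by
    let _ : StarRing F := starRingOfComm
    obtain ⟨u, u0, h⟩ := exk ![Pi.single d 1, Pi.single c 1, st J (Pi.single a 1), st J (Pi.single b 1)] hk
    exact ⟨u, u0, by simpa using h 0, by simpa using h 1, by simpa using H.al.z (h 2), by simpa using H.al.z (h 3)⟩
  have e0 : ∀ s t : F, s • vecMulVec u (st J u) * t • vecMulVec u (st J u) = 0 := fun s t => by simp [vecMulVec_mul_vecMulVec, H.al u]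
  refine ⟨_, n, .mk' (fun s => tv (s.toAdd • vecMulVec u (st J u)) (e0 _ _)) fun s t => Units.ext (by
    simp [tv, mul_add, add_mul, add_smul, add_assoc, vecMulVec_mul_vecMulVec, H.al u]), fun s => H.h0 _ _ (is_tv (e0 _ _) (by simp [H.al.ad_vv])),
    fun s s1 g m e => ?_, fun w => ?_⟩
  · have e1 : (g * piU l (tv (s.toAdd • vecMulVec u (st J u)) (e0 _ _)) * g⁻¹).1 = 1 + cj g (VV l u (s.toAdd • st J u)) := by
      rw [← cj_val]; simp [piU_val, tv, VV]
    have n : s.toAdd • st J u ≠ 0 := smul_ne_zero (by simpa using s1) (by simpa)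
    have R := sq g l u0 n (by simp [H.al u])
    exact finT H hk hp m u0 n (by simp [H.al u]) fun i => let ⟨_, m⟩ := e i
      (rmul (by omega) R e1 (swap2 hk R e1 m ▸ m)).imp_right fun ⟨a, _, e⟩ => ⟨a, e⟩
  let G := fun α γ β => GG l Y d a c b (Pi.single d 1) α γ β w
  refine (Fintype.sum_equiv Multiplicative.toAdd _ (fun s => s ^ 0 • G (Pi.single a 1) (Pi.single c 1) (Pi.single b 1) +
    s ^ 1 • (-st J u a • G u (Pi.single c 1) (Pi.single b 1) + u c • G (Pi.single a 1) (st J u) (Pi.single b 1) - st J u b • G (Pi.single a 1) (Pi.single c 1) u) +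
    s ^ 2 • (-(st J u a * u c) • G u (st J u) (Pi.single b 1) + (st J u a * st J u b) • G u (Pi.single c 1) u - (u c * st J u b) • G (Pi.single a 1) (st J u) u) +
    s ^ 3 • (st J u a * u c * st J u b) • G u (st J u) u) fun s => ?_).trans ?_
  · simp only [GG_rh, MonoidHom.mk'_apply, tv, Units.inv_mk, vecMul_add, vecMul_smul, vecMul_vecMulVec, sub_mulVec, smul_mulVec, vecMulVec_mulVec,
      op_smul_eq_smul, dotProduct_single, single_dotProduct, h1, one_mulVec, vecMul_one, mul_zero, zero_smul, smul_zero, add_zero, mul_one, one_mul]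
    simp only [G, GG_apply, sub_eq_add_neg, ← neg_smul, vv_add, vv_add', vv_smul, vv_smul', mul_add, add_mul, map_add, map_smul, smul_mul_assoc, mul_smul_comm]
    module
  simp only [Finset.sum_add_distrib, ← Finset.sum_smul, S]
  simp [h2, h3, h4]
end H09.Wr
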