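import Mathlib
import Cfsg.Agent.H09.WtA
/-! Symplectic tensor-wreath subgroups in orthogonal groups: from a pattern to all patterns. -/
namespace H09.Wr
open Matrix H10 H10.As Module
variable {τ κ : Type} [Fintype τ] [DecidableEq τ] [Fintype κ] [DecidableEq κ] {F : Type*} [Field F]
local notation "𝒜" => Matrix (τ → κ) (τ → κ) F
variable {l o : τ} {u v w x y : κ → F} {a : Matrix κ κ F} {J : GL κ F} {M : Subgroup (GL (τ → κ) F)} {K S : Finset τ} {A A' B C : τ → Matrix κ κ F} {c : F}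
  {L : AddSubgroup (Matrix (τ → κ) (τ → κ) F)} {G G' : Matrix (τ → κ) (τ → κ) F}
set_option hygiene false in
local notation "⟪" a ", " b "⟫" => Wr.st J a ⬝ᵥ b
variable (J M K o) in
/-- all patterns with one symmetric slot -/
def BS : Prop := ∀ z : τ → κ → F, (∀ l, z l ≠ 0) → ∀ w, ⟪z o, w⟫ = 0 → U1 M (pe J K z * pi1 o (dw J (z o) w))
theorem HB.ptU (H : HB J M) {d : τ → GL κ F} (e : ∀ i, Is J (d i)) : ptU d ∈ M := by
  obtain ⟨g, m, e'⟩ := pt_mem (S := M.toSubmonoid.map (Units.coeHom _)) (a := fun i => (d i).1) fun i => ⟨_, H.h0 i _ (e i), rfl⟩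
  exact (Units.ext e' : g = H10.As.ptU d) ▸ m
theorem PE.insert (h : PE J K A) (e : RE J a) : PE J (insert l K) (Function.update A l a) :=
  ⟨fun j m => by by_cases c : j = l <;> simp_all [h.1], fun j m => by by_cases c : j = l <;> simp_all [h.2]⟩
theorem PE.pt (h : PE J K A) : PT J K A := ⟨fun l m => .inl (h.1 l m), h.2⟩
theorem re_vv' (u0 : u ≠ 0) : RE J (vecMulVec u (st J u)) := ⟨u, 1, u0, one_ne_zero, by simp⟩
theorem RT.nsc (hJ : Al J) (h : RT J a) : ¬ Sc a := by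
  rintro ⟨c, rfl⟩
  have := h.sq hJ
  rw [smul_mul_smul, mul_one, mul_smul] at this
  exact h.ne hJ ((smul_eq_zero.1 this).elim (by simp +contextual) id)
theorem dw_nsc (hJ : Al J) (hk : 3 ≤ Fintype.card κ) (x0 : x ≠ 0) (n : y ∉ F ∙ x) : ¬ Sc (dw J x y) := by
  rintro ⟨c, e⟩
  obtain ⟨w, w0, a, b⟩ := ex3 hk (st J x) (st J y)
  rw [dotProduct_comm] at a b
  obtain rfl : c = 0 := by simpa [dw_mv, a, b, w0, smul_mulVec] using (congrArg (· *ᵥ w) e).symm
  obtain ⟨z, z1, z2⟩ := hJ.ex2 n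
  simpa [dw_mv, z1, z2, x0] using congrArg (· *ᵥ z) e
theorem allD (hJ : Al J) (l1 : ∀ d, Is J d → ∀ β ∈ L, cj (piU o d) β ∈ L) (u0 : u ≠ 0) (n : w ∉ F ∙ u) (hw : ⟪u, w⟫ = 0) (m : pi1 o (dw J u w) ∈ L)
    (v0 : v ≠ 0) (hx : ⟪v, x⟫ = 0) : pi1 o (dw J v x) ∈ L := by
  have k1 : ∀ z, ⟪u, z⟫ = 0 → ⟪z, w⟫ ≠ 0 → pi1 o (dw J u z) ∈ L := fun z a b => by
    obtain ⟨d, d1, d2, -⟩ := hJ.tv z ⟪z, w⟫⁻¹
    have := sub_mem (l1 d d1 _ m) m
    rw [cj_piU, d1.cj_dw] at this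
    simpa [d2, add_mulVec, smul_mulVec, vecMulVec_mulVec, hJ.z a, smul_smul, b, dw_add] using this
  obtain ⟨z, z1, z2⟩ := hJ.ex2 n
  have k2 : ∀ x, ⟪u, x⟫ = 0 → pi1 o (dw J u x) ∈ L := fun x a => by
    by_cases c : ⟪x, w⟫ = 0
    · simpa [dw_add] using sub_mem (k1 (x + z) (by simp [*]) (by simp [c, hJ.anti z w, z1])) (k1 z z2 (by simp [hJ.anti z w, z1]))
    · exact k1 x a c
  obtain ⟨d, d1, d2⟩ := tr_s hJ u0 v0
  have := l1 d d1 _ (k2 ((d⁻¹).1 *ᵥ x) (by rw [← d1.dot]; simp [d2, hx]))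
  rw [cj_piU, d1.cj_dw] at this
  simpa [d2] using this
theorem la1x (hJ : Al J) (hc : (2 : F) ≠ 0 ∨ (2 : F) = 0 ∧ 6 ≤ Fintype.card κ) (hL : ∀ d, Is J d → ∀ β ∈ L, cj (piU l d) β ∈ L) (c1 : Cm l G) (c2 : Cm l G')
    (x0 : x ≠ 0) (n : y ∉ F ∙ x) (hβ : VV l x (st J y) * G - VV l y (st J x) * G' ∈ L) : ∃ a, RE J a ∧ pi1 l a * (G - G') ∈ L := by
  have k : ∀ a b, ent l (st J a) b (VV l x (st J y) * G - VV l y (st J x) * G') = (⟪a, x⟫ * ⟪y, b⟫) • G - (⟪a, y⟫ * ⟪x, b⟫) • G' := fun a b => by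
    rw [sub_eq_add_neg, ← neg_one_smul F, ent_ad, ent_sm, VV, VV, ent_pi1 c1, ent_pi1 c2]; simp [vecMulVec_mulVec, mul_comm, sub_eq_add_neg]
  rcases hc with h2 | ⟨h2, hk⟩
  · obtain ⟨z, z1, z2⟩ := ex_two ((st_eq_zero (J := J)).not.2 x0) ((st_eq_zero (J := J)).not.2 (show y ≠ 0 by rintro rfl; simp at n))
    refine ⟨_, ⟨z, -2 * (⟪x, z⟫ * ⟪y, z⟫), by rintro rfl; simp at z1, by simp [*], rfl⟩, ?_⟩
    convert la1s hJ hL hβ z using 1
    simp only [k, hJ.anti z, map_smul, ← VV.eq_1, smul_mul_assoc, mul_sub, mul_smul_comm]; module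
  obtain ⟨u, u1, u2, u3⟩ : ∃ u, ⟪x, u⟫ = 0 ∧ ⟪y, u⟫ = 1 ∧ x ∉ F ∙ u := by
    obtain ⟨u, u2, u1⟩ := hJ.ex2 n
    by_cases c : x ∈ F ∙ u
    · obtain ⟨w, w0, a, b⟩ := ex3 (by omega) (st J x) (st J y)
      rw [dotProduct_comm] at a b
      refine ⟨u + w, by simp [*], by simp [*], fun m => ?_⟩
      obtain ⟨s, e⟩ := Submodule.mem_span_singleton.1 c
      obtain ⟨t, e'⟩ := Submodule.mem_span_singleton.1 m
      have : t = s := by simpa [u2, b] using congrArg (⟪y, ·⟫) (e'.trans e.symm)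
      rw [this, smul_add, e, add_eq_left, smul_eq_zero_iff_left w0] at e'
      simp [e', x0.symm] at e
    · exact ⟨u, u1, u2, c⟩
  obtain ⟨w, w1, w2⟩ := hJ.ex2 u3
  refine ⟨_, ⟨u, -1, by rintro rfl; simp at u2, by simp, rfl⟩, ?_⟩
  convert la1t hJ hL hβ h2 w2 using 1
  simp only [k, hJ.anti u x, hJ.anti u y, hJ.anti w x, u1, u2, w1, map_smul, ← VV.eq_1, smul_mul_assoc, mul_sub, mul_add, mul_smul_comm]; module
variable [Nontrivial κ]
theorem bo_s (H : HB J M) (hk : 3 ≤ Fintype.card κ) (h : PE J K A) (hK : K.Nonempty) (ho : o ∉ K) (par : (-1 : F) ^ K.card = -1) (a0 : ¬ Sc a)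
    (e : U1 M (pt A * pi1 o a)) : BS o J M K := by
  obtain ⟨p, hp⟩ := id hK
  obtain ⟨L, hL⟩ : ∃ L, L = LS h.2 (RT.sq H.al (.inl (h.1 p hp))) M := ⟨_, rfl⟩
  have l1 : ∀ d, Is J d → ∀ β ∈ L, cj (piU o d) β ∈ L := fun d e => by rw [hL]; exact LS_cj ho (H.h0 o d e)
  have l0 : ∀ a, pi1 o a ∈ L ↔ U1 M (pt A * pi1 o a) := fun a => by
    rw [hL]; exact ⟨(·.2), fun e => ⟨fun j m => cm_pi1 (by rintro rfl; exact ho m) _, e⟩⟩
  obtain ⟨b, γ, b1, γ0, c1, c2, m⟩ := la3t H.al l1 ((l0 a).2 e) H.hc fun c => a0 c.sc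
  obtain ⟨c, rfl⟩ := sc_of_cm (β := γ) fun j => by
    by_cases e : j = o
    exacts [e ▸ c1, c2 j (Ne.symm e) (cm_pi1 (Ne.symm e) _)]
  have m' : pi1 o (c • b) ∈ L := by simpa using m
  obtain ⟨u, w, u0, n, hw, m⟩ : ∃ u w, u ≠ 0 ∧ w ∉ F ∙ u ∧ ⟪u, w⟫ = 0 ∧ pi1 o (dw J u w) ∈ L := by
    obtain k | ⟨u, w, u0, n, hw, e⟩ := b1.smul (c := c) (by rintro rfl; simp at γ0)
    swap; · exact ⟨u, w, u0, n, hw, by rwa [e] at m'⟩
    rcases H.hc with h2 | ⟨h2, -⟩
    · have := H.skew ((l0 _).1 m') (by rw [pt_mul_pi1 _ (h.2 o ho), ← map_mul]; exact pt_zero (l := o) (by simpa using RT.sq H.al (.inl k)))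
      rw [pt_mul_pi1 _ (h.2 o ho), (h.insert k).ad H.al, Finset.card_insert_of_notMem ho, pow_succ, par, neg_mul_neg, one_mul, one_smul, eq_neg_iff_add_eq_zero,
        ← two_smul F, smul_eq_zero_iff_right h2] at this
      exact absurd this (pt_ne fun l => by
        by_cases c : l ∈ insert o K
        exacts [RT.ne H.al (.inl ((h.insert k).1 l c)), by simp [(h.insert k).2 l c]])
    obtain ⟨u, s, u0, s0, e⟩ := k
    obtain ⟨w, hw, n⟩ := H.al.ex3 hk u0
    have k : ∀ z, z ≠ 0 → s • VV o z (st J z) ∈ L := fun z z0 => by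
      obtain ⟨d, d1, d2⟩ := tr_s H.al u0 z0
      simpa [e, cj_piU, d1.cj_vv, d2, VV] using l1 d d1 _ m'
    refine ⟨u, s • w, u0, by rwa [Submodule.smul_mem_iff _ s0], by simp [hw], ?_⟩
    convert sub_mem (sub_mem (k (u + w) fun e => n (Submodule.mem_span_singleton.2 ⟨-1, by simp [eq_neg_of_add_eq_zero_right e]⟩)) (k u u0)) (k w (by
      rintro rfl; simp at n)) using 1
    simp only [dw_smul, map_smul, pi1_dw, map_add, vv_add, vv_add']
    linear_combination (norm := module) -h2 • s • VV o w (st J u)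
  intro z hz w' hw'
  have : ∀ l, ∃ d, Is J d ∧ ∃ c : F, c ≠ 0 ∧ (l = o → d = 1) ∧ cj d (A l) = c • if l ∈ K then vecMulVec (z l) (st J (z l)) else 1 := fun l => by
    by_cases m : l ∈ K
    · obtain ⟨u, c, u0, c0, e⟩ := h.1 l m
      obtain ⟨d, d1, d3⟩ := tr_s H.al u0 (hz l)
      exact ⟨d, d1, c, c0, fun e => absurd (e ▸ m) ho, by simp [e, m, d1.cj_vv, d3]⟩
    · exact ⟨1, is_one, 1, one_ne_zero, fun _ => rfl, by simp [h.2 l m, m]⟩
  choose d d1 c c0 d0 d2 using this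
  have c1 : ∏ l, c l ≠ 0 := Finset.prod_ne_zero_iff.2 fun l _ => c0 l
  have e1 := ((l0 _).1 (allD H.al l1 u0 n hw m (x := (∏ l, c l)⁻¹ • w') (hz o) (by simp [hw']))).cj (H.ptU d1)
  rw [map_mul, pi1_apply, cj_ptU', cj_ptU', show (fun i => cj (d i) (Pi.mulSingle (M := fun _ => Matrix κ κ F) o (dw J (z o) ((∏ l, c l)⁻¹ • w')) i)) =
    Pi.mulSingle o (dw J (z o) ((∏ l, c l)⁻¹ • w')) from funext fun i => by by_cases c : i = o <;> simp [c, d0], ← pi1_apply] at e1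
  simpa only [d2, pt_smul, ← pe.eq_1, dw_smul, map_smul, smul_mul_smul, mul_inv_cancel₀ c1, one_smul] using e1
theorem extrb (H : HB J M) {x y : τ → κ → F} (S : Finset τ) : ∀ {K A} {Γ Γ' : 𝒜}, (∀ l ∈ S, x l ≠ 0 ∧ y l ∉ F ∙ x l) → K.Nonempty → PE J K A →
    Disjoint S K → (∀ j ∈ S ∪ K, Cm j Γ ∧ Cm j Γ') → U1 M (pt A * (Γ * pt (fun l => if l ∈ S then vecMulVec (x l) (st J (y l)) else 1) +
      Γ' * ad (JW J) (pt fun l => if l ∈ S then vecMulVec (x l) (st J (y l)) else 1))) → ∃ A', PE J (S ∪ K) A' ∧ U1 M (pt A' * (Γ + (-1 : F) ^ S.card • Γ')) := by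
  induction S using Finset.induction_on with
  | empty => exact fun _ _ h _ _ e => ⟨_, by simpa using h, by simpa [← Pi.one_def] using e⟩
  | insert l S hl ih =>
    rintro K A Γ Γ' hx ⟨o, ho⟩ h d n e
    obtain ⟨d1, d2⟩ := Finset.disjoint_insert_left.1 d
    have e1 : (pt fun j => if j ∈ insert l S then vecMulVec (x j) (st J (y j)) else 1) =
        (pt fun j => if j ∈ S then vecMulVec (x j) (st J (y j)) else 1) * VV l (x l) (st J (y l)) := by
      rw [VV, pt_mul_pi1 _ (by simp [hl])]; congr 1; funext j; by_cases c : j = l <;> simp [c]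
    have e2 : ∀ j ∈ K, Cm j (pt fun j => if j ∈ insert l S then vecMulVec (x j) (st J (y j)) else 1) := fun j m => cm_pt (if_neg (Finset.disjoint_right.1 d m))
    have e3 : Cm l (pt fun j => if j ∈ S then vecMulVec (x j) (st J (y j)) else 1) := cm_pt (if_neg hl)
    have e7 := e3.ad H.al
    obtain ⟨n1, n2⟩ := n l (by simp)
    obtain ⟨a, ha, -, e5⟩ := la1x H.al H.hc (L := LS h.2 (RT.sq H.al (.inl (h.1 o ho))) M) (fun d e => LS_cj d1 (H.h0 l d e)) (n1.mul e3) (n2.mul e7)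
      (hx l (by simp)).1 (hx l (by simp)).2 (by
        convert (show _ ∈ LS h.2 (RT.sq H.al (.inl (h.1 o ho))) M from ⟨fun j m => ((n j (by simp [m])).1.mul (e2 j m)).add ((n j (by simp [m])).2.mul ((e2 j m).ad H.al)), e⟩)
          using 1
        rw [e1, ad_mul, H.al.ad_VV, e3.vv, n1.vv', neg_mul, mul_neg, n2.vv', sub_eq_add_neg])
    rw [Finset.insert_union, ← Finset.union_insert, Finset.card_insert_of_notMem hl, pow_succ, mul_neg_one, neg_smul, ← smul_neg]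
    refine ih (A := Function.update A l a) (fun j m => hx j (by simp [m])) (by simp) (h.insert ha) (by simp [hl, d2])
      (fun j m => ⟨(n j (by simpa [or_left_comm] using m)).1, by simpa using (n j (by simpa [or_left_comm] using m)).2.smul (-1)⟩) ?_
    rwa [← pt_mul_pi1 _ (h.2 l d1), mul_assoc, neg_mul, ← sub_eq_add_neg]
theorem keyb (H : HB J M) {x y : τ → κ → F} (hx : ∀ l ∈ S, x l ≠ 0 ∧ y l ∉ F ∙ x l) (hK : K.Nonempty) (h : PE J K B) (d : Disjoint S K) (hC : ∀ l ∈ S ∪ K, C l = 1)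
    (par : (-1 : F) ^ (S ∪ K).card = -1) (e : U1 M (pt A)) (e' : U1 M (pt A')) (s1 : ∃ l, A l * A l = 0) (s2 : ∃ l, A' l * A' l = 0) (s3 : ∃ l, A l * (A' l * A l) = 0)
    (s4 : ∃ l, A' l * (A l * A' l) = 0) (k : ∀ l, A l * A' l = B l * (C l * if l ∈ S then vecMulVec (x l) (st J (y l)) else 1)) :
    ∃ A'', PE J (S ∪ K) A'' ∧ U1 M (pt A'' * (pt C + ad (JW J) (pt C))) := by
  have s1 : pt A * pt A = 0 := by rw [← map_mul]; exact pt_zero s1.choose_spec
  have s2 : pt A' * pt A' = 0 := by rw [← map_mul]; exact pt_zero s2.choose_spec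
  have e2 := e.cm2 e' s1 s2 (by rw [← map_mul, ← map_mul]; exact pt_zero s3.choose_spec) (by rw [← map_mul, ← map_mul]; exact pt_zero s4.choose_spec)
  rw [← neg_mul_neg (pt A'), ← H.skew e s1, ← H.skew e' s2, ← ad_mul, ← map_mul, show A * A' = B * (C *
    fun l => if l ∈ S then vecMulVec (x l) (st J (y l)) else 1) from funext k, map_mul, map_mul, ad_mul, ad_mul, h.ad H.al] at e2
  have c : ∀ j ∈ S ∪ K, Cm j (pt C) := fun j m => cm_pt (hC j m)
  obtain ⟨A'', a1, a2⟩ := extrb H S (Γ := pt C) (Γ' := -(-1 : F) ^ K.card • ad (JW J) (pt C)) hx hK h d (fun j m => ⟨c j m, ((c j m).ad H.al).smul _⟩) (by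
    convert e2 using 1
    rw [mul_smul_comm, (comm_pt h.2 fun l m => ((cm_pt (i := l) (by exact if_neg (Finset.disjoint_right.1 d m))).ad H.al).mul ((c l (by simp [m])).ad H.al)).eq,
      ← ad_mul, (comm_pt (K := S) (fun l m => if_neg m) fun l m => c l (by simp [m])).eq, ad_mul]
    simp only [mul_add, smul_mul_assoc, mul_smul_comm]; module)
  exact ⟨A'', a1, by rwa [smul_smul, mul_neg, ← pow_add, ← Finset.card_union_of_disjoint d, par, neg_neg, one_smul] at a2⟩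
theorem step1b (H : HB J M) (hk : 3 ≤ Fintype.card κ) (h : PT J K A) (h2 : 2 ≤ K.card) (par : (-1 : F) ^ K.card = 1) (m : o ∈ K) (ho : RE J (A o) ∨ (2 : F) = 0)
    (e : U1 M (pt A)) : BS o J M (K.erase o) := by
  classical
  have par' : (-1 : F) ^ (K.erase o).card = -1 := by rw [← Finset.card_erase_add_one m, pow_succ] at par; linear_combination -par
  have hK : (K.erase o).Nonempty := Finset.card_pos.1 (by rw [Finset.card_erase_of_mem m]; omega)
  have h1 : ∀ l ∉ K.erase o, Function.update A o 1 l = 1 := fun l n => by by_cases c : l = o <;> simp_all [h.2]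
  by_cases c : ∀ l ∈ K.erase o, RE J (A l)
  · exact bo_s H hk ⟨fun l n => by simpa [Finset.ne_of_mem_erase n] using c l n, h1⟩ hK (by simp) par' ((h.1 o m).nsc H.al) (by rwa [← pt_split])
  obtain ⟨a', x', y', f1, f2, f3, f4, f5⟩ : ∃ a' x y, U1 M (pt (Function.update A o a')) ∧ a' * a' = 0 ∧ A o * a' = vecMulVec x (st J y) ∧ x ≠ 0 ∧ y ∉ F ∙ x := by
    obtain ⟨u, s, u0, s0, e'⟩ | ⟨u, w, u0, n, hw, e'⟩ := h.1 o m
    · obtain ⟨v, hv⟩ := ex_st (J := J) u0
      obtain ⟨d, d1, d2⟩ := tr_s H.al u0 (show v ≠ 0 by rintro rfl; simp at hv)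
      refine ⟨cj d (A o), (s * s) • u, v, ?_, by rw [← map_mul, (h.1 o m).sq H.al, map_zero], by simp [e', d1.cj_vv, d2, vecMulVec_mul_vecMulVec, hv, smul_smul],
        by simp [s0, u0], fun m => ?_⟩
      · have := e.cj (H.h0 o d d1)
        rwa [pt_split o, map_mul, (cm_pt (by simp)).cj_piU, cj_piU, pt_mul_pi1 _ (by simp), Function.update_idem] at this
      · obtain ⟨c, rfl⟩ := Submodule.mem_span_singleton.1 m
        simp [H.al u] at hv
    have k5 : 5 ≤ Fintype.card κ := by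
      rcases ho with r | c2
      · rcases H.hc with h2 | h2
        · have := r.ad H.al
          rw [RD.ad H.al ⟨u, w, u0, n, hw, e'⟩, eq_neg_iff_add_eq_zero, ← two_smul F, smul_eq_zero_iff_right h2] at this
          exact absurd this ((h.1 o m).ne H.al)
        · omega
      · have := H.hc.resolve_left (not_not.2 c2); omega
    let _ : StarRing F := starRingOfComm
    obtain ⟨b, b1, b2⟩ := H.al.ex2 n
    obtain ⟨v, hv⟩ := ex_st (J := J) u0
    obtain ⟨z, z0, hz⟩ := exk ![st J u, st J w, st J b, st J v] k5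
    have z1 : ⟪u, z⟫ = 0 := hz 0
    have z2 : ⟪w, z⟫ = 0 := hz 1
    have z3 : ⟪b, z⟫ = 0 := hz 2
    obtain ⟨p, hp⟩ := hK
    refine ⟨dw J b z, u, z, ?_, by simp [dw, mul_sub, sub_mul, vecMulVec_mul_vecMulVec, H.al b, H.al z, z3, H.al.z z3], by
      simp [e', dw, mul_sub, sub_mul, vecMulVec_mul_vecMulVec, *], u0, fun m => ?_⟩
    · have := (allD H.al (o := o) (L := LS h1 (i := p) (by simpa [Finset.ne_of_mem_erase hp] using (h.1 p (Finset.mem_of_mem_erase hp)).sq H.al) M)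
        (fun d e => LS_cj (by simp) (H.h0 o d e)) u0 n hw ⟨fun j m => cm_pi1 (Finset.ne_of_mem_erase m).symm _, by rwa [dw, ← e', ← pt_split]⟩
        (show b ≠ 0 by rintro rfl; simp at b1) z3).2
      rwa [pt_mul_pi1 _ (by simp), Function.update_idem] at this
    · obtain ⟨c, rfl⟩ := Submodule.mem_span_singleton.1 m
      simpa [H.al.anti v u, hv, show c ≠ 0 by rintro rfl; simp at z0] using (hz 3 : ⟪v, c • u⟫ = 0)
  have : ∀ l, ∃ d, Is J d ∧ ∃ (b : Matrix κ κ F) (x y : κ → F), (x ≠ 0 ∧ y ∉ F ∙ x) ∧ (l ∈ (K.erase o).filter (fun l => ¬ RE J (A l)) → RE J b ∧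
      A l * (cj d (A l) * A l) = 0 ∧ cj d (A l) * (A l * cj d (A l)) = 0) ∧ (l ∉ (K.erase o).filter (fun l => ¬ RE J (A l)) → b = 1) ∧ (l = o → d = 1) ∧
      (l ≠ o → A l * cj d (A l) = b * (if l ∈ (K.erase o).filter (fun l => RE J (A l)) then vecMulVec x (st J y) else 1)) := fun l => by
    by_cases m : l ∈ K.erase o
    swap
    · exact ⟨1, is_one, 1, x', y', ⟨f4, f5⟩, by simp [-Finset.mem_erase, m], by simp, by simp, fun n => by simp [-Finset.mem_erase, m, h.2 l (by simpa [n] using m)]⟩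
    have n := Finset.ne_of_mem_erase m
    by_cases c : RE J (A l)
    · obtain ⟨u, s, u0, s0, e'⟩ := id c
      obtain ⟨v, hv⟩ := ex_st (J := J) u0
      obtain ⟨d, d1, d2⟩ := tr_s H.al u0 (show v ≠ 0 by rintro rfl; simp at hv)
      refine ⟨d, d1, 1, (s * s) • u, v, ⟨by simp [s0, u0], fun m => ?_⟩, by simp [c], by simp, by simp [n], fun _ => by
        simp [-Finset.mem_erase, m, c]; simp [e', d1.cj_vv, d2, vecMulVec_mul_vecMulVec, hv, smul_smul]⟩
      obtain ⟨c, rfl⟩ := Submodule.mem_span_singleton.1 m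
      simp [H.al u] at hv
    · obtain ⟨u, w, u0, n', e, e'⟩ := (h.1 l (Finset.mem_of_mem_erase m)).resolve_left c
      obtain ⟨z, z1, z2⟩ := H.al.ex2 n'
      obtain ⟨d, d1, d2, -⟩ := H.al.tv z 1
      have a1 : d.1 *ᵥ u = u := by simp [d2, add_mulVec, vecMulVec_mulVec, H.al.z z2]
      have a2 : d.1 *ᵥ w = w - z := by simp [d2, add_mulVec, vecMulVec_mulVec, H.al.anti z w, z1, sub_eq_add_neg]
      refine ⟨d, d1, vecMulVec u (st J u), x', y', ⟨f4, f5⟩, fun _ => ⟨re_vv' u0, ?_⟩, by simp [-Finset.mem_erase, m, c], by simp [n], fun _ =>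
        (?_ : _ = vecMulVec u (st J u)).trans (by simp only [Finset.mem_filter, c, and_false, if_false, mul_one])⟩ <;>
      simp [e', d1.cj_vv, a1, a2, mul_sub, sub_mul, vecMulVec_mul_vecMulVec, vecMulVec_sub, sub_vecMulVec, H.al u, H.al w, H.al z, e, H.al.z e, z1, z2,
        H.al.z z2, H.al.anti z w]
  choose d d1 b x y x0 a1 a2 a3 a4 using this
  obtain ⟨p, hp⟩ : ((K.erase o).filter fun l => ¬ RE J (A l)).Nonempty := by
    obtain ⟨p, c⟩ := not_forall.1 c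
    exact ⟨p, Finset.mem_filter.2 (by tauto)⟩
  have p1 : p ≠ o := Finset.ne_of_mem_erase (Finset.mem_filter.1 hp).1
  have u := Finset.filter_union_filter_not_eq (fun l => RE J (A l)) (K.erase o)
  obtain ⟨A'', b1, b2⟩ := keyb H (S := (K.erase o).filter fun l => RE J (A l)) (fun l _ => x0 l) ⟨p, hp⟩ ⟨fun l m => (a1 l m).1, a2⟩ (Finset.disjoint_filter_filter_not _ _ _)
    (C := Pi.mulSingle o (vecMulVec x' (st J y'))) (fun l m => Pi.mulSingle_eq_of_ne (Finset.ne_of_mem_erase (u ▸ m)) _) (by rwa [u]) e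
    (by simpa only [cj_ptU'] using f1.cj (H.ptU d1)) ⟨o, (h.1 o m).sq H.al⟩ ⟨o, by simp [a3, f2]⟩ ⟨p, by simp [p1, (a1 p hp).2]⟩ ⟨p, by simp [p1, (a1 p hp).2]⟩
    (fun l => by by_cases c : l = o <;> simp [-Finset.mem_filter, c, a3, a4, f3]; simp [a2])
  rw [u] at b1
  exact bo_s H hk b1 hK (by simp) par' (dw_nsc H.al hk f4 f5) (by rwa [← pi1_apply, ad_pi1, ← map_add, H.al.ad_vv, ← sub_eq_add_neg] at b2)
theorem BS.pt (h : BS o J M K) (ho : o ∉ K) (u0 : u ≠ 0) (hw : ⟪u, w⟫ = 0) :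
    U1 M (pt (Function.update (fun l => if l ∈ K then vecMulVec u (st J u) else 1) o (dw J u w))) := by
  rw [← pt_mul_pi1 _ (by exact if_neg ho)]; exact h (fun _ => u) (fun _ => u0) w hw
theorem pe_vv (u0 : u ≠ 0) : PE J K fun l => if l ∈ K then vecMulVec u (st J u) else 1 := ⟨fun l m => by simpa [m] using re_vv' u0, fun l m => if_neg m⟩
theorem cyc3 {a b : τ} (n1 : a ≠ o) (n2 : b ≠ o) (n4 : a ≠ b) (l) :
    (Equiv.swap o b * Equiv.swap a b).symm l = if l = a then b else if l = o then a else if l = b then o else l := by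
  rw [Equiv.symm_apply_eq]; simp only [Equiv.Perm.mul_apply, Equiv.swap_apply_def]; grind
theorem Al.hyp (h : Al J) (hk : 3 ≤ Fintype.card κ) : ∃ u v w, u ≠ 0 ∧ v ≠ 0 ∧ ⟪u, v⟫ = 1 ∧ ⟪u, w⟫ = 0 ∧ ⟪v, w⟫ = 0 ∧ v ∉ F ∙ u ∧ w ∉ F ∙ u ∧ w ∉ F ∙ v := by
  obtain ⟨o⟩ : Nonempty κ := inferInstance
  obtain ⟨v, hv⟩ := ex_st (J := J) (u := Pi.single o 1) (by simp)
  generalize hu : (Pi.single o 1 : κ → F) = u at hv
  obtain ⟨w, w0, a, b⟩ := Wr.ex3 hk (st J u) (st J v)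
  rw [dotProduct_comm] at a b
  refine ⟨u, v, w, by rintro rfl; simp at hv, by rintro rfl; simp at hv, hv, a, b, fun m => ?_, fun m => ?_, fun m => ?_⟩ <;>
    obtain ⟨c, rfl⟩ := Submodule.mem_span_singleton.1 m
  · simp [h u] at hv
  · simp [h.anti v u, hv] at b; simp [b] at w0
  · simp [hv] at a; simp [a] at w0
variable (H : HB J M) (hk : 3 ≤ Fintype.card κ) (hf : ∀ a b c d, a ≠ b → c ≠ d → fp κ F (Equiv.swap a b * Equiv.swap c d) ∈ M)
include H hk hf
theorem growi (h : BS o J M K) (ho : o ∉ K) (par : (-1 : F) ^ K.card = -1) {a b} (ha : a ∈ K) (hb : b ∉ insert o K) :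
    ∃ A, PT J (insert b (insert o K)) A ∧ U1 M (pt A) := by
  obtain ⟨u, v, w, u0, v0, h1, w1, w2, m1, m2, m3⟩ := H.al.hyp hk
  have n1 : a ≠ o := by rintro rfl; exact ho ha
  have n2 : b ≠ o := by rintro rfl; simp at hb
  have n3 : b ∉ K := fun m => hb (by simp [m])
  have n4 : a ≠ b := by rintro rfl; exact n3 ha
  have e := (h.pt ho v0 w2).cj (hf o b a b n2.symm n4)
  rw [cj_fp] at e
  have p := cyc3 n1 n2 n4
  have u1 : K.erase a ∪ {a} = K := by ext l; by_cases c : l = a <;> simp [c, ha]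
  obtain ⟨A'', b1, b2⟩ := keyb H (x := fun _ => u) (y := fun _ => v) (S := K.erase a) (fun _ _ => ⟨u0, m1⟩) (K := {a}) (B := Pi.mulSingle a (vecMulVec u (st J u))) (by simp)
    ⟨by simpa using re_vv' u0, fun l m => by simp_all⟩ (by simp) (C := Pi.mulSingle o (-vecMulVec w (st J v)) * Pi.mulSingle b (dw J v w))
    (fun l m => by rw [u1] at m; simp [show l ≠ o by rintro rfl; exact ho m, show l ≠ b by rintro rfl; exact n3 m]) (by rwa [u1]) (h.pt ho u0 w1) e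
    ⟨a, by simp [n1, ha, vecMulVec_mul_vecMulVec, H.al u]⟩ ⟨o, by simp [p, n1, n1.symm, ha, vecMulVec_mul_vecMulVec, H.al v]⟩
    ⟨a, by simp [p, n1, n2, n3, ha, vecMulVec_mul_vecMulVec, H.al u]⟩ ⟨o, by simp [p, n1, n1.symm, ha, dw, sub_mul, vecMulVec_mul_vecMulVec, h1, w2, H.al.z w2]⟩ (fun l => by
      by_cases c1 : l = a
      · simp [p, c1, n1, n2, n3, n4, ha]
      by_cases c2 : l = o
      · simp [p, c2, n1, n1.symm, n2.symm, ha, ho, dw, sub_mul, vecMulVec_mul_vecMulVec, h1, H.al.z w2]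
      by_cases c3 : l = b
      · simp [p, c3, n2, n3, n4.symm]
      by_cases c4 : l ∈ K <;> simp [p, c1, c2, c3, c4, vecMulVec_mul_vecMulVec, h1])
  rw [u1] at b1
  refine ⟨_, (b1.pt.insert (l := o) (.inr ⟨v, w, v0, m3, w2, rfl⟩)).insert (l := b) (.inr ⟨v, w, v0, m3, w2, rfl⟩), ?_⟩
  convert b2 using 1
  rw [← pt_mul_pi1 _ (by simp [n2, b1.2 b n3]), ← pt_mul_pi1 _ (b1.2 o ho), map_mul, ← pi1_apply, ← pi1_apply, ad_mul, ad_pi1, ad_pi1,
    RD.ad (a := dw J v w) H.al ⟨v, w, v0, m3, w2, rfl⟩, (cm_pi1 n2 _ _).eq, ← add_mul, ← map_add, map_neg, H.al.ad_vv, neg_neg, neg_add_eq_sub, mul_assoc, dw]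
theorem growii (h : AE J M K) (h2 : 2 ≤ K.card) (par : (-1 : F) ^ K.card = -1) {b} (n3 : b ∉ K) : ∃ A, PT J (insert b K) A ∧ U1 M (pt A) := by
  obtain ⟨u, v, w, u0, v0, h1, w1, w2, m1, m2, m3⟩ := H.al.hyp hk
  obtain ⟨a, ha, o, ho, n1⟩ := Finset.one_lt_card.1 h2
  have n2 : b ≠ o := by rintro rfl; exact n3 ho
  have n4 : a ≠ b := by rintro rfl; exact n3 ha
  have e := (h (fun _ => v) (fun _ => v0) 1).cj (hf o b a b n2.symm n4)
  rw [one_smul, pe, cj_fp] at e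
  have p := cyc3 n1 n2 n4
  have u1 : (K.erase a).erase o ∪ {a, b} = (insert b K).erase o := by ext l; simp; grind
  have par' : (-1 : F) ^ ((insert b K).erase o).card = -1 := by rwa [Finset.card_erase_of_mem (by simp [ho]), Finset.card_insert_of_notMem n3]
  obtain ⟨A'', b1, b2⟩ := keyb H (x := fun _ => u) (y := fun _ => v) (S := (K.erase a).erase o) (fun _ _ => ⟨u0, m1⟩) (K := {a, b})
    (B := Pi.mulSingle a (vecMulVec u (st J u)) * Pi.mulSingle b (vecMulVec v (st J v))) (by simp)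
    ⟨by simpa [n4, n4.symm] using ⟨re_vv' u0, re_vv' v0⟩, fun l m => by simp_all⟩ (by simp [n3]) (C := Pi.mulSingle o (vecMulVec u (st J v)))
    (fun l m => by rw [u1] at m; simp [Finset.ne_of_mem_erase m]) (by rwa [u1]) (by simpa only [one_smul, pe] using h (fun _ => u) (fun _ => u0) 1) e
    ⟨a, by simp [ha, vecMulVec_mul_vecMulVec, H.al u]⟩ ⟨o, by simp [p, n1.symm, ha, vecMulVec_mul_vecMulVec, H.al v]⟩
    ⟨a, by simp [p, n3, ha, vecMulVec_mul_vecMulVec, H.al u]⟩ ⟨b, by simp [p, n2, n3, n4.symm, ho, vecMulVec_mul_vecMulVec, H.al v]⟩ (fun l => by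
      by_cases c1 : l = a
      · simp [p, c1, n1, n3, n4, ha]
      by_cases c2 : l = o
      · simp [p, c2, n1.symm, n2.symm, ha, ho, vecMulVec_mul_vecMulVec, h1]
      by_cases c3 : l = b
      · simp [p, c3, n2, n3, n4.symm, ho]
      by_cases c4 : l ∈ K <;> simp [p, c1, c2, c3, c4, vecMulVec_mul_vecMulVec, h1])
  rw [u1] at b1
  have := (bo_s H hk b1 ⟨a, by simp [n1, ha]⟩ (o := o) (by simp) par' (dw_nsc H.al hk u0 m1)
    (by rwa [← pi1_apply, ad_pi1, ← map_add, H.al.ad_vv, ← sub_eq_add_neg] at b2)).pt (by simp) u0 w1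
  exact ⟨_, by simpa [ho] using (pe_vv (K := (insert b K).erase o) u0).pt.insert (l := o) (a := dw J u w) (.inr ⟨u, w, u0, m2, w1, rfl⟩), this⟩
theorem bs_univ (par : (-1 : F) ^ Fintype.card τ = 1) (hp : PatS J M) (o) : BS o J M (Finset.univ.erase o) := by
  classical
  have k0 : ∀ K A, 2 ≤ K.card → PT J K A → U1 M (pt A) → ∃ o ∈ K, RE J (A o) ∨ (2 : F) = 0 := fun K A h2 h e => by
    have hK : K.Nonempty := Finset.card_pos.1 (by omega)
    rcases H.hc with c | c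
    · obtain ⟨b, hb⟩ := Finset.card_pos.1 (h.odd ⟨H.al, c, H.iso, H.h0⟩ hK e).pos
      rw [Finset.mem_filter] at hb
      exact ⟨b, hb.1, .inl ((h.1 b hb.1).resolve_right hb.2)⟩
    · exact let ⟨o, m⟩ := hK; ⟨o, m, .inr c.1⟩
  have k : ∀ n K A, Fintype.card τ - K.card = n → 2 ≤ K.card → PT J K A → U1 M (pt A) → ∃ o, BS o J M (Finset.univ.erase o) := fun n => by
    induction n using Nat.strong_induction_on with
    | _ n ih =>
    rintro K A rfl h2 h e
    obtain ⟨o, ho, r⟩ := k0 K A h2 h e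
    by_cases c : ∀ b, b ∈ K
    · obtain rfl := Finset.eq_univ_of_forall c
      exact ⟨o, step1b H hk h h2 par ho r e⟩
    obtain ⟨b, hb⟩ := not_forall.1 c
    have t1 := Finset.card_le_univ (insert b K)
    have t2 := Finset.card_insert_of_notMem hb
    suffices ∃ A, PT J (insert b K) A ∧ U1 M (pt A) from let ⟨A', a1, a2⟩ := this; ih _ (by omega) _ A' rfl (by omega) a1 a2
    by_cases q : (-1 : F) ^ K.card = 1
    · obtain ⟨a, ha⟩ : (K.erase o).Nonempty := Finset.card_pos.1 (by rw [Finset.card_erase_of_mem ho]; omega)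
      simpa [ho] using growi H hk hf (step1b H hk h h2 q ho r e) (by simp) (by
        rw [← Finset.card_erase_add_one ho, pow_succ] at q; linear_combination -q) ha (b := b) (by simpa [ho])
    have q1 : Odd K.card := Nat.not_even_iff_odd.1 fun e => q e.neg_one_pow
    have HS' : HS J M := ⟨H.al, fun c => q (by rw [q1.neg_one_pow]; linear_combination -c), H.iso, H.h0⟩
    refine growii H hk hf ?_ h2 q1.neg_one_pow hb
    by_cases c : ∃ l ∈ K, RD J (A l)
    · simpa using uns HS' h e (π := 1) (by simpa using hf o b o b (by rintro rfl; exact hb ho) (by rintro rfl; exact hb ho)) (S := ∅) (fun _ _ => rfl) (by simp)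
        (.inl (by simpa)) (by simpa)
    · exact ae_of HS' ⟨o, ho⟩ ⟨fun l m => (h.1 l m).resolve_right fun e => c ⟨l, m, e⟩, h.2⟩ e
  obtain ⟨K, A, h2, h, e⟩ := hp
  obtain ⟨p, b⟩ := k _ K A rfl h2 h e
  by_cases c : o = p
  · exact c ▸ b
  obtain ⟨u, v, w, u0, v0, h1, w1, w2, m1, m2, m3⟩ := H.al.hyp hk
  exact step1b H hk (by simpa using (pe_vv (K := Finset.univ.erase p) u0).pt.insert (l := p) (a := dw J u w) (.inr ⟨u, w, u0, m2, w1, rfl⟩))
    (h2.trans (Finset.card_le_univ K)) par (by simp) (.inl (by simpa [c] using re_vv' u0)) (b.pt (by simp) u0 w1)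
end H09.Wr
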