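import Mathlib
import Cfsg.Agent.H09.WtB
/-! Symplectic tensor-wreath subgroups of orthogonal groups are maximal. -/
namespace H09.Wr
open Matrix H10 H10.As Module Cfsg Cfsg.Geo
variable {τ κ ι : Type} [Fintype τ] [DecidableEq τ] [Fintype κ] [DecidableEq κ] [Fintype ι] [DecidableEq ι] {F : Type*} [Field F]
set_option hygiene false in
local notation "⟪" a ", " b "⟫" => Wr.st J a ⬝ᵥ b
set_option hygiene false in
local notation "⟦" a ", " b "⟧" => Wr.st (JW J) a ⬝ᵥ b
variable {J : GL κ F} {M : Subgroup (GL (τ → κ) F)} {K : Finset τ} {A : τ → Matrix κ κ F} {z b : τ → κ → F} {l o : τ} {u v w : κ → F}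
  {Q : QuadraticForm F ((τ → κ) → F)}
theorem ae_grow' [Nonempty κ] (H : HS J M) (hf : ∀ a b c d, a ≠ b → c ≠ d → fp κ F (Equiv.swap a b * Equiv.swap c d) ∈ M) (h : AE J M K) (h1 : Odd K.card)
    (h2 : 2 ≤ K.card) {c c'} (n : c ≠ c') (m : c ∉ K) (m' : c' ∉ K) : AE J M (insert c (insert c' K)) := by
  obtain ⟨b, hb, b', hb', n'⟩ := Finset.one_lt_card.1 h2
  obtain ⟨A, a, e⟩ := h.pt
  have u : K ∪ {b, b', c, c'} = insert c (insert c' K) := by ext; simp; grind
  rw [← u]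
  refine uns H ⟨fun l m => .inl (a.1 l m), a.2⟩ e (hf b c b' c' (by grind) (by grind)) (fun l => ?_) (fun l => ?_) (.inr ⟨b, by simp, c, by simp, hb, m⟩) (by
    rw [u, Finset.card_insert_of_notMem (by simp [*]), Finset.card_insert_of_notMem m']; grind)
  · simp +contextual [Equiv.symm_apply_eq, Equiv.swap_apply_of_ne_of_ne]
  · have := a.1 b hb; have := a.1 b' hb'
    change _ → _ ∧ Equiv.swap b' c' (Equiv.swap b c l) ∉ K ∨ _ ∧ RE J (A (Equiv.swap b' c' (Equiv.swap b c l)))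
    grind
theorem dim2' (hJ : Al J) (hk : Fintype.card κ = 2) (u0 : u ≠ 0) (w) : ∃ c : F, w = ⟪u, w⟫ • (ex_st (J := J) u0).choose + c • u := by
  have := congrArg (· *ᵥ w) (dim2 hJ hk (ex_st (J := J) u0).choose_spec)
  simp only [sub_mulVec, vecMulVec_mulVec, one_mulVec, op_smul_eq_smul] at this
  exact ⟨_, by rw [neg_smul, ← sub_eq_add_neg, this]⟩
theorem ae_two [Nonempty κ] (H : HS J M) (hk : Fintype.card κ = 2) (hf : ∀ a b c d, a ≠ b → c ≠ d → fp κ F (Equiv.swap a b * Equiv.swap c d) ∈ M)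
    (ht : Even (Fintype.card τ)) (h4 : 3 ≤ Fintype.card τ) (hp : PatS J M) (o) : AE J M (Finset.univ.erase o) := by
  classical
  have k : ∀ n K, Fintype.card τ - K.card = n → Odd K.card → 2 ≤ K.card → AE J M K → ∃ o, AE J M (Finset.univ.erase o) := fun n => by
    induction n using Nat.strong_induction_on with
    | _ n ih =>
    rintro K rfl h1 h2 h
    have t := Finset.card_le_univ K
    by_cases c : Kᶜ.card = 1
    · obtain ⟨o, e⟩ := Finset.card_eq_one.1 c
      exact ⟨o, by rwa [← Finset.compl_singleton, ← e, compl_compl]⟩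
    obtain ⟨c, m, c', m', n⟩ := Finset.one_lt_card.1 (show 1 < Kᶜ.card by rw [Finset.card_compl] at *; grind)
    rw [Finset.mem_compl] at m m'
    have e : (insert c (insert c' K)).card = K.card + 2 := by rw [Finset.card_insert_of_notMem (by simp [*]), Finset.card_insert_of_notMem m']
    have := Finset.card_le_univ (insert c (insert c' K))
    exact ih _ (by omega) _ rfl (by grind) (by omega) (ae_grow' H hf h h1 h2 n m m')
  obtain ⟨K, A, h2, h, e⟩ := hp
  have hK : K.Nonempty := Finset.card_pos.1 (by omega)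
  have nd : ∀ l, ¬ RD J (A l) := fun l ⟨u, w, u0, n, e, _⟩ => n (let ⟨c, e'⟩ := dim2' H.al hk u0 w; Submodule.mem_span_singleton.2 ⟨c, by rw [e', e]; simp⟩)
  obtain ⟨p, h⟩ := k _ K rfl (by simpa [nd] using h.odd H hK e) h2 (ae_of H hK ⟨fun l m => (h.1 l m).resolve_right (nd l), h.2⟩ e)
  by_cases c : o = p
  · exact c ▸ h
  obtain ⟨A, a, e⟩ := h.pt
  obtain ⟨q, n1, n2⟩ := exists_ne_ne_of_three_le h4 o p
  have e' := e.cj (hf p o o q (Ne.symm c) n1)
  rw [cj_fp] at e'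
  have : ∀ l, (Equiv.swap p o * Equiv.swap o q).symm l = p ↔ l = o := fun l => by
    rw [Equiv.symm_apply_eq]; simp only [Equiv.Perm.mul_apply, Equiv.swap_apply_def]; grind
  exact ae_of H ⟨p, by simp [Ne.symm c]⟩ ⟨fun l m => a.1 _ (by simpa [this] using m), fun l m => a.2 _ (by simpa [this] using m)⟩ e'
variable (J Q) in
/-- quadratic forms vanishing on pure tensors -/
structure QP : Prop where
  B : ∀ x y, QuadraticMap.polar Q x y = ⟦x, y⟧
  p : ∀ z, Q (pv z) = 0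
theorem QP.nd (h : QP J Q) : (Form.ofQuad Q).Nondeg :=
  ⟨fun x e => by_contra fun n => let ⟨v, a⟩ := ex_st (J := JW J) n; one_ne_zero (a.symm.trans ((h.B x v).symm.trans (e v)))⟩
theorem QP.sg (h : QP J Q) {p w} (hp : Q p = 0) (hw : ⟦p, w⟧ = 0) (hs : Q w = 0) : ((Form.ofQuad Q).toGL ((Form.ofQuad Q).siegel p w 0)).1 = 1 + dw (JW J) p w := by
  have := h.nd
  refine ext_of_mulVec_single fun i => ?_
  rw [toGL_mulVec, Form.siegel_apply _ hp ((h.B _ _).trans hw) hs.symm]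
  simp only [add_mulVec, one_mulVec, dw_mv, Form.ofQuad_B, h.B, Form.ofQuad_ε]; module
theorem QP.sgm (h : QP J Q) {p w} (hp : Q p = 0) (hw : ⟦p, w⟧ = 0) (hs : Q w = 0) (e : U1 M (dw (JW J) p w)) :
    (Form.ofQuad Q).siegel p w 0 ∈ M.comap (Form.ofQuad Q).toGL :=
  let ⟨g, m, e⟩ := e; Subgroup.mem_comap.2 ((Units.ext (e.trans (h.sg hp hw hs).symm) : g = _) ▸ m :)
theorem QP.hX (h : QP J Q) (z) (t) (ht : (Form.ofQuad Q).T t = 0) : (Form.ofQuad Q).siegel (pv z) 0 t ∈ M.comap (Form.ofQuad Q).toGL := by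
  obtain rfl : t = 0 := ht
  exact h.sgm (h.p z) (by simp) (by simp) ⟨1, one_mem _, by simp [dw]⟩
variable (M) in
/-- directions of Siegel elements -/
noncomputable def QP.L (h : QP J Q) (z : τ → κ → F) : Submodule F ((τ → κ) → F) := have := h.nd; Form.sgSub (M.comap (Form.ofQuad Q).toGL) (h.p z) (h.hX z)
theorem QP.mem (h : QP J Q) (e : ⟦pv z, pv (Function.update z l w)⟧ = 0) (k : ∀ c : F, U1 M (pe J (Finset.univ.erase l) z * pi1 l (dw J (z l) (c • w)))) :
    pv (Function.update z l w) ∈ h.L M z := ⟨(h.B _ _).trans e, fun c => by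
  rw [← pv.map_update_smul]
  exact ⟨0, (h.p _).symm, h.sgm (h.p z) (by simp [e]) (h.p _) (by rw [dw_pv]; exact k c)⟩⟩
theorem QP.act (h : QP J Q) (a1 : pv (Function.update b l w) ∈ h.L M b) (h2 : ⟦pv b, pv z⟧ = 0) (h3 : ⟦pv (Function.update b l w), pv z⟧ = 0) {x} (m : x ∈ h.L M z) :
    ⟦pv (Function.update b l w), x⟧ • pv b - ⟦pv b, x⟧ • pv (Function.update b l w) ∈ h.L M z := by
  have := h.nd
  have a2 : (Form.ofQuad Q).T 0 = (Form.ofQuad Q).Q (pv (Function.update b l w)) := (h.p _).symm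
  have := sub_mem (Form.map_mem_sgSub (hp := h.p z) (hX := h.hX z) (Form.siegel_mem_of_mem_sgSub (hp := h.p b) (hX := h.hX b) a1 a2)
    (Form.siegel_apply_of_orth (h.p b) a1.1 a2 ((h.B _ _).trans h2) ((h.B _ _).trans h3)) m) m
  rw [Form.siegel_apply _ (h.p b) a1.1 a2, Form.ofQuad_B, Form.ofQuad_B, h.B, h.B] at this
  simpa [QP.L, add_sub_right_comm _ _ x, sub_right_comm _ _ x] using this
theorem QP.full (h : QP J Q) (hz : ∀ l, z l ≠ 0) (k4 : ∀ l b, ⟪z l, b l⟫ = 0 → pv b ∈ h.L M z) : (Form.ofQuad Q).Full (M.comap (Form.ofQuad Q).toGL) (pv z) := by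
  have := h.nd
  choose u' h3 using fun l => ex_st (J := J) (hz l)
  refine Form.full_of_le_sgSub (hp := h.p z) (hX := h.hX z) fun x m => ?_
  obtain ⟨y, a, _, a', rfl⟩ := Submodule.mem_sup.1 (pv_top (L := h.L M z ⊔ F ∙ pv u') (fun b => ml_span (Z := fun l => {w | ⟪z l, w⟫ = 0 ∨ w = u' l})
    (fun b e => by
      by_cases c : ∃ l, ⟪z l, b l⟫ = 0
      · exact let ⟨l, c⟩ := c; Submodule.mem_sup_left (k4 l b c)
      · rw [show b = u' from funext fun l => (e l).resolve_left fun e => c ⟨l, e⟩]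
        exact Submodule.mem_sup_right (Submodule.mem_span_singleton_self _)) fun l => by
      simpa using add_mem (Submodule.subset_span (s := {w | ⟪z l, w⟫ = 0 ∨ w = u' l}) (.inl (by simp [h3] :
        ⟪z l, b l - ⟪z l, b l⟫ • u' l⟫ = 0))) (Submodule.smul_mem _ ⟪z l, b l⟫ (Submodule.subset_span (.inr rfl)))) x)
  obtain ⟨c, rfl⟩ := Submodule.mem_span_singleton.1 a'
  have := (Form.mem_perp_singleton _).1 m
  rw [map_add, a.1, map_smul, Form.ofQuad_B, h.B, pvd] at this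
  obtain rfl : c = 0 := by simpa [h3] using this
  rwa [zero_smul, add_zero]
theorem Al.span (h : Al J) (u0 : u ≠ 0) (x) : x ∈ Submodule.span F {b | ⟪b, u⟫ ≠ 0} := by
  obtain ⟨v, hv⟩ := ex_st (J := J) u0
  by_cases c : ⟪x, u⟫ = 0
  · simpa using sub_mem (Submodule.subset_span (s := {b | ⟪b, u⟫ ≠ 0}) (show ⟪x + v, u⟫ ≠ 0 by simp [c, h.anti v u, hv]))
      (Submodule.subset_span (show ⟪v, u⟫ ≠ 0 by simp [h.anti v u, hv]))
  · exact Submodule.subset_span c
theorem mlS (hJ : Al J) {L : Submodule F ((τ → κ) → F)} (hz : ∀ l, z l ≠ 0) (S : Finset τ) (h : ∀ b', (∀ j ∈ S, b' j = b j) → (∀ j ∉ S, ⟪b' j, z j⟫ ≠ 0) → pv b' ∈ L) :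
    pv b ∈ L := ml_span (Z := fun j => if j ∈ S then {b j} else {b | ⟪b, z j⟫ ≠ 0})
  (fun b' e => h b' (fun j m => by simpa [m] using e j) fun j m => by simpa [m] using e j) fun j => by
    split_ifs
    exacts [Submodule.mem_span_singleton_self _, hJ.span (hz j) _]
theorem full4 (h : QP J Q) (hJ : Al J) (hk : 3 ≤ Fintype.card κ) (hB : ∀ o, BS o J M (Finset.univ.erase o)) [Nontrivial τ] (hz : ∀ l, z l ≠ 0) :
    (Form.ofQuad Q).Full (M.comap (Form.ofQuad Q).toGL) (pv z) := by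
  have k1 : ∀ z : τ → κ → F, (∀ l, z l ≠ 0) → ∀ l w, ⟪z l, w⟫ = 0 → pv (Function.update z l w) ∈ h.L M z := fun z hz l w hw =>
    h.mem (pvd0 l (by simpa)) fun c => hB l z hz _ (by simp [hw])
  have nz : ∀ l (b : τ → κ → F), b l = z l → (∀ j ∉ ({l} : Finset τ), ⟪b j, z j⟫ ≠ 0) → ∀ j, b j ≠ 0 := fun l b e k j e' => by
    by_cases c : j = l
    exacts [hz l (e ▸ c ▸ e'), k j (by simpa) (by simp [e'])]
  choose u' h3 using fun l => ex_st (J := J) (hz l)
  have k3 : ∀ l b, b l = z l → pv b ∈ h.L M z := fun l b e => mlS hJ hz {l} fun b' a2 a3 => by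
    replace a2 := (a2 l (by simp)).trans e
    obtain ⟨w, h4, n⟩ := hJ.ex3 hk (hz l)
    obtain ⟨w', h5, h6⟩ := hJ.ex2 n
    have := h.act (k1 b' (nz l b' a2 a3) l w (by rwa [a2])) (pvd0 l (by rw [a2, hJ])) (pvd0 l (by simpa using hJ.z h4)) (k1 z hz l w' h6)
    rwa [pvd0 l (a := b') (by simpa [a2]), zero_smul, sub_zero, Submodule.smul_mem_iff _ (pvd1 fun j => by by_cases c : j = l <;> simp [c, h5, a3])] at this
  refine h.full hz fun l b e => mlS hJ hz {l} fun b' a2 a3 => ?_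
  replace a2 := a2 l (by simp)
  obtain ⟨j, n⟩ := exists_ne l
  have := h.act (k1 _ (nz l (Function.update b' l (z l)) (by simp) fun j m => by simp_all) l (b' l) (by simpa [a2])) (pvd0 l (by simp [hJ (z l)]))
    (pvd0 l (by simpa [a2] using hJ.z e)) (k3 j (Function.update z l (u' l)) (by simp [n]))
  rwa [Submodule.sub_mem_iff_right _ (Submodule.smul_mem _ _ (k3 l _ (Function.update_self ..))), Function.update_idem, Function.update_eq_self,
    Submodule.smul_mem_iff _ (pvd1 fun j => by by_cases c : j = l <;> simp [c, h3, a3])] at this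
theorem full2 (h : QP J Q) (hJ : Al J) (hk : Fintype.card κ = 2) (hB : ∀ o, AE J M (Finset.univ.erase o)) (ht : 4 ≤ Fintype.card τ) (hz : ∀ l, z l ≠ 0) :
    (Form.ofQuad Q).Full (M.comap (Form.ofQuad Q).toGL) (pv z) := by
  have : Nontrivial τ := Fintype.one_lt_card_iff_nontrivial.1 (by omega)
  have k1 : ∀ z : τ → κ → F, (∀ l, z l ≠ 0) → ∀ l w, pv (Function.update z l w) ∈ h.L M z := fun z hz l w => by
    obtain ⟨m, n⟩ := exists_ne l
    refine h.mem (pvd0 m (by simp [n, hJ (z m)])) fun c => ?_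
    obtain ⟨s, e⟩ := dim2' hJ hk (hz l) (c • w)
    rw [e, dw_add, dw_smul, dw_smul, dw_self, dw, ← neg_sub, dim2 hJ hk (ex_st (J := J) (hz l)).choose_spec]
    simpa using hB l z hz (-⟪z l, c • w⟫)
  choose u' h3 using fun l => ex_st (J := J) (hz l)
  have kA : ∀ l m, l ≠ m → ∀ b, b l = z l → b m = z m → pv b ∈ h.L M z := fun l m n b e1 e2 => mlS hJ hz {l, m} fun b' a2 a3 => by
    have a1 := (a2 l (by simp)).trans e1
    replace a2 := (a2 m (by simp)).trans e2
    have a4 : ∀ j, ⟪Function.update b' l (u' l) j, Function.update z m (u' m) j⟫ ≠ 0 := fun j => by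
      by_cases c : j = l
      · simp [c, n, hJ.anti (u' l), h3]
      · by_cases c' : j = m <;> simp [c, c', n.symm, a2, h3, a3]
    have := h.act (k1 (Function.update b' l (u' l)) (fun j e => a4 j (by simp [e])) l (z l)) (pvd0 m (by simp [n.symm, a2, hJ (z m)]))
      (pvd0 l (by simp [hJ (z l)])) (k1 z hz m (u' m))
    rwa [pvd0 l (by simp [n, hJ (z l)]), zero_smul, zero_sub, neg_mem_iff, Submodule.smul_mem_iff _ (pvd1 a4), Function.update_idem, ← a1,
      Function.update_eq_self] at this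
  have kB : ∀ m b, b m = z m → pv b ∈ h.L M z := fun m b e => mlS hJ hz {m} fun b' a2 a3 => by
    replace a2 := (a2 m (by simp)).trans e
    obtain ⟨l, h1, i, h2, j, h4, n1, n2, n3⟩ := Finset.two_lt_card.1 (show 2 < (Finset.univ.erase m).card by simp; omega)
    simp only [Finset.mem_erase, Finset.mem_univ, and_true] at h1 h2 h4
    have nz : ∀ j, b' j ≠ 0 := fun j e' => by
      by_cases c : j = m
      exacts [hz m (a2 ▸ c ▸ e'), a3 j (by simpa) (by simp [e'])]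
    obtain ⟨w, hw⟩ := ex_st (J := J) (nz l)
    have := h.act (k1 b' nz l w) (pvd0 m (by rw [a2, hJ])) (pvd0 m (by simp [Ne.symm h1, a2, hJ (z m)]))
      (kA i j n3 (Function.update (Function.update z l (b' l)) m (u' m)) (by simp [h2, n1.symm]) (by simp [h4, n2.symm]))
    rwa [pvd0 l (a := b') (by simp [h1, hJ (b' l)]), zero_smul, sub_zero, Submodule.smul_mem_iff _ (pvd1 fun j => by
      by_cases c : j = l
      · simp [c, h1, hJ.anti w, hw]
      · by_cases c' : j = m <;> simp [c, c', Ne.symm h1, a2, h3, a3])] at this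
  refine h.full hz fun l b e => ?_
  obtain ⟨s, e'⟩ := dim2' hJ hk (hz l) (b l)
  rw [e, zero_smul, zero_add] at e'
  rw [← Function.update_eq_self l b, e', pv.map_update_smul]
  exact Submodule.smul_mem _ _ (kB l _ (by simp))
theorem QP.le [Finite F] [Nonempty κ] (h : QP J Q) (hn : 5 ≤ Fintype.card (τ → κ))
    (k : ∀ z : τ → κ → F, (∀ l, z l ≠ 0) → (Form.ofQuad Q).Full (M.comap (Form.ofQuad Q).toGL) (pv z)) : omegaGL Q ≤ M := by
  have := h.nd
  obtain ⟨o⟩ : Nonempty κ := inferInstance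
  obtain ⟨v, hv⟩ := ex_st (J := J) (u := Pi.single o 1) (by simp)
  rw [omegaGL_eq_E _ hn]
  exact Subgroup.map_le_iff_le_comap.2 (Form.E_le_of_full (k (fun _ => Pi.single o 1) (by simp)) (h.p _) (k (fun _ => v) fun _ => by rintro rfl; simp at hv) (h.p _)
    (by rw [Form.ofQuad_B, h.B]; exact pvd1 (by simp [hv])))
theorem sp_om (hJ : Al J) (hc : 5 ≤ Fintype.card κ ∨ 3 ≤ Fintype.card κ ∧ (2 : F) ≠ 0 ∨ ∃ l : F, l ≠ 0 ∧ l * l ≠ 1) : SPg J ≤ Om J := fun g m => by
  have hA : IsAltF (af hJ) := isAltF_ofAlt _ _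
  have df : ∀ (c : F) u v, u ≠ 0 → v ≠ 0 → ⟪u, v⟫ = 0 → U1 (Om J) (c • vecMulVec u (st J u) - c • vecMulVec v (st J v)) := fun c u v u0 v0 e => by
    obtain ⟨d, d1, d2⟩ := tr_s hJ u0 v0
    obtain ⟨t, t1, t2, t3⟩ := hJ.tv u c
    refine ⟨_, om_comm t1 d1, ?_⟩
    rw [Units.val_mul, ← cj_val, t2, t3]
    simp [d1.cj_vv, d2, mul_sub, add_mul, vecMulVec_mul_vecMulVec, e, add_sub_assoc]
  have k : ∀ (c : F) u, u ≠ 0 → U1 (Om J) (c • vecMulVec u (st J u)) := fun c u u0 => by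
    obtain ⟨v, hv⟩ := ex_st (J := J) u0
    let _ : StarRing F := starRingOfComm
    rcases hc with hk | ⟨hk, h2⟩ | ⟨l, l0, l1⟩
    · obtain ⟨y, y0, a, b⟩ := ex3 (by omega) (st J u) (st J v)
      rw [dotProduct_comm] at a b
      obtain ⟨y', hy⟩ := ex_st (J := J) y0
      obtain ⟨x, x0, hx⟩ := exk ![st J u, st J v, st J y, st J y'] hk
      have x1 : ⟪u, x⟫ = 0 := hx 0
      have x2 : ⟪v, x⟫ = 0 := hx 1
      have x3 : ⟪y, x⟫ = 0 := hx 2
      have x4 : ⟪y', x⟫ = 0 := hx 3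
      have n : ∀ w, ⟪v, w⟫ = 0 → u + w ≠ 0 := fun w e e' => by simpa [e, hJ.anti v u, hv] using congrArg (⟪v, ·⟫) e'
      convert ((df c (u + y) (u + (y + x)) (n _ b) (n _ (by simp [*])) (by simp [*, hJ u, hJ y, hJ.z a])).sub (df c y (u + x) y0 (n _ x2) (by simp [*, hJ.z a])) ?_ ?_).sub
        (df c x (y + x) x0 (fun e => by simpa [x4, hJ.anti y' y, hy] using congrArg (⟪y', ·⟫) e) (by simp [hJ x, hJ.z x3])) ?_ ?_ using 1
      · simp only [map_add, add_vecMulVec, vecMulVec_add]; module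
      all_goals simp [mul_sub, sub_mul, vecMulVec_mul_vecMulVec, hJ u, hJ y, hJ x, a, hJ.z a, x1, hJ.z x1, x3, hJ.z x3]
    · obtain ⟨y, y0, a, b⟩ := ex3 hk (st J u) (st J v)
      rw [dotProduct_comm] at a b
      have n : ∀ w, ⟪v, w⟫ = 0 → u + w ≠ 0 := fun w e e' => by simpa [e, hJ.anti v u, hv] using congrArg (⟪v, ·⟫) e'
      convert (df (c / 2) (u + y) y (n _ b) y0 (by simp [a, hJ y])).sub (df (c / 2) y (u + -y) y0 (n _ (by simp [b])) (by simp [hJ.z a, hJ y])) ?_ ?_ using 1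
      · simp only [map_add, map_neg, add_vecMulVec, vecMulVec_add, neg_vecMulVec, vecMulVec_neg]; match_scalars <;> field_simp <;> ring
      all_goals simp [mul_sub, sub_mul, vecMulVec_mul_vecMulVec, hJ u, hJ y, a, hJ.z a]
    · convert df (c / (1 - l * l)) u (l • u) u0 (smul_ne_zero l0 u0) (by simp [hJ u]) using 1
      have := sub_ne_zero.2 l1.symm
      simp only [map_smul, smul_vecMulVec, vecMulVec_smul, smul_smul, ← sub_smul]; rw [← mul_one_sub, div_mul_cancel₀ _ this]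
  have := Form.eq_top_of_sFull hA (M := (Om J).comap (af hJ).toGL) fun u c => by
    by_cases u0 : u = 0
    · exact u0 ▸ Form.sFull_zero hA c
    obtain ⟨y, m, e⟩ := k c u u0
    refine Subgroup.mem_comap.2 ((Units.ext (e.trans (ext_of_mulVec_single fun i => ?_)) : y = _) ▸ m :)
    rw [toGL_mulVec, Form.quasi_apply_alt hA]
    simp only [add_mulVec, smul_mulVec, vecMulVec_mulVec, one_mulVec, op_smul_eq_smul, smul_smul]; rfl
  exact glEquiv.symm_apply_apply g ▸ this.ge (Subgroup.mem_top (⟨glEquiv g, is_iff.1 m, fun _ => rfl⟩ : (af hJ).Isom))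
theorem QP.iso (h : QP J Q) {g : GL (τ → κ) F} (e : Is (JW J) g) (k : ∀ z, ∃ z', g.1 *ᵥ pv z = pv z') : g ∈ isometryGroup F Q := fun x _ =>
  pv_top (L := ⟨⟨⟨{x | Q (g.1 *ᵥ x) = Q x}, fun {x y} (a : _ = _) (b : _ = _) => by
    have := (h.B _ _).trans ((e.dot x y).trans (h.B _ _).symm)
    simp only [QuadraticMap.polar, a, b, ← mulVec_add] at this
    exact (by linear_combination this : Q (g.1 *ᵥ (x + y)) = Q (x + y))⟩, by simp⟩, fun c x (a : _ = _) => (by rw [mulVec_smul, Q.map_smul, Q.map_smul, a] : Q _ = Q _)⟩)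
    (fun z => let ⟨z', e⟩ := k z; (by rw [e, h.p, h.p] : Q _ = Q _)) x
theorem QP.piU (h : QP J Q) {d} (e : Is J d) (i : τ) : piU i d ∈ isometryGroup F Q := h.iso (e.piU i) fun z => ⟨fun l => Pi.mulSingle (M := fun _ => Matrix κ κ F) i d.1 l *ᵥ z l, pt_mulVec _ z⟩
theorem QP.fp (h : QP J Q) (π : Equiv.Perm τ) : fp κ F π ∈ isometryGroup F Q := h.iso (is_fp π) fun z => ⟨z ∘ π.symm, by
  ext x; simp [As.fp, mulVec, dotProduct, pv_apply, ← Equiv.prod_comp π fun l => z (π.symm l) (x l)]⟩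
theorem nl_pb [Nontrivial κ] (hJ : Al J) (hk : 5 ≤ Fintype.card κ) (h : PT J K A) (hK : 2 ≤ K.card) (ho : RE J (A o)) {g : GL (τ → κ) F} (e : g.1 = 1 + pt A) :
    g ∉ HH τ κ F := fun m => by
  have n0 := pt_ne (A := A) fun l => by by_cases c : l ∈ K <;> simp [(h.1 l · |>.ne hJ), h.2, c]
  have k : ∀ l ∈ K, ¬ Cm l (pt A) := fun l m c => by
    obtain ⟨u, u0, e⟩ : ∃ u, u ≠ 0 ∧ vecMulVec u (st J u) * A l = 0 := by
      obtain ⟨u, c, u0, -, e⟩ | ⟨u, w, u0, -, e', e⟩ := h.1 l m <;> exact ⟨u, u0, by simp [*, mul_sub, vecMulVec_mul_vecMulVec, hJ u]⟩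
    exact n0 (c.of_VV u0 (by simpa : st J u ≠ 0) (by rw [VV, pi1_apply, ← map_mul]; exact pt_zero (l := l) (by simpa)))
  obtain ⟨p, hp, q, hq, n⟩ := Finset.one_lt_card.1 hK
  have R : RB (pt A) := ⟨by rw [← map_mul]; exact pt_zero (l := p) ((h.1 p hp).sq hJ), n0, fun l x φ a b => by
    obtain ⟨u, c, u0, c0, e⟩ := ho
    rw [pt_split o]
    exact (rank_mul_le_right _ _).trans ((RK.rb ⟨c • u, st J u, by simp [*], by simpa, by simp [hJ u], by simp [e]⟩ o).2.2 l x φ a b)⟩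
  obtain ⟨p', m'⟩ := m p
  obtain ⟨a, -, e⟩ := (rmul (by omega) R e (swap2 hk R e m' ▸ m')).resolve_left (k p hp)
  exact k q hq (e ▸ cm_pi1 n a)
theorem QP.prop [Finite F] [Nontrivial κ] (h : QP J Q) (hJ : Al J) (hn : 5 ≤ Fintype.card (τ → κ)) (hc : (2 : F) ≠ 0 ∨ 5 ≤ Fintype.card κ)
    (hq : 3 ≤ Fintype.card κ ∧ 2 ≤ Fintype.card τ ∨ Fintype.card κ = 2 ∧ 3 ≤ Fintype.card τ) : ¬ omegaGL Q ≤ HH τ κ F := fun e => by
  have := h.nd
  have : Nontrivial τ := Fintype.one_lt_card_iff_nontrivial.1 (by omega)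
  obtain ⟨p, o, n⟩ := exists_pair_ne τ
  have nl : ∀ u w K A, PT J K A → 2 ≤ K.card → RE J (A o) → pe J (Finset.univ.erase p) (fun _ => u) * pi1 p (dw J u w) ≠ pt A := fun u w K A a b c d => by
    have e1 : ⟦pv fun _ : τ => u, pv (Function.update (fun _ => u) p w)⟧ = 0 := pvd0 o (by simp [n.symm, hJ u])
    have m := e (omegaGL_eq_E Q hn ▸ Subgroup.mem_map_of_mem _ ((Form.ofQuad Q).siegel_mem_E (h.p _) ((h.B _ _).trans e1) (s := 0) (h.p _).symm))
    have e2 := (h.sg (h.p _) e1 (h.p _)).trans (by rw [dw_pv, d])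
    exact hc.elim (fun c => nl_pt hJ c a b e2 m) fun k => nl_pb hJ k a b c e2 m
  rcases hq with ⟨hk, ht⟩ | ⟨hk, ht⟩
  · obtain ⟨u, v, w, u0, v0, h1, w1, w2, m1, m2, m3⟩ := hJ.hyp hk
    exact nl u w .univ _ (by simpa using (pe_vv (K := Finset.univ.erase p) u0).pt.insert (l := p) (a := dw J u w) (.inr ⟨u, w, u0, m2, w1, rfl⟩)) ht
      (by simpa [n.symm] using re_vv' u0) (pt_mul_pi1 _ (by simp) _)
  · obtain ⟨r⟩ : Nonempty κ := inferInstance
    obtain ⟨v, hv⟩ := ex_st (J := J) (u := Pi.single r 1) (by simp)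
    have v0 : v ≠ 0 := by rintro rfl; simp at hv
    exact nl v (Pi.single r 1) _ _ (pe_vv (K := Finset.univ.erase p) v0).pt (by simp; omega) (by simpa [n.symm] using re_vv' v0) (by rw [dw, dim2 hJ hk hv, map_one, mul_one]; rfl)
theorem wreath_max_t [Fintype F] {Q : (ι → F) → F} (hQ : IsNondegenerateQuadraticForm Q) (hn : 13 ≤ Fintype.card ι) {k t : ℕ} (ht : 2 ≤ t)
    (hqt : Odd (Fintype.card F) → Even t) (hex : ¬ (Fintype.card F = 3 ∧ k = 2)) (hex3 : ¬ Odd (Fintype.card F) → 6 ≤ k) {e : ι ≃ (Fin t → Fin k)} {P : GL ι F} {f₁}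
    (hf₁ : IsSymplecticForm f₁) (hT : IsTensorPowerFormStructure id (QuadraticMap.polar Q) f₁ e P)
    (hp : ∀ xs : Fin t → Fin k → F, Q (P.1 *ᵥ ((fun a : Fin t → Fin k => ∏ i, xs i (a i)) ∘ e)) = 0) :
    IsMaximalIn (omegaGL Q) (tensorWreathSubgroup k t e P ⊓ omegaGL Q) := by
  have : NeZero t := ⟨by omega⟩
  have cd : 13 ≤ Fintype.card (Fin t → Fin k) := Fintype.card_congr e ▸ hn
  have k0 : k ≠ 0 := by rintro rfl; simp [NeZero.ne t] at cd
  have ek : Even k := by simpa using even_of_symp hf₁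
  have : Nontrivial (Fin k) := Fin.nontrivial_iff_two_le.2 (by grind)
  have : Nontrivial (Fin t) := Fin.nontrivial_iff_two_le.2 ht
  have hc : (2 : F) ≠ 0 ∧ Odd (Fintype.card F) ∨ (2 : F) = 0 ∧ 6 ≤ k := by
    by_cases o : Odd (Fintype.card F)
    · exact .inl ⟨Ring.two_ne_zero fun h => by have := FiniteField.even_card_of_char_two h; grind, o⟩
    · exact .inr ⟨by simpa using (ringChar.spec F 2).2 ((FiniteField.even_card_iff_char_two (F := F)).2 (by grind) ▸ dvd_rfl), hex3 o⟩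
  have t4 : k = 2 → 4 ≤ t := by
    rintro rfl
    by_contra! n
    interval_cases t <;> simp at cd
  have q5 : k = 2 → 5 ≤ Fintype.card F := fun e => by
    have : 1 < Fintype.card F := Fintype.one_lt_card
    grind
  have hl : 5 ≤ Fintype.card F → (2 : F) ≠ 0 → ∃ l : F, l ≠ 0 ∧ l * l ≠ 1 := fun h _ => by
    classical
    by_contra! n
    have := Finset.card_le_card (show Finset.univ ⊆ ({0, 1, -1} : Finset F) from fun c _ => by by_cases c0 : c = 0 <;> simp [c0, ← mul_self_eq_one_iff, n])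
    have := Finset.card_le_three (a := (0 : F)) (b := 1) (c := -1)
    simp at *; omega
  obtain ⟨J, hJ⟩ := (sf_of_symp hf₁).isUnit_gram
  have a : Al J := fun x => by rw [← hf₁.alternating x, (sf_of_symp hf₁).eq_gram, formOfGram_eq, ← hJ, st_apply, dotProduct_mulVec]; rfl
  obtain ⟨c, c0, hT⟩ := hT
  have k1 : ∀ x y, pf e P (QuadraticMap.polar Q) x y = c * (st (JW J) x ⬝ᵥ y) := fun x y =>
    (hT _ _).trans (congrArg _ ((formOfGram_eq (σ := .id F) (pt fun _ => gramMatrix f₁) x y).trans (by rw [← hJ, st_apply, dotProduct_mulVec]; rfl)))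
  obtain ⟨Q, rfl, -⟩ := exists_ofQuad hQ
  have h : QP J (c⁻¹ • Q.comp (lq e P).toLinearMap) := ⟨fun x y => by
    rw [← inv_mul_cancel_left₀ c0 (_ ⬝ᵥ _), ← k1, pf_eq]; simp [QuadraticMap.polar, mul_sub], fun z => by simp [lq_apply]; exact .inr (hp z)⟩
  have k2 : (isometryGroup F Q).map (pl e P).toMonoidHom = isometryGroup F (c⁻¹ • Q.comp (lq e P).toLinearMap :) := Subgroup.ext fun g => by
    obtain ⟨g, rfl⟩ := (pl e P).surjective g
    refine (Subgroup.mem_map_iff_mem (f := (pl e P).toMonoidHom) (pl e P).injective).trans (Iff.trans (b := Sim (fun u _ => Q u) g 1) (by simp only [Sim, one_mul]; rfl)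
      ((sim_pl e P).symm.trans ?_))
    simp [Sim, pf_eq, isometryGroup, preserving, c0]
  generalize c⁻¹ • Q.comp (lq e P).toLinearMap = R at h k2
  refine max_of (pl e P) (S' := omegaGL R) (T' := HH _ _ F) (fun g => ?_) (fun g => mem_iff) (h.prop a (by omega) (by simp; grind) (by simp; grind)) fun M h1 h3 => ?_
  · rw [om_eq' R, ← k2, ← Subgroup.map_commutator, ← om_eq']
    exact (Subgroup.mem_map_iff_mem (f := (pl e P).toMonoidHom) (pl e P).injective).symm
  have cm : ∀ g ∈ isometryGroup F R, ∀ d ∈ isometryGroup F R, g * (d * g⁻¹ * d⁻¹) ∈ omegaGL R := fun g a d b => by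
    simpa [om_eq', commutatorElement_def, mul_assoc] using Subgroup.commutator_mem_commutator a b
  have H : HB J M := ⟨a, by simpa using hc.imp_left And.left, fun g m => is_iff.2 fun x y => by
    obtain ⟨g, -, rfl⟩ := h3 m
    have k : ∀ u, R (g.1.1 *ᵥ u) = R u := fun u => g.2 u u
    simp [← h.B, QuadraticMap.polar, ← mulVec_add, k], fun i d b => h1 ⟨fun j => ⟨j, mp_piU d j⟩, (Subgroup.commutator_le.2 fun x a y b => by
      simpa [commutatorElement_def, mul_assoc] using cm _ (h.piU a i) _ (h.piU b i) : Om J ≤ (omegaGL R).comap (piU i)) (sp_om a (by simp; grind) b)⟩⟩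
  have hf : ∀ a b c d : Fin t, a ≠ b → c ≠ d → fp (Fin k) F (Equiv.swap a b * Equiv.swap c d) ∈ M := fun a b c d n n' => h1 ⟨fun j => ⟨_, fun a => ⟨a, cj_fp_pi1 _ j a⟩⟩, by
    obtain ⟨s, hs⟩ := isConj_iff.1 (Equiv.Perm.isConj_swap n n')
    let f : Equiv.Perm (Fin t) →* GL (Fin t → Fin k) F := .mk' (fp (Fin k) F) fp_mul
    have := cm _ (h.fp (Equiv.swap a b)) _ (h.fp s)
    change f _ * (f _ * (f _)⁻¹ * (f _)⁻¹) ∈ _ at this
    rwa [← map_inv, ← map_inv, ← map_mul, ← map_mul, ← map_mul, Equiv.swap_inv, hs] at this⟩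
  by_cases hp : PatS J M
  · refine .inl (h.le (by omega) fun z hz => ?_)
    by_cases k2 : k = 2
    · have o := hc.resolve_right (by omega)
      exact full2 h a (by simpa) (ae_two ⟨a, o.1, H.iso, H.h0⟩ (by simpa) hf (by simpa using hqt o.2) (by simp; grind) hp) (by simp; grind) hz
    · exact full4 h a (by simp; grind) (bs_univ H (by simp; grind) hf (by
        rcases hc with o | o
        exacts [by simpa using (hqt o.2).neg_one_pow, by rw [show (-1 : F) = 1 by linear_combination -o.1, one_pow]]) hp) hz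
  · rcases hc with o | o
    exacts [.inr (le_HHs ⟨a, o.1, H.iso, H.h0⟩ hp (by simp; grind) (by simp; grind)), .inr (le_HHt H (by simp; omega) hp)]
end H09.Wr
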